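import Mathlib
import Cfsg.Prelude.Def_GeometricClasses

set_option autoImplicit false
open scoped MatrixGroups

/-! Statements of the pieces of the team project S6000 (helper99): `PSL_4(p)`, `p ≡ 1 (mod 4)`,
and the normaliser of a group `4 ∘ 2^{1+4}`. Every `St…` below is a `Prop`; a piece is a theorem
of that type. -/

namespace Cfsg.Agent.H99.S4

universe u

/-- `4 × 4` matrices. -/
abbrev M4 (F : Type u) [Field F] := Matrix (Fin 4) (Fin 4) F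

/-- `GL_4(F)`. -/
abbrev G4 (F : Type u) [Field F] := GL (Fin 4) F

/-- The matrix structure of a group `4 ∘ 2^{1+4}` inside `GL_4(F)`; `i` is a square root of `-1`. -/
structure IsS4 {F : Type u} [Field F] (R : Subgroup (G4 F)) (i : F) : Prop where
  isq : i * i = -1
  card : Nat.card R = 64
  sq : ∀ x ∈ R, (x : M4 F) * (x : M4 F) = 1 ∨ (x : M4 F) * (x : M4 F) = -1
  comm : ∀ x ∈ R, ∀ y ∈ R, (x : M4 F) * (y : M4 F) = (y : M4 F) * (x : M4 F) ∨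
    (x : M4 F) * (y : M4 F) = -((y : M4 F) * (x : M4 F))
  cent : ∀ x ∈ R, (∀ y ∈ R, (x : M4 F) * (y : M4 F) = (y : M4 F) * (x : M4 F)) →
    ∃ k : ℕ, (x : M4 F) = i ^ k • (1 : M4 F)
  imem : ∀ x : G4 F, (x : M4 F) = i • (1 : M4 F) → x ∈ R
  commutant : ∀ M : M4 F, (∀ x ∈ R, M * (x : M4 F) = (x : M4 F) * M) →
    ∃ c : F, M = c • (1 : M4 F)

/-- A symplectic basis `a, b, c, d` of `R` modulo its centre, made of involutions. -/
structure IsBasis {F : Type u} [Field F] (R : Subgroup (G4 F)) (a b c d : G4 F) : Prop where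
  ha : a ∈ R
  hb : b ∈ R
  hc : c ∈ R
  hd : d ∈ R
  aa : (a : M4 F) * (a : M4 F) = 1
  bb : (b : M4 F) * (b : M4 F) = 1
  cc : (c : M4 F) * (c : M4 F) = 1
  dd : (d : M4 F) * (d : M4 F) = 1
  ab : (a : M4 F) * (b : M4 F) = -((b : M4 F) * (a : M4 F))
  cd : (c : M4 F) * (d : M4 F) = -((d : M4 F) * (c : M4 F))
  ac : (a : M4 F) * (c : M4 F) = (c : M4 F) * (a : M4 F)
  ad : (a : M4 F) * (d : M4 F) = (d : M4 F) * (a : M4 F)
  bc : (b : M4 F) * (c : M4 F) = (c : M4 F) * (b : M4 F)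
  bd : (b : M4 F) * (d : M4 F) = (d : M4 F) * (b : M4 F)

/-- The elements of `R` commuting with `y`. -/
def CentR {F : Type u} [Field F] (R : Subgroup (G4 F)) (y : G4 F) : Type u :=
  {h : G4 F // h ∈ R ∧ y * h = h * y}

/-- `diag(B, 1, 1)`, `B` the companion matrix of `X² + X + 1`. -/
def n3a (F : Type u) [Field F] : M4 F := !![0, -1, 0, 0; 1, -1, 0, 0; 0, 0, 1, 0; 0, 0, 0, 1]

/-- `diag(B, B)`, `B` the companion matrix of `X² + X + 1`. -/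
def n3b (F : Type u) [Field F] : M4 F := !![0, -1, 0, 0; 1, -1, 0, 0; 0, 0, 0, -1; 0, 0, 1, -1]

/-- The companion matrix of `X⁴ + X³ + X² + X + 1`. -/
def n5 (F : Type u) [Field F] : M4 F := !![0, 0, 0, -1; 1, 0, 0, -1; 0, 1, 0, -1; 0, 0, 1, -1]

/-! ## Group theory -/

/-- GRPA: the central quotient is abelian. -/
def StGrpA : Prop := ∀ (G : Type u) [Group G] [Finite G], Nat.card G = 64 →
  Nat.card (Subgroup.center G) = 4 → (∀ x : G, x ^ 4 = 1) →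
  (∀ A : Subgroup G, A.Characteristic → IsMulCommutative A → IsCyclic A) →
  ∀ x y : G, x * y * x⁻¹ * y⁻¹ ∈ Subgroup.center G

/-- GRPB: squares are central. -/
def StGrpB : Prop := ∀ (G : Type u) [Group G] [Finite G], Nat.card G = 64 →
  Nat.card (Subgroup.center G) = 4 → (∀ x : G, x ^ 4 = 1) →
  (∀ A : Subgroup G, A.Characteristic → IsMulCommutative A → IsCyclic A) →
  (∀ x y : G, x * y * x⁻¹ * y⁻¹ ∈ Subgroup.center G) →
  ∀ x : G, x * x ∈ Subgroup.center G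

/-! ## The matrix group -/

/-- MAT: the hypotheses of S6000 give the structure `IsS4`. -/
def StMat : Prop := ∀ (F : Type u) [Field F] [Fintype F] (R : Subgroup (G4 F)) (i : F),
  i * i = -1 → (2 : F) ≠ 0 → Cfsg.Geo.IsLinearSymplecticTypeData 2 R → Nat.card R = 2 ^ 6 →
  IsS4 R i

/-- TR0: non-scalar elements of `R` have trace zero. -/
def StTr0 : Prop := ∀ (F : Type u) [Field F] (R : Subgroup (G4 F)) (i : F), (2 : F) ≠ 0 →
  IsS4 R i → ∀ x ∈ R, (∀ k : ℕ, (x : M4 F) ≠ i ^ k • (1 : M4 F)) → Matrix.trace (x : M4 F) = 0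

/-- BASIS: a symplectic basis exists. -/
def StBasis : Prop := ∀ (F : Type u) [Field F] (R : Subgroup (G4 F)) (i : F), (2 : F) ≠ 0 →
  IsS4 R i → ∃ a b c d : G4 F, IsBasis R a b c d

/-- GEN: normal form of the elements of `R` in a symplectic basis. -/
def StGen : Prop := ∀ (F : Type u) [Field F] (R : Subgroup (G4 F)) (i : F), (2 : F) ≠ 0 →
  IsS4 R i → ∀ a b c d : G4 F, IsBasis R a b c d → ∀ h ∈ R, ∃ k e f g l : ℕ,
    (h : M4 F) = i ^ k • ((a : M4 F) ^ e * (b : M4 F) ^ f * (c : M4 F) ^ g * (d : M4 F) ^ l)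

/-! ## Elements of the normaliser -/

/-- NORM: normalising the basis suffices. -/
def StNorm : Prop := ∀ (F : Type u) [Field F] (R : Subgroup (G4 F)) (i : F), (2 : F) ≠ 0 →
  IsS4 R i → ∀ a b c d : G4 F, IsBasis R a b c d → ∀ w : G4 F,
    w * a * w⁻¹ ∈ R → w * b * w⁻¹ ∈ R → w * c * w⁻¹ ∈ R → w * d * w⁻¹ ∈ R →
    w ∈ Cfsg.Geo.subgroupNormalizer R

/-- ROT: `1 + e` normalises `R` for `e ∈ R` of square `-1`. -/
def StRot : Prop := ∀ (F : Type u) [Field F] (R : Subgroup (G4 F)) (i : F), (2 : F) ≠ 0 →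
  IsS4 R i → ∀ e ∈ R, (e : M4 F) * (e : M4 F) = -1 →
    ∃ g : G4 F, (g : M4 F) = 1 + (e : M4 F) ∧ g ∈ Cfsg.Geo.subgroupNormalizer R ∧
      (∀ h ∈ R, (e : M4 F) * (h : M4 F) = (h : M4 F) * (e : M4 F) → g * h * g⁻¹ = h) ∧
      (∀ h ∈ R, (e : M4 F) * (h : M4 F) = -((h : M4 F) * (e : M4 F)) → g * h * g⁻¹ = e * h)

/-- Q3: the element `(-1 + u + v + uv)/2` of order three. -/
def StQ3 : Prop := ∀ (F : Type u) [Field F] (R : Subgroup (G4 F)) (i : F), (2 : F) ≠ 0 →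
  IsS4 R i → ∀ u ∈ R, ∀ v ∈ R, (u : M4 F) * (u : M4 F) = -1 → (v : M4 F) * (v : M4 F) = -1 →
    (u : M4 F) * (v : M4 F) = -((v : M4 F) * (u : M4 F)) →
    ∃ y : G4 F, y ∈ Cfsg.Geo.subgroupNormalizer R ∧
      (y : M4 F) = (2 : F)⁻¹ • (-1 + (u : M4 F) + (v : M4 F) + (u : M4 F) * (v : M4 F)) ∧
      (y : M4 F) ^ 3 = 1

/-- ORD3A: an element of order three of trace `-2` in the normaliser. -/
def StOrd3A : Prop := ∀ (F : Type u) [Field F] (R : Subgroup (G4 F)) (i : F), (2 : F) ≠ 0 →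
  IsS4 R i → ∀ a b c d : G4 F, IsBasis R a b c d →
    ∃ y : G4 F, y ∈ Cfsg.Geo.subgroupNormalizer R ∧ (y : M4 F) ^ 3 = 1 ∧
      Matrix.trace (y : M4 F) = -2

/-- ORD3B: an element of order three of trace `1` in the normaliser. -/
def StOrd3B : Prop := ∀ (F : Type u) [Field F] (R : Subgroup (G4 F)) (i : F), (2 : F) ≠ 0 →
  IsS4 R i → ∀ a b c d : G4 F, IsBasis R a b c d →
    ∃ y : G4 F, y ∈ Cfsg.Geo.subgroupNormalizer R ∧ (y : M4 F) ^ 3 = 1 ∧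
      Matrix.trace (y : M4 F) = 1

/-- ORD5: a non-scalar element with scalar fifth power in the normaliser. -/
def StOrd5 : Prop := ∀ (F : Type u) [Field F] (R : Subgroup (G4 F)) (i : F), (2 : F) ≠ 0 →
  IsS4 R i → ∀ a b c d : G4 F, IsBasis R a b c d →
    ∃ (w : G4 F) (l : F), w ∈ Cfsg.Geo.subgroupNormalizer R ∧
      (w : M4 F) ^ 5 = l • (1 : M4 F) ∧ ∀ t : F, (w : M4 F) ≠ t • (1 : M4 F)

/-- REFL: a reflection in the normaliser. -/
def StRefl : Prop := ∀ (F : Type u) [Field F] (R : Subgroup (G4 F)) (i : F), (2 : F) ≠ 0 →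
  IsS4 R i → ∀ a b c d : G4 F, IsBasis R a b c d →
    ∃ s : G4 F, s ∈ Cfsg.Geo.subgroupNormalizer R ∧ (s : M4 F) * (s : M4 F) = 1 ∧
      Matrix.trace (s : M4 F) = 2

/-! ## Constraints on the normaliser -/

/-- TRID: the trace identity `4 tr(y) tr(y⁻¹) = |C_R(y)|`. -/
def StTrId : Prop := ∀ (F : Type u) [Field F] (R : Subgroup (G4 F)) (i : F), (2 : F) ≠ 0 →
  IsS4 R i → ∀ y ∈ Cfsg.Geo.subgroupNormalizer R, ∀ (m : ℕ) (z : F), Odd m →
    (y : M4 F) ^ m = z • (1 : M4 F) →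
    4 * (Matrix.trace (y : M4 F) * Matrix.trace ((y⁻¹ : G4 F) : M4 F)) = (Nat.card (CentR R y) : F)

/-- CENT: the possible sizes of `C_R(y)`. -/
def StCent : Prop := ∀ (F : Type u) [Field F] (R : Subgroup (G4 F)) (i : F), (2 : F) ≠ 0 →
  IsS4 R i → ∀ y : G4 F, (∃ t : F, (y : M4 F) = t • (1 : M4 F)) ∨ Nat.card (CentR R y) = 4 ∨
    Nat.card (CentR R y) = 8 ∨ Nat.card (CentR R y) = 16 ∨ Nat.card (CentR R y) = 32

/-- FIX: orbit counting. -/
def StFix : Prop := ∀ (F : Type u) [Field F] (R : Subgroup (G4 F)) (i : F), (2 : F) ≠ 0 →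
  IsS4 R i → ∀ y ∈ Cfsg.Geo.subgroupNormalizer R, ∀ (r : ℕ) (z : F), r.Prime →
    (y : M4 F) ^ r = z • (1 : M4 F) → r ∣ 64 - Nat.card (CentR R y)

/-- BIG: elements of prime order at least `7` modulo scalars in the normaliser are scalar. -/
def StBig : Prop := ∀ (F : Type u) [Field F] (R : Subgroup (G4 F)) (i : F), (2 : F) ≠ 0 →
  IsS4 R i → ∀ y ∈ Cfsg.Geo.subgroupNormalizer R, ∀ (r : ℕ) (z : F), r.Prime → 7 ≤ r →
    (y : M4 F) ^ r = z • (1 : M4 F) → ∃ t : F, (y : M4 F) = t • (1 : M4 F)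

/-- TV: no conjugate of a transvection normalises `R`. -/
def StTV : Prop := ∀ (F : Type u) [Field F] (R : Subgroup (G4 F)) (i : F), (2 : F) ≠ 0 →
  IsS4 R i → ∀ x g : G4 F, (x : M4 F) = 1 + Matrix.single (0 : Fin 4) (1 : Fin 4) (1 : F) →
    g⁻¹ * x * g ∉ Cfsg.Geo.subgroupNormalizer R

/-! ## Conjugacy of matrices -/

/-- INVT: involutions by trace and determinant. -/
def StInvT : Prop := ∀ (F : Type u) [Field F], (2 : F) ≠ 0 → ∀ y : M4 F, y * y = 1 →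
  y = 1 ∨ y = -1 ∨ (Matrix.trace y = 0 ∧ y.det = 1) ∨ (Matrix.trace y = 2 ∧ y.det = -1) ∨
    (Matrix.trace y = -2 ∧ y.det = -1)

/-- INVC: involutions of the same trace are conjugate. -/
def StInvC : Prop := ∀ (F : Type u) [Field F], (2 : F) ≠ 0 → (3 : F) ≠ 0 → ∀ y w : M4 F,
  y * y = 1 → w * w = 1 → Matrix.trace y = Matrix.trace w →
  ∃ G : M4 F, IsUnit G.det ∧ y * G = G * w

/-- SQRT: a matrix of determinant one whose square is a scalar `z` with `z² = -1`. -/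
def StSqrt : Prop := ∀ (F : Type u) [Field F] [Fintype F], (2 : F) ≠ 0 → ∀ (x : M4 F) (z : F),
  x * x = z • (1 : M4 F) → z * z = -1 → x.det = 1 → IsSquare z

/-- C3NF: normal forms of matrices of order dividing three, `q ≡ 2 (mod 3)`. -/
def StC3NF : Prop := ∀ (F : Type u) [Field F] [Fintype F], Fintype.card F % 3 = 2 →
  ∀ y : M4 F, y ^ 3 = 1 →
  ∃ G : M4 F, IsUnit G.det ∧ (y * G = G ∨ y * G = G * n3a F ∨ y * G = G * n3b F)

/-- C3: conjugacy of matrices of order three, `q ≡ 2 (mod 3)`. -/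
def StC3 : Prop := ∀ (F : Type u) [Field F] [Fintype F], Fintype.card F % 3 = 2 → (2 : F) ≠ 0 →
  ∀ y w₁ w₂ : M4 F, y ^ 3 = 1 → y ≠ 1 → w₁ ^ 3 = 1 → w₂ ^ 3 = 1 → Matrix.trace w₁ = -2 →
  Matrix.trace w₂ = 1 → ∃ G : M4 F, IsUnit G.det ∧ (y * G = G * w₁ ∨ y * G = G * w₂)

/-- C5NF: normal form of matrices of order five, `q` of order `4` modulo `5`. -/
def StC5NF : Prop := ∀ (F : Type u) [Field F] [Fintype F],
  orderOf (Fintype.card F : ZMod 5) = 4 → ∀ y : M4 F, y ^ 5 = 1 → y ≠ 1 →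
  ∃ G : M4 F, IsUnit G.det ∧ y * G = G * n5 F

/-- C5: conjugacy of matrices of order five, `q` of order `4` modulo `5`. -/
def StC5 : Prop := ∀ (F : Type u) [Field F] [Fintype F],
  orderOf (Fintype.card F : ZMod 5) = 4 → ∀ y w : M4 F, y ^ 5 = 1 → y ≠ 1 → w ^ 5 = 1 → w ≠ 1 →
  ∃ G : M4 F, IsUnit G.det ∧ y * G = G * w

/-! ## Witnesses and number theory -/

/-- W3: `diag(ω, ω, ω, 1)`. -/
def StW3 : Prop := ∀ (F : Type u) [Field F] [Fintype F], 3 ∣ Fintype.card F - 1 →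
  ∃ x : M4 F, x.det = 1 ∧ x ^ 3 = 1 ∧ (∀ t : F, x ≠ t • (1 : M4 F)) ∧
    Matrix.trace x * Matrix.trace (x * x) = 7

/-- W5: `diag(A, 1, 1)`, `A` the companion matrix of `X² - τX + 1`. -/
def StW5 : Prop := ∀ (F : Type u) [Field F] (τ : F), τ ^ 2 + τ - 1 = 0 →
  ∃ x : M4 F, x.det = 1 ∧ x ^ 5 = 1 ∧ (∀ t : F, x ≠ t • (1 : M4 F)) ∧
    Matrix.trace x = τ + 2 ∧ Matrix.trace (x ^ 4) = τ + 2

/-- ROOT5: fifth roots exist when `q` has order `4` modulo `5`. -/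
def StRoot5 : Prop := ∀ (F : Type u) [Field F] [Fintype F],
  orderOf (Fintype.card F : ZMod 5) = 4 → ∀ l : F, ∃ m : F, m ^ 5 = l

/-- NT5: a prime `p ≠ 5` not of order `4` modulo `5` is `±1` modulo `5`. -/
def StNT5 : Prop := ∀ p : ℕ, p.Prime → p ≠ 5 → orderOf (p : ZMod 5) ≠ 4 → p % 5 = 1 ∨ p % 5 = 4

/-- CAUCHY: an element of order `r ≥ 7` in `SL_4`. -/
def StCauchy : Prop := ∀ (F : Type u) [Field F] [Fintype F] (N : Subgroup (G4 F)) (r : ℕ),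
  r.Prime → 7 ≤ r → r ∣ N.relIndex (Cfsg.Geo.specialLinear (Fin 4) F) →
  ∃ x : G4 F, x ∈ Cfsg.Geo.specialLinear (Fin 4) F ∧ (x : M4 F) ^ r = 1 ∧
    ∀ t : F, (x : M4 F) ≠ t • (1 : M4 F)

/-- GLUE: from conjugacy in `GL_4` to conjugacy in `SL_4`. -/
def StGlue : Prop := ∀ (F : Type u) [Field F] (R : Subgroup (G4 F)) (x w : G4 F),
  x ∈ Cfsg.Geo.specialLinear (Fin 4) F → w ∈ Cfsg.Geo.subgroupNormalizer R →
  ∀ (t : F) (G : M4 F), t ≠ 0 → IsUnit G.det → (x : M4 F) * G = G * (t • (w : M4 F)) →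
  (∀ d : F, d ≠ 0 → ∃ h : M4 F, h.det = d ∧ h * (x : M4 F) = (x : M4 F) * h) →
  ∃ g ∈ Cfsg.Geo.specialLinear (Fin 4) F, g⁻¹ * x * g ∈ Cfsg.Geo.subgroupNormalizer R

/-- TVW: the transvection. -/
def StTVW : Prop := ∀ (F : Type u) [Field F] (p : ℕ) [Fact p.Prime] [CharP F p],
  ∃ x : G4 F, (x : M4 F) = 1 + Matrix.single (0 : Fin 4) (1 : Fin 4) (1 : F) ∧
    x ∈ Cfsg.Geo.specialLinear (Fin 4) F ∧ (x : M4 F) ^ p = 1 ∧
    ∀ t : F, (x : M4 F) ≠ t • (1 : M4 F)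

end Cfsg.Agent.H99.S4
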