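import Cfsg.Prelude.Def_GeometricClasses

set_option autoImplicit false

namespace Cfsg.Agent.H99

/-- Groups of order 1, 3 or 9 are commutative. -/
theorem comm_of_card_small {G : Type*} [Group G]
    (h : Nat.card G = 1 ∨ Nat.card G = 3 ∨ Nat.card G = 9) (x y : G) : x * y = y * x := by
  have : Fact (Nat.Prime 3) := ⟨by norm_num⟩
  rcases h with h | h | h
  · have := (Nat.card_eq_one_iff_unique.mp h).1
    rw [Subsingleton.elim x 1, Subsingleton.elim y 1]
  · have hc : IsCyclic G := isCyclic_of_prime_card (p := 3) h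
    exact ((MonoidHom.id G).isMulCommutative_of_isCyclic_of_ker_le_center
      (by rw [MonoidHom.ker_id]; exact bot_le)).is_comm.comm x y
  · exact (IsPGroup.isMulCommutative_of_card_eq_prime_sq (p := 3)
      (by rw [h]; norm_num)).is_comm.comm x y

theorem dvd_27_cases (m : ℕ) (h : m ∣ 27) : m = 1 ∨ m = 3 ∨ m = 9 ∨ m = 27 := by
  have hle : m ≤ 27 := Nat.le_of_dvd (by norm_num) h
  interval_cases m <;> simp_all

/-- In a group of order 27 every commutator is central. -/
theorem comm_central_of_card_27 {G : Type*} [Group G] (hG : Nat.card G = 27) (a b : G) :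
    a * b * a⁻¹ * b⁻¹ ∈ Subgroup.center G := by
  have : Fact (Nat.Prime 3) := ⟨by norm_num⟩
  have hfin : Finite G := Nat.finite_of_card_ne_zero (by rw [hG]; norm_num)
  have hnt : Nontrivial G := Finite.one_lt_card_iff_nontrivial.mp (by rw [hG]; norm_num)
  have hp : IsPGroup 3 G := IsPGroup.of_card (n := 3) (by rw [hG]; norm_num)
  have hcn : Nontrivial (Subgroup.center G) := hp.center_nontrivial
  have hmul := Subgroup.card_mul_index (Subgroup.center G)
  rw [hG] at hmul
  have hidx : (Subgroup.center G).index ∣ 27 := Dvd.intro_left _ hmul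
  have hq : Nat.card (G ⧸ Subgroup.center G) = (Subgroup.center G).index :=
    (Subgroup.index_eq_card _).symm
  rcases dvd_27_cases _ hidx with h | h | h | h
  · have hc := comm_of_card_small (G := G ⧸ Subgroup.center G) (Or.inl (hq.trans h))
      (QuotientGroup.mk a) (QuotientGroup.mk b)
    have h1 : ((a * b * a⁻¹ * b⁻¹ : G) : G ⧸ Subgroup.center G) = 1 := by
      rw [QuotientGroup.mk_mul, QuotientGroup.mk_mul, QuotientGroup.mk_mul, QuotientGroup.mk_inv,
        QuotientGroup.mk_inv, hc]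
      group
    exact (QuotientGroup.eq_one_iff _).mp h1
  · have hc := comm_of_card_small (G := G ⧸ Subgroup.center G) (Or.inr (Or.inl (hq.trans h)))
      (QuotientGroup.mk a) (QuotientGroup.mk b)
    have h1 : ((a * b * a⁻¹ * b⁻¹ : G) : G ⧸ Subgroup.center G) = 1 := by
      rw [QuotientGroup.mk_mul, QuotientGroup.mk_mul, QuotientGroup.mk_mul, QuotientGroup.mk_inv,
        QuotientGroup.mk_inv, hc]
      group
    exact (QuotientGroup.eq_one_iff _).mp h1
  · have hc := comm_of_card_small (G := G ⧸ Subgroup.center G) (Or.inr (Or.inr (hq.trans h)))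
      (QuotientGroup.mk a) (QuotientGroup.mk b)
    have h1 : ((a * b * a⁻¹ * b⁻¹ : G) : G ⧸ Subgroup.center G) = 1 := by
      rw [QuotientGroup.mk_mul, QuotientGroup.mk_mul, QuotientGroup.mk_mul, QuotientGroup.mk_inv,
        QuotientGroup.mk_inv, hc]
      group
    exact (QuotientGroup.eq_one_iff _).mp h1
  · exfalso
    rw [h] at hmul
    have h1 : Nat.card (Subgroup.center G) = 1 := by omega
    have := (Nat.card_eq_one_iff_unique.mp h1).1
    exact not_subsingleton _ this

/-- Two non-commuting elements of a subgroup of order 27 generate it. -/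
theorem closure_eq_of_card_27 {G : Type*} [Group G] (R : Subgroup G) (hR : Nat.card R = 27)
    (a b : G) (ha : a ∈ R) (hb : b ∈ R) (hab : a * b ≠ b * a) :
    Subgroup.closure {a, b} = R := by
  have hfin : Finite R := Nat.finite_of_card_ne_zero (by rw [hR]; norm_num)
  obtain ⟨K, hK⟩ : ∃ K : Subgroup G, K = Subgroup.closure {a, b} := ⟨_, rfl⟩
  rw [← hK]
  have haK : a ∈ K := by rw [hK]; exact Subgroup.subset_closure (by simp)
  have hbK : b ∈ K := by rw [hK]; exact Subgroup.subset_closure (by simp)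
  have hKR : K ≤ R := by
    rw [hK, Subgroup.closure_le]
    rintro g (rfl | rfl)
    · exact ha
    · exact hb
  have hdvd : Nat.card K ∣ 27 := by rw [← hR]; exact Subgroup.card_dvd_of_le hKR
  rcases dvd_27_cases _ hdvd with h | h | h | h
  · exfalso
    have := comm_of_card_small (G := K) (Or.inl h) ⟨a, haK⟩ ⟨b, hbK⟩
    exact hab (congrArg Subtype.val this)
  · exfalso
    have := comm_of_card_small (G := K) (Or.inr (Or.inl h)) ⟨a, haK⟩ ⟨b, hbK⟩
    exact hab (congrArg Subtype.val this)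
  · exfalso
    have := comm_of_card_small (G := K) (Or.inr (Or.inr h)) ⟨a, haK⟩ ⟨b, hbK⟩
    exact hab (congrArg Subtype.val this)
  · exact Subgroup.eq_of_le_of_card_ge hKR (by rw [h, hR])

/-- If conjugation by `w` maps the finite subgroup `R` into itself, `w` normalizes `R`. -/
theorem mem_normalizer_of_finite {G : Type*} [Group G] (R : Subgroup G) [Finite R] (w : G)
    (h : ∀ g ∈ R, w * g * w⁻¹ ∈ R) : w ∈ Subgroup.normalizer (R : Set G) := by
  rw [Subgroup.mem_set_normalizer_iff]
  intro n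
  constructor
  · exact h n
  · intro hn
    let f : R → R := fun g => ⟨w * g * w⁻¹, h g g.2⟩
    have hinj : Function.Injective f := by
      intro g₁ g₂ h12
      have h1 : w * (g₁ : G) * w⁻¹ = w * (g₂ : G) * w⁻¹ := congrArg Subtype.val h12
      apply Subtype.ext
      simpa using h1
    have hsurj : Function.Surjective f := Finite.injective_iff_surjective.mp hinj
    obtain ⟨g, hg⟩ := hsurj ⟨w * n * w⁻¹, hn⟩
    have h1 : w * (g : G) * w⁻¹ = w * n * w⁻¹ := congrArg Subtype.val hg
    have h2 : (g : G) = n := by simpa using h1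
    rw [← h2]
    exact g.2

/-- If conjugation by `w` maps generators into the finite subgroup they generate, `w`
normalizes it. -/
theorem mem_normalizer_of_closure_finite {G : Type*} [Group G] (s : Set G)
    [Finite (Subgroup.closure s)] (w : G)
    (h1 : ∀ g ∈ s, w * g * w⁻¹ ∈ Subgroup.closure s) :
    w ∈ Subgroup.normalizer ((Subgroup.closure s : Subgroup G) : Set G) := by
  apply mem_normalizer_of_finite
  intro n hn
  have h3 : Subgroup.closure s ≤ (Subgroup.closure s).comap (MulAut.conj w).toMonoidHom := by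
    rw [Subgroup.closure_le]
    intro g hg
    exact h1 g hg
  exact h3 hn

section
variable {F : Type*} [Field F]

theorem cube_root_facts (ν : F) (hν : ν ^ 2 + ν + 1 = 0) (h3 : (3 : F) ≠ 0) :
    ν ^ 3 = 1 ∧ ν ≠ 1 ∧ ν ^ 2 ≠ 1 ∧ ν ≠ 0 ∧ ν ^ 2 ≠ ν := by
  refine ⟨by linear_combination (ν - 1) * hν, ?_, ?_, ?_, ?_⟩
  · intro h
    apply h3
    rw [h] at hν
    linear_combination hν
  · intro h
    apply h3
    have h1 : ν = -2 := by linear_combination hν - h
    rw [h1] at hν
    linear_combination hν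
  · intro h
    rw [h] at hν
    simp at hν
  · intro h
    have h1 : ν = 1 ∨ ν = 0 := by
      have h2 : (ν - 1) * ν = 0 := by linear_combination h
      rcases mul_eq_zero.mp h2 with h4 | h4
      · left; linear_combination h4
      · right; exact h4
    rcases h1 with h1 | h1
    · apply h3
      rw [h1] at hν
      linear_combination hν
    · rw [h1] at hν
      simp at hν

theorem mu3_cases (ν : F) (hν : ν ^ 2 + ν + 1 = 0) (e : F) (he : e ^ 3 = 1) :
    e = 1 ∨ e = ν ∨ e = ν ^ 2 := by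
  have h : (e - 1) * ((e - ν) * (e - ν ^ 2)) = 0 := by
    linear_combination he + (-e ^ 2 + e * ν - (ν - 1)) * hν
  rcases mul_eq_zero.mp h with h1 | h1
  · left; linear_combination h1
  · rcases mul_eq_zero.mp h1 with h2 | h2
    · right; left; linear_combination h2
    · right; right; linear_combination h2

theorem mu3_pow (ν : F) (hν : ν ^ 2 + ν + 1 = 0) (e : F) (he : e ^ 3 = 1) :
    ∃ i : ℕ, e = ν ^ i := by
  rcases mu3_cases ν hν e he with h | h | h
  · exact ⟨0, by rw [h, pow_zero]⟩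
  · exact ⟨1, by rw [h, pow_one]⟩
  · exact ⟨2, h⟩

open Module in
/-- The standard basis for a pair of operators generating a Heisenberg group of order 27. -/
theorem heis_basis {V : Type*} [AddCommGroup V] [Module F V] (hdim : finrank F V = 3)
    (μ : F) (hμ : μ ^ 2 + μ + 1 = 0) (h3 : (3 : F) ≠ 0)
    (A B C : V →ₗ[F] V) (hA : ∀ w, A (A (A w)) = w) (hB : ∀ w, B (B (B w)) = w)
    (hC : ∀ w, C (C (C w)) = w) (hC1 : C ≠ LinearMap.id)
    (hCA : ∀ w, C (A w) = A (C w)) (hCB : ∀ w, C (B w) = B (C w))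
    (hAB : ∀ w, A (B w) = C (B (A w))) :
    ∃ (ν : F) (v : Fin 3 → V), ν ^ 2 + ν + 1 = 0 ∧ LinearIndependent F v ∧
      (∀ w, C w = ν • w) ∧ (∀ k : Fin 3, A (v k) = ν ^ (k : ℕ) • v k) ∧
      (∀ k : Fin 3, B (v k) = v (k + 1)) := by
  obtain ⟨μ3, μ1, -, μ0, -⟩ := cube_root_facts μ hμ h3
  -- an eigenvector of C with a primitive eigenvalue
  obtain ⟨ν, w, hν, hw0, hCw⟩ : ∃ (ν : F) (w : V), ν ^ 2 + ν + 1 = 0 ∧ w ≠ 0 ∧ C w = ν • w := by
    obtain ⟨u, hu⟩ : ∃ u, C u ≠ u := by
      by_contra hcon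
      push Not at hcon
      exact hC1 (LinearMap.ext hcon)
    have hw1 : C u - u ≠ 0 := sub_ne_zero.mpr hu
    by_cases hw2 : C (C u - u) - μ ^ 2 • (C u - u) = 0
    · refine ⟨μ ^ 2, C u - u, ?_, hw1, sub_eq_zero.mp hw2⟩
      linear_combination (μ ^ 2 - μ + 1) * hμ
    · refine ⟨μ, C (C u - u) - μ ^ 2 • (C u - u), hμ, hw2, ?_⟩
      have e1 : μ ^ 2 + μ = -1 := by linear_combination hμ
      simp only [map_sub, map_smul, hC u]
      have e2 : μ • (C (C u) - C u - μ ^ 2 • (C u - u)) =
          u - C (C u) + (μ ^ 3 - 1) • (u - C u) + (μ ^ 2 + μ + 1) • (C (C u) - C u) -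
            μ ^ 2 • (C (C u) - C u) := by
        module
      rw [e2, μ3, hμ]
      module
  obtain ⟨ν3, ν1, ν21, ν0, ν2ν⟩ := cube_root_facts ν hν h3
  have hshift : ∀ (α : F) (x : V), x ≠ 0 → C x = ν • x → A x = α • x →
      B x ≠ 0 ∧ C (B x) = ν • B x ∧ A (B x) = (α * ν) • B x := by
    intro α x hx0 hCx hAx
    refine ⟨?_, ?_, ?_⟩
    · intro h0
      apply hx0
      rw [← hB x, h0, map_zero, map_zero]
    · rw [hCB, hCx, map_smul]
    · rw [hAB, hAx, map_smul, map_smul, hCB, hCx, map_smul, smul_smul]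
  -- an eigenvector of A with eigenvalue 1 inside the eigenspace of C
  obtain ⟨v₀, hv0, hCv, hAv⟩ : ∃ v₀ : V, v₀ ≠ 0 ∧ C v₀ = ν • v₀ ∧ A v₀ = v₀ := by
    by_cases hu2 : w + A w + A (A w) = 0
    · by_cases hu1 : A w - ν ^ 2 • w = 0
      · have hAw : A w = ν ^ 2 • w := sub_eq_zero.mp hu1
        obtain ⟨h1, h2, h3'⟩ := hshift (ν ^ 2) w hw0 hCw hAw
        refine ⟨B w, h1, h2, ?_⟩
        rw [h3', ← pow_succ, ν3, one_smul]
      · have hAu : A (A w - ν ^ 2 • w) = ν • (A w - ν ^ 2 • w) := by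
          have e1 : A (A w) = -w - A w := by
            rw [eq_sub_iff_add_eq, eq_neg_iff_add_eq_zero]
            rw [← hu2]
            abel
          rw [map_sub, map_smul, e1]
          have e2 : ν • (A w - ν ^ 2 • w) = ν • A w - ν ^ 3 • w := by
            rw [smul_sub, smul_smul, ← pow_succ']
          rw [e2, ν3]
          have e3 : ν ^ 2 = -ν - 1 := by linear_combination hν
          rw [e3]
          module
        have hCu : C (A w - ν ^ 2 • w) = ν • (A w - ν ^ 2 • w) := by
          rw [map_sub, map_smul, hCA, hCw, map_smul, smul_sub, smul_comm ν (ν ^ 2) w]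
        obtain ⟨h1, h2, h3'⟩ := hshift ν _ hu1 hCu hAu
        obtain ⟨k1, k2, k3⟩ := hshift (ν * ν) _ h1 h2 h3'
        refine ⟨B (B (A w - ν ^ 2 • w)), k1, k2, ?_⟩
        rw [k3]
        have : ν * ν * ν = 1 := by rw [← ν3]; ring
        rw [this, one_smul]
    · refine ⟨w + A w + A (A w), hu2, ?_, ?_⟩
      · simp only [map_add, hCA, hCw, map_smul, smul_add]
      · simp only [map_add, hA w]
        abel
  obtain ⟨h1, h2, h3'⟩ := hshift 1 v₀ hv0 hCv (by rw [hAv, one_smul])
  rw [one_mul] at h3'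
  obtain ⟨k1, k2, k3⟩ := hshift ν _ h1 h2 h3'
  have hAall : ∀ k : Fin 3, A ((![v₀, B v₀, B (B v₀)] : Fin 3 → V) k) =
      ν ^ (k : ℕ) • (![v₀, B v₀, B (B v₀)] : Fin 3 → V) k := by
    intro k
    fin_cases k
    · simpa using hAv
    · simpa using h3'
    · simpa [pow_two] using k3
  have hCall : ∀ k : Fin 3, C ((![v₀, B v₀, B (B v₀)] : Fin 3 → V) k) =
      ν • (![v₀, B v₀, B (B v₀)] : Fin 3 → V) k := by
    intro k
    fin_cases k
    · exact hCv
    · exact h2
    · exact k2
  have hne : ∀ k : Fin 3, (![v₀, B v₀, B (B v₀)] : Fin 3 → V) k ≠ 0 := by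
    intro k
    fin_cases k
    · exact hv0
    · exact h1
    · exact k1
  have hinj : Function.Injective (fun k : Fin 3 => ν ^ (k : ℕ)) := by
    intro i j hij
    have hij' : ν ^ (i : ℕ) = ν ^ (j : ℕ) := hij
    fin_cases i <;> fin_cases j
    · rfl
    · exfalso
      change ν ^ 0 = ν ^ 1 at hij'
      rw [pow_zero, pow_one] at hij'
      exact ν1 hij'.symm
    · exfalso
      change ν ^ 0 = ν ^ 2 at hij'
      rw [pow_zero] at hij'
      exact ν21 hij'.symm
    · exfalso
      change ν ^ 1 = ν ^ 0 at hij'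
      rw [pow_zero, pow_one] at hij'
      exact ν1 hij'
    · rfl
    · exfalso
      change ν ^ 1 = ν ^ 2 at hij'
      rw [pow_one] at hij'
      exact ν2ν hij'.symm
    · exfalso
      change ν ^ 2 = ν ^ 0 at hij'
      rw [pow_zero] at hij'
      exact ν21 hij'
    · exfalso
      change ν ^ 2 = ν ^ 1 at hij'
      rw [pow_one] at hij'
      exact ν2ν hij'
    · rfl
  have hli : LinearIndependent F (![v₀, B v₀, B (B v₀)] : Fin 3 → V) :=
    Module.End.eigenvectors_linearIndependent' A (fun k : Fin 3 => ν ^ (k : ℕ)) hinj _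
      (fun k => ⟨Module.End.mem_eigenspace_iff.mpr (hAall k), hne k⟩)
  refine ⟨ν, ![v₀, B v₀, B (B v₀)], hν, hli, ?_, hAall, ?_⟩
  · have hfd : FiniteDimensional F V := Module.finite_of_finrank_pos (by rw [hdim]; norm_num)
    let bas := basisOfLinearIndependentOfCardEqFinrank hli (by rw [hdim]; rfl)
    have hCe : C = ν • LinearMap.id := by
      apply bas.ext
      intro k
      rw [coe_basisOfLinearIndependentOfCardEqFinrank, LinearMap.smul_apply, LinearMap.id_apply]
      exact hCall k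
    intro w
    rw [hCe, LinearMap.smul_apply, LinearMap.id_apply]
  · intro k
    fin_cases k
    · rfl
    · rfl
    · exact hB v₀

end

section
open Matrix
variable {F : Type*} [Field F]

theorem mat_ext_basis {n : ℕ} {κ : Type*} (v : Module.Basis κ F (Fin n → F))
    (A B : Matrix (Fin n) (Fin n) F) (h : ∀ k, A *ᵥ v k = B *ᵥ v k) : A = B := by
  apply Matrix.toLin'.injective
  apply v.ext
  intro k
  rw [Matrix.toLin'_apply, Matrix.toLin'_apply, h k]

/-- The structure of a non-abelian subgroup of order 27 and exponent 3 of `GL₃(F)`. -/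
theorem heis_structure (μ : F) (hμ : μ ^ 2 + μ + 1 = 0) (h3 : (3 : F) ≠ 0)
    (R : Subgroup (GL (Fin 3) F)) (hR : Nat.card R = 27) (hRe : Monoid.exponent R = 3)
    (hRna : ¬ IsMulCommutative R) :
    ∃ (a b c : GL (Fin 3) F) (ν : F) (v : Module.Basis (Fin 3) F (Fin 3 → F)),
      a ∈ R ∧ b ∈ R ∧ c ∈ R ∧ ν ^ 2 + ν + 1 = 0 ∧
      (c : Matrix (Fin 3) (Fin 3) F) = ν • (1 : Matrix (Fin 3) (Fin 3) F) ∧
      (∀ k : Fin 3, (a : Matrix (Fin 3) (Fin 3) F) *ᵥ v k = ν ^ (k : ℕ) • v k) ∧
      (∀ k : Fin 3, (b : Matrix (Fin 3) (Fin 3) F) *ᵥ v k = v (k + 1)) ∧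
      R = Subgroup.closure {a, b} := by
  obtain ⟨a', b', hab'⟩ : ∃ a' b' : R, a' * b' ≠ b' * a' := by
    by_contra hcon
    push Not at hcon
    exact hRna ⟨⟨hcon⟩⟩
  obtain ⟨c'', hc''⟩ : ∃ c'' : R, c'' = a' * b' * a'⁻¹ * b'⁻¹ := ⟨_, rfl⟩
  have hcen : c'' ∈ Subgroup.center R := by
    rw [hc'']
    exact comm_central_of_card_27 hR a' b'
  have hexp : ∀ g : R, g ^ 3 = 1 := by
    intro g
    have h1 := Monoid.pow_exponent_eq_one g
    rw [hRe] at h1
    exact h1
  obtain ⟨a, ha⟩ : ∃ a : GL (Fin 3) F, a = (a' : GL (Fin 3) F) := ⟨_, rfl⟩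
  obtain ⟨b, hb⟩ : ∃ b : GL (Fin 3) F, b = (b' : GL (Fin 3) F) := ⟨_, rfl⟩
  obtain ⟨c, hc⟩ : ∃ c : GL (Fin 3) F, c = a * b * a⁻¹ * b⁻¹ := ⟨_, rfl⟩
  have haR : a ∈ R := by rw [ha]; exact a'.2
  have hbR : b ∈ R := by rw [hb]; exact b'.2
  have hcR : c ∈ R := by
    rw [hc]
    exact R.mul_mem (R.mul_mem (R.mul_mem haR hbR) (R.inv_mem haR)) (R.inv_mem hbR)
  have hab : a * b ≠ b * a := by
    intro h
    apply hab'
    apply Subtype.ext
    rw [Subgroup.coe_mul, Subgroup.coe_mul, ← ha, ← hb]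
    exact h
  have hc' : c = (c'' : GL (Fin 3) F) := by
    rw [hc, ha, hb, hc'']
    simp
  have hca : c * a = a * c := by
    have h1 := (Subgroup.mem_center_iff.mp hcen) a'
    have h2 : (a' : GL (Fin 3) F) * (c'' : GL (Fin 3) F) = c'' * a' := congrArg (Subtype.val) h1
    rw [← hc', ← ha] at h2
    exact h2.symm
  have hcb : c * b = b * c := by
    have h1 := (Subgroup.mem_center_iff.mp hcen) b'
    have h2 : (b' : GL (Fin 3) F) * (c'' : GL (Fin 3) F) = c'' * b' := congrArg (Subtype.val) h1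
    rw [← hc', ← hb] at h2
    exact h2.symm
  have habc : a * b = c * b * a := by
    rw [hc]
    group
  have ha3 : a * a * a = 1 := by
    have h1 := congrArg (Subtype.val) (hexp a')
    rw [Subgroup.coe_pow, ← ha, Subgroup.coe_one] at h1
    rw [← h1, pow_succ, pow_two]
  have hb3 : b * b * b = 1 := by
    have h1 := congrArg (Subtype.val) (hexp b')
    rw [Subgroup.coe_pow, ← hb, Subgroup.coe_one] at h1
    rw [← h1, pow_succ, pow_two]
  have hc3 : c * c * c = 1 := by
    have h1 := congrArg (Subtype.val) (hexp ⟨c, hcR⟩)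
    rw [Subgroup.coe_pow, Subgroup.coe_one] at h1
    rw [← h1, pow_succ, pow_two]
  have hc1 : c ≠ 1 := by
    intro h
    apply hab
    rw [habc, h, one_mul]
  -- linear maps
  have key : ∀ (g h : GL (Fin 3) F) (w : Fin 3 → F),
      Matrix.toLin' ((g * h : GL (Fin 3) F) : Matrix (Fin 3) (Fin 3) F) w =
        Matrix.toLin' (g : Matrix (Fin 3) (Fin 3) F)
          (Matrix.toLin' (h : Matrix (Fin 3) (Fin 3) F) w) := by
    intro g h w
    rw [Units.val_mul, Matrix.toLin'_mul_apply]
  have key1 : ∀ w : Fin 3 → F,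
      Matrix.toLin' ((1 : GL (Fin 3) F) : Matrix (Fin 3) (Fin 3) F) w = w := by
    intro w
    rw [Units.val_one, Matrix.toLin'_one, LinearMap.id_apply]
  obtain ⟨ν, v, hν, hli, hCs, hAv, hBv⟩ := heis_basis (V := Fin 3 → F) (by simp) μ hμ h3
    (Matrix.toLin' (a : Matrix (Fin 3) (Fin 3) F)) (Matrix.toLin' (b : Matrix (Fin 3) (Fin 3) F))
    (Matrix.toLin' (c : Matrix (Fin 3) (Fin 3) F))
    (fun w => by rw [← key, ← key, ha3, key1])
    (fun w => by rw [← key, ← key, hb3, key1])
    (fun w => by rw [← key, ← key, hc3, key1])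
    (by
      intro h
      apply hc1
      apply Units.ext
      apply Matrix.toLin'.injective
      rw [h, Units.val_one, Matrix.toLin'_one])
    (fun w => by rw [← key, ← key, hca])
    (fun w => by rw [← key, ← key, hcb])
    (fun w => by rw [← key, ← key, ← key, habc])
  refine ⟨a, b, c, ν, basisOfLinearIndependentOfCardEqFinrank hli (by simp), haR, hbR, hcR, hν,
    ?_, ?_, ?_, ?_⟩
  · apply Matrix.toLin'.injective
    apply LinearMap.ext
    intro w
    rw [hCs w, Matrix.toLin'_apply, Matrix.smul_mulVec, Matrix.one_mulVec]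
  · intro k
    rw [coe_basisOfLinearIndependentOfCardEqFinrank, ← Matrix.toLin'_apply]
    exact hAv k
  · intro k
    rw [coe_basisOfLinearIndependentOfCardEqFinrank, ← Matrix.toLin'_apply]
    exact hBv k
  · exact (closure_eq_of_card_27 R hR a b haR hbR hab).symm

end

end Cfsg.Agent.H99
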