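import Mathlib
import Cfsg.Agent.H48.EpDefs
import Cfsg.Agent.H77.TmDefs
import Cfsg.Agent.H86.Ev2Defs

/-!
# S5990 team project (helper99): definitions and piece statements

`PΩ⁻_{2d}(q)` (ALL `q`), `d = k + 1`, acting on the nondegenerate `m`-spaces of MINUS type
(`m` even, `2 ≤ m ≤ 2 d - 2`) of the minus-type form `Cfsg.quadFormMinus k F a b` on `F^(MI k)`.

Reused: helper48's `QNd`, `QPlus`, `StStruct` (`H48/EpDefs`), helper77's `MI`, `Aniso`, `fixDim`,
`StSign`, `StExOdd`, `StExEven` (`H77/TqDefs`, `H77/TmDefs`), helper86's EV2 statements, helper95's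
`Plus`, `StInv`, helper42's `kk`, `cc`, `ii`, helper45's `perp`.
-/

set_option autoImplicit false
open scoped MatrixGroups
open scoped Matrix

namespace Cfsg.Agent.H99.Em

open Cfsg.Agent.H45 Cfsg.Agent.H42.Spd Cfsg.Agent.H42.Ti Cfsg.Agent.H48.Ep Cfsg.Agent.H77.Tq
  Cfsg.Agent.H77.Tm Module

universe u v

/-- The subspaces of the frozen statement S5990: nondegenerate `m`-spaces of minus type of the
standard minus space of dimension `2 k + 2`. -/
def IsEW (F : Type u) [Field F] (k : ℕ) (a b : F) (m : ℕ) (W : Submodule F (MI k → F)) : Prop :=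
  Module.finrank F ↥W = m ∧
    Cfsg.Geo.IsNondegenerateOn (QuadraticMap.polar (Cfsg.quadFormMinus k F a b)) W ∧
    ¬ Cfsg.Geo.IsPlusTypeOn (Cfsg.quadFormMinus k F a b) W

/-- `x` fixes a nondegenerate minus-type `m`-space. -/
def FixE (F : Type u) [Field F] (k : ℕ) (a b : F) (m : ℕ) (x : GL (MI k) F) : Prop :=
  ∃ W : Submodule F (MI k → F), IsEW F k a b m W ∧
    W.map (Matrix.toLin' (x : Matrix (MI k) (MI k) F)) ≤ W

/-! ## The standard minus space -/

/-- EM-BRIDGE: the standard minus space `(F^(MI k), H49.QMin k F a b)` and the translation of the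
notions of the frozen statement. -/
def StBridge : Prop :=
  ∀ (F : Type u) [Field F] [Fintype F] (k m : ℕ) (a b : F), Aniso a b →
    QNd (Cfsg.Agent.H49.QMin k F a b) ⊤ ∧ ¬ QPlus (Cfsg.Agent.H49.QMin k F a b) ⊤ ∧
    Module.finrank F (MI k → F) = 2 * k + 2 ∧
    (∀ W : Submodule F (MI k → F), IsEW F k a b m W ↔
      (Module.finrank F W = m ∧ QNd (Cfsg.Agent.H49.QMin k F a b) W ∧
        ¬ QPlus (Cfsg.Agent.H49.QMin k F a b) W)) ∧
    (∀ g : GL (MI k) F, g ∈ Cfsg.isometryGroup F (Cfsg.quadFormMinus k F a b) ↔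
      ∀ v, Cfsg.Agent.H49.QMin k F a b (Matrix.toLin' (g : Matrix (MI k) (MI k) F) v) =
        Cfsg.Agent.H49.QMin k F a b v)

/-- EM-STRUCT: helper48's EP-STRUCT on the standard minus space, in the frozen vocabulary.  An
isometry `y` with `y ^ r = 1` (`r` odd, `r ≠ p`) has `A` blocks: `fixDim + c A = 2 k + 2`; it
fixes minus-type spaces of all the dimensions `c j + e` allowed by the type rules, and every fixed
minus-type space has such a shape (`e = dim (W ∩ ker (y - 1))`). -/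
def StME : Prop :=
  ∀ (F : Type u) [Field F] [Fintype F] (p : ℕ) [Fact p.Prime] [CharP F p] (k : ℕ) (a b : F)
    (r : ℕ), Aniso a b → r.Prime → r ≠ 2 → r ≠ p →
    ∀ y : GL (MI k) F, y ∈ Cfsg.isometryGroup F (Cfsg.quadFormMinus k F a b) → y ^ r = 1 →
    ∃ A : ℕ, fixDim k y + cc F r * A = 2 * k + 2 ∧
      (fixDim k y = 0 → ¬ (Odd (ii F r) ∨ Even A)) ∧
      (∀ j e : ℕ, j ≤ A → e ≤ fixDim k y → Even e →
        (e = 0 → ¬ (Odd (ii F r) ∨ Even j)) →
        (e = fixDim k y → e ≠ 0 → (Odd (ii F r) ∨ Even (A - j))) →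
        FixE F k a b (cc F r * j + e) y) ∧
      (∀ (m : ℕ) (W : Submodule F (MI k → F)), Even m → IsEW F k a b m W →
        W.map (Matrix.toLin' (y : Matrix (MI k) (MI k) F)) ≤ W →
        ∃ j : ℕ, j ≤ A ∧
          m = cc F r * j + kk (Matrix.toLin' (y : Matrix (MI k) (MI k) F)) W ∧
          kk (Matrix.toLin' (y : Matrix (MI k) (MI k) F)) W ≤ fixDim k y ∧
          (kk (Matrix.toLin' (y : Matrix (MI k) (MI k) F)) W = 0 →
            ¬ (Odd (ii F r) ∨ Even j)) ∧
          (kk (Matrix.toLin' (y : Matrix (MI k) (MI k) F)) W = fixDim k y →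
            kk (Matrix.toLin' (y : Matrix (MI k) (MI k) F)) W ≠ 0 →
            (Odd (ii F r) ∨ Even (A - j))))

/-! ## Counting (the divisibility hypothesis) -/

/-- EM-CNTA: if the fixed space `K` of an isometry `x` with `x ^ r = 1` has dimension `< c` and
`m < dim K`, `m < c`, the number of minus-type `m`-spaces is prime to `r`. -/
def StCntA : Prop :=
  ∀ (F : Type u) [Field F] [Fintype F] (p : ℕ) [Fact p.Prime] [CharP F p] (k : ℕ) (a b : F)
    (r m : ℕ), Aniso a b → 3 ≤ k → r.Prime → r ≠ 2 → r ≠ p → Even m → 2 ≤ m → m < cc F r →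
    ∀ x : GL (MI k) F, x ∈ Cfsg.isometryGroup F (Cfsg.quadFormMinus k F a b) → x ^ r = 1 →
    m < fixDim k x → fixDim k x < cc F r →
    ¬ r ∣ Nat.card {W : Submodule F (MI k → F) // IsEW F k a b m W}

/-- EM-CNTB: if the fixed space `K` of an isometry `x` with `x ^ r = 1` and `A` blocks has
dimension `m < c` and is of minus type (`i` odd or `A` even), the number of minus-type `m`-spaces
is `≡ 1 (mod r)`. -/
def StCntB : Prop :=
  ∀ (F : Type u) [Field F] [Fintype F] (p : ℕ) [Fact p.Prime] [CharP F p] (k : ℕ) (a b : F)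
    (r m : ℕ), Aniso a b → 3 ≤ k → r.Prime → r ≠ 2 → r ≠ p → Even m → 2 ≤ m → m < cc F r →
    ∀ x : GL (MI k) F, x ∈ Cfsg.isometryGroup F (Cfsg.quadFormMinus k F a b) → x ^ r = 1 →
    ∀ A : ℕ, fixDim k x + cc F r * A = 2 * k + 2 → fixDim k x = m →
    (Odd (ii F r) ∨ Even A) →
    ¬ r ∣ Nat.card {W : Submodule F (MI k → F) // IsEW F k a b m W}

/-- EM-CNT0: if `2 d < c` (no isometry of order `r`), the number of minus-type `m`-spaces is
prime to `r`. -/
def StCnt0 : Prop :=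
  ∀ (F : Type u) [Field F] [Fintype F] (p : ℕ) [Fact p.Prime] [CharP F p] (k : ℕ) (a b : F)
    (r m : ℕ), Aniso a b → 3 ≤ k → r.Prime → r ≠ 2 → r ≠ p → Even m → 2 ≤ m → m ≤ 2 * k →
    2 * k + 2 < cc F r →
    ¬ r ∣ Nat.card {W : Submodule F (MI k → F) // IsEW F k a b m W}

/-! ## `r = 2`, odd characteristic -/

/-- EM-JND: if `-1` is not a square and `T` is an isometry with `T * T = -1`, an invariant
nondegenerate subspace is of plus type iff its dimension is divisible by `4`, and there are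
invariant nondegenerate subspaces of every even dimension. -/
def StJNd : Prop :=
  ∀ (F : Type u) [Field F] [Fintype F] (V : Type v) [AddCommGroup V] [Module F V]
    [FiniteDimensional F V] (B : V →ₗ[F] V →ₗ[F] F) (T : Module.End F V), (2 : F) ≠ 0 →
    ¬ IsSquare (-1 : F) →
    (∀ x y, B x y = B y x) → (∀ x, (∀ y, B x y = 0) → x = 0) →
    (∀ x y, B (T x) (T y) = B x y) → T * T = -1 →
    (∀ W : Submodule F V, W ∈ T.invtSubmodule → W ⊓ perp B W = ⊥ →
      (Cfsg.Agent.H95.Oh.Plus B W ↔ Module.finrank F W % 4 = 0)) ∧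
    (∀ m : ℕ, Even m → m ≤ Module.finrank F V →
      ∃ W : Submodule F V, W ∈ T.invtSubmodule ∧ W ⊓ perp B W = ⊥ ∧ Module.finrank F W = m)

/-- EM-TWOODD: the case `r = 2`, `p` odd. -/
def StTwoOdd : Prop :=
  ∀ (F : Type u) [Field F] [Fintype F] (k m : ℕ) (a b : F), (2 : F) ≠ 0 → Aniso a b → 3 ≤ k →
    Even m → 2 ≤ m → m ≤ 2 * k →
    ((∀ x : GL (MI k) F, x ∈ Cfsg.Geo.omegaGL (Cfsg.quadFormMinus k F a b) →
        (∃ z : F, ((x ^ 2 : GL (MI k) F) : Matrix (MI k) (MI k) F)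
          = z • (1 : Matrix (MI k) (MI k) F)) →
        (∀ z : F, (x : Matrix (MI k) (MI k) F) ≠ z • (1 : Matrix (MI k) (MI k) F)) →
        FixE F k a b m x) ↔
      (Even (k + 1) ∨ Fintype.card F % 8 ≠ 7 ∨ m % 4 = 2))

/-! ## `r = 2`, characteristic `2` -/

/-- I2-POS: characteristic `2`.  An isometry `T` with `T * T = 1` and `rank (T - 1)` even of a
nondegenerate quadratic space of type `plV` fixes a nondegenerate PLUS-type subspace of every
even dimension `2 ≤ m ≤ dim V - 2`, unless `m ≡ 2 (mod 4)` and `dim V ≡ 0 (mod 4)` (`V` plus)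
resp. `dim V ≡ 2 (mod 4)` (`V` minus). -/
def StI2Pos : Prop :=
  ∀ (F : Type u) [Field F] [Fintype F] (V : Type v) [AddCommGroup V] [Module F V]
    [FiniteDimensional F V] (Q : QuadraticForm F V) (T : Module.End F V) (plV : Prop) (m : ℕ),
    (2 : F) = 0 → QNd Q ⊤ → (∀ v, Q (T v) = Q v) → T * T = 1 →
    Even (Module.finrank F ↥(LinearMap.range (T - 1))) → (QPlus Q ⊤ ↔ plV) →
    Even m → 2 ≤ m → m + 2 ≤ Module.finrank F V →
    (m % 4 = 0 ∨ (plV ∧ Module.finrank F V % 4 = 2) ∨ (¬ plV ∧ Module.finrank F V % 4 = 0)) →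
    ∃ W : Submodule F V, W ∈ T.invtSubmodule ∧ QNd Q W ∧ Module.finrank F W = m ∧ QPlus Q W

/-- EM-PERP: the orthogonal complement of an invariant nondegenerate subspace of even dimension:
invariant, nondegenerate, of complementary dimension, and `V` is of plus type iff `W` and its
complement have the same type (any characteristic). -/
def StPerp : Prop :=
  ∀ (F : Type u) [Field F] [Fintype F] (V : Type v) [AddCommGroup V] [Module F V]
    [FiniteDimensional F V] (Q : QuadraticForm F V) (T : Module.End F V),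
    QNd Q ⊤ → (∀ v, Q (T v) = Q v) → Even (Module.finrank F V) →
    ∀ W : Submodule F V, W ∈ T.invtSubmodule → QNd Q W → Even (Module.finrank F W) →
    perp (QuadraticMap.polarBilin Q) W ∈ T.invtSubmodule ∧
      QNd Q (perp (QuadraticMap.polarBilin Q) W) ∧
      Module.finrank F ↥(perp (QuadraticMap.polarBilin Q) W) + Module.finrank F W =
        Module.finrank F V ∧
      (QPlus Q ⊤ ↔ (QPlus Q W ↔ QPlus Q (perp (QuadraticMap.polarBilin Q) W)))

/-- EM-RANKPAR: characteristic `2`: for `x ∈ Ω⁻` the rank of `x - 1` is even. -/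
def StRankPar : Prop :=
  ∀ (F : Type u) [Field F] [Fintype F] (k : ℕ) (a b : F), (2 : F) = 0 → Aniso a b → 3 ≤ k →
    ∀ x : GL (MI k) F, x ∈ Cfsg.Geo.omegaGL (Cfsg.quadFormMinus k F a b) →
    Even (Module.finrank F ↥(LinearMap.range
      (Matrix.toLin' (x : Matrix (MI k) (MI k) F) - 1)))

/-- EM-I2NEG: `N = T - 1` with `N * N = 0`, `Q ∘ N = 0`, `rank N` even and
`dim V = 2 rank N + 2`: every invariant nondegenerate subspace of dimension `≡ 0 (mod 4)` is of
plus type (any characteristic). -/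
def StI2Neg : Prop :=
  ∀ (F : Type u) [Field F] (V : Type v) [AddCommGroup V] [Module F V] [FiniteDimensional F V]
    (Q : QuadraticForm F V) (T : Module.End F V),
    QNd Q ⊤ → (∀ v, Q (T v) = Q v) → (T - 1) * (T - 1) = 0 → (∀ v, Q ((T - 1) v) = 0) →
    Even (Module.finrank F ↥(LinearMap.range (T - 1))) →
    Module.finrank F V = 2 * Module.finrank F ↥(LinearMap.range (T - 1)) + 2 →
    ∀ W : Submodule F V, W ∈ T.invtSubmodule → QNd Q W → Module.finrank F W % 4 = 0 →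
      QPlus Q W

/-- EM-I2NEGEX: characteristic `2`, `k` even (`d = k + 1` odd): an involution of `Ω⁻` with
`(x - 1)² = 0`, `Q ∘ (x - 1) = 0` and `rank (x - 1) = k`. -/
def StI2NegEx : Prop :=
  ∀ (F : Type u) [Field F] [Fintype F] (k : ℕ) (a b : F), (2 : F) = 0 → Aniso a b → 3 ≤ k →
    Even k →
    ∃ x : GL (MI k) F, x ∈ Cfsg.Geo.omegaGL (Cfsg.quadFormMinus k F a b) ∧ x ^ 2 = 1 ∧
      (∀ z : F, (x : Matrix (MI k) (MI k) F) ≠ z • (1 : Matrix (MI k) (MI k) F)) ∧
      (Matrix.toLin' (x : Matrix (MI k) (MI k) F) - 1) *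
        (Matrix.toLin' (x : Matrix (MI k) (MI k) F) - 1) = 0 ∧
      (∀ v, Cfsg.quadFormMinus k F a b
        ((Matrix.toLin' (x : Matrix (MI k) (MI k) F) - 1) v) = 0) ∧
      Module.finrank F ↥(LinearMap.range (Matrix.toLin' (x : Matrix (MI k) (MI k) F) - 1)) = k

/-- EM-TWOEVEN: the case `r = 2 = p`. -/
def StTwoEven : Prop :=
  ∀ (F : Type u) [Field F] [Fintype F] (k m : ℕ) (a b : F), (2 : F) = 0 → Aniso a b → 3 ≤ k →
    Even m → 2 ≤ m → m ≤ 2 * k →
    ((∀ x : GL (MI k) F, x ∈ Cfsg.Geo.omegaGL (Cfsg.quadFormMinus k F a b) →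
        (∃ z : F, ((x ^ 2 : GL (MI k) F) : Matrix (MI k) (MI k) F)
          = z • (1 : Matrix (MI k) (MI k) F)) →
        (∀ z : F, (x : Matrix (MI k) (MI k) F) ≠ z • (1 : Matrix (MI k) (MI k) F)) →
        FixE F k a b m x) ↔
      (Even (k + 1) ∨ m % 4 = 2))

/-! ## Arithmetic (pure `ℕ`; `n = 2 d`) -/

/-- The right-hand side of the frozen statement for odd `r ≠ p`. -/
def RhsOddE (d m i c : ℕ) : Prop :=
  (Odd i ∧ ((2 * d) % c = 0 ∨ (c ≤ m ∧ 0 < m % c ∧ m % c ≤ (2 * d) % c))) ∨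
  (Even i ∧
    (((2 * d) % c = 0 ∧ (Even ((2 * d) / i) ∨ (m % c = 0 ∧ Odd (m / i)))) ∨
     (0 < (2 * d) % c ∧ i ≤ m ∧ ((0 < m % c ∧ m % c < (2 * d) % c) ∨ (m % c = 0 ∧ Odd (m / i)) ∨
        (m % c = (2 * d) % c ∧ Even ((2 * d + m - 2 * ((2 * d) % c)) / i))))))

/-- EM-ARBACK: the right-hand side gives, for every admissible number `A` of blocks, a shape
`(j, e)` of a fixed minus-type space. -/
def StArBack : Prop :=
  ∀ d m i c A : ℕ, 0 < i → c = (if Even i then i else 2 * i) → Even m → 2 ≤ m →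
    m + 2 ≤ 2 * d → 4 ≤ d → RhsOddE d m i c → c * A ≤ 2 * d →
    (c * A = 2 * d → ¬ (Odd i ∨ Even A)) →
    ∃ j e : ℕ, j ≤ A ∧ e ≤ 2 * d - c * A ∧ Even e ∧ c * j + e = m ∧
      (e = 0 → ¬ (Odd i ∨ Even j)) ∧ (e = 2 * d - c * A → e ≠ 0 → (Odd i ∨ Even (A - j)))

/-- EM-ARFWD: if the right-hand side fails, either some admissible `A ≥ 1` admits no shape, or
`m < c` and (`2 d < c`, or some admissible fixed-space dimension `k₀ = 2 d - c A < c` has
`m < k₀`, or `m = k₀` with the fixed space of minus type). -/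
def StArFwd : Prop :=
  ∀ d m i c : ℕ, 0 < i → c = (if Even i then i else 2 * i) → Even m → 2 ≤ m →
    m + 2 ≤ 2 * d → 4 ≤ d → ¬ RhsOddE d m i c →
    (∃ A : ℕ, 1 ≤ A ∧ c * A ≤ 2 * d ∧ (c * A = 2 * d → ¬ (Odd i ∨ Even A)) ∧
      ∀ j e : ℕ, j ≤ A → e ≤ 2 * d - c * A → c * j + e = m → (e = 0 → ¬ (Odd i ∨ Even j)) →
        (e = 2 * d - c * A → e ≠ 0 → (Odd i ∨ Even (A - j))) → False) ∨
    (m < c ∧ (2 * d < c ∨
      ∃ A : ℕ, 1 ≤ A ∧ c * A ≤ 2 * d ∧ (c * A = 2 * d → ¬ (Odd i ∨ Even A)) ∧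
        2 * d - c * A < c ∧ (m < 2 * d - c * A ∨ (m = 2 * d - c * A ∧ (Odd i ∨ Even A)))))

end Cfsg.Agent.H99.Em
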