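import Mathlib
import Cfsg.Prelude.Def_GeometricClasses
import Cfsg.Prelude.Def_LieClassical

set_option autoImplicit false
open scoped MatrixGroups

/-! Statements of the pieces of the team project S5981 (helper99): subgroups of orthogonal type in
`SL_n(q)`, `q` odd. Every `St…` below is a `Prop`; a piece is a theorem of that type. -/

namespace Cfsg.Agent.H99.Ort

universe u

/-- The diagonal entries `(1, …, 1, δ)`. -/
def dgn {F : Type u} [Field F] (n : ℕ) (δ : F) : Fin n → F :=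
  fun i => if (i : ℕ) + 1 = n then δ else 1

theorem prod_dgn {F : Type u} [Field F] (n : ℕ) (hn : 1 ≤ n) (δ : F) : ∏ i, dgn n δ i = δ := by
  classical
  have h : ∀ i : Fin n, dgn n δ i = if i = (⟨n - 1, by omega⟩ : Fin n) then δ else 1 := by
    intro i
    unfold dgn
    have hiff : ((i : ℕ) + 1 = n) ↔ i = (⟨n - 1, by omega⟩ : Fin n) := by
      constructor
      · intro h
        apply Fin.ext
        show (i : ℕ) = n - 1
        omega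
      · intro h
        have h1 := congrArg (fun j : Fin n => (j : ℕ)) h
        simp only at h1
        omega
    by_cases hi : (i : ℕ) + 1 = n
    · rw [if_pos hi, if_pos (hiff.mp hi)]
    · rw [if_neg hi, if_neg (fun h => hi (hiff.mpr h))]
  simp_rw [h]
  rw [Finset.prod_ite_eq' Finset.univ (⟨n - 1, by omega⟩ : Fin n) (fun _ => δ)]
  simp

theorem det_diagonal_dgn {F : Type u} [Field F] (n : ℕ) (hn : 1 ≤ n) (δ : F) :
    (Matrix.diagonal (dgn n δ)).det = δ := by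
  rw [Matrix.det_diagonal, prod_dgn n hn δ]

/-- `M` is conjugate to a similarity of the bilinear form with Gram matrix `A`. -/
def Conj {F : Type u} [Field F] {n : ℕ} (M A : Matrix (Fin n) (Fin n) F) : Prop :=
  ∃ (P s : Matrix (Fin n) (Fin n) F) (c : F), IsUnit P.det ∧ c ≠ 0 ∧ M * P = P * s ∧
    s.transpose * A * s = c • A

/-- The multiplicities of the entries of `d` are symmetric under `ν ↦ c / ν` for some `c`. -/
def MultSymm {F : Type u} [Field F] {n : ℕ} (d : Fin n → F) : Prop :=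
  ∃ c : F, c ≠ 0 ∧ ∀ ν : F, ν ≠ 0 →
    Nat.card {i : Fin n // d i = ν} = Nat.card {i : Fin n // d i = c * ν⁻¹}

/-- The order of `GU_k(Q₁)`. -/
def guOrder (Q₁ k : ℕ) : ℕ :=
  Q₁ ^ (k * (k - 1) / 2) *
    ∏ i ∈ Finset.range k, (if Even i then Q₁ ^ (i + 1) + 1 else Q₁ ^ (i + 1) - 1)

/-- NF: normal form of a non-degenerate quadratic form. -/
def StNF : Prop := ∀ (F : Type u) [Field F] [Fintype F] (n : ℕ) (_hn : 1 ≤ n) (_h2 : (2 : F) ≠ 0)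
  (Q : (Fin n → F) → F) (_hQ : Cfsg.Geo.IsNondegenerateQuadraticForm Q),
  ∃ (P : Matrix (Fin n) (Fin n) F) (δ : F), IsUnit P.det ∧ δ ≠ 0 ∧
    ∀ v : Fin n → F, 2 * Q (P.mulVec v) = dotProduct v ((Matrix.diagonal (dgn n δ)).mulVec v)

/-- GLUE 1. -/
def StSimOfMem : Prop := ∀ (F : Type u) [Field F] [Fintype F] (n : ℕ) (_h2 : (2 : F) ≠ 0)
  (Q : (Fin n → F) → F) (P A : Matrix (Fin n) (Fin n) F) (_hP : IsUnit P.det)
  (_hA : A.transpose = A)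
  (_hQP : ∀ v : Fin n → F, 2 * Q (P.mulVec v) = dotProduct v (A.mulVec v))
  (x g : GL (Fin n) F) (_h : g⁻¹ * x * g ∈ Cfsg.Geo.quadSimilarityGroup Q),
  ∃ (s : Matrix (Fin n) (Fin n) F) (c : F), c ≠ 0 ∧
    (x : Matrix (Fin n) (Fin n) F) * ((g : Matrix (Fin n) (Fin n) F) * P)
      = ((g : Matrix (Fin n) (Fin n) F) * P) * s ∧
    s.transpose * A * s = c • A

/-- GLUE 2. -/
def StMemOfSim : Prop := ∀ (F : Type u) [Field F] [Fintype F] (n : ℕ) (_h2 : (2 : F) ≠ 0)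
  (Q : (Fin n → F) → F) (P A : Matrix (Fin n) (Fin n) F) (_hP : IsUnit P.det)
  (_hQP : ∀ v : Fin n → F, 2 * Q (P.mulVec v) = dotProduct v (A.mulVec v))
  (x g : GL (Fin n) F) (s : Matrix (Fin n) (Fin n) F) (c : F) (_hc : c ≠ 0)
  (_hx : (x : Matrix (Fin n) (Fin n) F) * ((g : Matrix (Fin n) (Fin n) F) * P)
      = ((g : Matrix (Fin n) (Fin n) F) * P) * s)
  (_hs : s.transpose * A * s = c • A),
  g⁻¹ * x * g ∈ Cfsg.Geo.quadSimilarityGroup Q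

/-- WP: a transvection is not conjugate to a similarity. -/
def StWP : Prop := ∀ (F : Type u) [Field F] [Fintype F] (p : ℕ) [Fact p.Prime] [CharP F p] (n : ℕ)
  (_hn : 2 ≤ n) (_h2 : (2 : F) ≠ 0) (A : Matrix (Fin n) (Fin n) F) (_hA : IsUnit A.det)
  (_hAs : A.transpose = A),
  ∃ M : Matrix (Fin n) (Fin n) F, M.det = 1 ∧ M ^ p = 1 ∧
    (∀ z : F, M ≠ z • (1 : Matrix (Fin n) (Fin n) F)) ∧ ¬ Conj M A

/-- DIAGW: a diagonal matrix with asymmetric multiplicities is a witness. -/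
def StDiagW : Prop := ∀ (F : Type u) [Field F] [Fintype F] (n r : ℕ) (d : Fin n → F) (z : F)
  (_hprod : ∏ i, d i = 1) (_hd : ∀ i, d i ^ r = z) (_hnc : ∃ i j, d i ≠ d j)
  (_hasym : ¬ MultSymm d) (A : Matrix (Fin n) (Fin n) F) (_hA : IsUnit A.det),
  ∃ M : Matrix (Fin n) (Fin n) F, M.det = 1 ∧ M ^ r = z • (1 : Matrix (Fin n) (Fin n) F) ∧
    (∀ w : F, M ≠ w • (1 : Matrix (Fin n) (Fin n) F)) ∧ ¬ Conj M A

/-- WD1: `(ζ, ζ, ζ⁻², 1, …, 1)`. -/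
def StWD1 : Prop := ∀ (F : Type u) [Field F] (n r : ℕ) (_hn : 3 ≤ n) (_hr : r.Prime) (_hr5 : 5 ≤ r)
  (_h55 : ¬ (n = 5 ∧ r = 5)) (ζ : F) (_hζ : ζ ^ r = 1) (_hζ1 : ζ ≠ 1),
  ∃ d : Fin n → F, ∏ i, d i = 1 ∧ (∀ i, d i ^ r = 1) ∧ (∃ i j, d i ≠ d j) ∧ ¬ MultSymm d

/-- WD3: `(ω, ω, ω, 1, …, 1)`. -/
def StWD3 : Prop := ∀ (F : Type u) [Field F] (n : ℕ) (_hn : 4 ≤ n) (_hn6 : n ≠ 6)
  (ω : F) (_hω : ω ^ 3 = 1) (_hω1 : ω ≠ 1),
  ∃ d : Fin n → F, ∏ i, d i = 1 ∧ (∀ i, d i ^ 3 = 1) ∧ (∃ i j, d i ≠ d j) ∧ ¬ MultSymm d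

/-- WDETA: `η⁻¹ (η^r, 1, …, 1)` in dimension `r`. -/
def StWDeta : Prop := ∀ (F : Type u) [Field F] (r : ℕ) (_hr : r.Prime) (_hr2 : r ≠ 2)
  (η : F) (_hη : η ^ (r ^ 2) = 1) (_hη1 : η ^ r ≠ 1),
  ∃ (d : Fin r → F) (z : F), ∏ i, d i = 1 ∧ (∀ i, d i ^ r = z) ∧ (∃ i j, d i ≠ d j) ∧
    ¬ MultSymm d

/-- ODDC: odd order of `q` modulo `r` forces rank at least `2c`. -/
def StOddC : Prop := ∀ (F : Type u) [Field F] [Fintype F] (n r : ℕ) (_hr : r.Prime) (_hr2 : r ≠ 2)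
  (_hrF : (r : F) ≠ 0) (_hc : 2 ≤ orderOf (Fintype.card F : ZMod r))
  (_hodd : Odd (orderOf (Fintype.card F : ZMod r)))
  (x A : Matrix (Fin n) (Fin n) F) (_hA : IsUnit A.det) (_hxr : x ^ r = 1) (_hx1 : x ≠ 1)
  (_h : Conj x A),
  2 * orderOf (Fintype.card F : ZMod r) ≤ (x - 1).rank

/-- RSA: the extension field of degree `c` and its trace form. -/
def StRSA : Prop := ∀ (F : Type u) [Field F] [Fintype F] (q c : ℕ) (_hq : Fintype.card F = q)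
  (_hce : Even c) (_hc2 : 2 ≤ c),
  ∃ (K : Type) (_ : Field K) (_ : Fintype K) (_ : Algebra F K) (b : Module.Basis (Fin c) F K)
    (A₁ : Matrix (Fin c) (Fin c) F), Fintype.card K = (q ^ (c / 2)) ^ 2 ∧ A₁.transpose = A₁ ∧
    IsUnit A₁.det ∧ ∀ u v : K, ∑ α, ∑ β, b.repr u α * A₁ α β * b.repr v β
      = Algebra.trace F K (u * v ^ (q ^ (c / 2)))

/-- RSB: restriction of scalars of the unitary group. -/
def StRSB : Prop := ∀ (F : Type u) [Field F] [Fintype F] (K : Type) [Field K] [Fintype K]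
  [Algebra F K] (c Q₁ : ℕ) (_hK : Fintype.card K = Q₁ ^ 2) (b : Module.Basis (Fin c) F K)
  (A₁ : Matrix (Fin c) (Fin c) F)
  (_hA₁ : ∀ u v : K, ∑ α, ∑ β, b.repr u α * A₁ α β * b.repr v β
      = Algebra.trace F K (u * v ^ Q₁))
  (r : ℕ) (_hr : r.Prime) (_hr2 : r ≠ 2) (_hrQ : r ∣ Q₁ + 1) (k : ℕ) (_hk : 1 ≤ k),
  ∃ (K₂ : Subgroup (GL (Fin k × Fin c) F)) (x₁ : Matrix (Fin k × Fin c) (Fin k × Fin c) F),
    (∀ g ∈ K₂, (g : Matrix (Fin k × Fin c) (Fin k × Fin c) F).transpose *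
        Matrix.kroneckerMap (· * ·) (1 : Matrix (Fin k) (Fin k) F) A₁ *
        (g : Matrix (Fin k × Fin c) (Fin k × Fin c) F)
      = Matrix.kroneckerMap (· * ·) (1 : Matrix (Fin k) (Fin k) F) A₁) ∧
    Nat.card K₂ = Nat.card (Cfsg.GU k K Q₁) ∧
    x₁.transpose * Matrix.kroneckerMap (· * ·) (1 : Matrix (Fin k) (Fin k) F) A₁ * x₁
      = Matrix.kroneckerMap (· * ·) (1 : Matrix (Fin k) (Fin k) F) A₁ ∧
    x₁ ^ r = 1 ∧ IsUnit (x₁ - 1).det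

/-- PAD: padding, reindexing to `Fin n`, intersecting with `SL`. -/
def StPad : Prop := ∀ (F : Type u) [Field F] [Fintype F] (q k c m n r : ℕ)
  (_hq : Fintype.card F = q) (_hn : n = k * c + m) (_hk : 1 ≤ k) (_hc : 2 ≤ c)
  (A₁ : Matrix (Fin c) (Fin c) F) (_hA₁ : A₁.transpose = A₁)
  (K₂ : Subgroup (GL (Fin k × Fin c) F)) (x₁ : Matrix (Fin k × Fin c) (Fin k × Fin c) F)
  (_hK₂ : ∀ g ∈ K₂, (g : Matrix (Fin k × Fin c) (Fin k × Fin c) F).transpose *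
        Matrix.kroneckerMap (· * ·) (1 : Matrix (Fin k) (Fin k) F) A₁ *
        (g : Matrix (Fin k × Fin c) (Fin k × Fin c) F)
      = Matrix.kroneckerMap (· * ·) (1 : Matrix (Fin k) (Fin k) F) A₁)
  (_hx₁ : x₁.transpose * Matrix.kroneckerMap (· * ·) (1 : Matrix (Fin k) (Fin k) F) A₁ * x₁
      = Matrix.kroneckerMap (· * ·) (1 : Matrix (Fin k) (Fin k) F) A₁)
  (_hx₁r : x₁ ^ r = 1) (_hx₁1 : IsUnit (x₁ - 1).det) (a' : Fin m → F),
  ∃ (A₀ : Matrix (Fin n) (Fin n) F) (K : Subgroup (GL (Fin n) F))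
    (x₀ : Matrix (Fin n) (Fin n) F),
    A₀.transpose = A₀ ∧ A₀.det = A₁.det ^ k * ∏ i, a' i ∧
    (∀ g ∈ K, (g : Matrix (Fin n) (Fin n) F).transpose * A₀ * (g : Matrix (Fin n) (Fin n) F) = A₀
      ∧ (g : Matrix (Fin n) (Fin n) F).det = 1) ∧
    Nat.card K₂ ∣ Nat.card K * (q - 1) ∧
    x₀.transpose * A₀ * x₀ = A₀ ∧ x₀ ^ r = 1 ∧ x₀ ≠ 1 ∧ (m = 0 → IsUnit (x₀ - 1).det)

/-- CONG: symmetric matrices with the same discriminant class are congruent. -/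
def StCong : Prop := ∀ (F : Type u) [Field F] [Fintype F] (n : ℕ) (_h2 : (2 : F) ≠ 0)
  (A A' : Matrix (Fin n) (Fin n) F) (_hA : A.transpose = A) (_hA' : A'.transpose = A')
  (_hAu : IsUnit A.det) (_hA'u : IsUnit A'.det) (_hsq : IsSquare (A.det * A'.det)),
  ∃ T : Matrix (Fin n) (Fin n) F, IsUnit T.det ∧ T.transpose * A * T = A'

/-- SKEW: the determinant of a skew-symmetric matrix is a square. -/
def StSkew : Prop := ∀ (F : Type u) [Field F] (n : ℕ) (_h2 : (2 : F) ≠ 0)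
  (M : Matrix (Fin n) (Fin n) F) (_hM : M.transpose = -M), IsSquare M.det

/-- CAYLEY: the discriminant class is determined by a fixed-point-free isometry. -/
def StCayley : Prop := ∀ (F : Type u) [Field F] [Fintype F] (n r : ℕ) (_h2 : (2 : F) ≠ 0)
  (_hr : Odd r) (_hroot : ∀ u : F, u ^ r = 1 → u = 1)
  (_hskew : ∀ M : Matrix (Fin n) (Fin n) F, M.transpose = -M → IsSquare M.det)
  (x₀ A₀ A : Matrix (Fin n) (Fin n) F) (_hA₀ : A₀.transpose = A₀) (_hA₀u : IsUnit A₀.det)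
  (_hA : A.transpose = A) (_hAu : IsUnit A.det)
  (_hx₀ : x₀.transpose * A₀ * x₀ = A₀) (_hx₀r : x₀ ^ r = 1) (_hx₀1 : IsUnit (x₀ - 1).det)
  (_hns : ¬ IsSquare (A.det * A₀.det)),
  ¬ Conj x₀ A

/-- ARITH: the order of `GU_k(q^(c/2))` times `r` does not divide the order of `GL_n(q)`. -/
def StArith : Prop := ∀ (q r c k m n : ℕ) (_hq : 2 ≤ q) (_hr : r.Prime) (_hr2 : r ≠ 2)
  (_hrq : ¬ r ∣ q) (_hc : c = orderOf (q : ZMod r)) (_hce : Even c) (_hc2 : 2 ≤ c) (_hk : 1 ≤ k)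
  (_hm : m < c) (_hn : n = k * c + m),
  ¬ (r * guOrder (q ^ (c / 2)) k ∣ ∏ i : Fin n, (q ^ n - q ^ (i : ℕ)))

/-- DVDHALF: `r` divides `q^(c/2) + 1` when the order `c` of `q` modulo `r` is even. -/
def StDvdHalf : Prop := ∀ (q r c : ℕ) (_hr : r.Prime) (_hr2 : r ≠ 2) (_hrq : ¬ r ∣ q)
  (_hc : c = orderOf (q : ZMod r)) (_hce : Even c) (_hc2 : 2 ≤ c), r ∣ q ^ (c / 2) + 1

/-- IDXO: a subgroup of isometries of determinant 1 bounds the index. -/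
def StIdxO : Prop := ∀ (F : Type u) [Field F] [Fintype F] (n : ℕ) (_hn : 1 ≤ n)
  (_h2 : (2 : F) ≠ 0) (Q : (Fin n → F) → F)
  (P A A₀ T : Matrix (Fin n) (Fin n) F) (_hP : IsUnit P.det) (_hT : IsUnit T.det)
  (_hQP : ∀ v : Fin n → F, 2 * Q (P.mulVec v) = dotProduct v (A.mulVec v))
  (_hTA : T.transpose * A * T = A₀) (K : Subgroup (GL (Fin n) F))
  (_hK : ∀ g ∈ K, (g : Matrix (Fin n) (Fin n) F).transpose * A₀ * (g : Matrix (Fin n) (Fin n) F)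
      = A₀ ∧ (g : Matrix (Fin n) (Fin n) F).det = 1),
  (Cfsg.Geo.quadSimilarityGroup Q).relIndex (Cfsg.Geo.specialLinear (Fin n) F) * Nat.card K
    * (Fintype.card F - 1) ∣ Nat.card (GL (Fin n) F)

/-- INVDIAG: an involution is diagonalisable, with prescribed determinant of the base change. -/
def StInvDiag : Prop := ∀ (F : Type u) [Field F] (n : ℕ) (_hn : 1 ≤ n) (_h2 : (2 : F) ≠ 0)
  (y : Matrix (Fin n) (Fin n) F) (_hy : y ^ 2 = 1) (d₀ : F) (_hd₀ : d₀ ≠ 0),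
  ∃ (g' : Matrix (Fin n) (Fin n) F) (ε : Fin n → F), g'.det = d₀ ∧
    (∀ i, ε i = 1 ∨ ε i = -1) ∧ y * g' = g' * Matrix.diagonal ε

/-- SIMSQ: a similarity of `diag(1, …, 1, δ)` with square `z`. -/
def StSimSq : Prop := ∀ (F : Type u) [Field F] [Fintype F] (n : ℕ) (_he : Even n)
  (_h2 : (2 : F) ≠ 0) (δ z : F) (_hδ : δ ≠ 0) (_hz : z ≠ 0),
  ∃ s : Matrix (Fin n) (Fin n) F, s * s = z • (1 : Matrix (Fin n) (Fin n) F) ∧
    s.transpose * Matrix.diagonal (dgn n δ) * s = z • Matrix.diagonal (dgn n δ)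

/-- NSQ: matrices with the same non-square scalar square are conjugate. -/
def StNsq : Prop := ∀ (F : Type u) [Field F] [Fintype F] (n : ℕ) (_hn : 1 ≤ n) (_h2 : (2 : F) ≠ 0)
  (z : F) (_hz : ¬ IsSquare z) (x s : Matrix (Fin n) (Fin n) F)
  (_hx : x * x = z • (1 : Matrix (Fin n) (Fin n) F))
  (_hs : s * s = z • (1 : Matrix (Fin n) (Fin n) F)) (d₀ : F) (_hd₀ : d₀ ≠ 0),
  ∃ g' : Matrix (Fin n) (Fin n) F, g'.det = d₀ ∧ x * g' = g' * s

/-- NSQEVEN: a matrix with non-square scalar square lives in even dimension. -/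
def StNsqEven : Prop := ∀ (F : Type u) [Field F] (n : ℕ) (z : F) (_hz : ¬ IsSquare z)
  (x : Matrix (Fin n) (Fin n) F) (_hx : x * x = z • (1 : Matrix (Fin n) (Fin n) F)), Even n

/-- COMB35: tuples of `r`-th roots of unity with product 1, `r ∈ {3, 5}`. -/
def StComb35 : Prop := ∀ (F : Type u) [Field F] (r : ℕ) (_h35 : r = 3 ∨ r = 5) (d : Fin r → F)
  (_hd : ∀ i, d i ^ r = 1) (_hprod : ∏ i, d i = 1),
  ∃ (π : Equiv.Perm (Fin r)) (c : F), c ≠ 0 ∧ (∀ i, π (π i) = i) ∧ ∀ i, d i * d (π i) = c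

/-- E35: the exceptional cases `n = r ∈ {3, 5}`, `(q - 1)_r = r`. -/
def StE35 : Prop := ∀ (F : Type u) [Field F] [Fintype F] (q r : ℕ) (_hq : Fintype.card F = q)
  (_hr : r.Prime) (_h35 : r = 3 ∨ r = 5) (_hv : padicValNat r (q - 1) = 1) (_h2 : (2 : F) ≠ 0)
  (x : Matrix (Fin r) (Fin r) F) (_hdet : x.det = 1) (z : F)
  (_hx : x ^ r = z • (1 : Matrix (Fin r) (Fin r) F)) (δ d₀ : F) (_hδ : δ ≠ 0) (_hd₀ : d₀ ≠ 0)
  (_hcomb : ∀ d : Fin r → F, (∀ i, d i ^ r = 1) → ∏ i, d i = 1 →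
    ∃ (π : Equiv.Perm (Fin r)) (c : F), c ≠ 0 ∧ (∀ i, π (π i) = i) ∧ ∀ i, d i * d (π i) = c)
  (_hcong : ∀ A A' : Matrix (Fin r) (Fin r) F, A.transpose = A → A'.transpose = A' →
    IsUnit A.det → IsUnit A'.det → IsSquare (A.det * A'.det) →
    ∃ T : Matrix (Fin r) (Fin r) F, IsUnit T.det ∧ T.transpose * A * T = A'),
  ∃ (g' s : Matrix (Fin r) (Fin r) F) (c : F), g'.det = d₀ ∧ c ≠ 0 ∧ x * g' = g' * s ∧
    s.transpose * Matrix.diagonal (dgn r δ) * s = c • Matrix.diagonal (dgn r δ)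

end Cfsg.Agent.H99.Ort
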