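import Mathlib

/-!
# Kummer-type endomorphisms: `T ^ r = c` with `c` not an `r`-th power  (helper99, for helper42 / S5949)

`V` becomes a vector space over the field `K = F[X]/(X^r - c)`; `T`-invariant subspaces are
`K`-subspaces, `dim_F = r * dim_K`, and `det T = N_{K/F}(root) ^ dim_K V`.
-/

set_option autoImplicit false
set_option linter.style.haveILetI false

namespace Cfsg.Agent.H99.Kum

open Polynomial

section Abstract

variable {F K V : Type*} [Field F] [Field K] [Algebra F K] [AddCommGroup V] [Module F V]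
  [Module K V] [IsScalarTower F K V]

/-- An `F`-subspace stable under a generator of `K` is stable under `K`. -/
theorem smul_mem_of_gen (α : K) (hgen : Algebra.adjoin F {α} = ⊤) (W : Submodule F V)
    (hW : ∀ v ∈ W, α • v ∈ W) (k : K) : ∀ v ∈ W, k • v ∈ W := by
  have hk : k ∈ Algebra.adjoin F {α} := by rw [hgen]; exact Algebra.mem_top
  induction hk using Algebra.adjoin_induction with
  | mem x hx =>
    rw [Set.mem_singleton_iff] at hx
    subst hx
    exact hW
  | algebraMap a =>
    intro v hv
    rw [algebraMap_smul]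
    exact W.smul_mem a hv
  | add x y _ _ hx hy =>
    intro v hv
    rw [add_smul]
    exact W.add_mem (hx v hv) (hy v hv)
  | mul x y _ _ hx hy =>
    intro v hv
    rw [mul_smul]
    exact hx _ (hy v hv)

/-- A `K`-stable `F`-subspace as a `K`-subspace. -/
def toK (W : Submodule F V) (hW : ∀ k : K, ∀ v ∈ W, k • v ∈ W) : Submodule K V where
  carrier := W
  add_mem' := W.add_mem
  zero_mem' := W.zero_mem
  smul_mem' := fun k v hv => hW k v hv

theorem finrank_restrict (W' : Submodule K V) :
    Module.finrank F ↥(W'.restrictScalars F) = Module.finrank F K * Module.finrank K W' := by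
  rw [Module.finrank_mul_finrank F K W']
  rfl

theorem finrank_of_stable (W : Submodule F V) (hW : ∀ k : K, ∀ v ∈ W, k • v ∈ W) :
    Module.finrank F W = Module.finrank F K * Module.finrank K (toK W hW) := by
  rw [← finrank_restrict (F := F) (toK W hW)]
  rfl

theorem exists_chain_abstract [FiniteDimensional F V] :
    ∃ B : ℕ → Submodule F V,
      (∀ s s', s ≤ s' → s' ≤ Module.finrank K V → B s ≤ B s') ∧
      ∀ s, s ≤ Module.finrank K V →
        (∀ k : K, ∀ v ∈ B s, k • v ∈ B s) ∧ Module.finrank F (B s) = Module.finrank F K * s := by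
  classical
  have : Module.Finite K V := Module.Finite.of_restrictScalars_finite F K V
  obtain ⟨d, hd⟩ : ∃ d, d = Module.finrank K V := ⟨_, rfl⟩
  have b : Module.Basis (Fin d) K V := hd ▸ Module.finBasis K V
  obtain ⟨BK, hBK⟩ : ∃ BK : ℕ → Submodule K V, BK = fun s =>
      if h : s ≤ d then Submodule.span K (Set.range (b ∘ Fin.castLE h)) else ⊤ := ⟨_, rfl⟩
  refine ⟨fun s => (BK s).restrictScalars F, ?_, ?_⟩
  · intro s s' hss' hs'
    rw [← hd] at hs'
    have hle : BK s ≤ BK s' := by
      rw [hBK]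
      simp only
      rw [dif_pos (hss'.trans hs'), dif_pos hs']
      apply Submodule.span_mono
      rintro _ ⟨i, rfl⟩
      refine ⟨Fin.castLE hss' i, ?_⟩
      simp only [Function.comp_apply]
      congr 1
    intro v hv
    exact hle hv
  · intro s hs
    rw [← hd] at hs
    refine ⟨fun k v hv => (BK s).smul_mem k hv, ?_⟩
    simp only
    rw [finrank_restrict (F := F) (BK s)]
    congr 1
    have hBKs : BK s = Submodule.span K (Set.range (b ∘ Fin.castLE hs)) := by
      rw [hBK]
      exact dif_pos hs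
    rw [hBKs, finrank_span_eq_card (b.linearIndependent.comp _ (Fin.castLE_injective hs)),
      Fintype.card_fin]

theorem det_of_smul [FiniteDimensional F K] [FiniteDimensional F V] (α : K) (T : Module.End F V)
    (hT : ∀ v, T v = α • v) :
    LinearMap.det T = (Algebra.norm F α) ^ Module.finrank K V := by
  have h1 : T = (α • (LinearMap.id : V →ₗ[K] V)).restrictScalars F := by
    ext v
    rw [hT]
    rfl
  rw [h1, LinearMap.det_restrictScalars, LinearMap.det_smul, LinearMap.det_id, mul_one, map_pow]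

end Abstract

section Main

variable {F : Type*} [Field F] {V : Type*} [AddCommGroup V] [Module F V]

/-- The ring homomorphism `F[X]/(f) → End V`, `X ↦ T`, when `f(T) = 0`. -/
noncomputable def rho (T : Module.End F V) (f : F[X]) (hf : aeval T f = 0) :
    AdjoinRoot f →+* Module.End F V :=
  Ideal.Quotient.lift (Ideal.span {f}) ((aeval T : F[X] →ₐ[F] Module.End F V) : F[X] →+* Module.End F V) (by
    intro g hg
    obtain ⟨q, rfl⟩ := Ideal.mem_span_singleton.mp hg
    show aeval T (f * q) = 0
    rw [map_mul, hf, zero_mul])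

theorem rho_mk (T : Module.End F V) (f : F[X]) (hf : aeval T f = 0) (g : F[X]) :
    rho T f hf (AdjoinRoot.mk f g) = aeval T g := rfl

theorem rho_root (T : Module.End F V) (f : F[X]) (hf : aeval T f = 0) :
    rho T f hf (AdjoinRoot.root f) = T := by
  show rho T f hf (AdjoinRoot.mk f X) = T
  rw [rho_mk, aeval_X]

theorem rho_of (T : Module.End F V) (f : F[X]) (hf : aeval T f = 0) (a : F) :
    rho T f hf (AdjoinRoot.of f a) = algebraMap F (Module.End F V) a := by
  show rho T f hf (AdjoinRoot.mk f (C a)) = _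
  rw [rho_mk, aeval_C]

/-- The combined statement. -/
theorem kummer_core [FiniteDimensional F V] (T : Module.End F V) (r : ℕ) (hr : r.Prime) (c : F)
    (hc : ∀ b : F, b ^ r ≠ c) (hT : T ^ r = c • 1) :
    (∀ W : Submodule F V, (∀ v ∈ W, T v ∈ W) → r ∣ Module.finrank F W) ∧
    (∃ B : ℕ → Submodule F V,
      (∀ s s', s ≤ s' → r * s' ≤ Module.finrank F V → B s ≤ B s') ∧
      ∀ s, r * s ≤ Module.finrank F V →
        (∀ v ∈ B s, T v ∈ B s) ∧ Module.finrank F (B s) = r * s) ∧
    LinearMap.det T = ((-1) ^ (r + 1) * c) ^ (Module.finrank F V / r) := by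
  classical
  obtain ⟨f, hf⟩ : ∃ f : F[X], f = X ^ r - C c := ⟨_, rfl⟩
  have hirr : Irreducible f := hf ▸ X_pow_sub_C_irreducible_of_prime hr hc
  haveI : Fact (Irreducible f) := ⟨hirr⟩
  have hf0 : f ≠ 0 := hirr.ne_zero
  have hmonic : f.Monic := hf ▸ monic_X_pow_sub_C c hr.ne_zero
  have hdeg : f.natDegree = r := by rw [hf]; exact natDegree_X_pow_sub_C
  have hfT : aeval T f = 0 := by
    rw [hf, map_sub, map_pow, aeval_X, aeval_C, hT, Algebra.algebraMap_eq_smul_one, sub_self]
  letI : Module (AdjoinRoot f) V := Module.compHom V (rho T f hfT)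
  have hsmul : ∀ (k : AdjoinRoot f) (v : V), k • v = rho T f hfT k v := fun _ _ => rfl
  haveI : IsScalarTower F (AdjoinRoot f) V := ⟨fun a k v => by
    rw [hsmul, hsmul, Algebra.smul_def, map_mul, AdjoinRoot.algebraMap_eq, rho_of]
    rw [Module.End.mul_apply, Module.algebraMap_end_apply]⟩
  have hTα : ∀ v, T v = AdjoinRoot.root f • v := fun v => by
    rw [hsmul, rho_root]
  have hgen : Algebra.adjoin F {AdjoinRoot.root f} = ⊤ := AdjoinRoot.adjoinRoot_eq_top
  haveI hfin : FiniteDimensional F (AdjoinRoot f) := (AdjoinRoot.powerBasis hf0).finite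
  have hrank : Module.finrank F (AdjoinRoot f) = r := by
    rw [(AdjoinRoot.powerBasis hf0).finrank, AdjoinRoot.powerBasis_dim, hdeg]
  have hnorm : Algebra.norm F (AdjoinRoot.root f) = (-1) ^ (r + 1) * c := by
    have h1 := Algebra.PowerBasis.norm_gen_eq_coeff_zero_minpoly (AdjoinRoot.powerBasis hf0)
    rw [AdjoinRoot.minpoly_powerBasis_gen_of_monic hmonic hf0, AdjoinRoot.powerBasis_gen,
      AdjoinRoot.powerBasis_dim, hdeg] at h1
    rw [h1, hf, coeff_sub, coeff_X_pow, coeff_C_zero, if_neg hr.ne_zero.symm]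
    ring
  have hrpos : 0 < r := hr.pos
  have hn : Module.finrank F V = r * Module.finrank (AdjoinRoot f) V := by
    rw [← hrank]
    exact (Module.finrank_mul_finrank F (AdjoinRoot f) V).symm
  refine ⟨?_, ?_, ?_⟩
  · intro W hW
    have hW' : ∀ k : AdjoinRoot f, ∀ v ∈ W, k • v ∈ W :=
      smul_mem_of_gen (AdjoinRoot.root f) hgen W (fun v hv => by rw [← hTα]; exact hW v hv)
    rw [finrank_of_stable W hW', hrank]
    exact dvd_mul_right _ _
  · obtain ⟨B, hB1, hB2⟩ := exists_chain_abstract (F := F) (K := AdjoinRoot f) (V := V)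
    refine ⟨B, ?_, ?_⟩
    · intro s s' hss' hs'
      rw [hn] at hs'
      exact hB1 s s' hss' (Nat.le_of_mul_le_mul_left hs' hrpos)
    · intro s hs
      rw [hn] at hs
      obtain ⟨h1, h2⟩ := hB2 s (Nat.le_of_mul_le_mul_left hs hrpos)
      refine ⟨fun v hv => ?_, ?_⟩
      · rw [hTα]
        exact h1 _ v hv
      · rw [h2, hrank]
  · rw [det_of_smul (AdjoinRoot.root f) T hTα, hnorm, hn, Nat.mul_div_cancel_left _ hrpos]

end Main

section Statements

theorem kummer_dvd_finrank {F : Type*} [Field F] {V : Type*} [AddCommGroup V] [Module F V]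
    [FiniteDimensional F V] (T : Module.End F V) (r : ℕ) (hr : r.Prime) (c : F)
    (hc : ∀ b : F, b ^ r ≠ c) (hT : T ^ r = c • 1) (W : Submodule F V)
    (hW : ∀ v ∈ W, T v ∈ W) : r ∣ Module.finrank F W :=
  (kummer_core T r hr c hc hT).1 W hW

theorem kummer_exists_chain {F : Type*} [Field F] {V : Type*} [AddCommGroup V] [Module F V]
    [FiniteDimensional F V] (T : Module.End F V) (r : ℕ) (hr : r.Prime) (c : F)
    (hc : ∀ b : F, b ^ r ≠ c) (hT : T ^ r = c • 1) :
    ∃ B : ℕ → Submodule F V,
      (∀ s s', s ≤ s' → r * s' ≤ Module.finrank F V → B s ≤ B s') ∧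
      ∀ s, r * s ≤ Module.finrank F V →
        (∀ v ∈ B s, T v ∈ B s) ∧ Module.finrank F (B s) = r * s :=
  (kummer_core T r hr c hc hT).2.1

theorem kummer_det {F : Type*} [Field F] {V : Type*} [AddCommGroup V] [Module F V]
    [FiniteDimensional F V] (T : Module.End F V) (r : ℕ) (hr : r.Prime) (c : F)
    (hc : ∀ b : F, b ^ r ≠ c) (hT : T ^ r = c • 1) :
    LinearMap.det T = ((-1) ^ (r + 1) * c) ^ (Module.finrank F V / r) :=
  (kummer_core T r hr c hc hT).2.2

end Statements

end Cfsg.Agent.H99.Kum
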