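import Cfsg.Agent.H99.OForm

set_option autoImplicit false

namespace Cfsg.Agent.H99

open Matrix Module
open scoped MatrixGroups

namespace OF

section
variable {F : Type*} [Field F] [Fintype F] {n : ℕ} {Q : (Fin n → F) → F}
  {B : (Fin n → F) → (Fin n → F) → F}

/-- `M` contains the transvection `x ↦ x + B(x, y) w`. -/
def OT (M : Subgroup (GL (Fin n) F)) (B : (Fin n → F) → (Fin n → F) → F) (w y : Fin n → F) :
    Prop :=
  Tv M w (cov B y)

variable {M : Subgroup (GL (Fin n) F)}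

theorem ot_def (C : OCtx Q B) (w y : Fin n → F) :
    OT M B w y ↔ ∃ g ∈ M, ∀ x, act g x = x + B x y • w := by
  unfold OT Tv
  simp only [cov_dot C]

theorem OT.congr (C : OCtx Q B) {w y w' y' : Fin n → F} (h : OT M B w y)
    (e : ∀ x, B x y • w = B x y' • w') : OT M B w' y' := by
  obtain ⟨g, hg, hgx⟩ := (ot_def C w y).mp h
  exact (ot_def C w' y').mpr ⟨g, hg, fun x => by rw [hgx, e]⟩

theorem OT.zero (C : OCtx Q B) (y : Fin n → F) : OT M B 0 y :=
  (ot_def C 0 y).mpr ⟨1, M.one_mem, fun x => by rw [act_one, smul_zero, add_zero]⟩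

theorem OT.neg (C : OCtx Q B) {w y : Fin n → F} (h : OT M B w y) (hwy : B w y = 0) :
    OT M B w (-y) := by
  have h1 : Tv M (-w) (cov B y) := Tv.neg h (by rw [cov_dot C]; exact hwy)
  have h2 : OT M B (-w) y := h1
  exact h2.congr C fun x => by rw [neg_right C, smul_neg, neg_smul]

theorem OT.add_right (C : OCtx Q B) {w y y' : Fin n → F} (h : OT M B w y) (h' : OT M B w y')
    (hwy : B w y = 0) : OT M B w (y + y') := by
  unfold OT
  rw [cov_add C]
  exact Tv.add_right h h' (by rw [cov_dot C]; exact hwy)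

theorem OT.add_left (C : OCtx Q B) {w w' y : Fin n → F} (h : OT M B w y) (h' : OT M B w' y)
    (hwy : B w' y = 0) : OT M B (w + w') y :=
  Tv.add_left h h' (by rw [cov_dot C]; exact hwy)

/-- Conjugation by an isometry. -/
theorem OT.conj_iso (C : OCtx Q B) {w y : Fin n → F} (h : OT M B w y) {g : GL (Fin n) F}
    (hg : g ∈ M) (hiso : ∀ x y, B (act g x) (act g y) = B x y) :
    OT M B (act g w) (act g y) := by
  obtain ⟨t, ht, htx⟩ := (ot_def C w y).mp h
  refine (ot_def C _ _).mpr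
    ⟨g * t * g⁻¹, M.mul_mem (M.mul_mem hg ht) (M.inv_mem hg), fun x => ?_⟩
  rw [act_mul, act_mul, htx, act_add, act_act_inv, act_smul]
  congr 2
  rw [← hiso (act g⁻¹ x) y, act_act_inv]

theorem q_eq_zero (C : OCtx Q B) {a : Fin n → F} (ha : B a a = 0) : Q a = 0 := by
  have h := C.self a
  rw [ha] at h
  rcases mul_eq_zero.mp h.symm with h1 | h1
  · exact absurd h1 C.two
  · exact h1

/-- The Siegel transformations. -/
theorem exists_siegel (C : OCtx Q B) (u a : Fin n → F) (hu : B u u = 0) (hua : B u a = 0) :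
    ∃ g : GL (Fin n) F,
      g ∈ Cfsg.Geo.quadSimilarityGroup Q ⊓ Cfsg.Geo.specialLinear (Fin n) F ∧
        (∀ x y, B (act g x) (act g y) = B x y) ∧
          ∀ x, act g x = x + B x a • u - B x u • a - (Q a * B x u) • u := by
  have hau : B a u = 0 := by rw [C.symm, hua]
  obtain ⟨g₁, hg₁, hg₁x⟩ := exists_transvection u (cov B (a + Q a • u))
    (by rw [cov_dot C, add_right C, smul_right C, hua, hu, mul_zero, add_zero])
  obtain ⟨g₂, hg₂, hg₂x⟩ := exists_transvection a (cov B (-u))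
    (by rw [cov_dot C, neg_right C, hau, neg_zero])
  have hx : ∀ x, act (g₁ * g₂) x = x + B x a • u - B x u • a - (Q a * B x u) • u := by
    intro x
    rw [act_mul, hg₂x, hg₁x]
    simp only [cov_dot C, C.add_left, add_right C, C.smul_left, smul_right C, neg_right C, hau,
      C.self a]
    module
  have hiso : ∀ x y, B (act (g₁ * g₂) x) (act (g₁ * g₂) y) = B x y := by
    intro x y
    rw [hx, hx]
    simp only [C.add_left, add_right C, sub_left C, sub_right C, C.smul_left, smul_right C, hu,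
      hua, hau, C.self a]
    rw [C.symm u y, C.symm a y]
    ring
  refine ⟨g₁ * g₂, Subgroup.mem_inf.mpr ⟨⟨1, fun v => ?_⟩, Subgroup.mul_mem _ hg₁ hg₂⟩, hiso, hx⟩
  have h1 := hiso v v
  rw [C.self, C.self] at h1
  rw [Units.val_one, one_mul]
  exact mul_left_cancel₀ C.two h1

/-- Moving a singular vector to a perpendicular independent one. -/
theorem move_orth (C : OCtx Q B) (v r : Fin n → F) (hv : B v v = 0) (hr : B r r = 0)
    (hvr : B v r = 0) (hv0 : v ≠ 0) (hrv : ¬ ∃ c : F, r = c • v) :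
    ∃ g : GL (Fin n) F,
      g ∈ Cfsg.Geo.quadSimilarityGroup Q ⊓ Cfsg.Geo.specialLinear (Fin n) F ∧
        (∀ x y, B (act g x) (act g y) = B x y) ∧ act g v = r := by
  have hd : B (r - v) (r - v) = 0 := by
    simp only [sub_left C, sub_right C, hv, hr, hvr, C.symm r v]
    ring
  have hvd : B v (r - v) = 0 := by rw [sub_right C, hvr, hv, sub_zero]
  obtain ⟨x, hxd, hxv⟩ : ∃ x, B x (r - v) = 0 ∧ B x v ≠ 0 := by
    by_contra hcon
    push Not at hcon
    obtain ⟨k, hk⟩ := span_of_perp C (r - v) v hcon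
    by_cases hk0 : k = 0
    · rw [hk0, zero_smul] at hk
      exact hv0 hk
    · apply hrv
      have h3 : k⁻¹ • v = r - v := by
        have h4 := congrArg (fun t => k⁻¹ • t) hk
        simpa [smul_smul, inv_mul_cancel₀ hk0] using h4
      exact ⟨1 + k⁻¹, by rw [add_smul, one_smul, h3]; abel⟩
  obtain ⟨g, hg, hiso, hgx⟩ := exists_siegel C (r - v) ((B x v)⁻¹ • x) hd
    (by rw [smul_right C, C.symm (r - v) x, hxd, mul_zero])
  refine ⟨g, hg, hiso, ?_⟩
  rw [hgx, smul_right C, C.symm v x, inv_mul_cancel₀ hxv, hvd, mul_zero, zero_smul, zero_smul,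
    one_smul]
  abel

/-- The isometries in `H` are transitive on non-zero singular vectors. -/
theorem move_sing (C : OCtx Q B) (hn : 9 ≤ n) (v v' : Fin n → F) (hv : B v v = 0)
    (hv' : B v' v' = 0) (hv0 : v ≠ 0) (hv'0 : v' ≠ 0) :
    ∃ g : GL (Fin n) F,
      g ∈ Cfsg.Geo.quadSimilarityGroup Q ⊓ Cfsg.Geo.specialLinear (Fin n) F ∧
        (∀ x y, B (act g x) (act g y) = B x y) ∧ act g v = v' := by
  obtain ⟨r, z, hr, hrs, hzs, hrz⟩ := exists_sing_new C 2 (by omega) ![v, v']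
  have hrv : B r v = 0 := by simpa using hrs 0
  have hrv' : B r v' = 0 := by simpa using hrs 1
  have hzv : B z v = 0 := by simpa using hzs 0
  have hzv' : B z v' = 0 := by simpa using hzs 1
  have hr0 : r ≠ 0 := by
    rintro rfl
    exact hrz (zero_left C z)
  have h1 : ¬ ∃ c : F, r = c • v := by
    rintro ⟨c, hc⟩
    apply hrz
    rw [hc, C.smul_left, C.symm, hzv, mul_zero]
  have h2 : ¬ ∃ c : F, v' = c • r := by
    rintro ⟨c, hc⟩
    have hc0 : c ≠ 0 := by
      rintro rfl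
      rw [zero_smul] at hc
      exact hv'0 hc
    apply hrz
    have h3 : r = c⁻¹ • v' := by rw [hc, smul_smul, inv_mul_cancel₀ hc0, one_smul]
    rw [h3, C.smul_left, C.symm, hzv', mul_zero]
  obtain ⟨g₁, hg₁, hi₁, e₁⟩ := move_orth C v r hv hr (by rw [C.symm, hrv]) hv0 h1
  obtain ⟨g₂, hg₂, hi₂, e₂⟩ := move_orth C r v' hr hv' hrv' hr0 h2
  exact ⟨g₂ * g₁, Subgroup.mul_mem _ hg₂ hg₁, fun x y => by rw [act_mul, act_mul, hi₂, hi₁],
    by rw [act_mul, e₁, e₂]⟩

theorem exists_sing0 (C : OCtx Q B) (hn : 5 ≤ n) (t : Fin n → F) (ht : t ≠ 0) :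
    ∃ u, B u u = 0 ∧ B u t ≠ 0 := by
  obtain ⟨x, hx⟩ := C.nondeg t ht
  obtain ⟨u, h1, -, h2⟩ := exists_sing C 0 (by omega) ![] t ⟨x, fun j => j.elim0, hx⟩
  exact ⟨u, h1, h2⟩

end

end OF

end Cfsg.Agent.H99
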