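import Cfsg.Agent.H99.SubK
import Cfsg.Agent.H95.SUMax

set_option autoImplicit false

namespace Cfsg.Agent.H99

open Matrix Module
open scoped MatrixGroups
open Cfsg

section
variable {F : Type*} [Field F] {n : ℕ}

theorem subfield_eq_map (F₀ : Subfield F) (P : GL (Fin n) F) :
    Cfsg.Geo.subfieldSubgroup F₀ P
      = (Cfsg.Geo.subfieldSubgroup F₀ 1).map (MulAut.conj P).toMonoidHom := by
  have e3 : Cfsg.Geo.subfieldSubgroup F₀ (1 : GL (Fin n) F)
      = (Matrix.GeneralLinearGroup.map (F₀.subtype : F₀ →+* F)).range ⊔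
        Cfsg.Geo.scalars (Fin n) F := by
    unfold Cfsg.Geo.subfieldSubgroup
    ext g
    rw [Subgroup.mem_map]
    constructor
    · rintro ⟨x, hx, rfl⟩
      simpa using hx
    · intro hg
      exact ⟨g, hg, by simp⟩
  rw [e3]
  rfl

/-- The vectors of the `F₀`-structure spanned by the columns of `P`. -/
def InV (F₀ : Subfield F) (P : GL (Fin n) F) (v : Fin n → F) : Prop :=
  ∀ i, act P⁻¹ v i ∈ F₀

variable {F₀ : Subfield F} {P : GL (Fin n) F}

theorem inV_add {v w : Fin n → F} (hv : InV F₀ P v) (hw : InV F₀ P w) : InV F₀ P (v + w) :=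
  fun i => by
    rw [act_add]
    exact F₀.add_mem (hv i) (hw i)

theorem inV_sub {v w : Fin n → F} (hv : InV F₀ P v) (hw : InV F₀ P w) : InV F₀ P (v - w) :=
  fun i => by
    rw [act_sub]
    exact F₀.sub_mem (hv i) (hw i)

theorem inV_smul {c : F} (hc : c ∈ F₀) {v : Fin n → F} (hv : InV F₀ P v) :
    InV F₀ P (c • v) := fun i => by
  rw [act_smul]
  exact F₀.mul_mem hc (hv i)

theorem inV_act {u : Fin n → F} (hu : ∀ i, u i ∈ F₀) : InV F₀ P (act P u) := fun i => by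
  rw [act_inv_act]
  exact hu i

theorem mem_subfield_of_inV (g : GL (Fin n) F) (c : F) (hc : c ≠ 0)
    (h : ∀ v, InV F₀ P v → InV F₀ P (c • act g v)) : g ∈ Cfsg.Geo.subfieldSubgroup F₀ P := by
  rw [subfield_eq_map, Subgroup.mem_map]
  refine ⟨P⁻¹ * g * P, ?_, ?_⟩
  · rw [mem_subfield_iff]
    refine ⟨c, hc, fun i j => ?_⟩
    have h1 := h (act P (Pi.single j 1)) (inV_act (rat_single F₀ j)) i
    rw [act_smul] at h1
    rw [← act_single, act_mul, act_mul]
    exact h1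
  · show P * (P⁻¹ * g * P) * P⁻¹ = g
    group

theorem inV_of_mem_subfield (g : GL (Fin n) F) (hg : g ∈ Cfsg.Geo.subfieldSubgroup F₀ P) :
    ∃ c : F, c ≠ 0 ∧ ∀ v, InV F₀ P v → InV F₀ P (c • act g v) := by
  rw [subfield_eq_map, Subgroup.mem_map] at hg
  obtain ⟨x, hx, rfl⟩ := hg
  obtain ⟨c, hc, hcx⟩ := (mem_subfield_iff F₀ x).mp hx
  refine ⟨c, hc, fun v hv i => ?_⟩
  have e : act P⁻¹ (c • act ((MulAut.conj P).toMonoidHom x) v) = c • act x (act P⁻¹ v) := by
    show act P⁻¹ (c • act (P * x * P⁻¹) v) = _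
    rw [act_smul, act_mul, act_mul, act_inv_act]
  rw [e]
  show c * ((x : Matrix (Fin n) (Fin n) F) *ᵥ act P⁻¹ v) i ∈ F₀
  simp only [Matrix.mulVec, dotProduct]
  rw [Finset.mul_sum]
  exact F₀.sum_mem (fun j _ => by
    rw [← mul_assoc]
    exact F₀.mul_mem (hcx i j) (hv j))

end

section
variable {F : Type*} [Field F] [Fintype F] {n q : ℕ}

/-- A subfield with `q` elements is the set of fixed points of `x ↦ x ^ q`. -/
theorem subfield_mem_iff_pow (F₀ : Subfield F) (hq : 2 ≤ q) (hc : Nat.card F₀ = q) (x : F) :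
    x ∈ F₀ ↔ x ^ q = x := by
  classical
  have : Fintype F₀ := Fintype.ofFinite _
  have h1 : ∀ y : F, y ∈ F₀ → y ^ q = y := by
    intro y hy
    have h2 := FiniteField.pow_card (⟨y, hy⟩ : F₀)
    rw [← Nat.card_eq_fintype_card, hc] at h2
    exact congrArg Subtype.val h2
  refine ⟨h1 x, fun hx => ?_⟩
  have hp0 : (Polynomial.X ^ q - Polynomial.X : Polynomial F) ≠ 0 :=
    FiniteField.X_pow_card_sub_X_ne_zero F hq
  have hdeg : (Polynomial.X ^ q - Polynomial.X : Polynomial F).natDegree = q :=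
    FiniteField.X_pow_card_sub_X_natDegree_eq F hq
  have hroot : ∀ y : F, y ^ q = y →
      y ∈ (Polynomial.X ^ q - Polynomial.X : Polynomial F).roots.toFinset := by
    intro y hy
    rw [Multiset.mem_toFinset, Polynomial.mem_roots hp0, Polynomial.IsRoot.def,
      Polynomial.eval_sub, Polynomial.eval_pow, Polynomial.eval_X, hy, sub_self]
  have hsub : (Finset.univ.image (fun y : F₀ => (y : F))) ⊆
      (Polynomial.X ^ q - Polynomial.X : Polynomial F).roots.toFinset := by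
    intro y hy
    obtain ⟨y₀, -, rfl⟩ := Finset.mem_image.mp hy
    exact hroot _ (h1 y₀ y₀.2)
  have hcard1 : (Finset.univ.image (fun y : F₀ => (y : F))).card = q := by
    rw [Finset.card_image_of_injective _ Subtype.val_injective, Finset.card_univ,
      ← Nat.card_eq_fintype_card, hc]
  have hcard2 : (Polynomial.X ^ q - Polynomial.X : Polynomial F).roots.toFinset.card ≤ q := by
    refine le_trans (Multiset.toFinset_card_le _) ?_
    have h3 := Polynomial.card_roots' (Polynomial.X ^ q - Polynomial.X : Polynomial F)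
    rwa [hdeg] at h3
  have heq := Finset.eq_of_subset_of_card_le hsub (by rw [hcard1]; exact hcard2)
  have hxr := hroot x hx
  rw [← heq] at hxr
  obtain ⟨y₀, -, rfl⟩ := Finset.mem_image.mp hxr
  exact y₀.2

theorem herm_sub_left (u u' v : Fin n → F) :
    hermForm n F q (u - u') v = hermForm n F q u v - hermForm n F q u' v := by
  have h : u - u' = u + (-1 : F) • u' := by
    rw [neg_one_smul, sub_eq_add_neg]
  rw [h, H95.hermForm_add_left, H95.hermForm_smul_left]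
  ring

theorem herm_sub_right (hF : Fintype.card F = q ^ 2) (u v v' : Fin n → F) :
    hermForm n F q u (v - v') = hermForm n F q u v - hermForm n F q u v' := by
  have h1 := H95.hermForm_add_right hF u (v - v') v'
  rw [sub_add_cancel] at h1
  linear_combination -h1

theorem herm_nondeg {a : Fin n → F} (ha0 : a ≠ 0) : ∃ x, hermForm n F q x a ≠ 0 := by
  classical
  obtain ⟨i, hi⟩ : ∃ i, a i ≠ 0 := by
    by_contra h
    push Not at h
    exact ha0 (funext h)
  refine ⟨Pi.single i 1, ?_⟩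
  unfold hermForm
  rw [Finset.sum_eq_single i]
  · rw [Pi.single_eq_same, one_mul]
    exact pow_ne_zero _ hi
  · intro j _ hj
    rw [Pi.single_eq_of_ne hj, zero_mul]
  · intro h
    exact absurd (Finset.mem_univ i) h

/-- The data of an alternating `F₀`-structure for the standard unitary form. -/
structure USp (q : ℕ) (F₀ : Subfield F) (ζ : F) (P : GL (Fin n) F) : Prop where
  hF : Fintype.card F = q ^ 2
  fix : ∀ x : F, x ∈ F₀ ↔ x ^ q = x
  nontriv : ∃ θ : F, θ ^ q ≠ θ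
  hζ0 : ζ ≠ 0
  hζ : ζ + ζ ^ q = 0
  hP : ∀ v w : Fin n → F, InV F₀ P v → InV F₀ P w → ζ * hermForm n F q v w ∈ F₀
  halt : ∀ v : Fin n → F, InV F₀ P v → hermForm n F q v v = 0

namespace USp

variable {F₀ : Subfield F} {ζ : F} {P : GL (Fin n) F}

theorem skew (S : USp q F₀ ζ P) {v w : Fin n → F} (hv : InV F₀ P v) (hw : InV F₀ P w) :
    hermForm n F q w v = -hermForm n F q v w := by
  have h := S.halt (v + w) (inV_add hv hw)
  rw [H95.hermForm_add_left, H95.hermForm_add_right S.hF, H95.hermForm_add_right S.hF,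
    S.halt v hv, S.halt w hw] at h
  linear_combination h

theorem ratio (S : USp q F₀ ζ P) {v w v' w' : Fin n → F} (hv : InV F₀ P v) (hw : InV F₀ P w)
    (hv' : InV F₀ P v') (hw' : InV F₀ P w') :
    hermForm n F q v w / hermForm n F q v' w' ∈ F₀ := by
  have h1 := F₀.div_mem (S.hP v w hv hw) (S.hP v' w' hv' hw')
  rwa [mul_div_mul_left _ _ S.hζ0] at h1

theorem skew_mul (S : USp q F₀ ζ P) {c : F} (hc : c + c ^ q = 0) {v w : Fin n → F}
    (hv : InV F₀ P v) (hw : InV F₀ P w) : c * hermForm n F q v w ∈ F₀ := by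
  have h1 : c / ζ ∈ F₀ := by
    rw [S.fix, div_pow]
    have e1 : c ^ q = -c := by linear_combination hc
    have e2 : ζ ^ q = -ζ := by linear_combination S.hζ
    rw [e1, e2, neg_div_neg_eq]
  have h2 := F₀.mul_mem h1 (S.hP v w hv hw)
  have e : c / ζ * (ζ * hermForm n F q v w) = c * hermForm n F q v w := by
    field_simp [S.hζ0]
  rwa [e] at h2

theorem pow_of_mem (S : USp q F₀ ζ P) {x : F} (hx : x ∈ F₀) : x ^ q = x := (S.fix x).mp hx

theorem decomp (S : USp q F₀ ζ P) {θ : F} (hθ : θ ^ q ≠ θ) (x : F) :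
    ∃ a b : F, a ∈ F₀ ∧ b ∈ F₀ ∧ x = a + θ * b := by
  obtain ⟨φ, hφ⟩ := H95.exists_frob S.hF
  have hθ' : θ - θ ^ q ≠ 0 := fun h => hθ (sub_eq_zero.mp h).symm
  have hff : ∀ y : F, (y ^ q) ^ q = y := H95.frob_frob S.hF
  obtain ⟨b, hb⟩ : ∃ b : F, b = (x - x ^ q) / (θ - θ ^ q) := ⟨_, rfl⟩
  have hbq : b ^ q = b := by
    rw [hb, ← hφ, map_div₀, map_sub, map_sub, hφ, hφ, hφ, hφ, hff, hff, ← neg_sub x,
      ← neg_sub θ, neg_div_neg_eq]
  have h1 : (θ - θ ^ q) * b = x - x ^ q := by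
    rw [hb]
    field_simp
  refine ⟨x - θ * b, b, (S.fix _).mpr ?_, (S.fix _).mpr hbq, by ring⟩
  rw [← hφ, map_sub, map_mul, hφ, hφ, hφ, hbq]
  linear_combination h1

theorem decompV (S : USp q F₀ ζ P) {θ : F} (hθ : θ ^ q ≠ θ) (x : Fin n → F) :
    ∃ a b, InV F₀ P a ∧ InV F₀ P b ∧ x = a + θ • b := by
  choose α β hα hβ hx using fun i => decomp S hθ (act P⁻¹ x i)
  refine ⟨act P α, act P β, inV_act hα, inV_act hβ, ?_⟩
  have h1 : act P⁻¹ x = α + θ • β := funext fun i => by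
    rw [hx i]
    rfl
  rw [← act_smul, ← act_add, ← h1, act_act_inv]

theorem decomp_unique (S : USp q F₀ ζ P) {θ : F} (hθ : θ ^ q ≠ θ) {a b a' b' : Fin n → F}
    (ha : InV F₀ P a) (hb : InV F₀ P b) (ha' : InV F₀ P a') (hb' : InV F₀ P b')
    (h : a + θ • b = a' + θ • b') : a = a' ∧ b = b' := by
  have key : ∀ i, act P⁻¹ b i = act P⁻¹ b' i := by
    intro i
    by_contra hne
    have h1 := congrFun (congrArg (act P⁻¹) h) i
    rw [act_add, act_add, act_smul, act_smul] at h1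
    have h1' : act P⁻¹ a i + θ * act P⁻¹ b i = act P⁻¹ a' i + θ * act P⁻¹ b' i := h1
    have hd : act P⁻¹ b i - act P⁻¹ b' i ≠ 0 := sub_ne_zero.mpr hne
    have hθ' : θ = (act P⁻¹ a' i - act P⁻¹ a i) / (act P⁻¹ b i - act P⁻¹ b' i) := by
      field_simp
      linear_combination h1'
    apply hθ
    rw [← S.fix, hθ']
    exact F₀.div_mem (F₀.sub_mem (ha' i) (ha i)) (F₀.sub_mem (hb i) (hb' i))
  have hb_eq : b = b' := act_injective P⁻¹ (funext key)
  refine ⟨?_, hb_eq⟩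
  rw [hb_eq] at h
  exact add_right_cancel h

theorem nondeg (S : USp q F₀ ζ P) {a : Fin n → F} (ha0 : a ≠ 0) :
    ∃ z, InV F₀ P z ∧ hermForm n F q z a ≠ 0 := by
  obtain ⟨θ, hθ⟩ := S.nontriv
  obtain ⟨x, hx⟩ := herm_nondeg (q := q) ha0
  obtain ⟨z₁, z₂, hz₁, hz₂, e⟩ := decompV S hθ x
  by_cases h1 : hermForm n F q z₁ a = 0
  · refine ⟨z₂, hz₂, fun h2 => hx ?_⟩
    rw [e, H95.hermForm_add_left, H95.hermForm_smul_left, h1, h2, mul_zero, add_zero]
  · exact ⟨z₁, hz₁, h1⟩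

theorem span_of_perp₀ (S : USp q F₀ ζ P) {a b : Fin n → F} (ha : InV F₀ P a)
    (hb : InV F₀ P b) (ha0 : a ≠ 0)
    (h : ∀ z, InV F₀ P z → hermForm n F q z a = 0 → hermForm n F q z b = 0) :
    ∃ k : F, k ∈ F₀ ∧ b = k • a := by
  obtain ⟨z₀, hz₀, hz₀a⟩ := nondeg S ha0
  have hk : hermForm n F q z₀ b / hermForm n F q z₀ a ∈ F₀ := ratio S hz₀ hb hz₀ ha
  refine ⟨_, hk, ?_⟩
  by_contra hne
  obtain ⟨z, hz, hzne⟩ := nondeg S (sub_ne_zero.mpr hne)
  apply hzne
  have hr : hermForm n F q z a / hermForm n F q z₀ a ∈ F₀ := ratio S hz ha hz₀ ha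
  have h1 := h (z - (hermForm n F q z a / hermForm n F q z₀ a) • z₀)
    (inV_sub hz (inV_smul hr hz₀))
    (by rw [herm_sub_left, H95.hermForm_smul_left, div_mul_cancel₀ _ hz₀a, sub_self])
  rw [herm_sub_left, H95.hermForm_smul_left] at h1
  have h2 : hermForm n F q z b = hermForm n F q z a / hermForm n F q z₀ a * hermForm n F q z₀ b := by
    linear_combination h1
  rw [herm_sub_right S.hF, H95.hermForm_smul_right, pow_of_mem S hk, h2]
  ring

theorem two_fun₀ (S : USp q F₀ ζ P) {a a' : Fin n → F} (ha0 : a ≠ 0) (ha'0 : a' ≠ 0) :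
    ∃ z, InV F₀ P z ∧ hermForm n F q z a ≠ 0 ∧ hermForm n F q z a' ≠ 0 := by
  obtain ⟨z₁, hz₁, h1⟩ := nondeg S ha0
  obtain ⟨z₂, hz₂, h2⟩ := nondeg S ha'0
  by_cases h3 : hermForm n F q z₁ a' = 0
  swap
  · exact ⟨z₁, hz₁, h1, h3⟩
  by_cases h4 : hermForm n F q z₂ a = 0
  swap
  · exact ⟨z₂, hz₂, h4, h2⟩
  refine ⟨z₁ + z₂, inV_add hz₁ hz₂, ?_, ?_⟩
  · rw [H95.hermForm_add_left, h4, add_zero]
    exact h1
  · rw [H95.hermForm_add_left, h3, zero_add]
    exact h2

theorem two_fun_perp₀ (S : USp q F₀ ζ P) {a b b' : Fin n → F} (ha : InV F₀ P a)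
    (hb : InV F₀ P b) (hb' : InV F₀ P b') (ha0 : a ≠ 0)
    (hbne : ¬ ∃ k : F, k ∈ F₀ ∧ b = k • a) (hb'ne : ¬ ∃ k : F, k ∈ F₀ ∧ b' = k • a) :
    ∃ z, InV F₀ P z ∧ hermForm n F q z a = 0 ∧ hermForm n F q z b ≠ 0 ∧
      hermForm n F q z b' ≠ 0 := by
  obtain ⟨z₁, hz₁, h1a, h1⟩ : ∃ z, InV F₀ P z ∧ hermForm n F q z a = 0 ∧
      hermForm n F q z b ≠ 0 := by
    by_contra hcon
    push Not at hcon
    exact hbne (span_of_perp₀ S ha hb ha0 (fun z hz hza => hcon z hz hza))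
  obtain ⟨z₂, hz₂, h2a, h2⟩ : ∃ z, InV F₀ P z ∧ hermForm n F q z a = 0 ∧
      hermForm n F q z b' ≠ 0 := by
    by_contra hcon
    push Not at hcon
    exact hb'ne (span_of_perp₀ S ha hb' ha0 (fun z hz hza => hcon z hz hza))
  by_cases h3 : hermForm n F q z₁ b' = 0
  swap
  · exact ⟨z₁, hz₁, h1a, h1, h3⟩
  by_cases h4 : hermForm n F q z₂ b = 0
  swap
  · exact ⟨z₂, hz₂, h2a, h4, h2⟩
  refine ⟨z₁ + z₂, inV_add hz₁ hz₂, ?_, ?_, ?_⟩
  · rw [H95.hermForm_add_left, h1a, h2a, add_zero]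
  · rw [H95.hermForm_add_left, h4, add_zero]
    exact h1
  · rw [H95.hermForm_add_left, h3, zero_add]
    exact h2

theorem transv_act (w : Fin n → F) (c : F) (hw : hermForm n F q w w = 0) (x : Fin n → F) :
    act (H95.unitTransv q w c hw) x = x + (c * hermForm n F q x w) • w :=
  H95.unitTransv_mulVec w c hw x

/-- The unitary transvections with rational centre lie in `H`. -/
theorem transv_mem (S : USp q F₀ ζ P) {v : Fin n → F} (hv : InV F₀ P v) {c : F}
    (hc : c + c ^ q = 0) :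
    H95.unitTransv q v c (S.halt v hv) ∈ Cfsg.Geo.subfieldSubgroup F₀ P ⊓
      (Cfsg.GU n F q ⊓ Cfsg.Geo.specialLinear (Fin n) F) := by
  refine Subgroup.mem_inf.mpr ⟨?_, Subgroup.mem_inf.mpr
    ⟨H95.unitTransv_mem_GU S.hF v c _ hc, H95.unitTransv_mem_specialLinear v c _⟩⟩
  apply mem_subfield_of_inV _ 1 one_ne_zero
  intro x hx
  rw [one_smul, transv_act]
  exact inV_add hx (inV_smul (skew_mul S hc hx hv) hv)

end USp

end

end Cfsg.Agent.H99
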