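import Mathlib

set_option autoImplicit false

namespace Cfsg.Agent.H99

open Module

/-- A family adapted to an operator `f` with `f ∘ f = z`: `f` permutes the lines spanned by the
members of a basis of the invariant subspace `U` through an involution of the index set. -/
theorem exists_adapted_family {F V : Type*} [Field F] [AddCommGroup V] [Module F V]
    [FiniteDimensional F V]
    (f : V →ₗ[F] V) (z : F) (hz : z ≠ 0) (hf : ∀ v, f (f v) = z • v) :
    ∀ (m : ℕ) (U : Submodule F V), finrank F U = m → (∀ u ∈ U, f u ∈ U) →
      ∃ (ι : Type) (_ : Fintype ι) (_ : DecidableEq ι) (b : ι → V) (π : ι → ι) (c : ι → F),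
        LinearIndependent F b ∧ Submodule.span F (Set.range b) = U ∧ Function.Involutive π ∧
        (∀ k, c k ≠ 0) ∧ ∀ k, f (b k) = c k • b (π k) := by
  intro m
  induction m using Nat.strong_induction_on with
  | _ m ih =>
  intro U hU hfU
  by_cases hcase : ∀ u ∈ U, ∃ c : F, f u = c • u
  · -- every vector of `U` is an eigenvector
    let B := Module.finBasis F U
    refine ⟨Fin (finrank F U), inferInstance, inferInstance, fun k => (B k : V), id,
      fun k => (hcase (B k) (B k).2).choose, ?_, ?_, fun _ => rfl, ?_, ?_⟩
    · exact B.linearIndependent.map' U.subtype (Submodule.ker_subtype U)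
    · have h1 : Set.range (fun k => (B k : V)) = U.subtype '' Set.range B := by
        rw [← Set.range_comp]; rfl
      rw [h1, Submodule.span_image, B.span_eq, Submodule.map_subtype_top]
    · intro k hk
      have h1 := (hcase (B k) (B k).2).choose_spec
      have hk' : (hcase (B k) (B k).2).choose = 0 := hk
      rw [hk', zero_smul] at h1
      have h2 := hf (B k : V)
      rw [h1, map_zero] at h2
      have h3 : (B k : V) = 0 := by
        rcases smul_eq_zero.mp h2.symm with h | h
        · exact absurd h hz
        · exact h
      exact B.ne_zero k (Subtype.ext h3)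
    · intro k
      exact (hcase (B k) (B k).2).choose_spec
  · push Not at hcase
    obtain ⟨v, hvU, hv⟩ := hcase
    have hfv : f v ∉ Submodule.span F {v} := by
      rw [Submodule.mem_span_singleton]
      rintro ⟨c, hc⟩
      exact hv c hc.symm
    obtain ⟨φ, hφ1, hφ2⟩ := Submodule.exists_dual_map_eq_bot_of_notMem hfv inferInstance
    have hφv : φ v = 0 := by
      have h1 : φ v ∈ Submodule.map φ (Submodule.span F {v}) :=
        Submodule.mem_map_of_mem (Submodule.mem_span_singleton_self v)
      rw [hφ2] at h1
      simpa using h1
    set U' : Submodule F V := U ⊓ (LinearMap.ker φ ⊓ LinearMap.ker (φ.comp f)) with hU'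
    have key : ∀ s t : F, s • v + t • f v ∈ LinearMap.ker φ ⊓ LinearMap.ker (φ.comp f) →
        s = 0 ∧ t = 0 := by
      intro s t hst
      rw [Submodule.mem_inf, LinearMap.mem_ker, LinearMap.mem_ker] at hst
      obtain ⟨h1, h2⟩ := hst
      rw [map_add, map_smul, map_smul, hφv, smul_zero, zero_add, smul_eq_mul] at h1
      have ht : t = 0 := by
        rcases mul_eq_zero.mp h1 with h | h
        · exact h
        · exact absurd h hφ1
      rw [LinearMap.comp_apply, map_add, map_smul, map_smul, hf v, map_add, map_smul, map_smul,
        map_smul, hφv, ht] at h2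
      simp only [smul_eq_mul, mul_zero, add_zero] at h2
      rcases mul_eq_zero.mp h2 with h | h
      · exact ⟨h, ht⟩
      · exact absurd h hφ1
    have hU'le : U' ≤ U := inf_le_left
    have hvU' : v ∉ U' := by
      intro h
      have h1 : (1 : F) • v + (0 : F) • f v ∈ LinearMap.ker φ ⊓ LinearMap.ker (φ.comp f) := by
        rw [one_smul, zero_smul, add_zero]
        exact h.2
      exact one_ne_zero (key 1 0 h1).1
    have hlt : U' < U := lt_of_le_of_ne hU'le (fun h => hvU' (h ▸ hvU))
    have hfU' : ∀ u ∈ U', f u ∈ U' := by
      intro u hu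
      rw [hU', Submodule.mem_inf, Submodule.mem_inf, LinearMap.mem_ker, LinearMap.mem_ker] at hu
      obtain ⟨hu1, hu2, hu3⟩ := hu
      rw [hU', Submodule.mem_inf, Submodule.mem_inf, LinearMap.mem_ker, LinearMap.mem_ker]
      refine ⟨hfU u hu1, ?_, ?_⟩
      · exact hu3
      · rw [LinearMap.comp_apply, hf u, map_smul, hu2, smul_zero]
    obtain ⟨ι', _, _, b', π', c', hli, hspan, hinv, hc0, hfb⟩ :=
      ih (finrank F U') (by rw [← hU]; exact Submodule.finrank_lt_finrank_of_lt hlt) U' rfl hfU'
    have hrange : Set.range ![v, f v] = {v, f v} := by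
      simp [Matrix.range_cons, Set.pair_comm]
    refine ⟨Fin 2 ⊕ ι', inferInstance, inferInstance, Sum.elim ![v, f v] b',
      Sum.map (Equiv.swap 0 1) π', Sum.elim ![1, z] c', ?_, ?_, ?_, ?_, ?_⟩
    · refine LinearIndependent.sum_type ?_ hli ?_
      · rw [LinearIndependent.pair_iff]
        intro s t hst
        exact key s t (by rw [hst]; exact Submodule.zero_mem _)
      · rw [hspan, hrange, Submodule.disjoint_def]
        intro x hx hx'
        rw [Submodule.mem_span_pair] at hx
        obtain ⟨s, t, rfl⟩ := hx
        obtain ⟨rfl, rfl⟩ := key s t hx'.2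
        simp
    · rw [Set.Sum.elim_range, Submodule.span_union, hspan, hrange]
      apply le_antisymm
      · refine sup_le ?_ hU'le
        rw [Submodule.span_le]
        intro x hx
        rcases hx with rfl | rfl
        · exact hvU
        · exact hfU _ hvU
      · intro u hu
        rw [Submodule.mem_sup]
        set α : F := φ (f u) / φ (f v) with hα
        set β : F := φ u / φ (f v) with hβ
        refine ⟨α • v + β • f v, ?_, u - (α • v + β • f v), ?_, by abel⟩
        · rw [Submodule.mem_span_pair]
          exact ⟨α, β, rfl⟩
        · rw [hU', Submodule.mem_inf, Submodule.mem_inf, LinearMap.mem_ker, LinearMap.mem_ker]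
          refine ⟨?_, ?_, ?_⟩
          · exact U.sub_mem hu (U.add_mem (U.smul_mem _ hvU) (U.smul_mem _ (hfU _ hvU)))
          · rw [map_sub, map_add, map_smul, map_smul, hφv, hβ]
            simp only [smul_eq_mul, mul_zero, zero_add]
            rw [div_mul_cancel₀ _ hφ1, sub_self]
          · rw [LinearMap.comp_apply, map_sub, map_add, map_smul, map_smul,
              hf v, map_sub, map_add, map_smul, map_smul, map_smul, hφv, hα]
            simp only [smul_eq_mul, mul_zero, add_zero]
            rw [div_mul_cancel₀ _ hφ1, sub_self]
    · intro k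
      rcases k with i | j
      · simp [Sum.map]
      · simp [Sum.map, hinv j]
    · intro k
      rcases k with i | j
      · fin_cases i
        · simp
        · simpa using hz
      · simpa using hc0 j
    · intro k
      rcases k with i | j
      · fin_cases i
        · simp
        · simp [hf v]
      · simpa using hfb j

end Cfsg.Agent.H99
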