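import Mathlib

set_option autoImplicit false

namespace Cfsg.Agent.H99

theorem padicValNat_two_pow_mul_odd (k m : ℕ) (hm : Odd m) : padicValNat 2 (2 ^ k * m) = k := by
  have hm0 : m ≠ 0 := by
    rintro rfl
    exact absurd hm (by decide)
  have : Fact (Nat.Prime 2) := ⟨Nat.prime_two⟩
  rw [padicValNat.mul (pow_ne_zero k (by norm_num)) hm0, padicValNat.prime_pow,
    padicValNat.eq_zero_of_not_dvd (by
      intro h
      rcases hm with ⟨t, rfl⟩
      omega), add_zero]

section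
variable {F : Type*} [Field F] [Fintype F]

/-- If the 2-part of `n` is smaller than that of `q - 1`, then `-1` is an `n`-th power in the
field with `q` elements. -/
theorem exists_pow_eq_neg_one {q : ℕ} (hq : Fintype.card F = q) (n : ℕ) (hn : n ≠ 0)
    (h : padicValNat 2 n < padicValNat 2 (q - 1)) : ∃ l : F, l ^ n = -1 := by
  classical
  have : Fact (Nat.Prime 2) := ⟨Nat.prime_two⟩
  have hq0 : q - 1 ≠ 0 := by
    intro h0
    rw [h0] at h
    simp at h
  obtain ⟨a, m, hm, hnam⟩ := Nat.exists_eq_two_pow_mul_odd hn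
  have ha : padicValNat 2 n = a := by rw [hnam]; exact padicValNat_two_pow_mul_odd a m hm
  have hdvd : 2 ^ (a + 1) ∣ q - 1 := by
    rw [padicValNat_dvd_iff_le hq0]
    omega
  obtain ⟨k, hk⟩ := hdvd
  obtain ⟨g, hg⟩ := IsCyclic.exists_generator (α := Fˣ)
  have hord : orderOf g = q - 1 := by
    rw [orderOf_eq_card_of_forall_mem_zpowers hg, Nat.card_eq_fintype_card, Fintype.card_units, hq]
  have hk0 : k ≠ 0 := by
    rintro rfl
    rw [mul_zero] at hk
    exact hq0 hk
  have hmu : orderOf (g ^ k) = 2 ^ (a + 1) := by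
    rw [orderOf_pow_of_dvd hk0 (by rw [hord, hk]; exact Dvd.intro_left _ rfl), hord, hk,
      Nat.mul_div_cancel _ (Nat.pos_of_ne_zero hk0)]
  have hnu : orderOf ((g ^ k) ^ 2 ^ a) = 2 := by
    rw [orderOf_pow_of_dvd (pow_ne_zero a (by norm_num))
      (by rw [hmu]; exact pow_dvd_pow 2 (Nat.le_succ a)), hmu, pow_succ,
      Nat.mul_div_cancel_left _ (pow_pos (by norm_num) a)]
  have hnu2 : (((g ^ k) ^ 2 ^ a : Fˣ) : F) = -1 := by
    have h1 : ((g ^ k) ^ 2 ^ a) ^ 2 = (1 : Fˣ) := by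
      have h0 := pow_orderOf_eq_one ((g ^ k) ^ 2 ^ a)
      rw [hnu] at h0
      exact h0
    have h2 : (g ^ k) ^ 2 ^ a ≠ (1 : Fˣ) := by
      intro h3
      rw [h3, orderOf_one] at hnu
      omega
    have h3 : ((((g ^ k) ^ 2 ^ a : Fˣ) : F)) ^ 2 = 1 := by
      rw [← Units.val_pow_eq_pow_val, h1, Units.val_one]
    have h4 : ((((g ^ k) ^ 2 ^ a : Fˣ) : F) - 1) * ((((g ^ k) ^ 2 ^ a : Fˣ) : F) + 1) = 0 := by
      linear_combination h3
    rcases mul_eq_zero.mp h4 with h5 | h5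
    · exfalso
      apply h2
      apply Units.ext
      rw [Units.val_one]
      exact sub_eq_zero.mp h5
    · exact eq_neg_of_add_eq_zero_left h5
  refine ⟨((g ^ k : Fˣ) : F), ?_⟩
  rw [hnam, pow_mul, ← Units.val_pow_eq_pow_val, hnu2, hm.neg_one_pow]

/-- If `-1` is an `n`-th power in the field with `q` elements, `q` odd, then the 2-part of `n`
is smaller than that of `q - 1`. -/
theorem padic_lt_of_pow_eq_neg_one {q : ℕ} (hq : Fintype.card F = q) (h2 : (2 : F) ≠ 0) (l : F)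
    (n : ℕ) (hn : n ≠ 0) (h : l ^ n = -1) : padicValNat 2 n < padicValNat 2 (q - 1) := by
  by_contra hle
  push Not at hle
  have hq2 : 2 ≤ q := by rw [← hq]; exact Fintype.one_lt_card
  have hq0 : q - 1 ≠ 0 := by omega
  obtain ⟨b, m', hm', hqb⟩ := Nat.exists_eq_two_pow_mul_odd hq0
  have hb : padicValNat 2 (q - 1) = b := by
    rw [hqb]; exact padicValNat_two_pow_mul_odd b m' hm'
  have hdvd : 2 ^ b ∣ n := by
    have : Fact (Nat.Prime 2) := ⟨Nat.prime_two⟩
    rw [padicValNat_dvd_iff_le hn]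
    omega
  obtain ⟨t, ht⟩ := hdvd
  have hl0 : l ≠ 0 := by
    rintro rfl
    rw [zero_pow hn] at h
    exact one_ne_zero (neg_eq_zero.mp h.symm)
  have h1 : l ^ (n * m') = 1 := by
    have h3 : n * m' = (q - 1) * t := by rw [ht, hqb]; ring
    rw [h3, pow_mul, ← hq, FiniteField.pow_card_sub_one_eq_one l hl0, one_pow]
  have h3 : l ^ (n * m') = -1 := by
    rw [pow_mul, h, hm'.neg_one_pow]
  rw [h1] at h3
  apply h2
  linear_combination h3

end

section
variable {F : Type*} [Field F] [Fintype F]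

theorem ringChar_ne_two_of_two_ne_zero (h2 : (2 : F) ≠ 0) : ringChar F ≠ 2 := by
  intro h
  have : CharP F 2 := ringChar.eq_iff.mp h
  exact h2 CharTwo.two_eq_zero

/-- A non-square `z` with `(-z)^d = 1` forces the 2-part of `2d` to exceed that of `q - 1`
(when `4 ∣ q - 1`). -/
theorem nonsquare_det_contra {q : ℕ} (hq : Fintype.card F = q) (h2 : (2 : F) ≠ 0)
    (h4 : 4 ∣ q - 1) (z : F) (hz : ∀ s : F, s * s ≠ z) (d : ℕ) (hd : d ≠ 0)
    (hdet : (-z) ^ d = 1) : padicValNat 2 (q - 1) < padicValNat 2 (d + d) := by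
  by_contra hle
  push Not at hle
  have hz0 : z ≠ 0 := by
    rintro rfl
    exact hz 0 (by simp)
  have hchar : ringChar F ≠ 2 := ringChar_ne_two_of_two_ne_zero h2
  have hq2 : 2 ≤ q := by rw [← hq]; exact Fintype.one_lt_card
  have hq1 : q - 1 ≠ 0 := by omega
  obtain ⟨t, ht⟩ := h4
  have hhalf : Fintype.card F / 2 = 2 * t := by rw [hq]; omega
  have hzh : z ^ (2 * t) = -1 := by
    rcases FiniteField.pow_dichotomy hchar hz0 with h | h
    · exfalso
      obtain ⟨r, hr⟩ := (FiniteField.isSquare_iff hchar hz0).mpr h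
      exact hz r hr.symm
    · rw [hhalf] at h
      exact h
  obtain ⟨a, m', hm', hdam⟩ := Nat.exists_eq_two_pow_mul_odd hd
  have hva : padicValNat 2 (d + d) = a + 1 := by
    have h5 : d + d = 2 ^ (a + 1) * m' := by rw [hdam]; ring
    rw [h5]
    exact padicValNat_two_pow_mul_odd (a + 1) m' hm'
  have hdvd : 2 ^ (a + 1) ∣ q - 1 := by
    have : Fact (Nat.Prime 2) := ⟨Nat.prime_two⟩
    rw [padicValNat_dvd_iff_le hq1]
    omega
  obtain ⟨u, hu⟩ := hdvd
  have hexp : 2 * t * m' = d * u := by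
    obtain ⟨w, hw⟩ : ∃ w, w = 2 ^ a * u := ⟨_, rfl⟩
    have h5 : q - 1 = 2 * w := by rw [hu, hw, pow_succ]; ring
    have h6 : 2 * t = w := by omega
    rw [h6, hw, hdam]
    ring
  have h6 : (-z) ^ (2 * t * m') = 1 := by rw [hexp, pow_mul, hdet, one_pow]
  have h7 : (-z) ^ (2 * t * m') = -1 := by
    rw [pow_mul, neg_pow, hzh, pow_mul, neg_one_sq, one_pow, one_mul, hm'.neg_one_pow]
  rw [h6] at h7
  apply h2
  linear_combination h7

/-- If the 2-part of `2d` exceeds that of `q - 1` (`q` odd), there is a non-square `z` with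
`(-z)^d = 1`. -/
theorem exists_nonsquare_pow {q : ℕ} (hq : Fintype.card F = q) (hqodd : Odd q) (d : ℕ)
    (hlt : padicValNat 2 (q - 1) < padicValNat 2 (d + d)) :
    ∃ z : F, z ≠ 0 ∧ (∀ s : F, s * s ≠ z) ∧ (-z) ^ d = 1 := by
  classical
  have : Fact (Nat.Prime 2) := ⟨Nat.prime_two⟩
  have hq2 : 2 ≤ q := by rw [← hq]; exact Fintype.one_lt_card
  have hq1 : q - 1 ≠ 0 := by omega
  obtain ⟨v, k', hk', hqv⟩ := Nat.exists_eq_two_pow_mul_odd hq1
  have hv : padicValNat 2 (q - 1) = v := by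
    rw [hqv]; exact padicValNat_two_pow_mul_odd v k' hk'
  have hv1 : 1 ≤ v := by
    by_contra h0
    have hv0 : v = 0 := by omega
    subst hv0
    rw [pow_zero, one_mul] at hqv
    rcases hqodd with ⟨a, ha⟩
    rcases hk' with ⟨b, hb⟩
    omega
  have hd0 : d ≠ 0 := by
    rintro rfl
    simp at hlt
  obtain ⟨a, m', hm', hdam⟩ := Nat.exists_eq_two_pow_mul_odd hd0
  have hva : padicValNat 2 (d + d) = a + 1 := by
    have h5 : d + d = 2 ^ (a + 1) * m' := by rw [hdam]; ring
    rw [h5]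
    exact padicValNat_two_pow_mul_odd (a + 1) m' hm'
  have hva' : v ≤ a := by omega
  obtain ⟨g, hg⟩ := IsCyclic.exists_generator (α := Fˣ)
  have hord : orderOf g = q - 1 := by
    rw [orderOf_eq_card_of_forall_mem_zpowers hg, Nat.card_eq_fintype_card, Fintype.card_units, hq]
  have hk0 : k' ≠ 0 := by
    rintro rfl
    exact absurd hk' (by decide)
  have hmu : orderOf (g ^ k') = 2 ^ v := by
    rw [orderOf_pow_of_dvd hk0 (by rw [hord, hqv]; exact Dvd.intro_left _ rfl), hord, hqv,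
      Nat.mul_div_cancel _ (Nat.pos_of_ne_zero hk0)]
  obtain ⟨v', rfl⟩ : ∃ v', v = v' + 1 := ⟨v - 1, by omega⟩
  refine ⟨((g ^ k' : Fˣ) : F), Units.ne_zero _, ?_, ?_⟩
  · intro s hs
    have hs0 : s ≠ 0 := by
      rintro rfl
      rw [mul_zero] at hs
      exact Units.ne_zero _ hs.symm
    obtain ⟨s', hs'⟩ : ∃ s' : Fˣ, (s' : F) = s := ⟨Units.mk0 s hs0, rfl⟩
    have hs2 : s' ^ 2 = g ^ k' := by
      apply Units.ext
      rw [Units.val_pow_eq_pow_val, hs', pow_two, hs]
    have h1 : s' ^ 2 ^ (v' + 1 + 1) = 1 := by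
      rw [pow_succ' 2 (v' + 1), pow_mul, hs2, ← hmu, pow_orderOf_eq_one]
    have h3 : ¬ s' ^ 2 ^ (v' + 1) = 1 := by
      rw [pow_succ' 2 v', pow_mul, hs2]
      apply pow_ne_one_of_lt_orderOf (pow_ne_zero _ (by norm_num))
      rw [hmu]
      exact Nat.pow_lt_pow_right (by norm_num) (by omega)
    have h4 := orderOf_eq_prime_pow h3 h1
    have h5 : 2 ^ (v' + 1 + 1) ∣ q - 1 := by
      rw [← h4]
      have h6 := orderOf_dvd_natCard s'
      rw [Nat.card_eq_fintype_card, Fintype.card_units, hq] at h6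
      exact h6
    rw [padicValNat_dvd_iff_le hq1] at h5
    omega
  · have hdd : d = 2 ^ (v' + 1) * (2 ^ (a - (v' + 1)) * m') := by
      rw [hdam, ← mul_assoc, ← pow_add]
      congr 2
      omega
    have hzd : ((g ^ k' : Fˣ) : F) ^ d = 1 := by
      rw [← Units.val_pow_eq_pow_val, hdd, pow_mul, ← hmu, pow_orderOf_eq_one, one_pow,
        Units.val_one]
    have hde : Even d := by
      rw [hdd, pow_succ', mul_assoc]
      exact even_two_mul _
    rw [neg_pow, hzd, mul_one, hde.neg_one_pow]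

/-- Every element of the subfield of index two is a square in the big field (odd order). -/
theorem subfield_isSquare (F₀ : Subfield F) {q₀ : ℕ} (hF₀ : Nat.card ↥F₀ = q₀)
    (hq : Fintype.card F = q₀ ^ 2) (hq₀ : Odd q₀) (a : F₀) : ∃ s : F, s * s = (a : F) := by
  classical
  by_cases ha : a = 0
  · exact ⟨0, by rw [ha]; simp⟩
  have h2 : ringChar F ≠ 2 := by
    intro h
    have h3 := FiniteField.even_card_iff_char_two.mp h
    rw [hq] at h3
    have h4 : Odd (q₀ ^ 2) := hq₀.pow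
    rw [Nat.odd_iff] at h4
    omega
  have ha' : (a : F) ≠ 0 := by
    intro h
    exact ha (Subtype.ext h)
  have hsq : IsSquare (a : F) := by
    rw [FiniteField.isSquare_iff h2 ha', hq]
    obtain ⟨t, ht⟩ := hq₀
    have e : q₀ ^ 2 / 2 = (q₀ - 1) * (t + 1) := by
      have h5 : q₀ ^ 2 = 2 * ((q₀ - 1) * (t + 1)) + 1 := by
        rw [ht]
        have : 2 * t + 1 - 1 = 2 * t := by omega
        rw [this]
        ring
      rw [h5]
      omega
    rw [e, pow_mul]
    have : Fintype ↥F₀ := Fintype.ofFinite _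
    have h3 : (a : F) ^ (q₀ - 1) = 1 := by
      have h4 : a ^ (Fintype.card ↥F₀ - 1) = 1 := FiniteField.pow_card_sub_one_eq_one a ha
      rw [← Nat.card_eq_fintype_card, hF₀] at h4
      have h5 := congrArg (fun u : ↥F₀ => (u : F)) h4
      simpa using h5
    rw [h3, one_pow]
  obtain ⟨r, hr⟩ := hsq
  exact ⟨r, hr.symm⟩

end

end Cfsg.Agent.H99
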