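import Cfsg.Agent.H99.Transport

set_option autoImplicit false

namespace Cfsg.Agent.H99

open Module

section
variable {F V : Type*} [Field F] [AddCommGroup V] [Module F V]

/-- The index equivalence turning a basis of pairs into a basis indexed by `Fin 2 × I`. -/
def pairEquiv (I : Type*) : Fin 2 × I ≃ I ⊕ I where
  toFun p := if p.1 = 0 then Sum.inl p.2 else Sum.inr p.2
  invFun := Sum.elim (fun i => (0, i)) (fun i => (1, i))
  left_inv := by
    rintro ⟨a, i⟩
    fin_cases a <;> simp
  right_inv := by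
    rintro (i | i) <;> simp

/-- The determinant of an operator acting on each pair of a basis of pairs through a `2 × 2`
matrix is the product of the determinants of these matrices. -/
theorem det_of_pair_blocks {I : Type*} [Fintype I] [DecidableEq I] (bs : Basis (I ⊕ I) F V)
    (x : V →ₗ[F] V) (M : I → Matrix (Fin 2) (Fin 2) F)
    (hl : ∀ i, x (bs (Sum.inl i)) = M i 0 0 • bs (Sum.inl i) + M i 1 0 • bs (Sum.inr i))
    (hr : ∀ i, x (bs (Sum.inr i)) = M i 0 1 • bs (Sum.inl i) + M i 1 1 • bs (Sum.inr i)) :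
    LinearMap.det x = ∏ i, (M i).det := by
  classical
  obtain ⟨bb, hbb⟩ : ∃ bb : Basis (Fin 2 × I) F V, ∀ p, bb p = bs (pairEquiv I p) :=
    ⟨bs.reindex (pairEquiv I).symm, fun p => by rw [Basis.reindex_apply, Equiv.symm_symm]⟩
  have h0 : ∀ i, bb (0, i) = bs (Sum.inl i) := fun i => by rw [hbb]; rfl
  have h1 : ∀ i, bb (1, i) = bs (Sum.inr i) := fun i => by rw [hbb]; rfl
  have hx : x = Matrix.toLin bb bb (Matrix.blockDiagonal M) := by
    apply bb.ext
    rintro ⟨a, j⟩
    rw [Matrix.toLin_self, Fintype.sum_prod_type, Fin.sum_univ_two]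
    have e0 : ∑ i, Matrix.blockDiagonal M (0, i) (a, j) • bb (0, i) = M j 0 a • bb (0, j) := by
      rw [Finset.sum_eq_single j]
      · rw [Matrix.blockDiagonal_apply, if_pos rfl]
      · intro i _ hij
        rw [Matrix.blockDiagonal_apply, if_neg hij, zero_smul]
      · intro h
        exact absurd (Finset.mem_univ j) h
    have e1 : ∑ i, Matrix.blockDiagonal M (1, i) (a, j) • bb (1, i) = M j 1 a • bb (1, j) := by
      rw [Finset.sum_eq_single j]
      · rw [Matrix.blockDiagonal_apply, if_pos rfl]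
      · intro i _ hij
        rw [Matrix.blockDiagonal_apply, if_neg hij, zero_smul]
      · intro h
        exact absurd (Finset.mem_univ j) h
    rw [e0, e1, h0, h1]
    fin_cases a
    · exact (congrArg x (h0 j)).trans (hl j)
    · exact (congrArg x (h1 j)).trans (hr j)
  rw [hx, LinearMap.det_toLin, Matrix.det_blockDiagonal]

/-- Without eigenvectors, every invariant subspace has even dimension. -/
theorem even_finrank_of_noeigen [FiniteDimensional F V] (x : V →ₗ[F] V) (z : F)
    (hx : ∀ v, x (x v) = z • v) (hev : ∀ v, v ≠ 0 → ∀ μ : F, x v ≠ μ • v) :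
    ∀ (m : ℕ) (U : Submodule F V), finrank F U = m → (∀ u ∈ U, x u ∈ U) → Even m := by
  intro m
  induction m using Nat.strong_induction_on with
  | _ m ih =>
  intro U hU hxU
  by_cases hbot : U = ⊥
  · rw [hbot, finrank_bot] at hU
    rw [← hU]
    exact ⟨0, rfl⟩
  · obtain ⟨v, hvU, hv0⟩ := (Submodule.ne_bot_iff U).mp hbot
    obtain ⟨U', hU'le, hxU', hli, hdisj, hsup⟩ :=
      exists_invariant_compl x z hx U hxU v hvU (hev v hv0)
    have h1 := Submodule.finrank_sup_add_finrank_inf_eq
      (Submodule.span F (Set.range (Sum.elim (fun _ : Unit => v) (fun _ : Unit => x v)))) U'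
    rw [hsup, disjoint_iff.mp hdisj, finrank_bot, add_zero, finrank_span_eq_card hli, hU] at h1
    simp only [Fintype.card_sum, Fintype.card_unit] at h1
    have h2 := ih (finrank F U') (by omega) U' rfl hxU'
    rw [h1]
    exact Even.add ⟨1, rfl⟩ h2

/-- The determinant of an operator with `x ∘ x = z` and no eigenvector. -/
theorem det_of_noeigen [FiniteDimensional F V] (x : V →ₗ[F] V) (z : F)
    (hx : ∀ v, x (x v) = z • v) (hev : ∀ v, v ≠ 0 → ∀ μ : F, x v ≠ μ • v) :
    ∃ d : ℕ, finrank F V = d + d ∧ LinearMap.det x = (-z) ^ d := by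
  classical
  obtain ⟨d, hd⟩ := even_finrank_of_noeigen x z hx hev (finrank F (⊤ : Submodule F V)) ⊤ rfl
    (fun _ _ => Submodule.mem_top)
  obtain ⟨I, _, _, e, f, hli, hsp, hrel⟩ := exists_pairs_swap x z hx
    (fun v hv0 μ hμ => absurd hμ (hev v hv0 μ)) d ⊤ hd (fun _ _ => Submodule.mem_top)
  have hsw : ∀ i, ∃ α β : F, α * β = z ∧ x (e i) = α • f i ∧ x (f i) = β • e i := by
    intro i
    rcases hrel i with ⟨α, β, -, he, -⟩ | ⟨α, β, hαβ, he, hf⟩
    · exact absurd he (hev (e i) (hli.ne_zero (Sum.inl i)) α)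
    · exact ⟨α, β, by rw [hαβ, neg_neg], he, hf⟩
  choose α β hαβ he hf using hsw
  obtain ⟨bs, hbs⟩ : ∃ bs : Basis (I ⊕ I) F V, ∀ k, bs k = Sum.elim e f k :=
    ⟨Basis.mk hli hsp.ge, fun k => Basis.mk_apply _ _ k⟩
  have hcard := Module.finrank_eq_card_basis bs
  rw [finrank_top] at hd
  rw [hd, Fintype.card_sum] at hcard
  refine ⟨d, hd, ?_⟩
  rw [det_of_pair_blocks bs x (fun i => !![0, β i; α i, 0])
    (by intro i; rw [hbs, hbs]; simp [he])
    (by intro i; rw [hbs, hbs]; simp [hf])]
  have h3 : ∀ i, (!![0, β i; α i, 0] : Matrix (Fin 2) (Fin 2) F).det = -z := by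
    intro i
    rw [Matrix.det_fin_two_of, ← hαβ i]
    ring
  rw [Finset.prod_congr rfl (fun i _ => h3 i), Finset.prod_const, Finset.card_univ]
  congr 1
  omega

end

end Cfsg.Agent.H99
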