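import Cfsg.Agent.H99.Pairs

set_option autoImplicit false

namespace Cfsg.Agent.H99

open Module

section
variable {F : Type*} [Field F]

/-- Two bases of `F^n` indexed by the same type are related by a matrix of determinant one, up to
rescaling the vectors of the second basis by prescribed weights whose product is the inverse of a
fixed non-zero scalar. -/
theorem exists_sl_of_bases {n : ℕ} {κ : Type*} [Fintype κ] [DecidableEq κ]
    (b b' : Basis κ F (Fin n → F)) :
    ∃ δ : F, δ ≠ 0 ∧ ∀ w : κ → F, (∏ k, w k) * δ = 1 →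
      ∃ P : Matrix.SpecialLinearGroup (Fin n) F,
        ∀ k, Matrix.toLin' (P : Matrix (Fin n) (Fin n) F) (b k) = w k • b' k := by
  classical
  let P₀ : (Fin n → F) ≃ₗ[F] (Fin n → F) := b.equiv b' (Equiv.refl κ)
  refine ⟨LinearMap.det P₀.toLinearMap, (LinearEquiv.isUnit_det' P₀).ne_zero, ?_⟩
  intro w hw
  let D : (Fin n → F) →ₗ[F] (Fin n → F) := Matrix.toLin b b (Matrix.diagonal w)
  have hD : ∀ k, D (b k) = w k • b k := by
    intro k
    rw [Matrix.toLin_self, Finset.sum_eq_single k]
    · rw [Matrix.diagonal_apply_eq]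
    · intro j _ hj
      rw [Matrix.diagonal_apply_ne _ hj, zero_smul]
    · intro h
      exact absurd (Finset.mem_univ k) h
  have hdetD : LinearMap.det D = ∏ k, w k := by
    rw [LinearMap.det_toLin, Matrix.det_diagonal]
  have hdet : (LinearMap.toMatrix' (P₀.toLinearMap ∘ₗ D)).det = 1 := by
    rw [LinearMap.det_toMatrix', LinearMap.det_comp, hdetD, mul_comm]
    exact hw
  refine ⟨⟨LinearMap.toMatrix' (P₀.toLinearMap ∘ₗ D), hdet⟩, fun k => ?_⟩
  show Matrix.toLin' (LinearMap.toMatrix' (P₀.toLinearMap ∘ₗ D)) (b k) = _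
  rw [Matrix.toLin'_toMatrix', LinearMap.comp_apply, hD, map_smul]
  simp [P₀]

/-- Conjugating by a matrix of determinant one: the conjugate acts on `v` as `x` acts on `P v`. -/
theorem sl_conj_apply {n : ℕ} (P x : Matrix.SpecialLinearGroup (Fin n) F) (v : Fin n → F) :
    Matrix.toLin' (P : Matrix (Fin n) (Fin n) F)
      (Matrix.toLin' ((P⁻¹ * x * P : Matrix.SpecialLinearGroup (Fin n) F) :
        Matrix (Fin n) (Fin n) F) v) =
    Matrix.toLin' (x : Matrix (Fin n) (Fin n) F) (Matrix.toLin' (P : Matrix (Fin n) (Fin n) F) v) := by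
  have h1 : P * (P⁻¹ * x * P) = x * P := by group
  rw [← LinearMap.comp_apply, ← LinearMap.comp_apply, ← Matrix.toLin'_mul, ← Matrix.toLin'_mul,
    ← Matrix.SpecialLinearGroup.coe_mul, ← Matrix.SpecialLinearGroup.coe_mul, h1]

theorem sl_toLin_injective {n : ℕ} (P : Matrix.SpecialLinearGroup (Fin n) F) :
    Function.Injective (Matrix.toLin' (P : Matrix (Fin n) (Fin n) F)) := by
  intro u v huv
  have h1 : P⁻¹ * P = 1 := inv_mul_cancel P
  have h2 := congrArg (fun A : Matrix.SpecialLinearGroup (Fin n) F =>
    (A : Matrix (Fin n) (Fin n) F)) h1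
  simp only [Matrix.SpecialLinearGroup.coe_mul, Matrix.SpecialLinearGroup.coe_one] at h2
  have h3 : ∀ w, Matrix.toLin' ((P⁻¹ : Matrix.SpecialLinearGroup (Fin n) F) :
      Matrix (Fin n) (Fin n) F) (Matrix.toLin' (P : Matrix (Fin n) (Fin n) F) w) = w := by
    intro w
    rw [← LinearMap.comp_apply, ← Matrix.toLin'_mul, h2, Matrix.toLin'_one, LinearMap.id_apply]
  rw [← h3 u, huv, h3 v]

end

section
variable {F V : Type*} [Field F] [AddCommGroup V] [Module F V]

/-- The two eigenspaces of an operator with `x ∘ x = l²`, in characteristic not two. -/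
theorem eigen_decomp (x : V →ₗ[F] V) (l : F) (hl : l ≠ 0) (h2 : (2 : F) ≠ 0)
    (hx : ∀ v, x (x v) = (l * l) • v) :
    Disjoint (LinearMap.ker (x - l • LinearMap.id)) (LinearMap.ker (x + l • LinearMap.id)) ∧
    LinearMap.ker (x - l • LinearMap.id) ⊔ LinearMap.ker (x + l • LinearMap.id) = ⊤ := by
  have h2l : (2 * l : F) ≠ 0 := mul_ne_zero h2 hl
  constructor
  · rw [Submodule.disjoint_def]
    intro v hv hv'
    rw [LinearMap.mem_ker, LinearMap.sub_apply, LinearMap.smul_apply, LinearMap.id_apply,
      sub_eq_zero] at hv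
    rw [LinearMap.mem_ker, LinearMap.add_apply, LinearMap.smul_apply, LinearMap.id_apply,
      hv] at hv'
    have h3 : (2 * l) • v = 0 := by
      rw [mul_smul, two_smul]
      exact hv'
    rcases smul_eq_zero.mp h3 with h | h
    · exact absurd h h2l
    · exact h
  · rw [eq_top_iff]
    intro v _
    rw [Submodule.mem_sup]
    refine ⟨(2 * l)⁻¹ • (x v + l • v), ?_, (2 * l)⁻¹ • (l • v - x v), ?_, ?_⟩
    · rw [LinearMap.mem_ker, LinearMap.sub_apply, LinearMap.smul_apply, LinearMap.id_apply,
        map_smul, map_add, map_smul, hx, smul_comm l ((2 * l)⁻¹), ← smul_sub]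
      have : (l * l) • v + l • x v - l • (x v + l • v) = 0 := by
        rw [smul_add, mul_smul]; abel
      rw [this, smul_zero]
    · rw [LinearMap.mem_ker, LinearMap.add_apply, LinearMap.smul_apply, LinearMap.id_apply,
        map_smul, map_sub, map_smul, hx, smul_comm l ((2 * l)⁻¹), ← smul_add]
      have : l • x v - (l * l) • v + l • (l • v - x v) = 0 := by
        rw [smul_sub, mul_smul]; abel
      rw [this, smul_zero]
    · rw [← smul_add]
      have : x v + l • v + (l • v - x v) = (2 * l) • v := by
        rw [mul_smul, two_smul]; abel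
      rw [this, smul_smul, inv_mul_cancel₀ h2l, one_smul]

/-- The determinant of an operator acting as scalars on two complementary subspaces. -/
theorem det_of_eigen_decomp [FiniteDimensional F V] (x : V →ₗ[F] V) (U W : Submodule F V)
    (hd : Disjoint U W) (hs : U ⊔ W = ⊤) (α β : F) (hU : ∀ u ∈ U, x u = α • u)
    (hW : ∀ w ∈ W, x w = β • w) :
    LinearMap.det x = α ^ finrank F U * β ^ finrank F W := by
  classical
  let bU := Module.finBasis F U
  let bW := Module.finBasis F W
  have hliU : LinearIndependent F (fun k => (bU k : V)) :=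
    bU.linearIndependent.map' U.subtype (Submodule.ker_subtype U)
  have hliW : LinearIndependent F (fun k => (bW k : V)) :=
    bW.linearIndependent.map' W.subtype (Submodule.ker_subtype W)
  have hspU : Submodule.span F (Set.range (fun k => (bU k : V))) = U := by
    have h1 : Set.range (fun k => (bU k : V)) = U.subtype '' Set.range bU := by
      rw [← Set.range_comp]; rfl
    rw [h1, Submodule.span_image, bU.span_eq, Submodule.map_subtype_top]
  have hspW : Submodule.span F (Set.range (fun k => (bW k : V))) = W := by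
    have h1 : Set.range (fun k => (bW k : V)) = W.subtype '' Set.range bW := by
      rw [← Set.range_comp]; rfl
    rw [h1, Submodule.span_image, bW.span_eq, Submodule.map_subtype_top]
  have hli : LinearIndependent F (Sum.elim (fun k => (bU k : V)) (fun k => (bW k : V))) :=
    LinearIndependent.sum_type hliU hliW (by rw [hspU, hspW]; exact hd)
  have hsp : ⊤ ≤ Submodule.span F
      (Set.range (Sum.elim (fun k => (bU k : V)) (fun k => (bW k : V)))) := by
    rw [Set.Sum.elim_range, Submodule.span_union, hspU, hspW, hs]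
  let bas := Basis.mk hli hsp
  have hxj : ∀ j, x (bas j) = (Sum.elim (fun _ => α) (fun _ => β) j) • bas j := by
    intro j
    rw [Basis.mk_apply]
    rcases j with j | j
    · exact hU _ (bU j).2
    · exact hW _ (bW j).2
  have hmat : LinearMap.toMatrix bas bas x =
      Matrix.diagonal (Sum.elim (fun _ => α) (fun _ => β)) := by
    ext i j
    rw [LinearMap.toMatrix_apply, Matrix.diagonal_apply, hxj, map_smul, Basis.repr_self,
      Finsupp.smul_apply, Finsupp.single_apply, smul_eq_mul]
    by_cases h : i = j
    · subst h; simp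
    · have h' : ¬ j = i := fun h' => h h'.symm
      simp [h, h']
  rw [← LinearMap.det_toMatrix bas, hmat, Matrix.det_diagonal, Fintype.prod_sum_type]
  simp only [Sum.elim_inl, Sum.elim_inr, Finset.prod_const, Finset.card_univ, Fintype.card_fin]

end

section
variable {F V : Type*} [Field F] [AddCommGroup V] [Module F V]

/-- A basis of eigenvectors for an operator acting as scalars on two complementary subspaces. -/
theorem exists_eigenbasis [FiniteDimensional F V] (x : V →ₗ[F] V) (U W : Submodule F V)
    (hd : Disjoint U W) (hs : U ⊔ W = ⊤) (α β : F) (hU : ∀ u ∈ U, x u = α • u)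
    (hW : ∀ w ∈ W, x w = β • w) :
    ∃ bas : Basis (Fin (finrank F U) ⊕ Fin (finrank F W)) F V,
      ∀ j, x (bas j) = (Sum.elim (fun _ => α) (fun _ => β) j) • bas j := by
  classical
  let bU := Module.finBasis F U
  let bW := Module.finBasis F W
  have hliU : LinearIndependent F (fun k => (bU k : V)) :=
    bU.linearIndependent.map' U.subtype (Submodule.ker_subtype U)
  have hliW : LinearIndependent F (fun k => (bW k : V)) :=
    bW.linearIndependent.map' W.subtype (Submodule.ker_subtype W)
  have hspU : Submodule.span F (Set.range (fun k => (bU k : V))) = U := by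
    have h1 : Set.range (fun k => (bU k : V)) = U.subtype '' Set.range bU := by
      rw [← Set.range_comp]; rfl
    rw [h1, Submodule.span_image, bU.span_eq, Submodule.map_subtype_top]
  have hspW : Submodule.span F (Set.range (fun k => (bW k : V))) = W := by
    have h1 : Set.range (fun k => (bW k : V)) = W.subtype '' Set.range bW := by
      rw [← Set.range_comp]; rfl
    rw [h1, Submodule.span_image, bW.span_eq, Submodule.map_subtype_top]
  have hli : LinearIndependent F (Sum.elim (fun k => (bU k : V)) (fun k => (bW k : V))) :=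
    LinearIndependent.sum_type hliU hliW (by rw [hspU, hspW]; exact hd)
  have hsp : ⊤ ≤ Submodule.span F
      (Set.range (Sum.elim (fun k => (bU k : V)) (fun k => (bW k : V)))) := by
    rw [Set.Sum.elim_range, Submodule.span_union, hspU, hspW, hs]
  refine ⟨Basis.mk hli hsp, fun j => ?_⟩
  rw [Basis.mk_apply]
  rcases j with j | j
  · exact hU _ (bU j).2
  · exact hW _ (bW j).2

theorem sq_inj_of_two_eq_zero (h2 : (2 : F) = 0) {a b : F} (h : a * a = b * b) : a = b := by
  have h1 : (a - b) * (a - b) = 0 := by linear_combination h + (b * b - a * b) * h2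
  exact sub_eq_zero.mp (mul_self_eq_zero.mp h1)

end

section
variable {F : Type*} [Field F] {n : ℕ}

theorem sq_scalar_ne_zero (hn : 0 < n) (x : Matrix.SpecialLinearGroup (Fin n) F) (z : F)
    (hxz : ∀ v, Matrix.toLin' (x : Matrix (Fin n) (Fin n) F)
      (Matrix.toLin' (x : Matrix (Fin n) (Fin n) F) v) = z • v) : z ≠ 0 := by
  intro h0
  have hinj := sl_toLin_injective x
  obtain ⟨v, hv0⟩ : ∃ v : Fin n → F, v ≠ 0 :=
    ⟨Pi.single ⟨0, hn⟩ 1, fun h => by
      have := congrFun h ⟨0, hn⟩
      simp at this⟩
  have h1 := hxz v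
  rw [h0, zero_smul] at h1
  have h2 : Matrix.toLin' (x : Matrix (Fin n) (Fin n) F) v = 0 := hinj (by rw [h1, map_zero])
  exact hv0 (hinj (by rw [h2, map_zero]))

theorem sl_sq_apply (x : Matrix.SpecialLinearGroup (Fin n) F) (z : F)
    (hz : ((x ^ 2 : Matrix.SpecialLinearGroup (Fin n) F) : Matrix (Fin n) (Fin n) F) =
      z • (1 : Matrix (Fin n) (Fin n) F)) (v : Fin n → F) :
    Matrix.toLin' (x : Matrix (Fin n) (Fin n) F)
      (Matrix.toLin' (x : Matrix (Fin n) (Fin n) F) v) = z • v := by
  rw [← LinearMap.comp_apply, ← Matrix.toLin'_mul, ← Matrix.SpecialLinearGroup.coe_mul,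
    ← pow_two, hz]
  simp

end

end Cfsg.Agent.H99
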