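import Cfsg.Prelude.Def_GeometricClasses
import Cfsg.Agent.H99.Transport
import Cfsg.Agent.H99.Invol
import Cfsg.Agent.H99.Blocks
import Cfsg.Agent.H99.NT
import Cfsg.Agent.H99.PairDet

set_option autoImplicit false

namespace Cfsg.Agent.H99

open Module

section
variable {F : Type*} [Field F] {n : ℕ}

/-- A non-zero scalar multiple of a matrix with entries in the subfield lies in the subfield
subgroup. -/
theorem mem_subfield_of_smul (F₀ : Subfield F) (g : GL (Fin n) F) (c : F) (hc : c ≠ 0)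
    (M₀ : Matrix (Fin n) (Fin n) F₀)
    (hg : (g : Matrix (Fin n) (Fin n) F) = c • M₀.map F₀.subtype) :
    g ∈ Cfsg.Geo.subfieldSubgroup F₀ 1 := by
  have hdet : M₀.det ≠ 0 := by
    intro h0
    have h1 : (g : Matrix (Fin n) (Fin n) F).det = 0 := by
      rw [hg, Matrix.det_smul, ← RingHom.mapMatrix_apply, ← RingHom.map_det, h0, map_zero,
        mul_zero]
    exact (Matrix.isUnits_det_units g).ne_zero h1
  obtain ⟨A, hA⟩ : ∃ A : GL (Fin n) F₀, (A : Matrix (Fin n) (Fin n) F₀) = M₀ :=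
    ⟨Matrix.GeneralLinearGroup.mkOfDetNeZero M₀ hdet, rfl⟩
  obtain ⟨Ai, hAi⟩ : ∃ Ai : GL (Fin n) F, Ai = Matrix.GeneralLinearGroup.map F₀.subtype A :=
    ⟨_, rfl⟩
  have hAiv : (Ai : Matrix (Fin n) (Fin n) F) = M₀.map F₀.subtype := by
    ext i j
    rw [hAi, Matrix.GeneralLinearGroup.map_apply, hA]
    rfl
  have hs : Ai⁻¹ * g ∈ Cfsg.Geo.scalars (Fin n) F := by
    rw [Cfsg.Geo.mem_scalars_iff]
    refine ⟨Units.mk0 c hc, ?_⟩
    rw [Units.val_mul, hg, ← hAiv, Matrix.mul_smul, ← Units.val_mul, inv_mul_cancel,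
      Units.val_one]
    rfl
  have hmem : Ai * (Ai⁻¹ * g) ∈
      (Matrix.GeneralLinearGroup.map (F₀.subtype : F₀ →+* F)).range ⊔ Cfsg.Geo.scalars (Fin n) F :=
    Subgroup.mul_mem_sup ⟨A, hAi.symm⟩ hs
  rw [mul_inv_cancel_left] at hmem
  unfold Cfsg.Geo.subfieldSubgroup
  rw [Subgroup.mem_map]
  exact ⟨g, hmem, by simp⟩

/-- Every element of the subfield subgroup is a non-zero scalar multiple of a matrix with entries
in the subfield. -/
theorem exists_smul_of_mem_subfield (F₀ : Subfield F) (g : GL (Fin n) F)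
    (hg : g ∈ Cfsg.Geo.subfieldSubgroup F₀ 1) :
    ∃ (c : F) (M₀ : Matrix (Fin n) (Fin n) F₀), c ≠ 0 ∧
      (g : Matrix (Fin n) (Fin n) F) = c • M₀.map F₀.subtype := by
  unfold Cfsg.Geo.subfieldSubgroup at hg
  rw [Subgroup.mem_map] at hg
  obtain ⟨h, hh, hhg⟩ := hg
  have hhg' : h = g := by simpa using hhg
  rw [hhg', ← SetLike.mem_coe, Subgroup.mul_normal, Set.mem_mul] at hh
  obtain ⟨a, ha, s, hs, has⟩ := hh
  obtain ⟨A, rfl⟩ := ha
  rw [SetLike.mem_coe, Cfsg.Geo.mem_scalars_iff] at hs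
  obtain ⟨c, hc⟩ := hs
  refine ⟨c, (A : Matrix (Fin n) (Fin n) F₀), c.ne_zero, ?_⟩
  rw [← has, Units.val_mul, hc, Matrix.mul_smul, Matrix.mul_one]
  congr 1

end

section
variable {F : Type*} [Field F] {n : ℕ}

/-- If `x` permutes, up to the scalar `l` and signs in the subfield, the members of a basis
through an involution of the index set, then `x` is conjugate into the subfield subgroup by a
matrix of determinant one (provided the involution has a fixed point or every element of `F` is a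
square). -/
theorem subfield_conj (F₀ : Subfield F) (hn : 0 < n) (x : Matrix.SpecialLinearGroup (Fin n) F)
    {κ : Type*} [Fintype κ] [DecidableEq κ] (b : Basis κ F (Fin n → F)) (π : κ → κ)
    (hπ : Function.Involutive π) (ε : κ → F₀) (l : F) (hl : l ≠ 0)
    (hx : ∀ k, Matrix.toLin' (x : Matrix (Fin n) (Fin n) F) (b k) = (l * (ε k : F)) • b (π k))
    (hsq : (∃ k, π k = k) ∨ ∀ a : F, ∃ μ : F, μ * μ = a) :
    ∃ P : Matrix.SpecialLinearGroup (Fin n) F,
      P⁻¹ * x * P ∈ (Cfsg.Geo.subfieldSubgroup F₀ 1).comap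
        (Matrix.SpecialLinearGroup.toGL : Matrix.SpecialLinearGroup (Fin n) F →* GL (Fin n) F) := by
  classical
  have hcard : Fintype.card κ = n := by
    rw [← Module.finrank_eq_card_basis b, Module.finrank_fin_fun]
  obtain ⟨ρ⟩ : Nonempty (Fin n ≃ κ) := ⟨Fintype.equivOfCardEq (by rw [Fintype.card_fin, hcard])⟩
  obtain ⟨st, hst⟩ : ∃ st : Basis κ F (Fin n → F), ∀ k, st k = Pi.single (ρ.symm k) 1 := by
    refine ⟨(Pi.basisFun F (Fin n)).reindex ρ, fun k => ?_⟩
    rw [Basis.reindex_apply, Pi.basisFun_apply]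
  obtain ⟨δ, hδ, hP⟩ := exists_sl_of_bases st b
  obtain ⟨w, hwprod, hwπ⟩ : ∃ w : κ → F, (∏ k, w k) * δ = 1 ∧ (∀ k, w (π k) = w k) := by
    by_cases hfix : ∃ k, π k = k
    · obtain ⟨k₀, hk₀⟩ := hfix
      refine ⟨fun k => if k = k₀ then δ⁻¹ else 1, ?_, ?_⟩
      · rw [Finset.prod_ite_eq' Finset.univ k₀ (fun _ => δ⁻¹)]
        simp [hδ]
      · intro k
        by_cases hk : k = k₀
        · rw [hk, hk₀]
        · have h1 : π k ≠ k₀ := fun h => hk (by rw [← hπ k, h, hk₀])
          simp [hk, h1]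
    · push Not at hfix
      have hall : ∀ a : F, ∃ μ : F, μ * μ = a := by
        rcases hsq with ⟨k, hk⟩ | h
        · exact absurd hk (hfix k)
        · exact h
      obtain ⟨μ, hμ⟩ := hall δ⁻¹
      have hκ : Nonempty κ := by
        rw [← Fintype.card_pos_iff, hcard]
        exact hn
      obtain ⟨k₀⟩ := hκ
      refine ⟨fun k => if k = k₀ ∨ k = π k₀ then μ else 1, ?_, ?_⟩
      · have h1 : ∏ k, (if k = k₀ ∨ k = π k₀ then μ else 1) = μ * μ := by
          rw [Finset.prod_ite, Finset.prod_const_one, mul_one, Finset.prod_const]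
          have hfilter : Finset.filter (fun k => k = k₀ ∨ k = π k₀) Finset.univ = {k₀, π k₀} := by
            ext k
            simp
          rw [hfilter, Finset.card_pair (Ne.symm (hfix k₀)), pow_two]
        rw [h1, hμ, inv_mul_cancel₀ hδ]
      · intro k
        have h1 : (π k = k₀ ∨ π k = π k₀) ↔ (k = k₀ ∨ k = π k₀) := by
          constructor
          · rintro (h | h)
            · right; rw [← h, hπ k]
            · left; exact hπ.injective h
          · rintro (h | h)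
            · right; rw [h]
            · left; rw [h, hπ k₀]
        simp only [h1]
  obtain ⟨P, hPb⟩ := hP w hwprod
  refine ⟨P, ?_⟩
  have hy : ∀ k, Matrix.toLin' ((P⁻¹ * x * P : Matrix.SpecialLinearGroup (Fin n) F) :
      Matrix (Fin n) (Fin n) F) (st k) = (l * (ε k : F)) • st (π k) := by
    intro k
    apply sl_toLin_injective P
    rw [sl_conj_apply, hPb, map_smul, hx, map_smul, hPb, hwπ, smul_comm]
  rw [Subgroup.mem_comap]
  apply mem_subfield_of_smul F₀ _ l hl
    (Matrix.of fun i j => if i = ρ.symm (π (ρ j)) then ε (ρ j) else 0)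
  ext i j
  have h1 := congrFun (hy (ρ j)) i
  rw [hst, hst, Equiv.symm_apply_apply, Matrix.toLin'_apply, Matrix.mulVec_single_one] at h1
  rw [Matrix.SpecialLinearGroup.coe_GL_coe_matrix]
  simp only [Matrix.col_apply, Pi.smul_apply, Pi.single_apply, smul_eq_mul] at h1
  rw [h1, Matrix.smul_apply, Matrix.map_apply, Matrix.of_apply, smul_eq_mul]
  by_cases hi : i = ρ.symm (π (ρ j))
  · rw [if_pos hi, if_pos hi]
    simp
  · rw [if_neg hi, if_neg hi]
    simp

end

section
variable {F : Type*} [Field F] {n : ℕ}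

/-- Odd characteristic, scalar square `l²`: conjugate into the subfield subgroup. -/
theorem subfield_conj_sq (F₀ : Subfield F) (hn : 0 < n)
    (x : Matrix.SpecialLinearGroup (Fin n) F) (h2 : (2 : F) ≠ 0) (l : F) (hl : l ≠ 0)
    (hxz : ∀ v, Matrix.toLin' (x : Matrix (Fin n) (Fin n) F)
      (Matrix.toLin' (x : Matrix (Fin n) (Fin n) F) v) = (l * l) • v) :
    ∃ P : Matrix.SpecialLinearGroup (Fin n) F,
      P⁻¹ * x * P ∈ (Cfsg.Geo.subfieldSubgroup F₀ 1).comap
        (Matrix.SpecialLinearGroup.toGL : Matrix.SpecialLinearGroup (Fin n) F →* GL (Fin n) F) := by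
  classical
  obtain ⟨X, hX⟩ : ∃ X : (Fin n → F) →ₗ[F] (Fin n → F),
      X = Matrix.toLin' (x : Matrix (Fin n) (Fin n) F) := ⟨_, rfl⟩
  rw [← hX] at hxz
  obtain ⟨hdisj, hsup⟩ := eigen_decomp X l hl h2 hxz
  have hU : ∀ u ∈ LinearMap.ker (X - l • LinearMap.id), X u = l • u := by
    intro u hu
    rw [LinearMap.mem_ker, LinearMap.sub_apply, LinearMap.smul_apply, LinearMap.id_apply,
      sub_eq_zero] at hu
    exact hu
  have hW : ∀ u ∈ LinearMap.ker (X + l • LinearMap.id), X u = (-l) • u := by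
    intro u hu
    rw [LinearMap.mem_ker, LinearMap.add_apply, LinearMap.smul_apply, LinearMap.id_apply] at hu
    rw [neg_smul]
    exact eq_neg_of_add_eq_zero_left hu
  obtain ⟨bas, hbas⟩ := exists_eigenbasis X _ _ hdisj hsup l (-l) hU hW
  have hne : Nonempty (Fin (finrank F (LinearMap.ker (X - l • LinearMap.id))) ⊕
      Fin (finrank F (LinearMap.ker (X + l • LinearMap.id)))) := by
    rw [← Fintype.card_pos_iff, ← Module.finrank_eq_card_basis bas, Module.finrank_fin_fun]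
    exact hn
  obtain ⟨k₀⟩ := hne
  refine subfield_conj F₀ hn x bas id (fun _ => rfl)
    (Sum.elim (fun _ => (1 : F₀)) (fun _ => (-1 : F₀))) l hl ?_ (Or.inl ⟨k₀, rfl⟩)
  intro k
  rw [← hX, hbas k]
  rcases k with k | k <;> simp

/-- Characteristic two: conjugate into the subfield subgroup. -/
theorem subfield_conj_char_two [Fintype F] (F₀ : Subfield F) (hn : 0 < n)
    (x : Matrix.SpecialLinearGroup (Fin n) F) (h2 : ringChar F = 2) (z : F)
    (hxz : ∀ v, Matrix.toLin' (x : Matrix (Fin n) (Fin n) F)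
      (Matrix.toLin' (x : Matrix (Fin n) (Fin n) F) v) = z • v) :
    ∃ P : Matrix.SpecialLinearGroup (Fin n) F,
      P⁻¹ * x * P ∈ (Cfsg.Geo.subfieldSubgroup F₀ 1).comap
        (Matrix.SpecialLinearGroup.toGL : Matrix.SpecialLinearGroup (Fin n) F →* GL (Fin n) F) := by
  classical
  have hz : z ≠ 0 := sq_scalar_ne_zero hn x z hxz
  have h20 : (2 : F) = 0 := by
    have : CharP F 2 := ringChar.eq_iff.mp h2
    exact CharTwo.two_eq_zero
  have hall : ∀ a : F, ∃ μ : F, μ * μ = a := by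
    intro a
    obtain ⟨r, hr⟩ := FiniteField.isSquare_of_char_two h2 a
    exact ⟨r, hr.symm⟩
  choose sq hsq using hall
  obtain ⟨X, hX⟩ : ∃ X : (Fin n → F) →ₗ[F] (Fin n → F),
      X = Matrix.toLin' (x : Matrix (Fin n) (Fin n) F) := ⟨_, rfl⟩
  rw [← hX] at hxz
  obtain ⟨ι, _, _, b, π, c, hli, hspan, hinv, hc0, hXb⟩ :=
    exists_adapted_family X z hz hxz (finrank F (⊤ : Submodule F (Fin n → F))) ⊤ rfl
      (fun _ _ => Submodule.mem_top)
  have hb0 : ∀ k, b k ≠ 0 := fun k => hli.ne_zero k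
  have hcc : ∀ k, c k * c (π k) = z := by
    intro k
    have h1 := hxz (b k)
    rw [hXb, map_smul, hXb, hinv k, smul_smul] at h1
    have h3 : (c k * c (π k) - z) • b k = 0 := by rw [sub_smul, h1, sub_self]
    rcases smul_eq_zero.mp h3 with h | h
    · exact sub_eq_zero.mp h
    · exact absurd h (hb0 k)
  have hsq0 : ∀ a : F, a ≠ 0 → sq a ≠ 0 := by
    intro a ha h0
    have := hsq a
    rw [h0, mul_zero] at this
    exact ha this.symm
  obtain ⟨bb, hbb⟩ : ∃ bb : Basis ι F (Fin n → F), ∀ k, bb k = sq (c (π k)) • b k := by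
    refine ⟨(Basis.mk hli hspan.ge).isUnitSMul (fun k => (hsq0 _ (hc0 (π k))).isUnit), fun k => ?_⟩
    rw [Basis.isUnitSMul_apply, Basis.mk_apply]
  refine subfield_conj F₀ hn x bb π hinv (fun _ => (1 : F₀)) (sq z) (hsq0 z hz) ?_
    (Or.inr (fun a => ⟨sq a, hsq a⟩))
  intro k
  rw [← hX, hbb, hbb, map_smul, hXb, hinv k, smul_smul, smul_smul]
  congr 1
  apply sq_inj_of_two_eq_zero h20
  have e1 := hsq (c (π k))
  have e2 := hsq z
  have e3 := hsq (c k)
  have e4 := hcc k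
  simp only [Subfield.coe_one, mul_one]
  linear_combination (c k * c k) * e1 - (sq (c k) * sq (c k)) * e2 - z * e3 + c k * e4

end


theorem card_mul_relIndex_of_le {G : Type*} [Group G] (H K : Subgroup G) (h : H ≤ K) :
    Nat.card H * H.relIndex K = Nat.card K := by
  rw [← Subgroup.relIndex_bot_left, ← Subgroup.relIndex_bot_left,
    Subgroup.relIndex_mul_relIndex ⊥ H K bot_le h]

/-- For a normal subgroup `N` of a finite group, the index of `S ∩ N` in `N` divides the index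
of `S`. -/
theorem relIndex_dvd_index_of_normal_right {G : Type*} [Group G] [Finite G] (S N : Subgroup G)
    [N.Normal] : S.relIndex N ∣ S.index := by
  have h1 := card_mul_relIndex_of_le (S ⊓ N) N inf_le_right
  rw [Subgroup.inf_relIndex_right] at h1
  have h2 := card_mul_relIndex_of_le S (S ⊔ N) le_sup_left
  have h3 := card_mul_relIndex_of_le N (S ⊔ N) le_sup_right
  rw [Subgroup.relIndex_sup_right] at h3
  have h4 := card_mul_relIndex_of_le (S ⊓ N) S inf_le_left
  rw [Subgroup.inf_relIndex_left] at h4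
  have h5 : S.relIndex N = S.relIndex (S ⊔ N) := by
    have hpos : 0 < Nat.card ↥(S ⊓ N) * N.relIndex S := by
      rw [h4]; exact Nat.card_pos
    apply Nat.eq_of_mul_eq_mul_left hpos
    calc Nat.card ↥(S ⊓ N) * N.relIndex S * S.relIndex N
        = (Nat.card ↥(S ⊓ N) * S.relIndex N) * N.relIndex S := by ring
      _ = Nat.card ↥(S ⊔ N) := by rw [h1, h3]
      _ = Nat.card ↥(S ⊓ N) * N.relIndex S * S.relIndex (S ⊔ N) := by rw [h4, h2]
  rw [h5]
  exact Subgroup.relIndex_dvd_index_of_le le_sup_left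


theorem geom_sum_mod_two (b : ℕ) (hb : b % 2 = 1) (k : ℕ) :
    (∑ j ∈ Finset.range k, b ^ j) % 2 = k % 2 := by
  induction k with
  | zero => simp
  | succ k ih =>
    rw [Finset.sum_range_succ, Nat.add_mod, ih, Nat.pow_mod, hb, one_pow]
    omega

theorem pow_sub_pow_factor (a b k : ℕ) (hb : 1 ≤ b) :
    a ^ (k + 1) * b ^ (k + 1) - a ^ (k + 1) =
      (a * b - a) * (a ^ k * ∑ j ∈ Finset.range (k + 1), b ^ j) := by
  have h1 : a ^ (k + 1) ≤ a ^ (k + 1) * b ^ (k + 1) :=
    Nat.le_mul_of_pos_right _ (pow_pos hb _)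
  have h2 : a ≤ a * b := Nat.le_mul_of_pos_right _ hb
  zify [h1, h2]
  have hgs := geom_sum_mul (b : ℤ) (k + 1)
  linear_combination (-(a : ℤ) ^ (k + 1)) * hgs

/-- The order of `GL_n(q₀^k)` is an odd multiple of the order of `GL_n(q₀)` when `q₀` and `k` are
odd. -/
theorem card_GL_ratio_odd (q₀ k n : ℕ) (hq₀ : Odd q₀) (hk : Odd k) :
    ∃ C : ℕ, Odd C ∧ ∏ i : Fin n, ((q₀ ^ k) ^ n - (q₀ ^ k) ^ (i : ℕ)) =
      (∏ i : Fin n, (q₀ ^ n - q₀ ^ (i : ℕ))) * C := by
  obtain ⟨k', rfl⟩ : ∃ k', k = k' + 1 := ⟨k - 1, by rcases hk with ⟨t, rfl⟩; omega⟩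
  have hq1 : 1 ≤ q₀ := by rcases hq₀ with ⟨t, rfl⟩; omega
  refine ⟨∏ i : Fin n, ((q₀ ^ (i : ℕ)) ^ k' * ∑ j ∈ Finset.range (k' + 1), (q₀ ^ (n - i)) ^ j),
    ?_, ?_⟩
  · apply Finset.prod_induction _ Odd (fun a b ha hb => ha.mul hb) odd_one
    intro i _
    apply Odd.mul
    · exact (hq₀.pow).pow
    · rw [Nat.odd_iff, geom_sum_mod_two _ (Nat.odd_iff.mp hq₀.pow)]
      exact Nat.odd_iff.mp hk
  · rw [← Finset.prod_mul_distrib]
    refine Finset.prod_congr rfl fun i _ => ?_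
    have hi : (i : ℕ) ≤ n := i.2.le
    have e1 : (q₀ ^ (k' + 1)) ^ n = (q₀ ^ (i : ℕ)) ^ (k' + 1) * (q₀ ^ (n - i)) ^ (k' + 1) := by
      rw [← mul_pow, ← pow_add, Nat.add_sub_cancel' hi, ← pow_mul, ← pow_mul, mul_comm]
    have e2 : (q₀ ^ (k' + 1)) ^ (i : ℕ) = (q₀ ^ (i : ℕ)) ^ (k' + 1) := by
      rw [← pow_mul, ← pow_mul, mul_comm]
    have e3 : q₀ ^ n = q₀ ^ (i : ℕ) * q₀ ^ (n - i) := by
      rw [← pow_add, Nat.add_sub_cancel' hi]
    rw [e1, e2, e3]
    exact pow_sub_pow_factor _ _ k' (Nat.one_le_pow _ _ hq1)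

section
variable {F : Type*} [Field F] {n : ℕ}

theorem toGL_range_eq_ker :
    (Matrix.SpecialLinearGroup.toGL : Matrix.SpecialLinearGroup (Fin n) F →* GL (Fin n) F).range =
      (Matrix.GeneralLinearGroup.det : GL (Fin n) F →* Fˣ).ker := by
  ext g
  rw [MonoidHom.mem_range, MonoidHom.mem_ker]
  constructor
  · rintro ⟨s, rfl⟩
    apply Units.ext
    simp
  · intro h
    have hdet : (g : Matrix (Fin n) (Fin n) F).det = 1 := by
      have := congrArg Units.val h
      simpa using this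
    exact ⟨⟨(g : Matrix (Fin n) (Fin n) F), hdet⟩, Units.ext rfl⟩

/-- For `q` odd and `k` odd the subfield subgroup has odd index in `SL_n(q)`. -/
theorem subfield_index_odd [Fintype F] {q q₀ k : ℕ} (hq : Fintype.card F = q) (F₀ : Subfield F)
    (hF₀ : Nat.card ↥F₀ = q₀) (hqk : q = q₀ ^ k) (hqodd : Odd q) (hkodd : Odd k) :
    ¬ 2 ∣ ((Cfsg.Geo.subfieldSubgroup F₀ 1).comap (Matrix.SpecialLinearGroup.toGL :
      Matrix.SpecialLinearGroup (Fin n) F →* GL (Fin n) F)).index := by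
  classical
  intro h2
  have : Fintype ↥F₀ := Fintype.ofFinite _
  have hq₀odd : Odd q₀ := by
    rw [hqk] at hqodd
    by_contra h
    rw [Nat.not_odd_iff_even] at h
    have hk0 : k ≠ 0 := by
      rintro rfl
      exact absurd hkodd (by decide)
    exact (Nat.not_even_iff_odd.mpr hqodd) (Nat.even_pow.mpr ⟨h, hk0⟩)
  have hN : ((Matrix.SpecialLinearGroup.toGL :
      Matrix.SpecialLinearGroup (Fin n) F →* GL (Fin n) F).range).Normal := by
    rw [toGL_range_eq_ker]
    infer_instance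
  rw [Subgroup.index_comap] at h2
  have d1 := relIndex_dvd_index_of_normal_right (Cfsg.Geo.subfieldSubgroup F₀ (1 : GL (Fin n) F))
    (Matrix.SpecialLinearGroup.toGL :
      Matrix.SpecialLinearGroup (Fin n) F →* GL (Fin n) F).range
  have hle : (Matrix.GeneralLinearGroup.map (F₀.subtype : F₀ →+* F)).range ≤
      Cfsg.Geo.subfieldSubgroup F₀ (1 : GL (Fin n) F) := by
    intro g hg
    unfold Cfsg.Geo.subfieldSubgroup
    rw [Subgroup.mem_map]
    exact ⟨g, Subgroup.mem_sup_left hg, by simp⟩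
  have d2 := Subgroup.index_dvd_of_le hle
  have hinj : Function.Injective (Matrix.GeneralLinearGroup.map (F₀.subtype : F₀ →+* F) :
      GL (Fin n) F₀ → GL (Fin n) F) := by
    intro A B hAB
    apply Units.ext
    ext i j
    have h3 := congrArg (fun g : GL (Fin n) F => (g : Matrix (Fin n) (Fin n) F) i j) hAB
    simp only [Matrix.GeneralLinearGroup.map_apply] at h3
    exact h3
  have hcardR : Nat.card (Matrix.GeneralLinearGroup.map (F₀.subtype : F₀ →+* F) :
      GL (Fin n) F₀ →* GL (Fin n) F).range = Nat.card (GL (Fin n) F₀) :=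
    (Nat.card_congr (MonoidHom.ofInjective hinj).toEquiv).symm
  have h3 := Subgroup.index_mul_card (Matrix.GeneralLinearGroup.map (F₀.subtype : F₀ →+* F) :
      GL (Fin n) F₀ →* GL (Fin n) F).range
  rw [hcardR, Matrix.card_GL_field, Matrix.card_GL_field, hq, ← Nat.card_eq_fintype_card, hF₀,
    hqk] at h3
  obtain ⟨C, hC, hCeq⟩ := card_GL_ratio_odd q₀ k n hq₀odd hkodd
  rw [hCeq, mul_comm] at h3
  have hB : 0 < ∏ i : Fin n, (q₀ ^ n - q₀ ^ (i : ℕ)) := by
    have h4 := Nat.card_pos (α := GL (Fin n) ↥F₀)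
    rw [Matrix.card_GL_field, ← Nat.card_eq_fintype_card, hF₀] at h4
    exact h4
  have h4 := Nat.eq_of_mul_eq_mul_left hB h3
  have h5 : 2 ∣ C := by
    rw [← h4]
    exact (h2.trans d1).trans d2
  exact (Nat.not_even_iff_odd.mpr hC) (even_iff_two_dvd.mpr h5)

end

section
variable {F : Type*} [Field F] {n : ℕ}

/-- A matrix of determinant one with non-square scalar square `z` is not conjugate into the
subfield subgroup when every element of the subfield is a square. -/
theorem subfield_derangement (F₀ : Subfield F) (d : ℕ) (hd : 0 < d) (z : F)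
    (hzns : ∀ s : F, s * s ≠ z) (hzd : (-z) ^ d = 1) (hsq : ∀ a : F₀, ∃ s : F, s * s = (a : F))
    (hn : n = 2 * d) :
    ∃ x : Matrix.SpecialLinearGroup (Fin n) F,
      (∃ z' : F, ((x ^ 2 : Matrix.SpecialLinearGroup (Fin n) F) : Matrix (Fin n) (Fin n) F) =
        z' • (1 : Matrix (Fin n) (Fin n) F)) ∧
      (∀ z' : F, (x : Matrix (Fin n) (Fin n) F) ≠ z' • (1 : Matrix (Fin n) (Fin n) F)) ∧
      ∀ P : Matrix.SpecialLinearGroup (Fin n) F, P⁻¹ * x * P ∉
        (Cfsg.Geo.subfieldSubgroup F₀ 1).comap (Matrix.SpecialLinearGroup.toGL :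
          Matrix.SpecialLinearGroup (Fin n) F →* GL (Fin n) F) := by
  classical
  obtain ⟨A, hA⟩ : ∃ A : Matrix (Fin 2 × Fin d) (Fin 2 × Fin d) F,
      A = Matrix.blockDiagonal (fun _ : Fin d => !![0, z; 1, 0]) := ⟨_, rfl⟩
  have hAdet : A.det = 1 := by
    rw [hA, Matrix.det_blockDiagonal]
    simp only [Matrix.det_fin_two_of]
    rw [Finset.prod_const, Finset.card_univ, Fintype.card_fin]
    have h1 : (0 * 0 - z * 1 : F) = -z := by ring
    rw [h1, hzd]
  have hAA : A * A = z • (1 : Matrix (Fin 2 × Fin d) (Fin 2 × Fin d) F) := by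
    rw [hA, ← Matrix.blockDiagonal_mul]
    have h1 : (fun _ : Fin d => (!![0, z; 1, 0] : Matrix (Fin 2) (Fin 2) F) * !![0, z; 1, 0]) =
        z • (1 : Fin d → Matrix (Fin 2) (Fin 2) F) := by
      funext k
      ext i j
      fin_cases i <;> fin_cases j <;> simp [Matrix.mul_apply, Fin.sum_univ_two]
    rw [h1, Matrix.blockDiagonal_smul, Matrix.blockDiagonal_one]
  obtain ⟨e⟩ : Nonempty (Fin 2 × Fin d ≃ Fin n) := ⟨finProdFinEquiv.trans (finCongr hn.symm)⟩
  obtain ⟨x, hx⟩ : ∃ x : Matrix.SpecialLinearGroup (Fin n) F,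
      (x : Matrix (Fin n) (Fin n) F) = Matrix.reindexAlgEquiv F F e A :=
    ⟨⟨Matrix.reindexAlgEquiv F F e A, by rw [Matrix.det_reindexAlgEquiv, hAdet]⟩, rfl⟩
  have hxx : (x : Matrix (Fin n) (Fin n) F) * (x : Matrix (Fin n) (Fin n) F) =
      z • (1 : Matrix (Fin n) (Fin n) F) := by
    rw [hx, ← map_mul, hAA, map_smul, map_one]
  have hn0 : 0 < n := by omega
  have hns : ∀ z' : F, (x : Matrix (Fin n) (Fin n) F) ≠ z' • (1 : Matrix (Fin n) (Fin n) F) := by
    intro z' hz'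
    rw [hz'] at hxx
    have h1 := congrFun (congrFun hxx ⟨0, hn0⟩) ⟨0, hn0⟩
    simp at h1
    exact hzns z' h1
  refine ⟨x, ⟨z, by rw [pow_two, Matrix.SpecialLinearGroup.coe_mul, hxx]⟩, hns, ?_⟩
  intro P hP
  rw [Subgroup.mem_comap] at hP
  obtain ⟨c, M₀, hc, hM⟩ := exists_smul_of_mem_subfield F₀ _ hP
  rw [Matrix.SpecialLinearGroup.coe_GL_coe_matrix] at hM
  have hsqm : ((P⁻¹ * x * P : Matrix.SpecialLinearGroup (Fin n) F) : Matrix (Fin n) (Fin n) F) *
      ((P⁻¹ * x * P : Matrix.SpecialLinearGroup (Fin n) F) : Matrix (Fin n) (Fin n) F) =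
      z • (1 : Matrix (Fin n) (Fin n) F) := by
    have h1 : (P⁻¹ * x * P) * (P⁻¹ * x * P) = P⁻¹ * (x * x) * P := by group
    rw [← Matrix.SpecialLinearGroup.coe_mul, h1, Matrix.SpecialLinearGroup.coe_mul,
      Matrix.SpecialLinearGroup.coe_mul, Matrix.SpecialLinearGroup.coe_mul, hxx, Matrix.mul_smul,
      Matrix.mul_one, Matrix.smul_mul, ← Matrix.SpecialLinearGroup.coe_mul, inv_mul_cancel,
      Matrix.SpecialLinearGroup.coe_one]
  rw [hM, Matrix.smul_mul, Matrix.mul_smul, smul_smul, ← Matrix.map_mul] at hsqm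
  have h3 := congrFun (congrFun hsqm ⟨0, hn0⟩) ⟨0, hn0⟩
  simp only [Matrix.smul_apply, Matrix.map_apply, Matrix.one_apply_eq, smul_eq_mul, mul_one,
    Subfield.coe_subtype] at h3
  obtain ⟨s, hs⟩ := hsq ((M₀ * M₀) ⟨0, hn0⟩ ⟨0, hn0⟩)
  apply hzns (c * s)
  rw [← h3]
  linear_combination (c * c) * hs

end

end Cfsg.Agent.H99
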