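import Cfsg.Agent.H99.SubTv
import Cfsg.Agent.H99.Subfield

set_option autoImplicit false

namespace Cfsg.Agent.H99

open Matrix
open scoped MatrixGroups

section
variable {F : Type*} [Field F] {n : ℕ}

theorem act_single (g : GL (Fin n) F) (j i : Fin n) :
    act g (Pi.single j 1) i = (g : Matrix (Fin n) (Fin n) F) i j := by
  unfold act
  rw [Matrix.mulVec_single_one]
  rfl

theorem rat_single (F₀ : Subfield F) (j i : Fin n) :
    (Pi.single j (1 : F) : Fin n → F) i ∈ F₀ := by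
  by_cases h : i = j
  · subst h
    rw [Pi.single_eq_same]
    exact F₀.one_mem
  · rw [Pi.single_eq_of_ne h]
    exact F₀.zero_mem

theorem mem_subfield_iff (F₀ : Subfield F) (g : GL (Fin n) F) :
    g ∈ Cfsg.Geo.subfieldSubgroup F₀ 1 ↔
      ∃ c : F, c ≠ 0 ∧ ∀ i j, c * (g : Matrix (Fin n) (Fin n) F) i j ∈ F₀ := by
  constructor
  · intro hg
    obtain ⟨c, M₀, hc, hgM⟩ := exists_smul_of_mem_subfield F₀ g hg
    refine ⟨c⁻¹, inv_ne_zero hc, fun i j => ?_⟩
    rw [hgM, Matrix.smul_apply, smul_eq_mul, ← mul_assoc, inv_mul_cancel₀ hc, one_mul]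
    exact (M₀ i j).2
  · rintro ⟨c, hc, h⟩
    refine mem_subfield_of_smul F₀ g c⁻¹ (inv_ne_zero hc) (Matrix.of fun i j => ⟨_, h i j⟩) ?_
    ext i j
    rw [Matrix.smul_apply, smul_eq_mul]
    show _ = c⁻¹ * (c * _)
    rw [← mul_assoc, inv_mul_cancel₀ hc, one_mul]

/-- Rational transvections lie in the subfield subgroup. -/
theorem rat_tv_mem (F₀ : Subfield F) (w φ : Fin n → F) (hw : ∀ i, w i ∈ F₀)
    (hφ : ∀ i, φ i ∈ F₀) (h : φ ⬝ᵥ w = 0) :
    ∃ g : GL (Fin n) F, g ∈ Cfsg.Geo.subfieldSubgroup F₀ 1 ⊓ Cfsg.Geo.specialLinear (Fin n) F ∧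
      ∀ x, act g x = x + (φ ⬝ᵥ x) • w := by
  obtain ⟨g, hg, hgx⟩ := exists_transvection w φ h
  refine ⟨g, Subgroup.mem_inf.mpr ⟨?_, hg⟩, hgx⟩
  rw [mem_subfield_iff]
  refine ⟨1, one_ne_zero, fun i j => ?_⟩
  rw [one_mul, ← act_single, hgx, dotProduct_single_one]
  exact F₀.add_mem (rat_single F₀ j i) (F₀.mul_mem (hφ j) (hw i))

/-- The standing hypotheses: `M` lies between the subfield group and `SL_n(F)` and contains no
elementary transvection with an irrational coefficient. -/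
structure SubCtx (F₀ : Subfield F) (M : Subgroup (GL (Fin n) F)) : Prop where
  hn : 4 ≤ n
  le_sl : M ≤ Cfsg.Geo.specialLinear (Fin n) F
  sub_le : Cfsg.Geo.subfieldSubgroup F₀ 1 ⊓ Cfsg.Geo.specialLinear (Fin n) F ≤ M
  hK : ∀ i j : Fin n, i ≠ j → ∀ c : F, Tv M (c • Pi.single i 1) (Pi.single j 1) → c ∈ F₀

variable {F₀ : Subfield F} {M : Subgroup (GL (Fin n) F)}

theorem SubCtx.tv_rat (C : SubCtx F₀ M) (w φ : Fin n → F) (hw : ∀ i, w i ∈ F₀)
    (hφ : ∀ i, φ i ∈ F₀) (h : φ ⬝ᵥ w = 0) : Tv M w φ := by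
  obtain ⟨g, hg, hgx⟩ := rat_tv_mem F₀ w φ hw hφ h
  exact ⟨g, C.sub_le hg, hgx⟩

theorem SubCtx.tv_el (C : SubCtx F₀ M) (i j : Fin n) (hij : i ≠ j) :
    Tv M (Pi.single i 1) (Pi.single j 1) :=
  C.tv_rat _ _ (rat_single F₀ i) (rat_single F₀ j) (by
    rw [dotProduct_single_one, Pi.single_eq_of_ne hij])

/-- A transvection of `M` with centre a coordinate vector has a rational axis. -/
theorem SubCtx.row_rat (C : SubCtx F₀ M) (j : Fin n) (χ : Fin n → F)
    (h : Tv M (Pi.single j 1) χ) (hj : χ j = 0) : ∀ d, χ d ∈ F₀ := by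
  have hn3 : 3 ≤ n := le_trans (by norm_num) C.hn
  intro d
  by_cases hd : d = j
  · rw [hd, hj]
    exact F₀.zero_mem
  · obtain ⟨b, hbj, hbd⟩ := exists_ne_ne hn3 j d
    have h2 : Tv M (Pi.single d 1) (Pi.single b 1) := C.tv_el d b hbd.symm
    have h3 := Tv.comm1 h h2 (by rw [dotProduct_single_one, hj])
      (by rw [dotProduct_single_one, Pi.single_eq_of_ne hbd.symm])
      (by rw [dotProduct_single_one, Pi.single_eq_of_ne hbj.symm])
    rw [dotProduct_single_one] at h3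
    exact C.hK j b hbj.symm _ h3

/-- A transvection of `M` with axis a coordinate functional has a rational centre. -/
theorem SubCtx.col_rat (C : SubCtx F₀ M) (j : Fin n) (w : Fin n → F)
    (h : Tv M w (Pi.single j 1)) (hj : w j = 0) : ∀ d, w d ∈ F₀ := by
  have hn3 : 3 ≤ n := le_trans (by norm_num) C.hn
  intro d
  by_cases hd : d = j
  · rw [hd, hj]
    exact F₀.zero_mem
  · obtain ⟨a, haj, had⟩ := exists_ne_ne hn3 j d
    have h2 : Tv M (Pi.single a 1) (Pi.single d 1) := C.tv_el a d had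
    have h3 := Tv.comm2 h h2 (by rw [single_one_dotProduct, hj])
      (by rw [dotProduct_single_one, Pi.single_eq_of_ne had])
      (by rw [dotProduct_single_one, Pi.single_eq_of_ne haj])
    rw [single_one_dotProduct] at h3
    have h4 := C.hK a j haj _ h3
    have h5 := F₀.neg_mem h4
    rwa [neg_neg] at h5

/-- An element of `M` fixing a coordinate point lies in the subfield group. -/
theorem SubCtx.mem_of_fix (C : SubCtx F₀ M) {g : GL (Fin n) F} (hg : g ∈ M) (j : Fin n)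
    (lam : F) (hgj : act g (Pi.single j 1) = lam • Pi.single j 1) :
    g ∈ Cfsg.Geo.subfieldSubgroup F₀ 1 := by
  have hlam : lam ≠ 0 := by
    rintro rfl
    rw [zero_smul] at hgj
    have h0 := act_injective g (hgj.trans (act_zero g).symm)
    have h1 := congrFun h0 j
    rw [Pi.single_eq_same] at h1
    exact one_ne_zero h1
  have hinv : act g⁻¹ (Pi.single j 1) = lam⁻¹ • Pi.single j 1 := by
    apply act_injective g
    rw [act_act_inv, act_smul, hgj, smul_smul, inv_mul_cancel₀ hlam, one_smul]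
  have hinvj : ∀ i, ((g⁻¹ : GL (Fin n) F) : Matrix (Fin n) (Fin n) F) i j
      = lam⁻¹ * (Pi.single j (1 : F) : Fin n → F) i := by
    intro i
    rw [← act_single, hinv]
    rfl
  have hrow : ∀ i, i ≠ j → ∀ d,
      lam * ((g⁻¹ : GL (Fin n) F) : Matrix (Fin n) (Fin n) F) i d ∈ F₀ := by
    intro i hij d
    have h1 : Tv M (Pi.single j 1) (Pi.single i 1) := C.tv_el j i hij.symm
    have h2 := h1.conj hg
    rw [hgj, Matrix.single_one_vecMul] at h2
    have h3 := h2.smul_swap lam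
    have h4 := C.row_rat j _ h3 (by
      show lam * ((g⁻¹ : GL (Fin n) F) : Matrix (Fin n) (Fin n) F) i j = 0
      rw [hinvj, Pi.single_eq_of_ne hij, mul_zero, mul_zero])
    exact h4 d
  obtain ⟨γ, hγ⟩ : ∃ γ : Fin n → F, ∀ k, γ k =
      lam * ((g⁻¹ : GL (Fin n) F) : Matrix (Fin n) (Fin n) F) j k
        - (Pi.single j (1 : F) : Fin n → F) k := ⟨_, fun _ => rfl⟩
  have hγj : γ j = 0 := by
    rw [hγ, hinvj, Pi.single_eq_same, mul_one, mul_inv_cancel₀ hlam, sub_self]
  obtain ⟨τ, hτ, hτx⟩ := exists_transvection (Pi.single j (1 : F)) (-γ)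
    (by rw [neg_dotProduct, dotProduct_single_one, hγj, neg_zero])
  have hd : g⁻¹ * τ ∈ Cfsg.Geo.subfieldSubgroup F₀ 1 ⊓ Cfsg.Geo.specialLinear (Fin n) F := by
    refine Subgroup.mem_inf.mpr ⟨?_, Subgroup.mul_mem _ (Subgroup.inv_mem _ (C.le_sl hg)) hτ⟩
    rw [mem_subfield_iff]
    refine ⟨lam, hlam, fun i k => ?_⟩
    have e : ((g⁻¹ * τ : GL (Fin n) F) : Matrix (Fin n) (Fin n) F) i k =
        ((g⁻¹ : GL (Fin n) F) : Matrix (Fin n) (Fin n) F) i k
          - γ k * (lam⁻¹ * (Pi.single j (1 : F) : Fin n → F) i) := by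
      rw [← act_single, act_mul, hτx, act_add, act_smul, hinv, neg_dotProduct,
        dotProduct_single_one]
      show act g⁻¹ (Pi.single k 1) i + -γ k * (lam⁻¹ * (Pi.single j (1 : F) : Fin n → F) i) = _
      rw [act_single]
      ring
    rw [e]
    by_cases hij : i = j
    · subst hij
      rw [Pi.single_eq_same, mul_one, mul_sub, ← mul_assoc, mul_comm lam (γ k), mul_assoc,
        mul_inv_cancel₀ hlam, mul_one, hγ k, sub_sub_cancel]
      exact rat_single F₀ i k
    · rw [Pi.single_eq_of_ne hij, mul_zero, mul_zero, sub_zero]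
      exact hrow i hij k
  have hτM : τ ∈ M := by
    have h1 := M.mul_mem hg (C.sub_le hd)
    rwa [mul_inv_cancel_left] at h1
  have h5 := C.row_rat j (-γ) ⟨τ, hτM, hτx⟩ (by rw [Pi.neg_apply, hγj, neg_zero])
  have hginv : g⁻¹ ∈ Cfsg.Geo.subfieldSubgroup F₀ 1 := by
    rw [mem_subfield_iff]
    refine ⟨lam, hlam, fun i k => ?_⟩
    by_cases hij : i = j
    · subst hij
      have h6 : lam * ((g⁻¹ : GL (Fin n) F) : Matrix (Fin n) (Fin n) F) i k
          = (Pi.single i (1 : F) : Fin n → F) k - (-γ) k := by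
        rw [Pi.neg_apply, hγ k]
        ring
      rw [h6]
      exact F₀.sub_mem (rat_single F₀ i k) (h5 k)
    · exact hrow i hij k
  have h7 := Subgroup.inv_mem _ hginv
  rwa [inv_inv] at h7

/-- An element of `M` mapping a coordinate point to a rational point lies in the subfield
group (auxiliary case). -/
theorem SubCtx.mem_of_rat_aux (C : SubCtx F₀ M) {g : GL (Fin n) F} (hg : g ∈ M) (o : Fin n)
    (lam : F) (u : Fin n → F) (hu : ∀ i, u i ∈ F₀) (huo : u o ≠ 0)
    (hgo : act g (Pi.single o 1) = lam • u) : g ∈ Cfsg.Geo.subfieldSubgroup F₀ 1 := by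
  obtain ⟨h, hh, hhx⟩ := rat_tv_mem F₀ (Pi.single o 1 - (u o)⁻¹ • u) (Pi.single o 1)
    (fun i => F₀.sub_mem (rat_single F₀ o i) (F₀.mul_mem (F₀.inv_mem (hu o)) (hu i)))
    (rat_single F₀ o)
    (by
      rw [single_one_dotProduct]
      show (Pi.single o (1 : F) : Fin n → F) o - (u o)⁻¹ * u o = 0
      rw [Pi.single_eq_same, inv_mul_cancel₀ huo, sub_self])
  have h1 : act (h * g) (Pi.single o 1) = (lam * u o) • Pi.single o 1 := by
    rw [act_mul, hgo, act_smul, hhx, single_one_dotProduct, smul_sub, smul_smul,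
      mul_inv_cancel₀ huo, one_smul, mul_smul]
    congr 1
    abel
  have h2 := C.mem_of_fix (M.mul_mem (C.sub_le hh) hg) o _ h1
  have h3 := Subgroup.mul_mem _ (Subgroup.inv_mem _ hh.1) h2
  rwa [inv_mul_cancel_left] at h3

/-- An element of `M` mapping a coordinate point to a rational point lies in the subfield
group. -/
theorem SubCtx.mem_of_rat (C : SubCtx F₀ M) {g : GL (Fin n) F} (hg : g ∈ M) (o : Fin n)
    (lam : F) (u : Fin n → F) (hu : ∀ i, u i ∈ F₀)
    (hgo : act g (Pi.single o 1) = lam • u) : g ∈ Cfsg.Geo.subfieldSubgroup F₀ 1 := by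
  by_cases huo : u o = 0
  · have hu0 : u ≠ 0 := by
      rintro rfl
      rw [smul_zero] at hgo
      have h0 := act_injective g (hgo.trans (act_zero g).symm)
      have h1 := congrFun h0 o
      rw [Pi.single_eq_same] at h1
      exact one_ne_zero h1
    obtain ⟨j, hj⟩ : ∃ j, u j ≠ 0 := by
      by_contra hcon
      push Not at hcon
      exact hu0 (funext hcon)
    have hjo : j ≠ o := by
      rintro rfl
      exact hj huo
    obtain ⟨h, hh, hhx⟩ := rat_tv_mem F₀ (Pi.single o 1) (Pi.single j 1)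
      (rat_single F₀ o) (rat_single F₀ j)
      (by rw [dotProduct_single_one, Pi.single_eq_of_ne hjo.symm])
    have h1 : act (h * g) (Pi.single o 1) = lam • (u + u j • Pi.single o 1) := by
      rw [act_mul, hgo, act_smul, hhx, single_one_dotProduct]
    have h2 := C.mem_of_rat_aux (M.mul_mem (C.sub_le hh) hg) o lam (u + u j • Pi.single o 1)
      (fun i => F₀.add_mem (hu i) (F₀.mul_mem (hu j) (rat_single F₀ o i)))
      (by
        show u o + u j * (Pi.single o (1 : F) : Fin n → F) o ≠ 0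
        rw [huo, zero_add, Pi.single_eq_same, mul_one]
        exact hj) h1
    have h3 := Subgroup.mul_mem _ (Subgroup.inv_mem _ hh.1) h2
    rwa [inv_mul_cancel_left] at h3
  · exact C.mem_of_rat_aux hg o lam u hu huo hgo

/-- An element of `M` mapping a coordinate point to a point with a vanishing coordinate lies in
the subfield group. -/
theorem SubCtx.mem_of_zero (C : SubCtx F₀ M) {m : GL (Fin n) F} (hm : m ∈ M) (o b : Fin n)
    (hbo : b ≠ o) (hb : act m (Pi.single o 1) b = 0) : m ∈ Cfsg.Geo.subfieldSubgroup F₀ 1 := by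
  have hn3 : 3 ≤ n := le_trans (by norm_num) C.hn
  have key : ∀ i, i ≠ o → ∀ a, a ≠ b → ∀ k,
      ((m⁻¹ : GL (Fin n) F) : Matrix (Fin n) (Fin n) F) i a * act m (Pi.single o 1) k ∈ F₀ := by
    intro i hio a hab k
    have h1 : Tv M (Pi.single o 1) (Pi.single i 1) := C.tv_el o i hio.symm
    have h2 := h1.conj hm
    rw [Matrix.single_one_vecMul] at h2
    have hχw : (((m⁻¹ : GL (Fin n) F) : Matrix (Fin n) (Fin n) F).row i) ⬝ᵥ
        act m (Pi.single o 1) = 0 := by
      show act m⁻¹ (act m (Pi.single o 1)) i = 0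
      rw [act_inv_act, Pi.single_eq_of_ne hio]
    have h3 : Tv M (Pi.single a 1) (Pi.single b 1) := C.tv_el a b hab
    have h4 := Tv.comm1 h2 h3 hχw (by rw [dotProduct_single_one, Pi.single_eq_of_ne hab])
      (by rw [single_one_dotProduct, hb])
    rw [dotProduct_single_one] at h4
    have h5 := C.col_rat b _ h4 (by
      show ((m⁻¹ : GL (Fin n) F) : Matrix (Fin n) (Fin n) F) i a * act m (Pi.single o 1) b = 0
      rw [hb, mul_zero])
    exact h5 k
  obtain ⟨i, hio, a, hab, hne⟩ : ∃ i, i ≠ o ∧ ∃ a, a ≠ b ∧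
      ((m⁻¹ : GL (Fin n) F) : Matrix (Fin n) (Fin n) F) i a ≠ 0 := by
    by_contra hcon
    push Not at hcon
    obtain ⟨a₁, ha₁, -⟩ := exists_ne_ne hn3 b b
    obtain ⟨a₂, ha₂, ha₂₁⟩ := exists_ne_ne hn3 b a₁
    have e : ∀ a, a ≠ b → act m⁻¹ (Pi.single a 1) =
        ((m⁻¹ : GL (Fin n) F) : Matrix (Fin n) (Fin n) F) o a • Pi.single o 1 := by
      intro a hab
      funext i
      rw [act_single]
      by_cases hio : i = o
      · subst hio
        show _ = _ * (Pi.single i (1 : F) : Fin n → F) i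
        rw [Pi.single_eq_same, mul_one]
      · show _ = _ * (Pi.single o (1 : F) : Fin n → F) i
        rw [Pi.single_eq_of_ne hio, mul_zero]
        exact hcon i hio a hab
    have h0 : act m⁻¹ (((m⁻¹ : GL (Fin n) F) : Matrix (Fin n) (Fin n) F) o a₂ • Pi.single a₁ 1
        - ((m⁻¹ : GL (Fin n) F) : Matrix (Fin n) (Fin n) F) o a₁ • Pi.single a₂ 1) = 0 := by
      rw [act_sub, act_smul, act_smul, e a₁ ha₁, e a₂ ha₂, smul_smul, smul_smul, mul_comm,
        sub_self]
    have h1 := act_injective m⁻¹ (h0.trans (act_zero m⁻¹).symm)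
    have h2 := congrFun h1 a₁
    have h3 : ((m⁻¹ : GL (Fin n) F) : Matrix (Fin n) (Fin n) F) o a₂ = 0 := by
      have h4 : ((m⁻¹ : GL (Fin n) F) : Matrix (Fin n) (Fin n) F) o a₂
          * (Pi.single a₁ (1 : F) : Fin n → F) a₁
          - ((m⁻¹ : GL (Fin n) F) : Matrix (Fin n) (Fin n) F) o a₁
          * (Pi.single a₂ (1 : F) : Fin n → F) a₁ = 0 := h2
      rwa [Pi.single_eq_same, Pi.single_eq_of_ne ha₂₁.symm, mul_one, mul_zero, sub_zero] at h4
    have h5 := e a₂ ha₂
    rw [h3, zero_smul] at h5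
    have h6 := act_injective m⁻¹ (h5.trans (act_zero m⁻¹).symm)
    have h7 := congrFun h6 a₂
    rw [Pi.single_eq_same] at h7
    exact one_ne_zero h7
  refine C.mem_of_rat hm o (((m⁻¹ : GL (Fin n) F) : Matrix (Fin n) (Fin n) F) i a)⁻¹
    (((m⁻¹ : GL (Fin n) F) : Matrix (Fin n) (Fin n) F) i a • act m (Pi.single o 1))
    (fun k => key i hio a hab k) ?_
  rw [smul_smul, inv_mul_cancel₀ hne, one_smul]

/-- An element of `M` mapping a coordinate point into a rational hyperplane through that point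
lies in the subfield group. -/
theorem SubCtx.mem_of_perp (C : SubCtx F₀ M) {m : GL (Fin n) F} (hm : m ∈ M) (o : Fin n)
    (ψ : Fin n → F) (hψ : ∀ i, ψ i ∈ F₀) (hψo : ψ o = 0) (hψ0 : ψ ≠ 0)
    (hperp : ψ ⬝ᵥ act m (Pi.single o 1) = 0) : m ∈ Cfsg.Geo.subfieldSubgroup F₀ 1 := by
  obtain ⟨b, hb⟩ : ∃ b, ψ b ≠ 0 := by
    by_contra hcon
    push Not at hcon
    exact hψ0 (funext hcon)
  have hbo : b ≠ o := by
    rintro rfl
    exact hb hψo
  obtain ⟨h, hh, hhx⟩ := rat_tv_mem F₀ (Pi.single b 1) ((ψ b)⁻¹ • ψ - Pi.single b 1)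
    (rat_single F₀ b)
    (fun i => F₀.sub_mem (F₀.mul_mem (F₀.inv_mem (hψ b)) (hψ i)) (rat_single F₀ b i))
    (by
      rw [dotProduct_single_one]
      show (ψ b)⁻¹ * ψ b - (Pi.single b (1 : F) : Fin n → F) b = 0
      rw [Pi.single_eq_same, inv_mul_cancel₀ hb, sub_self])
  have h1 : act (h * m) (Pi.single o 1) b = 0 := by
    rw [act_mul, hhx, sub_dotProduct, smul_dotProduct, hperp, single_one_dotProduct]
    show act m (Pi.single o 1) b + ((ψ b)⁻¹ • (0 : F) - act m (Pi.single o 1) b)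
      * (Pi.single b (1 : F) : Fin n → F) b = 0
    rw [Pi.single_eq_same, smul_zero]
    ring
  have h2 := C.mem_of_zero (M.mul_mem (C.sub_le hh) hm) o b hbo h1
  have h3 := Subgroup.mul_mem _ (Subgroup.inv_mem _ hh.1) h2
  rwa [inv_mul_cancel_left] at h3

/-- A non-zero rational functional vanishing at two coordinates and on a given rational
vector. -/
theorem exists_rat_perp (F₀ : Subfield F) (hn : 4 ≤ n) (o j : Fin n) (y : Fin n → F)
    (hy : ∀ i, y i ∈ F₀) :
    ∃ ψ : Fin n → F, (∀ i, ψ i ∈ F₀) ∧ ψ ≠ 0 ∧ ψ o = 0 ∧ ψ j = 0 ∧ ψ ⬝ᵥ y = 0 := by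
  have hn3 : 3 ≤ n := le_trans (by norm_num) hn
  obtain ⟨k₁, hk₁o, hk₁j⟩ := exists_ne_ne hn3 o j
  obtain ⟨k₂, hk₂o, hk₂j, hk₂₁⟩ := exists_ne_ne_ne hn o j k₁
  by_cases h : y k₁ = 0
  · refine ⟨Pi.single k₁ 1, rat_single F₀ k₁, ?_, Pi.single_eq_of_ne hk₁o.symm 1,
      Pi.single_eq_of_ne hk₁j.symm 1, by rw [single_one_dotProduct, h]⟩
    intro h0
    have h1 := congrFun h0 k₁
    rw [Pi.single_eq_same] at h1
    exact one_ne_zero h1
  · refine ⟨y k₂ • Pi.single k₁ 1 - y k₁ • Pi.single k₂ 1,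
      fun i => F₀.sub_mem (F₀.mul_mem (hy k₂) (rat_single F₀ k₁ i))
        (F₀.mul_mem (hy k₁) (rat_single F₀ k₂ i)), ?_, ?_, ?_, ?_⟩
    · intro h0
      have h1 : y k₂ * (Pi.single k₁ (1 : F) : Fin n → F) k₂
          - y k₁ * (Pi.single k₂ (1 : F) : Fin n → F) k₂ = 0 := congrFun h0 k₂
      rw [Pi.single_eq_same, Pi.single_eq_of_ne hk₂₁, mul_zero, zero_sub, mul_one,
        neg_eq_zero] at h1
      exact h h1
    · show y k₂ * (Pi.single k₁ (1 : F) : Fin n → F) o
        - y k₁ * (Pi.single k₂ (1 : F) : Fin n → F) o = 0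
      rw [Pi.single_eq_of_ne hk₁o.symm, Pi.single_eq_of_ne hk₂o.symm, mul_zero, mul_zero,
        sub_zero]
    · show y k₂ * (Pi.single k₁ (1 : F) : Fin n → F) j
        - y k₁ * (Pi.single k₂ (1 : F) : Fin n → F) j = 0
      rw [Pi.single_eq_of_ne hk₁j.symm, Pi.single_eq_of_ne hk₂j.symm, mul_zero, mul_zero,
        sub_zero]
    · rw [sub_dotProduct, smul_dotProduct, smul_dotProduct, single_one_dotProduct,
        single_one_dotProduct, smul_eq_mul, smul_eq_mul, mul_comm, sub_self]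

end

end Cfsg.Agent.H99
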