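import Cfsg.Agent.H99.EmDefs

/-!
# S5990 team project (helper99): second wave of piece statements

Generic counting pieces (any characteristic, any nondegenerate `Q : QuadraticForm F (ι → F)`, type
parameter `pl`), usable for S5974 / S5988 / S5990 alike, and the characteristic-2 witness.
-/

set_option autoImplicit false
open scoped MatrixGroups
open scoped Matrix

namespace Cfsg.Agent.H99.Em

open Cfsg.Agent.H45 Cfsg.Agent.H42.Spd Cfsg.Agent.H42.Ti Cfsg.Agent.H48.Ep Cfsg.Agent.H77.Tq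
  Cfsg.Agent.H77.Tm Module

universe u v

/-- G-ISO: over a finite field (any characteristic), two nondegenerate subspaces of the same even
dimension and the same type are isometric. -/
def StQIso : Prop :=
  ∀ (F : Type u) [Field F] [Fintype F] (V : Type v) [AddCommGroup V] [Module F V]
    [FiniteDimensional F V] (Q : QuadraticForm F V) (W W' : Submodule F V),
    QNd Q W → QNd Q W' → Module.finrank F W = Module.finrank F W' →
    Even (Module.finrank F W) → (QPlus Q W ↔ QPlus Q W') →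
    ∃ e : ↥W ≃ₗ[F] ↥W', ∀ w : ↥W, Q (e w : V) = Q (w : V)

/-- G-ORBTRANS: Witt: two nondegenerate subspaces of the same even dimension and type, both
orthogonal to a nondegenerate subspace `R`, are conjugate under an isometry fixing `R`
pointwise. -/
def StOrbTrans : Prop :=
  ∀ (F : Type u) [Field F] [Fintype F] (ι : Type) [Fintype ι] [DecidableEq ι]
    (Q : QuadraticForm F (ι → F)), QNd Q ⊤ → (Fintype.card F ≠ 2 ∨ Fintype.card ι ≠ 4) →
    ∀ R W W' : Submodule F (ι → F), QNd Q R → QNd Q W → QNd Q W' →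
    W ≤ perp (QuadraticMap.polarBilin Q) R → W' ≤ perp (QuadraticMap.polarBilin Q) R →
    Module.finrank F W = Module.finrank F W' → Even (Module.finrank F W) →
    (QPlus Q W ↔ QPlus Q W') →
    ∃ g : GL ι F, g ∈ Cfsg.isometryGroup F ⇑Q ∧
      (∀ v ∈ R, Matrix.toLin' (g : Matrix ι ι F) v = v) ∧
      W.map (Matrix.toLin' (g : Matrix ι ι F)) = W'

/-- G-CNTORB: if no isometry of order `r` fixes the nondegenerate subspace `R` pointwise, the
number of nondegenerate `m`-spaces of given type orthogonal to `R` is prime to `r` (provided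
there is one). -/
def StCntOrb : Prop :=
  ∀ (F : Type u) [Field F] [Fintype F] (ι : Type) [Fintype ι] [DecidableEq ι]
    (Q : QuadraticForm F (ι → F)) (r m : ℕ) (pl : Prop), QNd Q ⊤ →
    (Fintype.card F ≠ 2 ∨ Fintype.card ι ≠ 4) → r.Prime → Even m →
    ∀ R : Submodule F (ι → F), QNd Q R →
    (∀ g : GL ι F, g ∈ Cfsg.isometryGroup F ⇑Q →
      (∀ v ∈ R, Matrix.toLin' (g : Matrix ι ι F) v = v) → g ^ r = 1 → g = 1) →
    (∃ W : Submodule F (ι → F), Module.finrank F W = m ∧ QNd Q W ∧ (QPlus Q W ↔ pl) ∧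
      W ≤ perp (QuadraticMap.polarBilin Q) R) →
    ¬ r ∣ Nat.card {W : Submodule F (ι → F) // Module.finrank F W = m ∧ QNd Q W ∧
      (QPlus Q W ↔ pl) ∧ W ≤ perp (QuadraticMap.polarBilin Q) R}

/-- EM-TWOWIT: characteristic `2`, `k` even (`d = k + 1` odd), `4 ∣ m`: an involution of `Ω⁻`
fixing no minus-type `m`-space. -/
def StTwoWit : Prop :=
  ∀ (F : Type u) [Field F] [Fintype F] (k m : ℕ) (a b : F), (2 : F) = 0 → Aniso a b → 3 ≤ k →
    Even k → m % 4 = 0 →
    ∃ x : GL (MI k) F, x ∈ Cfsg.Geo.omegaGL (Cfsg.quadFormMinus k F a b) ∧ x ^ 2 = 1 ∧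
      (∀ z : F, (x : Matrix (MI k) (MI k) F) ≠ z • (1 : Matrix (MI k) (MI k) F)) ∧
      ¬ FixE F k a b m x

/-- EM-TWOPOS: characteristic `2`: if `d = k + 1` is even or `m ≡ 2 (mod 4)`, every element of
`Ω⁻` with `x * x = 1` fixes a minus-type `m`-space. -/
def StTwoPos : Prop :=
  ∀ (F : Type u) [Field F] [Fintype F] (k m : ℕ) (a b : F), (2 : F) = 0 → Aniso a b → 3 ≤ k →
    Even m → 2 ≤ m → m ≤ 2 * k → (Even (k + 1) ∨ m % 4 = 2) →
    ∀ x : GL (MI k) F, x ∈ Cfsg.Geo.omegaGL (Cfsg.quadFormMinus k F a b) → x ^ 2 = 1 →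
    FixE F k a b m x

end Cfsg.Agent.H99.Em
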