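import Cfsg.Agent.H99.EmDefs2
import Cfsg.Agent.H48.EpDefs2

/-!
# Involutions of orthogonal groups in characteristic 2 (helper99; for S5974 and S5990)

`T` is an isometry with `T * T = 1` of a nondegenerate quadratic space `(V, Q)` over a finite
field of characteristic `2`; `N = T - 1` (so `N * N = 0`).  An invariant nondegenerate subspace
`X` is of *a-type* if `Q ∘ N = 0` on `X`.  The space is peeled into invariant planes `⟨v, T v⟩`
(`polar v (T v) ≠ 0`), invariant `4`-dimensional a-type blocks `⟨v, N v, w, N w⟩` and a part fixed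
pointwise.  Final statement: `Cfsg.Agent.H99.Em.StI2Pos` (`EmDefs.lean`).
-/

set_option autoImplicit false

namespace Cfsg.Agent.H99.I2

open Cfsg.Agent.H45 Cfsg.Agent.H48.Ep Module

universe u v

section Basic

variable {F : Type u} [Field F] {V : Type v} [AddCommGroup V] [Module F V]

/-- Standing hypotheses: characteristic `2`, `Q` nondegenerate, `T` an isometry with
`T * T = 1`. -/
structure I2Ctx (Q : QuadraticForm F V) (T : Module.End F V) : Prop where
  two : (2 : F) = 0
  nondeg : QNd Q ⊤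
  isom : ∀ v, Q (T v) = Q v
  sq : T * T = 1

/-- `X` is an invariant nondegenerate subspace. -/
def Inv (Q : QuadraticForm F V) (T : Module.End F V) (X : Submodule F V) : Prop :=
  X ∈ T.invtSubmodule ∧ QNd Q X

/-- `X` is of a-type: `Q ((T - 1) v) = 0` for all `v ∈ X`. -/
def AType (Q : QuadraticForm F V) (T : Module.End F V) (X : Submodule F V) : Prop :=
  ∀ v ∈ X, Q ((T - 1) v) = 0

/-- The rank of `T - 1` on `X`. -/
noncomputable def rk (T : Module.End F V) (X : Submodule F V) : ℕ :=
  Module.finrank F ↥(X.map (T - 1))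

end Basic

/-- I2-PERP: the orthogonal complement of an invariant nondegenerate `Y` inside an invariant
nondegenerate `X`. -/
def StI2Perp : Prop :=
  ∀ (F : Type u) [Field F] (V : Type v) [AddCommGroup V] [Module F V] [FiniteDimensional F V]
    (Q : QuadraticForm F V) (T : Module.End F V), I2Ctx Q T →
    ∀ X Y : Submodule F V, Inv Q T X → Inv Q T Y → Y ≤ X →
    Inv Q T (X ⊓ perp (QuadraticMap.polarBilin Q) Y) ∧
      Module.finrank F ↥(X ⊓ perp (QuadraticMap.polarBilin Q) Y) + Module.finrank F Y =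
        Module.finrank F X ∧
      Y ⊔ (X ⊓ perp (QuadraticMap.polarBilin Q) Y) = X ∧
      (∀ x ∈ Y, ∀ y ∈ X ⊓ perp (QuadraticMap.polarBilin Q) Y, QuadraticMap.polar ⇑Q x y = 0) ∧
      rk T X = rk T Y + rk T (X ⊓ perp (QuadraticMap.polarBilin Q) Y)

/-- I2-PLANE: an invariant nondegenerate subspace which is not of a-type contains an invariant
nondegenerate plane on which `T - 1` has rank `1`. -/
def StI2Plane : Prop :=
  ∀ (F : Type u) [Field F] (V : Type v) [AddCommGroup V] [Module F V] [FiniteDimensional F V]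
    (Q : QuadraticForm F V) (T : Module.End F V), I2Ctx Q T →
    ∀ X : Submodule F V, Inv Q T X → ¬ AType Q T X →
    ∃ P : Submodule F V, P ≤ X ∧ Inv Q T P ∧ Module.finrank F P = 2 ∧ rk T P = 1

/-- I2-X4: the orthogonal sum of two invariant nondegenerate planes with `rank (T - 1) = 1`
contains invariant nondegenerate planes of both types. -/
def StI2X4 : Prop :=
  ∀ (F : Type u) [Field F] [Fintype F] (V : Type v) [AddCommGroup V] [Module F V]
    [FiniteDimensional F V] (Q : QuadraticForm F V) (T : Module.End F V), I2Ctx Q T →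
    ∀ P₁ P₂ : Submodule F V, Inv Q T P₁ → Inv Q T P₂ → Module.finrank F P₁ = 2 →
    Module.finrank F P₂ = 2 → rk T P₁ = 1 → rk T P₂ = 1 →
    (∀ x ∈ P₁, ∀ y ∈ P₂, QuadraticMap.polar ⇑Q x y = 0) →
    ∀ pl : Prop, ∃ P : Submodule F V, P ≤ P₁ ⊔ P₂ ∧ Inv Q T P ∧ Module.finrank F P = 2 ∧
      (QPlus Q P ↔ pl)

/-- I2-BLOCK: an invariant nondegenerate subspace of a-type on which `T ≠ 1` contains an
invariant nondegenerate `4`-dimensional subspace of plus type on which `T - 1` has rank `2`. -/
def StI2Block : Prop :=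
  ∀ (F : Type u) [Field F] (V : Type v) [AddCommGroup V] [Module F V] [FiniteDimensional F V]
    (Q : QuadraticForm F V) (T : Module.End F V), I2Ctx Q T →
    ∀ X : Submodule F V, Inv Q T X → AType Q T X → rk T X ≠ 0 →
    ∃ A : Submodule F V, A ≤ X ∧ Inv Q T A ∧ Module.finrank F A = 4 ∧ QPlus Q A ∧ rk T A = 2

/-- I2-ATYPE: an invariant nondegenerate subspace `X` of a-type is the orthogonal sum of `t`
blocks and a part of dimension `k₀ = dim X - 4 t` fixed pointwise (`rank = 2 t`); it contains
invariant nondegenerate subspaces of the dimensions `4 j + e` (`j ≤ t`, `e ≤ k₀` even), of any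
type if `0 < e < k₀`, of plus type if `e = 0`, of the type of `X` if `e = k₀`. -/
def StI2AType : Prop :=
  ∀ (F : Type u) [Field F] [Fintype F] (V : Type v) [AddCommGroup V] [Module F V]
    [FiniteDimensional F V] (Q : QuadraticForm F V) (T : Module.End F V), I2Ctx Q T →
    ∀ X : Submodule F V, Inv Q T X → AType Q T X →
    ∃ t : ℕ, rk T X = 2 * t ∧ 4 * t ≤ Module.finrank F X ∧
      ∀ (m : ℕ) (pl : Prop),
        (∃ j e : ℕ, j ≤ t ∧ m = 4 * j + e ∧ Even e ∧ e ≤ Module.finrank F X - 4 * t ∧
          ((0 < e ∧ e < Module.finrank F X - 4 * t) ∨ (e = 0 ∧ pl) ∨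
            (e = Module.finrank F X - 4 * t ∧ 0 < e ∧ (pl ↔ QPlus Q X)))) →
        ∃ W : Submodule F V, W ≤ X ∧ Inv Q T W ∧ Module.finrank F W = m ∧ (QPlus Q W ↔ pl)

/-- I2-ALL: an invariant nondegenerate subspace `X` with `rank (T - 1)` even is of a-type, or
contains invariant nondegenerate subspaces of every even dimension. -/
def StI2All : Prop :=
  ∀ (F : Type u) [Field F] [Fintype F] (V : Type v) [AddCommGroup V] [Module F V]
    [FiniteDimensional F V] (Q : QuadraticForm F V) (T : Module.End F V), I2Ctx Q T →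
    ∀ X : Submodule F V, Inv Q T X → Even (rk T X) →
    AType Q T X ∨ ∀ m : ℕ, Even m → m ≤ Module.finrank F X →
      ∃ W : Submodule F V, W ≤ X ∧ Inv Q T W ∧ Module.finrank F W = m

/-- I2-RANKP: characteristic `2`: for `x ∈ Ω⁺_{2d}` the rank of `x - 1` is even. -/
def StRankParP : Prop :=
  ∀ (F : Type u) [Field F] [Fintype F] (d : ℕ), (2 : F) = 0 → 3 ≤ d →
    ∀ x : Matrix.GeneralLinearGroup (Fin d ⊕ Fin d) F,
    x ∈ Cfsg.Geo.omegaGL (Cfsg.quadFormPlus d F) →
    Even (Module.finrank F ↥(LinearMap.range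
      (Matrix.toLin' (x : Matrix (Fin d ⊕ Fin d) (Fin d ⊕ Fin d) F) - 1)))

end Cfsg.Agent.H99.I2
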