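import Cfsg.Prelude.Def_GeometricClasses
import Cfsg.Agent.H99.Transport
import Cfsg.Agent.H99.SympDecomp
import Cfsg.Agent.H99.NT

set_option autoImplicit false

namespace Cfsg.Agent.H99

open Module

section
variable {F V : Type*} [Field F] [AddCommGroup V] [Module F V]

/-- A non-degenerate alternating form has a hyperbolic basis. -/
theorem exists_hyp_basis [FiniteDimensional F V] (B : LinearMap.BilinForm F V) (hB : B.IsAlt)
    (hnd : ∀ s : V, s ≠ 0 → ∃ w, B s w ≠ 0) :
    ∃ (I : Type) (_ : Fintype I) (_ : DecidableEq I) (e f : I → V),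
      (∀ i j, B (e i) (e j) = 0) ∧ (∀ i j, B (f i) (f j) = 0) ∧
      (∀ i j, B (e i) (f j) = if i = j then 1 else 0) ∧
      ∀ s : V, s = ∑ i, (B s (f i) • e i - B s (e i) • f i) := by
  obtain ⟨I, _, _, e, f, τ, h, hexp⟩ := exists_hyp_family B hB LinearMap.id (fun _ _ => rfl) 1
    one_ne_zero (fun v => by simp) (fun _ _ _ _ => True)
    (fun S hS hxS hnd' => local_plane B hB LinearMap.id (fun _ _ => rfl) 1 (fun v => by simp) S hS
      hxS hnd')
    (finrank F (⊤ : Submodule F V)) ⊤ rfl (fun _ _ => Submodule.mem_top)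
    (fun s _ hs => by
      obtain ⟨w, hw⟩ := hnd s hs
      exact ⟨w, Submodule.mem_top, hw⟩)
  obtain ⟨-, -, -, hee, hff, hef, -, -, -⟩ := h
  exact ⟨I, inferInstance, inferInstance, e, f, hee, hff, hef, fun s => hexp s Submodule.mem_top⟩

end

section
variable {F : Type*} [Field F] {n : ℕ}

/-- The bilinear form attached to a bilinear two-argument function. -/
noncomputable def bilinOfForm (f : (Fin n → F) → (Fin n → F) → F)
    (hf : Cfsg.Geo.IsBilinearForm f) : LinearMap.BilinForm F (Fin n → F) :=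
  LinearMap.mk₂ F f hf.add_left hf.smul_left hf.add_right hf.smul_right

theorem bilinOfForm_apply (f : (Fin n → F) → (Fin n → F) → F)
    (hf : Cfsg.Geo.IsBilinearForm f) (u v : Fin n → F) : bilinOfForm f hf u v = f u v := rfl

/-- If `x` has a basis of pairs (with a non-zero multiplier), then some conjugate of `x` by a
matrix of determinant one is a similarity of the given symplectic form. -/
theorem symp_conj_of_pairs (f : (Fin n → F) → (Fin n → F) → F)
    (hf : Cfsg.Geo.IsSymplecticForm f) (hn : 0 < n)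
    (x : Matrix.SpecialLinearGroup (Fin n) F) (c : F) (hc : c ≠ 0) (I : Type) [Fintype I]
    [DecidableEq I] (e' f' : I → Fin n → F)
    (hp : PairFamily (Matrix.toLin' (x : Matrix (Fin n) (Fin n) F)) c ⊤ I e' f') :
    ∃ P : Matrix.SpecialLinearGroup (Fin n) F,
      P⁻¹ * x * P ∈ (Cfsg.Geo.similarityGroup f).comap
        (Matrix.SpecialLinearGroup.toGL : Matrix.SpecialLinearGroup (Fin n) F →* GL (Fin n) F) := by
  classical
  obtain ⟨B, hBdef⟩ : ∃ B : LinearMap.BilinForm F (Fin n → F), B = bilinOfForm f hf.bilinear :=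
    ⟨_, rfl⟩
  have hBf : ∀ u v, B u v = f u v := fun u v => by rw [hBdef]; rfl
  have hB : B.IsAlt := fun v => by rw [hBf]; exact hf.alternating v
  have hnd : ∀ s : Fin n → F, s ≠ 0 → ∃ w, B s w ≠ 0 := fun s hs => by
    obtain ⟨w, hw⟩ := (hf.nondegenerate s hs).2
    exact ⟨w, by rw [hBf]; exact hw⟩
  obtain ⟨I₀, _, _, e, f₀, hee, hff, hef, hexp⟩ := exists_hyp_basis B hB hnd
  have hli₀ := hyp_linearIndependent B hB e f₀ hee hff hef
  have hsp₀ := hyp_span_top B e f₀ hexp
  obtain ⟨b, hb⟩ : ∃ b : Basis (I₀ ⊕ I₀) F (Fin n → F), ∀ k, b k = Sum.elim e f₀ k :=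
    ⟨Basis.mk hli₀ hsp₀.ge, fun k => Basis.mk_apply _ _ k⟩
  obtain ⟨b', hb'⟩ : ∃ b' : Basis (I ⊕ I) F (Fin n → F), ∀ k, b' k = Sum.elim e' f' k :=
    ⟨Basis.mk hp.1 hp.2.1.ge, fun k => Basis.mk_apply _ _ k⟩
  have h1 := Module.finrank_eq_card_basis b
  have h2 := Module.finrank_eq_card_basis b'
  rw [Fintype.card_sum, Module.finrank_fin_fun] at h1 h2
  have hcard : Fintype.card I₀ = Fintype.card I := by omega
  obtain ⟨σ⟩ : Nonempty (I₀ ≃ I) := ⟨Fintype.equivOfCardEq hcard⟩
  obtain ⟨b'', hb''⟩ : ∃ b'' : Basis (I₀ ⊕ I₀) F (Fin n → F),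
      ∀ k, b'' k = Sum.elim (e' ∘ σ) (f' ∘ σ) k := by
    refine ⟨b'.reindex (Equiv.sumCongr σ σ).symm, fun k => ?_⟩
    rw [Basis.reindex_apply, Equiv.symm_symm, hb']
    rcases k with i | i <;> rfl
  obtain ⟨δ, hδ, hP⟩ := exists_sl_of_bases b b''
  have hI₀ : Nonempty I₀ := by
    rw [← Fintype.card_pos_iff]
    omega
  obtain ⟨i₀⟩ := hI₀
  obtain ⟨P, hPb⟩ := hP (fun k => if k = Sum.inl i₀ then δ⁻¹ else 1) (by
    rw [Finset.prod_ite_eq' Finset.univ (Sum.inl i₀) (fun _ => δ⁻¹)]
    simp [hδ])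
  refine ⟨P, ?_⟩
  have hrel : ∀ i, PairRel (Matrix.toLin' ((P⁻¹ * x * P : Matrix.SpecialLinearGroup (Fin n) F) :
      Matrix (Fin n) (Fin n) F)) c (e i) (f₀ i) := by
    intro i
    apply PairRel.pullback (P := Matrix.toLin' (P : Matrix (Fin n) (Fin n) F))
      (x := Matrix.toLin' (x : Matrix (Fin n) (Fin n) F)) (sl_toLin_injective P)
      (sl_conj_apply P x)
    have he := hPb (Sum.inl i)
    have hf' := hPb (Sum.inr i)
    rw [hb, hb''] at he hf'
    simp only [Sum.elim_inl, Sum.elim_inr, Function.comp_apply, reduceCtorEq, if_false,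
      one_smul] at he hf'
    rw [he, hf']
    by_cases hi : i = i₀
    · subst hi
      rw [if_pos rfl]
      exact (hp.2.2 (σ i)).smul_left δ⁻¹ (inv_ne_zero hδ)
    · rw [if_neg (fun h => hi (Sum.inl.inj h)), one_smul]
      exact hp.2.2 (σ i)
  have hsim := similarity_of_pairs B hB e f₀ hee hff hef hexp _ c hrel
  rw [Subgroup.mem_comap]
  refine ⟨Units.mk0 c hc, fun u v => ?_⟩
  have h3 := hsim u v
  rw [hBf, hBf] at h3
  exact h3

end

section
variable {F V : Type*} [Field F] [AddCommGroup V] [Module F V]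

theorem eigen_unique {x : V →ₗ[F] V} {u : V} (hu : u ≠ 0) {μ μ' : F} (h : x u = μ • u)
    (h' : x u = μ' • u) : μ = μ' := by
  have h1 : (μ - μ') • u = 0 := by rw [sub_smul, ← h, ← h', sub_self]
  rcases smul_eq_zero.mp h1 with h2 | h2
  · exact sub_eq_zero.mp h2
  · exact absurd h2 hu

end

section
variable {F : Type*} [Field F] [Fintype F] {n : ℕ}

/-- An operator of determinant one with scalar square on a space of even dimension has a basis of
pairs, provided the 2-part of `q - 1` does not exceed that of `n`. -/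
theorem exists_pairs_of_sq {q : ℕ} (hq : Fintype.card F = q) (hn : 0 < n) (hne : Even n)
    (hv : padicValNat 2 (q - 1) ≤ padicValNat 2 n)
    (x : Matrix.SpecialLinearGroup (Fin n) F) (z : F)
    (hxz : ∀ v, Matrix.toLin' (x : Matrix (Fin n) (Fin n) F)
      (Matrix.toLin' (x : Matrix (Fin n) (Fin n) F) v) = z • v) :
    ∃ (c : F) (I : Type) (_ : Fintype I) (_ : DecidableEq I) (e f : I → Fin n → F), c ≠ 0 ∧
      PairFamily (Matrix.toLin' (x : Matrix (Fin n) (Fin n) F)) c ⊤ I e f := by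
  classical
  obtain ⟨X, hX⟩ : ∃ X : (Fin n → F) →ₗ[F] (Fin n → F),
      X = Matrix.toLin' (x : Matrix (Fin n) (Fin n) F) := ⟨_, rfl⟩
  rw [← hX] at hxz ⊢
  have hinj : Function.Injective X := by rw [hX]; exact sl_toLin_injective x
  have hz : z ≠ 0 := by
    intro h0
    obtain ⟨v, hv0⟩ : ∃ v : Fin n → F, v ≠ 0 :=
      ⟨Pi.single ⟨0, hn⟩ 1, fun h => by
        have := congrFun h ⟨0, hn⟩
        simp at this⟩
    have h1 := hxz v
    rw [h0, zero_smul] at h1
    have h2 : X v = 0 := hinj (by rw [h1, map_zero])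
    exact hv0 (hinj (by rw [h2, map_zero]))
  obtain ⟨m, hm⟩ := hne
  have hfin : finrank F (⊤ : Submodule F (Fin n → F)) = m + m := by
    rw [finrank_top, Module.finrank_fin_fun, hm]
  by_cases h2 : (2 : F) = 0
  · obtain ⟨I, _, _, e, f, h⟩ := exists_pairs_swap X z hxz (fun _ _ _ _ => h2) m ⊤ hfin
      (fun _ _ => Submodule.mem_top)
    exact ⟨-z, I, inferInstance, inferInstance, e, f, neg_ne_zero.mpr hz, h⟩
  by_cases hsq : ∃ l : F, l * l = z
  · obtain ⟨l, hl⟩ := hsq
    have hl0 : l ≠ 0 := by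
      rintro rfl
      rw [mul_zero] at hl
      exact hz hl.symm
    rw [← hl] at hxz
    obtain ⟨hdisj, hsup⟩ := eigen_decomp X l hl0 h2 hxz
    have hU : ∀ u ∈ LinearMap.ker (X - l • LinearMap.id), X u = l • u := by
      intro u hu
      rw [LinearMap.mem_ker, LinearMap.sub_apply, LinearMap.smul_apply, LinearMap.id_apply,
        sub_eq_zero] at hu
      exact hu
    have hW : ∀ u ∈ LinearMap.ker (X + l • LinearMap.id), X u = (-l) • u := by
      intro u hu
      rw [LinearMap.mem_ker, LinearMap.add_apply, LinearMap.smul_apply, LinearMap.id_apply] at hu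
      rw [neg_smul]
      exact eq_neg_of_add_eq_zero_left hu
    have hdet := det_of_eigen_decomp X _ _ hdisj hsup l (-l) hU hW
    have hdetX : LinearMap.det X = 1 := by rw [hX, LinearMap.det_toLin', x.det_coe]
    rw [hdetX] at hdet
    have hab := Submodule.finrank_sup_add_finrank_inf_eq (LinearMap.ker (X - l • LinearMap.id))
      (LinearMap.ker (X + l • LinearMap.id))
    rw [hsup, disjoint_iff.mp hdisj, finrank_bot, add_zero, finrank_top,
      Module.finrank_fin_fun] at hab
    obtain ⟨a, ha⟩ : ∃ a, a = finrank F (LinearMap.ker (X - l • LinearMap.id)) := ⟨_, rfl⟩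
    obtain ⟨b, hb⟩ : ∃ b, b = finrank F (LinearMap.ker (X + l • LinearMap.id)) := ⟨_, rfl⟩
    rw [← ha, ← hb] at hdet hab
    have hbe : Even b := by
      by_contra hbo
      rw [Nat.not_even_iff_odd] at hbo
      have h3 : l ^ n = -1 := by
        rw [hab, pow_add]
        have h4 : (-l) ^ b = -(l ^ b) := by rw [neg_pow, hbo.neg_one_pow]; ring
        rw [h4] at hdet
        linear_combination hdet
      have h5 := padic_lt_of_pow_eq_neg_one hq h2 l n (by omega) h3
      omega
    have hae : Even a := by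
      have h3 : Even (a + b) := by rw [← hab, hm]; exact ⟨m, rfl⟩
      exact (Nat.even_add.mp h3).mpr hbe
    obtain ⟨a', ha'⟩ := hae
    obtain ⟨b', hb'⟩ := hbe
    obtain ⟨e₁, f₁, hp₁⟩ := exists_pairs_of_eigen X (l * l) (LinearMap.ker (X - l • LinearMap.id)) a'
      (by rw [← ha, ha']) (fun u hu => ⟨l, hU u hu⟩) (by
        intro u hu u' hu' hu0 hu'0 μ μ' hμ hμ'
        rw [eigen_unique hu0 hμ (hU u hu), eigen_unique hu'0 hμ' (hU u' hu')])
    obtain ⟨e₂, f₂, hp₂⟩ := exists_pairs_of_eigen X (l * l) (LinearMap.ker (X + l • LinearMap.id)) b'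
      (by rw [← hb, hb']) (fun u hu => ⟨-l, hW u hu⟩) (by
        intro u hu u' hu' hu0 hu'0 μ μ' hμ hμ'
        rw [eigen_unique hu0 hμ (hW u hu), eigen_unique hu'0 hμ' (hW u' hu')]
        ring)
    have h3 := hp₁.sup hp₂ hdisj
    rw [hsup] at h3
    exact ⟨l * l, Fin a' ⊕ Fin b', inferInstance, inferInstance, _, _, mul_ne_zero hl0 hl0, h3⟩
  · push Not at hsq
    obtain ⟨I, _, _, e, f, h⟩ := exists_pairs_swap X z hxz (fun v hv0 μ hμ =>
      absurd (eigen_sq hxz hv0 hμ) (hsq μ)) m ⊤ hfin (fun _ _ => Submodule.mem_top)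
    exact ⟨-z, I, inferInstance, inferInstance, e, f, neg_ne_zero.mpr hz, h⟩

end

section
variable {F : Type*} [Field F] {n : ℕ}

theorem sl_toLin_inv_apply (P : Matrix.SpecialLinearGroup (Fin n) F) (u : Fin n → F) :
    Matrix.toLin' (P : Matrix (Fin n) (Fin n) F)
      (Matrix.toLin' ((P⁻¹ : Matrix.SpecialLinearGroup (Fin n) F) : Matrix (Fin n) (Fin n) F) u) =
      u := by
  have h1 : P * P⁻¹ = 1 := mul_inv_cancel P
  rw [← LinearMap.comp_apply, ← Matrix.toLin'_mul, ← Matrix.SpecialLinearGroup.coe_mul, h1,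
    Matrix.SpecialLinearGroup.coe_one, Matrix.toLin'_one, LinearMap.id_apply]

theorem sl_toLin_inv_apply' (P : Matrix.SpecialLinearGroup (Fin n) F) (u : Fin n → F) :
    Matrix.toLin' ((P⁻¹ : Matrix.SpecialLinearGroup (Fin n) F) : Matrix (Fin n) (Fin n) F)
      (Matrix.toLin' (P : Matrix (Fin n) (Fin n) F) u) = u := by
  have h1 : P⁻¹ * P = 1 := inv_mul_cancel P
  rw [← LinearMap.comp_apply, ← Matrix.toLin'_mul, ← Matrix.SpecialLinearGroup.coe_mul, h1,
    Matrix.SpecialLinearGroup.coe_one, Matrix.toLin'_one, LinearMap.id_apply]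

/-- A diagonal matrix with entries `l, -l, ..., -l` has no conjugate that is a similarity of a
symplectic form, when the dimension is at least three and the characteristic is not two. -/
theorem symp_derangement (f : (Fin n → F) → (Fin n → F) → F)
    (hf : Cfsg.Geo.IsSymplecticForm f) (hn : 3 ≤ n) (hne : Even n) (h2 : (2 : F) ≠ 0) (l : F)
    (hl : l ^ n = -1) :
    ∃ x : Matrix.SpecialLinearGroup (Fin n) F,
      (∃ z : F, ((x ^ 2 : Matrix.SpecialLinearGroup (Fin n) F) : Matrix (Fin n) (Fin n) F) =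
        z • (1 : Matrix (Fin n) (Fin n) F)) ∧
      (∀ z : F, (x : Matrix (Fin n) (Fin n) F) ≠ z • (1 : Matrix (Fin n) (Fin n) F)) ∧
      ∀ P : Matrix.SpecialLinearGroup (Fin n) F, P⁻¹ * x * P ∉
        ((Cfsg.Geo.similarityGroup f).comap
          (Matrix.SpecialLinearGroup.toGL : Matrix.SpecialLinearGroup (Fin n) F →* GL (Fin n) F)) := by
  classical
  have hl0 : l ≠ 0 := by
    rintro rfl
    rw [zero_pow (by omega)] at hl
    exact one_ne_zero (neg_eq_zero.mp hl.symm)
  obtain ⟨i₀, hi₀⟩ : ∃ i₀ : Fin n, i₀ = ⟨0, by omega⟩ := ⟨_, rfl⟩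
  obtain ⟨k₁, hk₁⟩ : ∃ k₁ : Fin n, k₁ = ⟨1, by omega⟩ := ⟨_, rfl⟩
  obtain ⟨k₂, hk₂⟩ : ∃ k₂ : Fin n, k₂ = ⟨2, by omega⟩ := ⟨_, rfl⟩
  have h10 : k₁ ≠ i₀ := by rw [hk₁, hi₀]; intro h; simpa using congrArg Fin.val h
  have h20 : k₂ ≠ i₀ := by rw [hk₂, hi₀]; intro h; simpa using congrArg Fin.val h
  have h12 : k₁ ≠ k₂ := by rw [hk₁, hk₂]; intro h; simpa using congrArg Fin.val h
  obtain ⟨d, hd⟩ : ∃ d : Fin n → F, d = fun i => if i = i₀ then l else -l := ⟨_, rfl⟩
  have hd0 : d i₀ = l := by rw [hd]; simp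
  have hdk : ∀ k, k ≠ i₀ → d k = -l := by intro k hk; rw [hd]; simp [hk]
  have hdd : ∀ i, d i * d i = l * l := by
    intro i
    by_cases h : i = i₀
    · rw [h, hd0]
    · rw [hdk i h]; ring
  have hdet : (Matrix.diagonal d).det = 1 := by
    rw [Matrix.det_diagonal]
    have h1 : ∀ i, d i = (if i = i₀ then (-1 : F) else 1) * (-l) := by
      intro i
      by_cases h : i = i₀
      · rw [h, hd0]; simp
      · rw [hdk i h]; simp [h]
    rw [Finset.prod_congr rfl (fun i _ => h1 i), Finset.prod_mul_distrib,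
      Finset.prod_ite_eq' Finset.univ i₀ (fun _ => (-1 : F)), Finset.prod_const, Finset.card_univ,
      Fintype.card_fin, neg_pow, hne.neg_one_pow, hl]
    simp
  obtain ⟨x, hx⟩ : ∃ x : Matrix.SpecialLinearGroup (Fin n) F,
      (x : Matrix (Fin n) (Fin n) F) = Matrix.diagonal d := ⟨⟨Matrix.diagonal d, hdet⟩, rfl⟩
  refine ⟨x, ⟨l * l, ?_⟩, ?_, ?_⟩
  · rw [pow_two, Matrix.SpecialLinearGroup.coe_mul, hx, Matrix.diagonal_mul_diagonal,
      Matrix.smul_one_eq_diagonal]
    congr 1
    funext i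
    exact hdd i
  · intro z hz
    have hz' : Matrix.diagonal d = z • (1 : Matrix (Fin n) (Fin n) F) := by rw [← hx]; exact hz
    have e0 := congrFun (congrFun hz' i₀) i₀
    have e1 := congrFun (congrFun hz' k₁) k₁
    simp only [Matrix.diagonal_apply_eq, Matrix.smul_apply, Matrix.one_apply_eq, smul_eq_mul,
      mul_one] at e0 e1
    rw [hd0] at e0
    rw [hdk k₁ h10] at e1
    have h3 : (2 : F) * l = 0 := by linear_combination e0 - e1
    rcases mul_eq_zero.mp h3 with h | h
    · exact h2 h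
    · exact hl0 h
  · intro P hP
    rw [Subgroup.mem_comap] at hP
    obtain ⟨c, hc⟩ := hP
    obtain ⟨B, hBdef⟩ : ∃ B : LinearMap.BilinForm F (Fin n → F), B = bilinOfForm f hf.bilinear :=
      ⟨_, rfl⟩
    have hBf : ∀ u v, B u v = f u v := fun u v => by rw [hBdef]; rfl
    obtain ⟨Pl, hPl⟩ : ∃ Pl : (Fin n → F) →ₗ[F] (Fin n → F),
        Pl = Matrix.toLin' (P : Matrix (Fin n) (Fin n) F) := ⟨_, rfl⟩
    obtain ⟨Pil, hPil⟩ : ∃ Pil : (Fin n → F) →ₗ[F] (Fin n → F),
        Pil = Matrix.toLin' ((P⁻¹ : Matrix.SpecialLinearGroup (Fin n) F) :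
          Matrix (Fin n) (Fin n) F) := ⟨_, rfl⟩
    obtain ⟨Ql, hQl⟩ : ∃ Ql : (Fin n → F) →ₗ[F] (Fin n → F),
        Ql = Matrix.toLin' ((P⁻¹ * x * P : Matrix.SpecialLinearGroup (Fin n) F) :
          Matrix (Fin n) (Fin n) F) := ⟨_, rfl⟩
    obtain ⟨X, hX⟩ : ∃ X : (Fin n → F) →ₗ[F] (Fin n → F),
        X = Matrix.toLin' (x : Matrix (Fin n) (Fin n) F) := ⟨_, rfl⟩
    have hPinj : Function.Injective Pl := by rw [hPl]; exact sl_toLin_injective P
    have hPPi : ∀ u, Pl (Pil u) = u := by intro u; rw [hPl, hPil]; exact sl_toLin_inv_apply P u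
    have hPiP : ∀ u, Pil (Pl u) = u := by intro u; rw [hPl, hPil]; exact sl_toLin_inv_apply' P u
    have hconj : ∀ v, Pl (Ql v) = X (Pl v) := by
      intro v; rw [hPl, hQl, hX]; exact sl_conj_apply P x v
    have hQB : ∀ u v, B (Ql u) (Ql v) = c * B u v := by
      intro u v
      rw [hBf, hBf, hQl, Matrix.toLin'_apply, Matrix.toLin'_apply]
      exact hc u v
    obtain ⟨t, ht⟩ : ∃ t : Fin n → Fin n → F, t = fun k => Pil (Pi.single k 1) := ⟨_, rfl⟩
    have hPt : ∀ k, Pl (t k) = Pi.single k 1 := by intro k; rw [ht]; exact hPPi _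
    have hXs : ∀ k, X (Pi.single k 1) = d k • Pi.single k 1 := by
      intro k
      rw [hX, hx, Matrix.toLin'_apply, Matrix.diagonal_mulVec_single, mul_one]
      ext j
      by_cases hj : j = k
      · subst hj; simp
      · simp [Pi.single_apply, hj]
    have hQt : ∀ k, Ql (t k) = d k • t k := by
      intro k
      apply hPinj
      rw [hconj, hPt, hXs, map_smul, hPt]
    have hG : ∀ k k', (d k * d k' - c) * B (t k) (t k') = 0 := by
      intro k k'
      have h3 := hQB (t k) (t k')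
      rw [hQt, hQt, map_smul, map_smul, LinearMap.smul_apply, smul_eq_mul, smul_eq_mul] at h3
      linear_combination h3
    have hrad : ∀ w : Fin n → F, (∀ k, B w (t k) = 0) → w = 0 := by
      intro w hw
      by_contra hw0
      obtain ⟨u, hu⟩ := (hf.nondegenerate w hw0).2
      have h3 : (B w) ∘ₗ Pil = 0 := by
        apply (Pi.basisFun F (Fin n)).ext
        intro k
        rw [Pi.basisFun_apply, LinearMap.comp_apply, LinearMap.zero_apply]
        have := hw k
        rw [ht] at this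
        exact this
      have h4 : B w u = 0 := by
        have h5 := congrArg (fun L : (Fin n → F) →ₗ[F] F => L (Pl u)) h3
        simp only [LinearMap.comp_apply, LinearMap.zero_apply] at h5
        rw [hPiP] at h5
        exact h5
      rw [hBf] at h4
      exact hu h4
    have ht0 : ∀ k, t k ≠ 0 := by
      intro k h0
      have h3 := hPt k
      rw [h0, map_zero] at h3
      have h4 := congrFun h3 k
      simp at h4
    have hl2 : (2 : F) * (l * l) ≠ 0 := mul_ne_zero h2 (mul_ne_zero hl0 hl0)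
    -- the multiplier is `-(l * l)`
    have hcval : (c : F) = -(l * l) := by
      by_contra hne'
      apply ht0 i₀
      apply hrad
      intro k
      by_cases hk : k = i₀
      · rw [hk, hBf]; exact hf.alternating _
      · have h3 := hG i₀ k
        rw [hd0, hdk k hk] at h3
        rcases mul_eq_zero.mp h3 with h | h
        · exfalso
          apply hne'
          linear_combination -h
        · exact h
    have hzero : ∀ k k', k ≠ i₀ → k' ≠ i₀ → B (t k) (t k') = 0 := by
      intro k k' hk hk'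
      have h3 := hG k k'
      rw [hdk k hk, hdk k' hk', hcval] at h3
      rcases mul_eq_zero.mp h3 with h | h
      · exfalso
        apply hl2
        linear_combination h
      · exact h
    have hw0 : (B (t k₂) (t i₀)) • t k₁ - (B (t k₁) (t i₀)) • t k₂ = 0 := by
      apply hrad
      intro k
      rw [map_sub, map_smul, map_smul, LinearMap.sub_apply, LinearMap.smul_apply,
        LinearMap.smul_apply, smul_eq_mul, smul_eq_mul]
      by_cases hk : k = i₀
      · rw [hk]; ring
      · rw [hzero k₁ k h10 hk, hzero k₂ k h20 hk]; ring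
    have h5 := congrArg Pl hw0
    rw [map_sub, map_smul, map_smul, hPt, hPt, map_zero] at h5
    have h6 := congrFun h5 k₂
    simp only [Pi.sub_apply, Pi.smul_apply, Pi.single_apply, smul_eq_mul, Pi.zero_apply,
      if_neg (Ne.symm h12), if_true, mul_zero, mul_one, zero_sub, neg_eq_zero] at h6
    have ha1 : B (t k₁) (t i₀) = 0 := h6
    apply ht0 k₁
    apply hrad
    intro k
    by_cases hk : k = i₀
    · rw [hk]; exact ha1
    · exact hzero k₁ k h10 hk

end

end Cfsg.Agent.H99
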