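import Cfsg.Agent.H17.HermBasis

set_option autoImplicit false

namespace Cfsg.Agent.H99

universe u v

/-- An isometry of a nondegenerate Hermitian space over a finite field whose eigenvectors (with
eigenvalues in a set `P` of pairwise "non-conjugate" scalars) span the space has an orthonormal
basis of eigenvectors. -/
theorem herm_eigen_onb {F : Type u} [Field F] [Finite F] (σ : F →+* F) (hσ : σ ≠ RingHom.id F)
    (hσ2 : ∀ a : F, σ (σ a) = a) (P : F → Prop)
    (hP : ∀ l l', P l → P l' → l ≠ l' → σ l * l' ≠ 1) :
    ∀ (n : ℕ) (V : Type v) [AddCommGroup V] [Module F V] [FiniteDimensional F V]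
      (B : V →ₛₗ[σ] V →ₗ[F] F), B.IsSymm → B.Nondegenerate →
      ∀ (X : V →ₗ[F] V), (∀ u w, B (X u) (X w) = B u w) →
      Submodule.span F {w : V | ∃ l, P l ∧ X w = l • w} = ⊤ → Module.finrank F V = n →
      ∃ (b : Module.Basis (Fin n) F V) (l : Fin n → F),
        (∀ i j, B (b i) (b j) = if i = j then 1 else 0) ∧ ∀ k, P (l k) ∧ X (b k) = l k • b k := by
  intro n
  induction n with
  | zero =>
    intro V _ _ _ B hS hB X hX hspan hn
    exact ⟨Module.finBasisOfFinrankEq F V hn, fun i => i.elim0, fun i => i.elim0,
      fun i => i.elim0⟩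
  | succ n ih =>
    intro V _ _ _ B hS hB X hX hspan hn
    have hsym : ∀ x y, σ (B x y) = B y x := fun x y => hS.eq x y
    have hsl : ∀ (a : F) (x y : V), B (a • x) y = σ a * B x y := by
      intro a x y
      rw [LinearMap.map_smulₛₗ₂]
      rfl
    have hsr : ∀ (a : F) (x y : V), B x (a • y) = a * B x y := by
      intro a x y
      rw [map_smul, smul_eq_mul]
    have horth : ∀ (l l' : F) (u w : V), P l → P l' → X u = l • u → X w = l' • w → l ≠ l' →
        B u w = 0 := by
      intro l l' u w hl hl' hu hw hne
      have h1 := hX u w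
      rw [hu, hw, hsl, hsr] at h1
      have h2 : (σ l * l' - 1) * B u w = 0 := by linear_combination h1
      rcases mul_eq_zero.mp h2 with h3 | h3
      · exact absurd (sub_eq_zero.mp h3) (hP l l' hl hl' hne)
      · exact h3
    -- a non-isotropic eigenvector
    obtain ⟨w₀, l₀, hl₀, hw₀, hw₀n⟩ :
        ∃ (w₀ : V) (l₀ : F), P l₀ ∧ X w₀ = l₀ • w₀ ∧ B w₀ w₀ ≠ 0 := by
      by_contra hcon
      push Not at hcon
      obtain ⟨c, hc⟩ : ∃ c : F, σ c ≠ c := by
        by_contra h
        push Not at h
        exact hσ (RingHom.ext h)
      have hpair : ∀ u ∈ {w : V | ∃ l, P l ∧ X w = l • w},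
          ∀ w ∈ {w : V | ∃ l, P l ∧ X w = l • w}, B u w = 0 := by
        rintro u ⟨l, hl, hu⟩ w ⟨l', hl', hw⟩
        by_cases hne : l = l'
        · subst hne
          have k1 := hcon (u + w) l hl (by rw [map_add, hu, hw, smul_add])
          have k2 := hcon (c • u + w) l hl (by
            rw [map_add, map_smul, hu, hw, smul_add, smul_comm])
          have ku := hcon u l hl hu
          have kw := hcon w l hl hw
          have e1 : B (u + w) (u + w) = B u u + B u w + B w u + B w w := by
            simp only [map_add, LinearMap.add_apply]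
            ring
          have e2 : B (c • u + w) (c • u + w) =
              σ c * c * B u u + σ c * B u w + c * B w u + B w w := by
            simp only [map_add, LinearMap.add_apply, hsl, hsr]
            ring
          rw [e1, ku, kw] at k1
          rw [e2, ku, kw] at k2
          have h3 : (σ c - c) * B u w = 0 := by linear_combination k2 - c * k1
          rcases mul_eq_zero.mp h3 with h4 | h4
          · exact absurd (sub_eq_zero.mp h4) hc
          · exact h4
        · exact horth l l' u w hl hl' hu hw hne
      have hall : ∀ u w : V, B u w = 0 := by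
        have step1 : ∀ u ∈ {w : V | ∃ l, P l ∧ X w = l • w}, ∀ w : V, B u w = 0 := by
          intro u hu w
          have hw : w ∈ Submodule.span F {w : V | ∃ l, P l ∧ X w = l • w} := by
            rw [hspan]; trivial
          have hle : Submodule.span F {w : V | ∃ l, P l ∧ X w = l • w} ≤ LinearMap.ker (B u) := by
            rw [Submodule.span_le]
            intro w hw
            exact LinearMap.mem_ker.mpr (hpair u hu w hw)
          exact LinearMap.mem_ker.mp (hle hw)
        intro u w
        have hw : w ∈ Submodule.span F {w : V | ∃ l, P l ∧ X w = l • w} := by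
          rw [hspan]; trivial
        have hle : Submodule.span F {w : V | ∃ l, P l ∧ X w = l • w} ≤ LinearMap.ker (B u) := by
          rw [Submodule.span_le]
          intro w' hw'
          apply LinearMap.mem_ker.mpr
          rw [← hsym, step1 w' hw' u, map_zero]
        exact LinearMap.mem_ker.mp (hle hw)
      have : Nontrivial V := Module.nontrivial_of_finrank_pos (R := F) (by omega)
      obtain ⟨x, hx⟩ := exists_ne (0 : V)
      exact hx (hB.1 x (fun y => hall x y))
    obtain ⟨v, hvv, hXv⟩ : ∃ v : V, B v v = 1 ∧ X v = l₀ • v := by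
      obtain ⟨t, ht⟩ := Cfsg.Agent.H17.exists_norm_eq σ hσ hσ2 (B w₀ w₀)⁻¹ (inv_ne_zero hw₀n)
        (by rw [map_inv₀, hsym])
      refine ⟨t • w₀, ?_, ?_⟩
      · rw [hsl, hsr]
        have : σ t * (t * B w₀ w₀) = (t * σ t) * B w₀ w₀ := by ring
        rw [this, ht, inv_mul_cancel₀ hw₀n]
      · rw [map_smul, hw₀, smul_comm]
    have hl₀1 : σ l₀ * l₀ = 1 := by
      have h1 := hX v v
      rw [hXv, hsl, hsr, hvv] at h1
      linear_combination h1
    have hσl₀ : σ l₀ ≠ 0 := left_ne_zero_of_mul_eq_one hl₀1
    obtain ⟨W, hWmem⟩ : ∃ W : Submodule F V, ∀ w, w ∈ W ↔ B v w = 0 :=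
      ⟨LinearMap.ker (B v), fun w => LinearMap.mem_ker⟩
    have hproj : ∀ x : V, x - B v x • v ∈ W := by
      intro x
      rw [hWmem, map_sub, hsr, hvv]
      simp
    have hWv : ∀ w ∈ W, B w v = 0 := by
      intro w hw
      rw [← hsym v w, (hWmem w).mp hw, map_zero]
    have hfr : Module.finrank F W = n := by
      have hWker : W = LinearMap.ker (B v) := by
        ext w
        rw [hWmem, LinearMap.mem_ker]
      have h1 := LinearMap.finrank_range_add_finrank_ker (B v)
      have h2 : LinearMap.range (B v) = ⊤ := by
        rw [LinearMap.range_eq_top]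
        intro c
        refine ⟨c • v, ?_⟩
        rw [hsr, hvv]
        simp
      rw [h2, finrank_top, Module.finrank_self, hn, ← hWker] at h1
      omega
    obtain ⟨B', hB'def⟩ : ∃ B' : W →ₛₗ[σ] W →ₗ[F] F, B' = B.domRestrict₁₂ W W := ⟨_, rfl⟩
    have hB'app : ∀ x y : W, B' x y = B (x : V) (y : V) := fun x y => by rw [hB'def]; rfl
    have hS' : B'.IsSymm := by rw [hB'def]; exact hS.domRestrict W
    have hB'nd : B'.Nondegenerate := by
      constructor
      · intro w hw
        apply Subtype.ext
        apply hB.1 (w : V)
        intro x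
        have h1 : x = (x - B v x • v) + B v x • v := by abel
        rw [h1, map_add, hsr, hWv w w.2]
        have := hw ⟨x - B v x • v, hproj x⟩
        rw [hB'app] at this
        simp only at this
        rw [this]
        simp
      · intro w hw
        apply Subtype.ext
        apply hB.2 (w : V)
        intro x
        have h1 : x = (x - B v x • v) + B v x • v := by abel
        rw [h1, map_add, LinearMap.add_apply, hsl, (hWmem w).mp w.2]
        have := hw ⟨x - B v x • v, hproj x⟩
        rw [hB'app] at this
        simp only at this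
        rw [this]
        simp
    -- the isometry restricted to `W`
    have hXW : ∀ w ∈ W, X w ∈ W := by
      intro w hw
      rw [hWmem]
      have h1 := hX v w
      rw [hXv, hsl, (hWmem w).mp hw] at h1
      rcases mul_eq_zero.mp h1 with h | h
      · exact absurd h hσl₀
      · exact h
    obtain ⟨X', hX'⟩ : ∃ X' : W →ₗ[F] W, ∀ w : W, ((X' w : W) : V) = X (w : V) :=
      ⟨X.restrict hXW, fun w => rfl⟩
    have hX'iso : ∀ u w : W, B' (X' u) (X' w) = B' u w := by
      intro u w
      rw [hB'app, hB'app, hX', hX', hX]
    have hspan' : Submodule.span F {w : W | ∃ l, P l ∧ X' w = l • w} = ⊤ := by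
      obtain ⟨π, hπ⟩ : ∃ π : V →ₗ[F] W, ∀ x : V, ((π x : W) : V) = x - B v x • v :=
        ⟨LinearMap.codRestrict W (LinearMap.id - (B v).smulRight v) (fun x => by
          simpa using hproj x), fun x => by simp⟩
      have hπW : ∀ w : W, π (w : V) = w := by
        intro w
        apply Subtype.ext
        rw [hπ, (hWmem _).mp w.2, zero_smul, sub_zero]
      have himg : ∀ u ∈ {w : V | ∃ l, P l ∧ X w = l • w},
          π u ∈ {w : W | ∃ l, P l ∧ X' w = l • w} := by
        rintro u ⟨l, hl, hu⟩
        refine ⟨l, hl, ?_⟩
        apply Subtype.ext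
        rw [hX', hπ, map_sub, map_smul, hu, hXv, Submodule.coe_smul, hπ, smul_sub, smul_smul,
          smul_smul]
        by_cases hne : l = l₀
        · rw [hne, mul_comm]
        · have h0 : B v u = 0 := horth l₀ l v u hl₀ hl hXv hu (Ne.symm hne)
          rw [h0, zero_mul, mul_zero]
      rw [eq_top_iff]
      intro w _
      have hw : (w : V) ∈ Submodule.span F {w : V | ∃ l, P l ∧ X w = l • w} := by
        rw [hspan]; trivial
      have h1 := Submodule.apply_mem_span_image_of_mem_span π hw
      rw [hπW] at h1
      exact Submodule.span_mono (by rintro _ ⟨u, hu, rfl⟩; exact himg u hu) h1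
    obtain ⟨b', l', hb', hl'⟩ := ih W B' hS' hB'nd X' hX'iso hspan' hfr
    have hli : ∀ (c : F), ∀ x ∈ W, c • v + x = 0 → c = 0 := by
      intro c x hx h0
      have := congrArg (B v) h0
      rw [map_add, hsr, hvv, (hWmem x).mp hx] at this
      simpa using this
    have hsp : ∀ z : V, ∃ c : F, z + c • v ∈ W := by
      intro z
      refine ⟨-(B v z), ?_⟩
      have := hproj z
      rwa [sub_eq_add_neg, ← neg_smul] at this
    refine ⟨Module.Basis.mkFinCons v b' hli hsp, Fin.cons l₀ l', ?_, ?_⟩
    · intro i j
      rw [Module.Basis.coe_mkFinCons]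
      induction i using Fin.cases with
      | zero =>
        induction j using Fin.cases with
        | zero => simp [hvv]
        | succ j =>
          simp only [Fin.cons_zero, Fin.cons_succ, Function.comp_apply]
          rw [(hWmem _).mp (b' j).2]
          simp [Fin.succ_ne_zero, eq_comm]
      | succ i =>
        induction j using Fin.cases with
        | zero =>
          simp only [Fin.cons_zero, Fin.cons_succ, Function.comp_apply]
          rw [hWv _ (b' i).2]
          simp [Fin.succ_ne_zero]
        | succ j =>
          simp only [Fin.cons_succ, Function.comp_apply]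
          have := hb' i j
          rw [hB'app] at this
          rw [this]
          simp [Fin.succ_inj]
    · intro k
      rw [Module.Basis.coe_mkFinCons]
      induction k using Fin.cases with
      | zero =>
        simp only [Fin.cons_zero]
        exact ⟨hl₀, hXv⟩
      | succ k =>
        simp only [Fin.cons_succ, Function.comp_apply]
        refine ⟨(hl' k).1, ?_⟩
        rw [← hX', (hl' k).2, Submodule.coe_smul]

end Cfsg.Agent.H99
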