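import Cfsg.Agent.H99.HeisFix
import Cfsg.Agent.H99.HermEigen
import Cfsg.Agent.H17.GUBlock
import Cfsg.Agent.H7.Unitary

set_option autoImplicit false

namespace Cfsg.Agent.H99

open Matrix
open scoped MatrixGroups

section
variable {F : Type*} [Field F] [Fintype F] {q : ℕ}

/-- A matrix mapping an orthonormal basis to norm-one multiples of an orthonormal basis preserves
the Hermitian form. -/
theorem preserves_of_onb (hF : Fintype.card F = q ^ 2) {n : ℕ}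
    (u v : Module.Basis (Fin n) F (Fin n → F))
    (hu : ∀ i j, Cfsg.hermForm n F q (u i) (u j) = if i = j then 1 else 0)
    (hv : ∀ i j, Cfsg.hermForm n F q (v i) (v j) = if i = j then 1 else 0)
    (M : Matrix (Fin n) (Fin n) F) (w : Fin n → F) (hw : ∀ k, w k ^ (q + 1) = 1)
    (hM : ∀ k, M *ᵥ u k = w k • v k) (x y : Fin n → F) :
    Cfsg.hermForm n F q (M *ᵥ x) (M *ᵥ y) = Cfsg.hermForm n F q x y := by
  have hMx : ∀ z : Fin n → F, M *ᵥ z = ∑ k, (u.repr z k * w k) • v k := by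
    intro z
    conv_lhs => rw [← u.sum_repr z]
    rw [← Matrix.toLin'_apply, map_sum]
    apply Finset.sum_congr rfl
    intro k _
    rw [map_smul, Matrix.toLin'_apply, hM, smul_smul]
  rw [hMx x, hMx y, Cfsg.Agent.H17.hermForm_gram hF n n v hv]
  conv_rhs => rw [← u.sum_repr x, ← u.sum_repr y]
  rw [Cfsg.Agent.H17.hermForm_gram hF n n u hu]
  unfold Cfsg.hermForm
  apply Finset.sum_congr rfl
  intro k _
  have h1 := hw k
  rw [mul_pow]
  linear_combination (u.repr x k * (u.repr y k) ^ q) * h1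

/-- Two orthonormal bases are related by a unitary matrix of determinant one, up to rescaling. -/
theorem exists_su_of_onb (hF : Fintype.card F = q ^ 2)
    (u v : Module.Basis (Fin 3) F (Fin 3 → F))
    (hu : ∀ i j, Cfsg.hermForm 3 F q (u i) (u j) = if i = j then 1 else 0)
    (hv : ∀ i j, Cfsg.hermForm 3 F q (v i) (v j) = if i = j then 1 else 0) :
    ∃ g : GL (Fin 3) F, g ∈ Cfsg.GU 3 F q ∧ g ∈ Cfsg.Geo.specialLinear (Fin 3) F ∧
      ∃ w : Fin 3 → F, (∀ k, w k ≠ 0) ∧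
        ∀ k, (g : Matrix (Fin 3) (Fin 3) F) *ᵥ u k = w k • v k := by
  have hq := Cfsg.Agent.H17.two_le_of_card_sq hF
  have hq0 : q ≠ 0 := by omega
  obtain ⟨M₁, hM₁⟩ : ∃ M₁ : Matrix (Fin 3) (Fin 3) F, ∀ k, M₁ *ᵥ u k = (1 : F) • v k := by
    refine ⟨LinearMap.toMatrix' (u.constr F (fun k => v k)), fun k => ?_⟩
    rw [LinearMap.toMatrix'_mulVec, Module.Basis.constr_basis, one_smul]
  have pres₁ := preserves_of_onb hF u v hu hv M₁ (fun _ => 1) (fun _ => one_pow _) hM₁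
  obtain ⟨g₁, hg₁, hg₁U⟩ := Cfsg.Agent.H7.exists_GUI_of_preserves q hq0 M₁ pres₁
  obtain ⟨δ, hδ⟩ : ∃ δ : F, δ = (g₁ : Matrix (Fin 3) (Fin 3) F).det := ⟨_, rfl⟩
  have hδ1 : δ ^ (q + 1) = 1 := by
    rw [hδ]
    exact Cfsg.Agent.H7.GUI_det_pow hF g₁ hg₁U
  have hδ0 : δ ≠ 0 := by
    intro h
    rw [h, zero_pow (by omega)] at hδ1
    exact zero_ne_one hδ1
  have hw : ∀ k : Fin 3, (![δ⁻¹, 1, 1] : Fin 3 → F) k ^ (q + 1) = 1 := by
    intro k
    fin_cases k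
    · show δ⁻¹ ^ (q + 1) = 1
      rw [inv_pow, hδ1, inv_one]
    · exact one_pow _
    · exact one_pow _
  have hw0 : ∀ k : Fin 3, (![δ⁻¹, 1, 1] : Fin 3 → F) k ≠ 0 := by
    intro k h0
    have := hw k
    rw [h0, zero_pow (by omega)] at this
    exact zero_ne_one this
  obtain ⟨M₂, hM₂⟩ : ∃ M₂ : Matrix (Fin 3) (Fin 3) F,
      ∀ k, M₂ *ᵥ u k = (![δ⁻¹, 1, 1] : Fin 3 → F) k • u k := by
    refine ⟨LinearMap.toMatrix' (u.constr F (fun k => (![δ⁻¹, 1, 1] : Fin 3 → F) k • u k)),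
      fun k => ?_⟩
    rw [LinearMap.toMatrix'_mulVec, Module.Basis.constr_basis]
  have pres₂ := preserves_of_onb hF u u hu hu M₂ _ hw hM₂
  obtain ⟨g₂, hg₂, hg₂U⟩ := Cfsg.Agent.H7.exists_GUI_of_preserves q hq0 M₂ pres₂
  have hdet₂ : M₂.det = δ⁻¹ := by
    rw [det_of_basis u]
    have hM : LinearMap.toMatrix u u (Matrix.toLin' M₂) =
        Matrix.diagonal (![δ⁻¹, 1, 1] : Fin 3 → F) := by
      ext i j
      rw [LinearMap.toMatrix_apply, Matrix.toLin'_apply, hM₂, map_smul, Module.Basis.repr_self,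
        Finsupp.smul_apply, Finsupp.single_apply, Matrix.diagonal_apply]
      by_cases hij : i = j
      · subst hij
        simp
      · rw [if_neg hij, if_neg (fun h => hij h.symm), smul_zero]
    rw [hM, Matrix.det_diagonal, Fin.prod_univ_three]
    simp
  refine ⟨g₁ * g₂, Subgroup.mul_mem _ hg₁U hg₂U, ?_, ![δ⁻¹, 1, 1], hw0, ?_⟩
  · rw [mem_sl_iff, Units.val_mul, Matrix.det_mul, ← hδ, hg₂, hdet₂, mul_inv_cancel₀ hδ0]
  · intro k
    rw [Units.val_mul, ← Matrix.mulVec_mulVec, hg₂, hM₂, Matrix.mulVec_smul, hg₁, hM₁, one_smul]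

/-- An isometry of the standard Hermitian space whose eigenvectors span has an orthonormal
eigenbasis. -/
theorem unitary_eigen_onb (hF : Fintype.card F = q ^ 2) (x : GL (Fin 3) F)
    (hx : x ∈ Cfsg.GU 3 F q) (P : F → Prop)
    (hP : ∀ l l', P l → P l' → l ≠ l' → l ^ q * l' ≠ 1)
    (hspan : Submodule.span F {w : Fin 3 → F |
      ∃ l, P l ∧ (x : Matrix (Fin 3) (Fin 3) F) *ᵥ w = l • w} = ⊤) :
    ∃ (u : Module.Basis (Fin 3) F (Fin 3 → F)) (l : Fin 3 → F),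
      (∀ i j, Cfsg.hermForm 3 F q (u i) (u j) = if i = j then 1 else 0) ∧
      ∀ k, P (l k) ∧ (x : Matrix (Fin 3) (Fin 3) F) *ᵥ u k = l k • u k := by
  have hX : ∀ u w : Fin 3 → F,
      Cfsg.Agent.H17.hermSesq hF 3 (Matrix.toLin' (x : Matrix (Fin 3) (Fin 3) F) u)
        (Matrix.toLin' (x : Matrix (Fin 3) (Fin 3) F) w) = Cfsg.Agent.H17.hermSesq hF 3 u w := by
    intro u w
    rw [Cfsg.Agent.H17.hermSesq_apply, Cfsg.Agent.H17.hermSesq_apply, Matrix.toLin'_apply,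
      Matrix.toLin'_apply]
    exact hx w u
  obtain ⟨b, l, hb, hl⟩ := herm_eigen_onb (Cfsg.Agent.H17.frobHom hF)
    (Cfsg.Agent.H17.frobHom_ne_id hF) (Cfsg.Agent.H17.frobHom_invol hF) P hP 3 (Fin 3 → F)
    (Cfsg.Agent.H17.hermSesq hF 3) (Cfsg.Agent.H17.hermSesq_isSymm hF 3)
    (Cfsg.Agent.H17.hermSesq_nondegenerate hF 3) (Matrix.toLin' (x : Matrix (Fin 3) (Fin 3) F))
    hX hspan (by simp)
  refine ⟨b, l, ?_, hl⟩
  intro i j
  have h1 := hb j i
  rw [Cfsg.Agent.H17.hermSesq_apply] at h1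
  rw [h1]
  by_cases hij : i = j
  · rw [if_pos hij, if_pos hij.symm]
  · rw [if_neg hij, if_neg (fun h => hij h.symm)]

/-- The standard basis of a unitary Heisenberg group can be taken orthonormal. -/
theorem heis_onb (hF : Fintype.card F = q ^ 2) (a b : GL (Fin 3) F) (ha : a ∈ Cfsg.GU 3 F q)
    (hb : b ∈ Cfsg.GU 3 F q) (ν : F) (h3 : (3 : F) ≠ 0) (hν : ν ^ 2 + ν + 1 = 0)
    (hνq : ν ^ (q + 1) = 1) (v : Module.Basis (Fin 3) F (Fin 3 → F))
    (hav : ∀ k : Fin 3, (a : Matrix (Fin 3) (Fin 3) F) *ᵥ v k = ν ^ (k : ℕ) • v k)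
    (hbv : ∀ k : Fin 3, (b : Matrix (Fin 3) (Fin 3) F) *ᵥ v k = v (k + 1)) :
    ∃ v' : Module.Basis (Fin 3) F (Fin 3 → F),
      (∀ k : Fin 3, (a : Matrix (Fin 3) (Fin 3) F) *ᵥ v' k = ν ^ (k : ℕ) • v' k) ∧
      (∀ k : Fin 3, (b : Matrix (Fin 3) (Fin 3) F) *ᵥ v' k = v' (k + 1)) ∧
      ∀ i j, Cfsg.hermForm 3 F q (v' i) (v' j) = if i = j then 1 else 0 := by
  obtain ⟨ν3, ν1, ν21, ν0, ν2ν⟩ := cube_root_facts ν hν h3
  have hq := Cfsg.Agent.H17.two_le_of_card_sq hF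
  have hνq' : ν ^ q = ν ^ 2 := by
    have h1 : ν ^ q * ν = ν ^ 2 * ν := by
      rw [← pow_succ, hνq, ← pow_succ, ν3]
    exact mul_right_cancel₀ ν0 h1
  have hkey : ∀ i j : Fin 3, i ≠ j → ν ^ (i : ℕ) * (ν ^ (j : ℕ)) ^ q ≠ 1 := by
    intro i j hij
    rw [← pow_mul, mul_comm (j : ℕ) q, pow_mul, hνq']
    fin_cases i <;> fin_cases j
    · exact absurd rfl hij
    · show ν ^ 0 * (ν ^ 2) ^ 1 ≠ 1
      intro h
      apply ν21
      linear_combination h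
    · show ν ^ 0 * (ν ^ 2) ^ 2 ≠ 1
      intro h
      apply ν1
      linear_combination h - ν * ν3
    · show ν ^ 1 * (ν ^ 2) ^ 0 ≠ 1
      intro h
      apply ν1
      linear_combination h
    · exact absurd rfl hij
    · show ν ^ 1 * (ν ^ 2) ^ 2 ≠ 1
      intro h
      apply ν21
      linear_combination h - ν ^ 2 * ν3
    · show ν ^ 2 * (ν ^ 2) ^ 0 ≠ 1
      intro h
      apply ν21
      linear_combination h
    · show ν ^ 2 * (ν ^ 2) ^ 1 ≠ 1
      intro h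
      apply ν1
      linear_combination h - ν * ν3
    · exact absurd rfl hij
  have horth : ∀ i j : Fin 3, i ≠ j → Cfsg.hermForm 3 F q (v i) (v j) = 0 := by
    intro i j hij
    have h1 := ha (v i) (v j)
    change Cfsg.hermForm 3 F q ((a : Matrix (Fin 3) (Fin 3) F) *ᵥ v i)
      ((a : Matrix (Fin 3) (Fin 3) F) *ᵥ v j) = Cfsg.hermForm 3 F q (v i) (v j) at h1
    rw [hav, hav, Cfsg.Agent.H17.hermForm_smul_left, Cfsg.Agent.H17.hermForm_smul_right] at h1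
    have h2 : (ν ^ (i : ℕ) * (ν ^ (j : ℕ)) ^ q - 1) * Cfsg.hermForm 3 F q (v i) (v j) = 0 := by
      linear_combination h1
    rcases mul_eq_zero.mp h2 with h4 | h4
    · exact absurd (sub_eq_zero.mp h4) (hkey i j hij)
    · exact h4
  have hstep : ∀ k : Fin 3, Cfsg.hermForm 3 F q (v (k + 1)) (v (k + 1)) =
      Cfsg.hermForm 3 F q (v k) (v k) := by
    intro k
    have h1 := hb (v k) (v k)
    change Cfsg.hermForm 3 F q ((b : Matrix (Fin 3) (Fin 3) F) *ᵥ v k)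
      ((b : Matrix (Fin 3) (Fin 3) F) *ᵥ v k) = Cfsg.hermForm 3 F q (v k) (v k) at h1
    rw [hbv] at h1
    exact h1
  obtain ⟨η, hη⟩ : ∃ η : F, η = Cfsg.hermForm 3 F q (v 0) (v 0) := ⟨_, rfl⟩
  have hηk : ∀ k : Fin 3, Cfsg.hermForm 3 F q (v k) (v k) = η := by
    intro k
    fin_cases k
    · exact hη.symm
    · exact (hstep 0).trans hη.symm
    · exact (hstep 1).trans ((hstep 0).trans hη.symm)
  have hη0 : η ≠ 0 := by
    intro h0
    apply v.ne_zero 0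
    apply Cfsg.Agent.H17.hermForm_nd_right hF 3
    intro c
    rw [← v.sum_repr c, Cfsg.Agent.H17.hermForm_sum_right hF]
    apply Finset.sum_eq_zero
    intro k _
    by_cases hk : (0 : Fin 3) = k
    · rw [← hk, hηk 0, h0, mul_zero]
    · rw [horth 0 k hk, mul_zero]
  have hηq : η ^ q = η := by
    rw [hη, Cfsg.Agent.H17.hermForm_conj 3 hF]
  obtain ⟨t, ht⟩ := Cfsg.Agent.H17.exists_norm_eq (Cfsg.Agent.H17.frobHom hF)
    (Cfsg.Agent.H17.frobHom_ne_id hF) (Cfsg.Agent.H17.frobHom_invol hF) η⁻¹ (inv_ne_zero hη0)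
    (by rw [Cfsg.Agent.H17.frobHom_apply, inv_pow, hηq])
  rw [Cfsg.Agent.H17.frobHom_apply] at ht
  have ht0 : t ≠ 0 := by
    intro h
    rw [h, zero_mul] at ht
    exact inv_ne_zero hη0 ht.symm
  have hv' : ∀ k, (v.unitsSMul (fun _ => Units.mk0 t ht0)) k = t • v k := by
    intro k
    rw [Module.Basis.unitsSMul_apply]
    rfl
  refine ⟨v.unitsSMul (fun _ => Units.mk0 t ht0), ?_, ?_, ?_⟩
  · intro k
    rw [hv', Matrix.mulVec_smul, hav, smul_comm]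
  · intro k
    rw [hv', hv', Matrix.mulVec_smul, hbv]
  · intro i j
    rw [hv', hv', Cfsg.Agent.H17.hermForm_smul_left, Cfsg.Agent.H17.hermForm_smul_right]
    by_cases hij : i = j
    · subst hij
      rw [if_pos rfl, hηk i]
      have : t * (t ^ q * η) = (t * t ^ q) * η := by ring
      rw [this, ht, inv_mul_cancel₀ hη0]
    · rw [if_neg hij, horth i j hij, mul_zero, mul_zero]

/-- The orthonormal basis `v₀, t(v₁ + v₂), t(v₁ - v₂)`. -/
theorem exists_swap_onb (hF : Fintype.card F = q ^ 2) (h2 : (2 : F) ≠ 0)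
    (v : Module.Basis (Fin 3) F (Fin 3 → F))
    (hv : ∀ i j, Cfsg.hermForm 3 F q (v i) (v j) = if i = j then 1 else 0) :
    ∃ (v' : Module.Basis (Fin 3) F (Fin 3 → F)) (t : F), t ≠ 0 ∧
      v' 0 = v 0 ∧ v' 1 = t • (v 1 + v 2) ∧ v' 2 = t • (v 1 - v 2) ∧
      ∀ i j, Cfsg.hermForm 3 F q (v' i) (v' j) = if i = j then 1 else 0 := by
  have hq := Cfsg.Agent.H17.two_le_of_card_sq hF
  obtain ⟨v₁, hv0, hv1, hv2⟩ := exists_swap_basis h2 v
  have h2q : (2 : F) ^ q = 2 := by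
    have h1 := Cfsg.Agent.H17.frob_add hF (1 : F) 1
    rw [one_pow] at h1
    have e : (1 : F) + 1 = 2 := by norm_num
    rw [e] at h1
    exact h1
  obtain ⟨t, ht⟩ := Cfsg.Agent.H17.exists_norm_eq (Cfsg.Agent.H17.frobHom hF)
    (Cfsg.Agent.H17.frobHom_ne_id hF) (Cfsg.Agent.H17.frobHom_invol hF) (2 : F)⁻¹ (inv_ne_zero h2)
    (by rw [Cfsg.Agent.H17.frobHom_apply, inv_pow, h2q])
  rw [Cfsg.Agent.H17.frobHom_apply] at ht
  have ht0 : t ≠ 0 := by
    intro h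
    rw [h, zero_mul] at ht
    exact inv_ne_zero h2 ht.symm
  have hw0 : ∀ k : Fin 3, (![1, t, t] : Fin 3 → F) k ≠ 0 := by
    intro k
    fin_cases k
    · exact one_ne_zero
    · exact ht0
    · exact ht0
  have hv' : ∀ k, (v₁.unitsSMul (fun k => Units.mk0 _ (hw0 k))) k =
      (![1, t, t] : Fin 3 → F) k • v₁ k := by
    intro k
    rw [Module.Basis.unitsSMul_apply]
    rfl
  have e0 : (v₁.unitsSMul (fun k => Units.mk0 _ (hw0 k))) 0 = v 0 := by
    rw [hv' 0, hv0]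
    simp
  have e1 : (v₁.unitsSMul (fun k => Units.mk0 _ (hw0 k))) 1 = t • (v 1 + v 2) := by
    rw [hv' 1, hv1]
    simp
  have e2 : (v₁.unitsSMul (fun k => Units.mk0 _ (hw0 k))) 2 = t • (v 1 - v 2) := by
    rw [hv' 2, hv2]
    simp
  refine ⟨v₁.unitsSMul (fun k => Units.mk0 _ (hw0 k)), t, ht0, e0, e1, e2, ?_⟩
  -- coefficient vectors
  have hc : ∀ k : Fin 3, (v₁.unitsSMul (fun k => Units.mk0 _ (hw0 k))) k =
      ∑ m : Fin 3, (![![1, 0, 0], ![0, t, t], ![0, t, -t]] : Fin 3 → Fin 3 → F) k m • v m := by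
    intro k
    rw [Fin.sum_univ_three]
    fin_cases k
    · rw [show ((⟨0, by norm_num⟩ : Fin 3)) = 0 from rfl, e0]
      simp
    · rw [show ((⟨1, by norm_num⟩ : Fin 3)) = 1 from rfl, e1]
      simp [smul_add]
    · rw [show ((⟨2, by norm_num⟩ : Fin 3)) = 2 from rfl, e2]
      simp [sub_eq_add_neg]
  have hnq : (-t) ^ q = -(t ^ q) := Cfsg.Agent.H17.frob_neg hF t
  have hz : (0 : F) ^ q = 0 := zero_pow (by omega)
  have htt : t * t ^ q + t * t ^ q = 1 := by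
    have : t * t ^ q + t * t ^ q = 2 * (t * t ^ q) := by ring
    rw [this, ht, mul_inv_cancel₀ h2]
  intro i j
  rw [hc i, hc j, Cfsg.Agent.H17.hermForm_gram hF 3 3 v hv]
  unfold Cfsg.hermForm
  rw [Fin.sum_univ_three]
  fin_cases i <;> fin_cases j <;> simp [hz, hnq, htt]

omit [Fintype F] in
/-- Among three square roots of the same scalar that are not all equal, two agree and the third
is their negative. -/
theorem invol_perm (l : Fin 3 → F) (z : F) (hl : ∀ k, l k ^ 2 = z)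
    (hne : ¬ (l 0 = l 1 ∧ l 0 = l 2)) :
    ∃ (σ : Equiv.Perm (Fin 3)) (l₀ : F), l (σ 0) = l₀ ∧ l (σ 1) = l₀ ∧ l (σ 2) = -l₀ := by
  have hcase : ∀ i j : Fin 3, l i = l j ∨ l i = -l j := by
    intro i j
    have h1 : l i ^ 2 = l j ^ 2 := by rw [hl i, hl j]
    exact sq_eq_sq_iff_eq_or_eq_neg.mp h1
  by_cases h01 : l 0 = l 1
  · rcases hcase 2 0 with h20 | h20
    · exact absurd ⟨h01, h20.symm⟩ hne
    · exact ⟨1, l 0, rfl, h01.symm, h20⟩
  · have h10 : l 1 = -l 0 := by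
      rcases hcase 1 0 with h | h
      · exact absurd h.symm h01
      · exact h
    rcases hcase 2 0 with h20 | h20
    · refine ⟨Equiv.swap (1 : Fin 3) 2, l 0, ?_, ?_, ?_⟩
      · have e : (Equiv.swap (1 : Fin 3) 2) 0 = 0 := by decide
        rw [e]
      · have e : (Equiv.swap (1 : Fin 3) 2) 1 = 2 := by decide
        rw [e, h20]
      · have e : (Equiv.swap (1 : Fin 3) 2) 2 = 1 := by decide
        rw [e, h10]
    · refine ⟨Equiv.swap (0 : Fin 3) 2, l 1, ?_, ?_, ?_⟩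
      · have e : (Equiv.swap (0 : Fin 3) 2) 0 = 2 := by decide
        rw [e, h20, h10]
      · have e : (Equiv.swap (0 : Fin 3) 2) 1 = 1 := by decide
        rw [e]
      · have e : (Equiv.swap (0 : Fin 3) 2) 2 = 0 := by decide
        rw [e, h10, neg_neg]

omit [Fintype F] in
/-- An operator acting as `l` on `v₀`, `v₁ + v₂` and as `-l` on `v₁ - v₂` normalizes the
Heisenberg group. -/
theorem heis_swap_of_eigen (R : Subgroup (GL (Fin 3) F)) [Finite R] (a b : GL (Fin 3) F)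
    (ν : F) (v : Module.Basis (Fin 3) F (Fin 3 → F)) (h3 : (3 : F) ≠ 0) (h2 : (2 : F) ≠ 0)
    (haR : a ∈ R) (hbR : b ∈ R) (hν : ν ^ 2 + ν + 1 = 0)
    (hav : ∀ k : Fin 3, (a : Matrix (Fin 3) (Fin 3) F) *ᵥ v k = ν ^ (k : ℕ) • v k)
    (hbv : ∀ k : Fin 3, (b : Matrix (Fin 3) (Fin 3) F) *ᵥ v k = v (k + 1))
    (hRcl : R = Subgroup.closure {a, b}) (y : GL (Fin 3) F) (l : F)
    (k0 : (y : Matrix (Fin 3) (Fin 3) F) *ᵥ v 0 = l • v 0)
    (k1 : (y : Matrix (Fin 3) (Fin 3) F) *ᵥ v 1 + (y : Matrix (Fin 3) (Fin 3) F) *ᵥ v 2 =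
      l • (v 1 + v 2))
    (k2 : (y : Matrix (Fin 3) (Fin 3) F) *ᵥ v 1 - (y : Matrix (Fin 3) (Fin 3) F) *ᵥ v 2 =
      (-l) • (v 1 - v 2)) :
    y ∈ Subgroup.normalizer (R : Set (GL (Fin 3) F)) := by
  have hy1 : (y : Matrix (Fin 3) (Fin 3) F) *ᵥ v 1 = l • v 2 := by
    have e : (2 : F) • ((y : Matrix (Fin 3) (Fin 3) F) *ᵥ v 1) = (2 : F) • (l • v 2) := by
      have e1 : (2 : F) • ((y : Matrix (Fin 3) (Fin 3) F) *ᵥ v 1) =
          ((y : Matrix (Fin 3) (Fin 3) F) *ᵥ v 1 + (y : Matrix (Fin 3) (Fin 3) F) *ᵥ v 2) +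
          ((y : Matrix (Fin 3) (Fin 3) F) *ᵥ v 1 - (y : Matrix (Fin 3) (Fin 3) F) *ᵥ v 2) := by
        module
      rw [e1, k1, k2]
      module
    exact smul_right_injective _ h2 e
  have hy2 : (y : Matrix (Fin 3) (Fin 3) F) *ᵥ v 2 = l • v 1 := by
    have e : (2 : F) • ((y : Matrix (Fin 3) (Fin 3) F) *ᵥ v 2) = (2 : F) • (l • v 1) := by
      have e1 : (2 : F) • ((y : Matrix (Fin 3) (Fin 3) F) *ᵥ v 2) =
          ((y : Matrix (Fin 3) (Fin 3) F) *ᵥ v 1 + (y : Matrix (Fin 3) (Fin 3) F) *ᵥ v 2) -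
          ((y : Matrix (Fin 3) (Fin 3) F) *ᵥ v 1 - (y : Matrix (Fin 3) (Fin 3) F) *ᵥ v 2) := by
        module
      rw [e1, k1, k2]
      module
    exact smul_right_injective _ h2 e
  apply heis_swap_normalizes R a b ν v h3 haR hbR hν hav hbv hRcl _ l
  intro k
  fin_cases k
  · exact k0
  · exact hy1
  · exact hy2

omit [Fintype F] in
/-- Conjugation formula: if `g` maps the eigenbasis `u` of `x` to multiples of `v`, then
`g x g⁻¹` has eigenbasis `v`. -/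
theorem conj_eigen (x g : GL (Fin 3) F) (u v : Module.Basis (Fin 3) F (Fin 3 → F))
    (l w : Fin 3 → F) (hw0 : ∀ k, w k ≠ 0)
    (hx : ∀ k, (x : Matrix (Fin 3) (Fin 3) F) *ᵥ u k = l k • u k)
    (hg : ∀ k, (g : Matrix (Fin 3) (Fin 3) F) *ᵥ u k = w k • v k) (k : Fin 3) :
    ((g⁻¹⁻¹ * x * g⁻¹ : GL (Fin 3) F) : Matrix (Fin 3) (Fin 3) F) *ᵥ v k = l k • v k := by
  rw [inv_inv]
  have h1 : (g * x * g⁻¹) * g = g * x := by group
  have h2 : ((g * x * g⁻¹ : GL (Fin 3) F) : Matrix (Fin 3) (Fin 3) F) *ᵥ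
      ((g : Matrix (Fin 3) (Fin 3) F) *ᵥ u k) =
        (g : Matrix (Fin 3) (Fin 3) F) *ᵥ ((x : Matrix (Fin 3) (Fin 3) F) *ᵥ u k) := by
    rw [Matrix.mulVec_mulVec, ← Units.val_mul, h1, Units.val_mul, Matrix.mulVec_mulVec]
  rw [hx, Matrix.mulVec_smul, hg, Matrix.mulVec_smul, smul_smul, mul_comm, ← smul_smul] at h2
  exact smul_right_injective _ (hw0 k) h2

/-- Elements of `SU₃` with scalar cube are `SU₃`-conjugate into the normalizer of a unitary
Heisenberg group, when `9 ∣ q + 1`. -/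
theorem heisU_fix_three (hF : Fintype.card F = q ^ 2) (h9 : 9 ∣ q + 1)
    (R : Subgroup (GL (Fin 3) F)) [Finite R] (a b c : GL (Fin 3) F)
    (ν : F) (v : Module.Basis (Fin 3) F (Fin 3 → F)) (h3 : (3 : F) ≠ 0)
    (haR : a ∈ R) (hbR : b ∈ R) (hcR : c ∈ R) (hν : ν ^ 2 + ν + 1 = 0)
    (hc : (c : Matrix (Fin 3) (Fin 3) F) = ν • (1 : Matrix (Fin 3) (Fin 3) F))
    (hav : ∀ k : Fin 3, (a : Matrix (Fin 3) (Fin 3) F) *ᵥ v k = ν ^ (k : ℕ) • v k)
    (hbv : ∀ k : Fin 3, (b : Matrix (Fin 3) (Fin 3) F) *ᵥ v k = v (k + 1))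
    (hv : ∀ i j, Cfsg.hermForm 3 F q (v i) (v j) = if i = j then 1 else 0)
    (hRcl : R = Subgroup.closure {a, b})
    (x : GL (Fin 3) F) (hxU : x ∈ Cfsg.GU 3 F q)
    (hx : x ∈ Cfsg.Geo.specialLinear (Fin 3) F) (z : F)
    (hxz : (x : Matrix (Fin 3) (Fin 3) F) * (x : Matrix (Fin 3) (Fin 3) F) *
      (x : Matrix (Fin 3) (Fin 3) F) = z • 1) :
    ∃ g ∈ Cfsg.GU 3 F q ⊓ Cfsg.Geo.specialLinear (Fin 3) F,
      g⁻¹ * x * g ∈ Subgroup.normalizer (R : Set (GL (Fin 3) F)) := by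
  have hq := Cfsg.Agent.H17.two_le_of_card_sq hF
  rw [mem_sl_iff] at hx
  have hz3 : z ^ 3 = 1 := by
    have h1 := congrArg Matrix.det hxz
    rw [Matrix.det_mul, Matrix.det_mul, hx, Matrix.det_smul, Matrix.det_one, Fintype.card_fin,
      mul_one, mul_one, mul_one] at h1
    exact h1.symm
  have h9' : 9 ∣ Fintype.card F - 1 := by
    rw [hF]
    obtain ⟨m, hm⟩ := h9
    refine ⟨m * (q - 1), ?_⟩
    have e : q ^ 2 - 1 = (q + 1) * (q - 1) := by
      obtain ⟨q', rfl⟩ : ∃ q', q = q' + 1 := ⟨q - 1, by omega⟩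
      have : q' + 1 - 1 = q' := by omega
      rw [this]
      apply Nat.sub_eq_of_eq_add
      ring
    rw [e, hm, mul_assoc]
  obtain ⟨s, hs0, hs⟩ := exists_cube_root h9' z hz3
  have hP : ∀ l l' : F, l ^ 3 = z → l' ^ 3 = z → l ≠ l' → l ^ q * l' ≠ 1 := by
    intro l l' hl hl' hne h1
    have hl9 : l ^ 9 = 1 := by
      have : l ^ 9 = (l ^ 3) ^ 3 := by ring
      rw [this, hl, hz3]
    have hlq : l ^ (q + 1) = 1 := by
      obtain ⟨m, hm⟩ := h9
      rw [hm, pow_mul, hl9, one_pow]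
    have hl0 : l ≠ 0 := by
      intro h
      rw [h, zero_pow (by norm_num)] at hl9
      exact zero_ne_one hl9
    apply hne
    have h2 : l ^ q * l' = l ^ q * l := by rw [h1, ← pow_succ, hlq]
    exact (mul_left_cancel₀ (pow_ne_zero _ hl0) h2).symm
  obtain ⟨u, l, hu, hl⟩ := unitary_eigen_onb hF x hxU (fun l => l ^ 3 = z) hP
    (cube_span _ z s ν hν h3 hs.symm hs0 hxz)
  obtain ⟨g, hgU, hgS, w, hw0, hgu⟩ := exists_su_of_onb hF u v hu hv
  refine ⟨g⁻¹, Subgroup.inv_mem _ ⟨hgU, hgS⟩, ?_⟩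
  exact heis_diag_normalizes R a b c ν v h3 haR hbR hcR hν hc hav hbv hRcl _ l z
    (conj_eigen x g u v l w hw0 (fun k => (hl k).2) hgu) (fun k => (hl k).1)

/-- Elements of `SU₃` with scalar square are `SU₃`-conjugate into the normalizer of a unitary
Heisenberg group. -/
theorem heisU_fix_two (hF : Fintype.card F = q ^ 2) (h6 : 6 ∣ q + 1)
    (R : Subgroup (GL (Fin 3) F)) [Finite R] (a b : GL (Fin 3) F)
    (ν : F) (v : Module.Basis (Fin 3) F (Fin 3 → F)) (h3 : (3 : F) ≠ 0) (h2 : (2 : F) ≠ 0)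
    (haR : a ∈ R) (hbR : b ∈ R) (hν : ν ^ 2 + ν + 1 = 0)
    (hav : ∀ k : Fin 3, (a : Matrix (Fin 3) (Fin 3) F) *ᵥ v k = ν ^ (k : ℕ) • v k)
    (hbv : ∀ k : Fin 3, (b : Matrix (Fin 3) (Fin 3) F) *ᵥ v k = v (k + 1))
    (hv : ∀ i j, Cfsg.hermForm 3 F q (v i) (v j) = if i = j then 1 else 0)
    (hRcl : R = Subgroup.closure {a, b})
    (x : GL (Fin 3) F) (hxU : x ∈ Cfsg.GU 3 F q)
    (hx : x ∈ Cfsg.Geo.specialLinear (Fin 3) F) (z : F)
    (hxz : (x : Matrix (Fin 3) (Fin 3) F) * (x : Matrix (Fin 3) (Fin 3) F) = z • 1)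
    (hns : ∀ z : F, (x : Matrix (Fin 3) (Fin 3) F) ≠ z • (1 : Matrix (Fin 3) (Fin 3) F)) :
    ∃ g ∈ Cfsg.GU 3 F q ⊓ Cfsg.Geo.specialLinear (Fin 3) F,
      g⁻¹ * x * g ∈ Subgroup.normalizer (R : Set (GL (Fin 3) F)) := by
  have hq := Cfsg.Agent.H17.two_le_of_card_sq hF
  rw [mem_sl_iff] at hx
  have hz3 : z ^ 3 = 1 := by
    have h1 := congrArg Matrix.det hxz
    rw [Matrix.det_mul, hx, Matrix.det_smul, Matrix.det_one, Fintype.card_fin, mul_one,
      mul_one] at h1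
    exact h1.symm
  have hz0 : z ≠ 0 := by
    intro h
    rw [h] at hz3
    simp at hz3
  have hP : ∀ l l' : F, l ^ 2 = z → l' ^ 2 = z → l ≠ l' → l ^ q * l' ≠ 1 := by
    intro l l' hl hl' hne h1
    have hl6 : l ^ 6 = 1 := by
      have : l ^ 6 = (l ^ 2) ^ 3 := by ring
      rw [this, hl, hz3]
    have hlq : l ^ (q + 1) = 1 := by
      obtain ⟨m, hm⟩ := h6
      rw [hm, pow_mul, hl6, one_pow]
    have hl0 : l ≠ 0 := by
      intro h
      rw [h, zero_pow (by norm_num)] at hl6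
      exact zero_ne_one hl6
    apply hne
    have h2' : l ^ q * l' = l ^ q * l := by rw [h1, ← pow_succ, hlq]
    exact (mul_left_cancel₀ (pow_ne_zero _ hl0) h2').symm
  obtain ⟨u, l, hu, hl⟩ := unitary_eigen_onb hF x hxU (fun l => l ^ 2 = z) hP
    (sq_span _ z (z ^ 2) h2 (by linear_combination (-z) * hz3) (pow_ne_zero _ hz0) hxz)
  have hne : ¬ (l 0 = l 1 ∧ l 0 = l 2) := by
    rintro ⟨h01, h02⟩
    apply hns (l 0)
    apply mat_ext_basis u
    intro k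
    rw [Matrix.smul_mulVec, Matrix.one_mulVec, (hl k).2]
    fin_cases k
    · rfl
    · exact congrArg (fun t => t • u 1) h01.symm
    · exact congrArg (fun t => t • u 2) h02.symm
  obtain ⟨σ, l₀, hσ0, hσ1, hσ2⟩ := invol_perm l z (fun k => (hl k).1) hne
  obtain ⟨v', t, ht0, hv0, hv1, hv2, hv'⟩ := exists_swap_onb hF h2 v hv
  have hu' : ∀ i j, Cfsg.hermForm 3 F q ((u.reindex σ.symm) i) ((u.reindex σ.symm) j) =
      if i = j then 1 else 0 := by
    intro i j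
    rw [Module.Basis.reindex_apply, Module.Basis.reindex_apply, Equiv.symm_symm, hu]
    by_cases hij : i = j
    · rw [if_pos hij, if_pos (by rw [hij])]
    · rw [if_neg hij, if_neg (fun h => hij (σ.injective h))]
  have hxu' : ∀ k, (x : Matrix (Fin 3) (Fin 3) F) *ᵥ (u.reindex σ.symm) k =
      (![l₀, l₀, -l₀] : Fin 3 → F) k • (u.reindex σ.symm) k := by
    intro k
    rw [Module.Basis.reindex_apply, Equiv.symm_symm, (hl (σ k)).2]
    fin_cases k
    · exact congrArg (fun t => t • u (σ 0)) hσ0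
    · exact congrArg (fun t => t • u (σ 1)) hσ1
    · exact congrArg (fun t => t • u (σ 2)) hσ2
  obtain ⟨g, hgU, hgS, w, hw0, hgu⟩ := exists_su_of_onb hF (u.reindex σ.symm) v' hu' hv'
  refine ⟨g⁻¹, Subgroup.inv_mem _ ⟨hgU, hgS⟩, ?_⟩
  have hy := conj_eigen x g (u.reindex σ.symm) v' _ w hw0 hxu' hgu
  have k0 := hy 0
  have k1 := hy 1
  have k2 := hy 2
  simp only [Matrix.cons_val_zero, Matrix.cons_val_one, Matrix.cons_val_two, Matrix.head_cons,
    Matrix.tail_cons] at k0 k1 k2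
  rw [hv0] at k0
  rw [hv1, Matrix.mulVec_smul, Matrix.mulVec_add, smul_comm] at k1
  rw [hv2, Matrix.mulVec_smul, Matrix.mulVec_sub, smul_comm] at k2
  exact heis_swap_of_eigen R a b ν v h3 h2 haR hbR hν hav hbv hRcl _ l₀ k0
    (smul_right_injective _ ht0 k1) (smul_right_injective _ ht0 k2)

/-- A subgroup of `SL₃(q)`, `q ≡ 4, 7 (mod 9)`, containing a subgroup of order 27: the index
of a subgroup containing the latter is prime to 3. -/
theorem sl3_not_three_dvd' (Q : ℕ) (hFQ : Fintype.card F = Q) (hQ3 : Q % 3 = 1)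
    (hQ9 : Q % 9 ≠ 1) (R N S : Subgroup (GL (Fin 3) F)) (hR : Nat.card R = 27) (hRN : R ≤ N)
    (hRS : R ≤ S) (hS : S ≤ Cfsg.Geo.specialLinear (Fin 3) F) :
    ¬ 3 ∣ N.relIndex S := by
  intro h3
  have h1 := card_mul_relIndex_of_le (N ⊓ S) S inf_le_right
  rw [Subgroup.inf_relIndex_right] at h1
  have h2 : 27 ∣ Nat.card ↥(N ⊓ S) := by
    rw [← hR]
    exact Subgroup.card_dvd_of_le (le_inf hRN hRS)
  have h5 : Nat.card S ∣ Nat.card (Cfsg.Geo.specialLinear (Fin 3) F) :=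
    Subgroup.card_dvd_of_le hS
  obtain ⟨c1, hc1⟩ := h2
  obtain ⟨c2, hc2⟩ := h3
  obtain ⟨c3, hc3⟩ := h5
  have h4 := card_sl3_mul (F := F)
  rw [Matrix.card_GL_field, hFQ, Fin.prod_univ_three, hc3, ← h1, hc1, hc2] at h4
  simp only [Fin.val_zero, Fin.val_one, Fin.val_two, pow_zero, pow_one] at h4
  obtain ⟨m, rfl⟩ : ∃ m, Q = 3 * m + 1 := ⟨Q / 3, by omega⟩
  have e0 : 3 * m + 1 - 1 = 3 * m := by omega
  have e1 : (3 * m + 1) ^ 3 - 1 = 9 * m * (3 * m ^ 2 + 3 * m + 1) :=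
    Nat.sub_eq_of_eq_add (by ring)
  have e2 : (3 * m + 1) ^ 3 - (3 * m + 1) = 3 * m * (3 * m + 1) * (3 * m + 2) :=
    Nat.sub_eq_of_eq_add (by ring)
  have e3 : (3 * m + 1) ^ 3 - (3 * m + 1) ^ 2 = 3 * m * (3 * m + 1) ^ 2 :=
    Nat.sub_eq_of_eq_add (by ring)
  rw [e0, e1, e2, e3] at h4
  apply arith_three_part m (c1 * c2 * c3) (by omega)
  rw [← h4]
  ring

end

end Cfsg.Agent.H99
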