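import Mathlib
import Cfsg.Agent.H48.ElEX2

/-!
helper99: piece D-ONE of S5958: an element of order `r` of `SL_n(q)` with exactly one
non-trivial irreducible block (fixed space of codimension `ord_r(q)`).
-/

set_option autoImplicit false

namespace Cfsg.Agent.H99.Dec

theorem exists_one_block_SL {F : Type*} [Field F] [Fintype F] (r : ℕ) (hr : r.Prime)
    (hrF : (r : F) ≠ 0) (n : ℕ) (hi : 2 ≤ orderOf (Fintype.card F : ZMod r))
    (hin : orderOf (Fintype.card F : ZMod r) ≤ n) :
    ∃ x : Matrix.SpecialLinearGroup (Fin n) F, x ^ r = 1 ∧ x ≠ 1 ∧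
      Module.finrank F (LinearMap.ker (Matrix.toLin' (x : Matrix (Fin n) (Fin n) F) - 1))
        + orderOf (Fintype.card F : ZMod r) = n := by
  classical
  have hrf : Fact r.Prime := ⟨hr⟩
  obtain ⟨i, hidef⟩ : ∃ i, i = orderOf (Fintype.card F : ZMod r) := ⟨_, rfl⟩
  rw [← hidef] at hi hin ⊢
  have hi0 : NeZero i := ⟨by omega⟩
  obtain ⟨p, hp⟩ := CharP.exists F
  have hpp : Fact p.Prime := ⟨CharP.char_is_prime F p⟩
  have hqi : (Fintype.card F : ZMod r) ^ i = 1 := by rw [hidef]; exact pow_orderOf_eq_one _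
  have hq1 : 1 ≤ Fintype.card F ^ i := Nat.one_le_pow _ _ Fintype.card_pos
  have hdvd : r ∣ Fintype.card F ^ i - 1 := by
    rw [← ZMod.natCast_eq_zero_iff, Nat.cast_sub hq1, Nat.cast_pow, hqi, Nat.cast_one, sub_self]
  have hndvd : ¬ r ∣ Fintype.card F - 1 := by
    intro h
    have h1 : ((Fintype.card F - 1 : ℕ) : ZMod r) = 0 := (ZMod.natCast_eq_zero_iff _ _).mpr h
    rw [Nat.cast_sub Fintype.card_pos, Nat.cast_one, sub_eq_zero] at h1
    rw [h1, orderOf_one] at hidef
    omega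
  obtain ⟨u, hu⟩ := exists_prime_orderOf_dvd_card' (G := (FiniteField.Extension F p i)ˣ) r (by
    rw [Nat.card_units, FiniteField.natCard_extension, Nat.card_eq_fintype_card]
    exact hdvd)
  have hζ : ((u : FiniteField.Extension F p i)) ^ r = 1 := by
    rw [← Units.val_pow_eq_pow_val, ← hu, pow_orderOf_eq_one, Units.val_one]
  have hζ1 : ((u : FiniteField.Extension F p i)) ≠ 1 := by
    intro h
    have h1 : u = 1 := Units.ext h
    rw [h1, orderOf_one] at hu
    exact hr.one_lt.ne hu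
  obtain ⟨x, h1, h2, h3⟩ := Cfsg.Agent.H48.El.exists_semisimple_of_ext
    (E := FiniteField.Extension F p i) r hr hndvd _ hζ hζ1 n 1
    (n - i) (by rw [FiniteField.finrank_extension]; omega) Nat.one_pos
  refine ⟨x, h1, h2, ?_⟩
  rw [h3]
  omega

end Cfsg.Agent.H99.Dec
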