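import Mathlib
import Cfsg.Agent.H74.W2PDefs

/-!
# Auxiliary lemmas for the S0720 pieces of helper99 (roots of unity, cycles of `x`, orbital matrices)
-/

set_option autoImplicit false
set_option linter.unusedSectionVars false

namespace Cfsg.Agent.H99.W2P

open Cfsg.Agent.H74.W2P Equiv MulAction

theorem aux_zeta_prim {p : ℕ} (hp : p ≠ 0) : IsPrimitiveRoot (zeta p) p := by
  unfold zeta
  exact Complex.isPrimitiveRoot_exp p hp

/-- A rational number (given as an integer quotient) that is an algebraic integer is an integer. -/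
theorem aux_int_dvd {a b : ℤ} (hb : b ≠ 0) (h : IsIntegral ℤ ((a : ℂ) / (b : ℂ))) : b ∣ a := by
  have h1 : IsIntegral ℤ (algebraMap ℚ ℂ ((a : ℚ) / (b : ℚ))) := by
    simpa using h
  have h2 : IsIntegral ℤ ((a : ℚ) / (b : ℚ)) :=
    (isIntegral_algebraMap_iff (algebraMap ℚ ℂ).injective).mp h1
  obtain ⟨n, hn⟩ := IsIntegrallyClosed.isIntegral_iff.mp h2
  refine ⟨n, ?_⟩
  have hb' : (b : ℚ) ≠ 0 := by exact_mod_cast hb
  have : (a : ℚ) = (b : ℚ) * (n : ℚ) := by
    have h3 : (n : ℚ) = (a : ℚ) / (b : ℚ) := by simpa using hn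
    rw [h3]; field_simp
  exact_mod_cast this

/-- If `(1 - ζ) u` is a rational integer `d` for an algebraic integer `u`, then `p ∣ d`. -/
theorem aux_dvd_of_one_sub_zeta_mul {p : ℕ} (hp : p.Prime) (u : ℂ) (hu : IsIntegral ℤ u) (d : ℤ)
    (h : (1 - zeta p) * u = d) : (p : ℤ) ∣ d := by
  have hζ := aux_zeta_prim hp.ne_zero
  have hζi : IsIntegral ℤ (zeta p) := hζ.isIntegral hp.pos
  have hfac : ∀ k ∈ Finset.range (p - 1), ∃ v : ℂ, IsIntegral ℤ v ∧
      1 - zeta p = (1 - zeta p ^ (k + 1)) * v := by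
    intro k hk
    have hk' : k + 1 < p := by have := Finset.mem_range.mp hk; omega
    have hcop : Nat.Coprime (k + 1) p :=
      ((Nat.Prime.coprime_iff_not_dvd hp).mpr
        (Nat.not_dvd_of_pos_of_lt (Nat.succ_pos k) hk')).symm
    obtain ⟨m, -, hm⟩ := Nat.exists_mul_mod_eq_one_of_coprime hcop hp.one_lt
    refine ⟨∑ i ∈ Finset.range m, (zeta p ^ (k + 1)) ^ i, ?_, ?_⟩
    · exact IsIntegral.sum _ (fun i _ => (hζi.pow _).pow _)
    · rw [mul_neg_geom_sum, ← pow_mul]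
      have h1 : zeta p ^ ((k + 1) * m) = zeta p := by
        conv_lhs => rw [← Nat.mod_add_div ((k + 1) * m) p, hm, pow_add, pow_mul, hζ.pow_eq_one,
          one_pow, mul_one, pow_one]
      rw [h1]
  choose! v hv1 hv2 using hfac
  have hpp : p - 1 + 1 = p := Nat.sub_add_cancel hp.pos
  have hprod : (1 - zeta p) ^ (p - 1) = (p : ℂ) * ∏ k ∈ Finset.range (p - 1), v k := by
    have h1 : ∏ k ∈ Finset.range (p - 1), (1 - zeta p ^ (k + 1)) = ((p - 1 : ℕ) : ℂ) + 1 := by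
      apply IsPrimitiveRoot.prod_one_sub_pow_eq_order
      rw [hpp]; exact hζ
    have h2 : ((p - 1 : ℕ) : ℂ) + 1 = (p : ℂ) := by
      have h3 : ((p - 1 + 1 : ℕ) : ℂ) = (p : ℂ) := by rw [hpp]
      rw [← h3]; push_cast; ring
    calc (1 - zeta p) ^ (p - 1) = ∏ _k ∈ Finset.range (p - 1), (1 - zeta p) := by
          rw [Finset.prod_const, Finset.card_range]
      _ = ∏ k ∈ Finset.range (p - 1), ((1 - zeta p ^ (k + 1)) * v k) :=
          Finset.prod_congr rfl (fun k hk => hv2 k hk)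
      _ = (∏ k ∈ Finset.range (p - 1), (1 - zeta p ^ (k + 1))) *
            ∏ k ∈ Finset.range (p - 1), v k := Finset.prod_mul_distrib
      _ = (p : ℂ) * ∏ k ∈ Finset.range (p - 1), v k := by rw [h1, h2]
  have hV : IsIntegral ℤ (∏ k ∈ Finset.range (p - 1), v k) :=
    IsIntegral.prod _ (fun k hk => hv1 k hk)
  have hd : ((d ^ (p - 1) : ℤ) : ℂ) / ((p : ℤ) : ℂ) =
      (∏ k ∈ Finset.range (p - 1), v k) * u ^ (p - 1) := by
    have hp0 : (p : ℂ) ≠ 0 := Nat.cast_ne_zero.mpr hp.ne_zero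
    push_cast
    rw [← h, mul_pow, hprod]
    field_simp
  have hdvd : (p : ℤ) ∣ d ^ (p - 1) := by
    apply aux_int_dvd (by exact_mod_cast hp.ne_zero)
    rw [hd]
    exact hV.mul (hu.pow _)
  exact (Nat.prime_iff_prime_int.mp hp).dvd_of_dvd_pow hdvd

theorem aux_sum_zmod_val {p : ℕ} [NeZero p] (f : ℕ → ℂ) :
    ∑ h : ZMod p, f h.val = ∑ i ∈ Finset.range p, f i := by
  refine Finset.sum_nbij' (fun h => h.val) (fun i => (i : ZMod p)) ?_ ?_ ?_ ?_ ?_
  · intro h _; exact Finset.mem_range.mpr (ZMod.val_lt h)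
  · intro i _; exact Finset.mem_univ _
  · intro h _; exact ZMod.natCast_zmod_val h
  · intro i hi; exact ZMod.val_natCast_of_lt (Finset.mem_range.mp hi)
  · intro h _; rfl

theorem aux_sum_zeta {p : ℕ} [NeZero p] (hp : p.Prime) (z : ℕ) (hz : z < p) :
    ∑ h : ZMod p, zeta p ^ (h.val * z) = if z = 0 then (p : ℂ) else 0 := by
  have hζ := aux_zeta_prim hp.ne_zero
  rw [aux_sum_zmod_val (fun i => zeta p ^ (i * z))]
  split_ifs with h0
  · subst h0; simp
  · have h1 : ∀ i, zeta p ^ (i * z) = (zeta p ^ z) ^ i := fun i => by rw [← pow_mul, mul_comm]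
    simp only [h1]
    have hcop : Nat.Coprime z p :=
      ((Nat.Prime.coprime_iff_not_dvd hp).mpr
        (Nat.not_dvd_of_pos_of_lt (Nat.pos_of_ne_zero h0) hz)).symm
    have hz' : IsPrimitiveRoot (zeta p ^ z) p := hζ.pow_of_coprime z hcop
    exact hz'.geom_sum_eq_zero hp.one_lt

variable {Ω : Type*} [Fintype Ω] [DecidableEq Ω]

theorem aux_pow_p {G : Subgroup (Perm Ω)} {p : ℕ} {x : Perm Ω} (hyp : Hyp G p x) : x ^ p = 1 := by
  rw [← hyp.hxord]; exact pow_orderOf_eq_one x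

theorem aux_pow_inj {G : Subgroup (Perm Ω)} {p : ℕ} {x : Perm Ω} (hyp : Hyp G p x) (a : Ω)
    {z z' : ℕ} (hz : z < p) (hz' : z' < p) (h : (x ^ z) a = (x ^ z') a) : z = z' := by
  wlog hle : z ≤ z' generalizing z z'
  · exact (this hz' hz h.symm (by omega)).symm
  by_contra hne
  have hlt : z < z' := lt_of_le_of_ne hle hne
  obtain ⟨k, hk⟩ : ∃ k, k = z' - z := ⟨_, rfl⟩
  have h1 : (x ^ k) a = a := by
    have h2 : x ^ z' = x ^ z * x ^ k := by rw [← pow_add]; congr 1; omega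
    rw [h2, Perm.mul_apply] at h
    exact ((x ^ z).injective h).symm
  have hcop : Nat.Coprime k p :=
    ((Nat.Prime.coprime_iff_not_dvd hyp.hp).mpr
      (Nat.not_dvd_of_pos_of_lt (by omega) (by omega))).symm
  obtain ⟨m, -, hm⟩ := Nat.exists_mul_mod_eq_one_of_coprime hcop hyp.hp.one_lt
  have h2 : x ^ (k * m) = x := by
    conv_lhs => rw [← Nat.mod_add_div (k * m) p, hm, pow_add, pow_mul, aux_pow_p hyp,
      one_pow, mul_one, pow_one]
  have h3 : (x ^ (k * m)) a = a := by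
    rw [pow_mul]
    exact Equiv.Perm.pow_apply_eq_self_of_apply_eq_self h1 m
  rw [h2] at h3
  exact hyp.hxfix a h3

/-- Sums over the `x`-cycle of `a`. -/
theorem aux_cyc_sum {G : Subgroup (Perm Ω)} {p : ℕ} {x : Perm Ω} (hyp : Hyp G p x) (a : Ω)
    {M : Type*} [AddCommMonoid M] (f : Ω → M) :
    ∑ j, (if x.SameCycle a j then f j else 0) = ∑ z ∈ Finset.range p, f ((x ^ z) a) := by
  rw [← Finset.sum_filter]
  have himg : Finset.univ.filter (fun j => x.SameCycle a j) =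
      (Finset.range p).image (fun z => (x ^ z) a) := by
    ext j
    simp only [Finset.mem_filter, Finset.mem_univ, true_and, Finset.mem_image, Finset.mem_range]
    constructor
    · intro h
      obtain ⟨i, hi, hij⟩ := h.exists_pow_eq'
      rw [hyp.hxord] at hi
      exact ⟨i, hi, hij⟩
    · rintro ⟨z, _, rfl⟩
      exact ⟨(z : ℤ), by rw [zpow_natCast]⟩
  rw [himg, Finset.sum_image]
  intro z hz z' hz' h
  exact aux_pow_inj hyp a (Finset.mem_range.mp hz) (Finset.mem_range.mp hz') h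

open Classical in
/-- The orbital (0/1) matrix of the `G`-orbit of the pair `(a, ω)`. -/
noncomputable def orbMat (G : Subgroup (Perm Ω)) (a ω : Ω) : Matrix Ω Ω ℤ :=
  fun i j => if ∃ g ∈ G, g a = i ∧ g ω = j then 1 else 0

theorem orbMat_eq_one_iff (G : Subgroup (Perm Ω)) (a ω i j : Ω) :
    orbMat G a ω i j = 1 ↔ ∃ g ∈ G, g a = i ∧ g ω = j := by
  unfold orbMat
  split_ifs with h
  · simp [h]
  · simp [h]

theorem orbMat_zero_or_one (G : Subgroup (Perm Ω)) (a ω i j : Ω) :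
    orbMat G a ω i j = 0 ∨ orbMat G a ω i j = 1 := by
  unfold orbMat
  split_ifs with h
  · right; rfl
  · left; rfl

theorem orbMat_cent (G : Subgroup (Perm Ω)) (a ω : Ω) : Cent G (orbMat G a ω) := by
  intro g hg i j
  have hiff : (∃ g' ∈ G, g' a = g i ∧ g' ω = g j) ↔ (∃ g' ∈ G, g' a = i ∧ g' ω = j) := by
    constructor
    · rintro ⟨g', hg', h1, h2⟩
      refine ⟨g⁻¹ * g', G.mul_mem (G.inv_mem hg) hg', ?_, ?_⟩
      · rw [Perm.mul_apply, h1]; exact g.symm_apply_apply i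
      · rw [Perm.mul_apply, h2]; exact g.symm_apply_apply j
    · rintro ⟨g', hg', h1, h2⟩
      refine ⟨g * g', G.mul_mem hg hg', ?_, ?_⟩
      · rw [Perm.mul_apply, h1]
      · rw [Perm.mul_apply, h2]
  rcases orbMat_zero_or_one G a ω i j with h0 | h1
  · rw [h0]
    rcases orbMat_zero_or_one G a ω (g i) (g j) with h0' | h1'
    · exact h0'
    · rw [orbMat_eq_one_iff, hiff, ← orbMat_eq_one_iff] at h1'
      rw [h0] at h1'; exact absurd h1' (by norm_num)
  · rw [h1]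
    rw [orbMat_eq_one_iff, ← hiff, ← orbMat_eq_one_iff] at h1
    exact h1

theorem orbMat_diag (G : Subgroup (Perm Ω)) {a ω : Ω} (hω : ω ≠ a) (i : Ω) :
    orbMat G a ω i i = 0 := by
  rcases orbMat_zero_or_one G a ω i i with h0 | h1
  · exact h0
  · rw [orbMat_eq_one_iff] at h1
    obtain ⟨g, _, h1, h2⟩ := h1
    exact absurd (g.injective (h2.trans h1.symm)) hω

theorem orbMat_base (G : Subgroup (Perm Ω)) (a ω j : Ω) :
    orbMat G a ω a j = 1 ↔ j ∈ orbit (stabilizer G a) ω := by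
  rw [orbMat_eq_one_iff]
  constructor
  · rintro ⟨g, hg, h1, h2⟩
    exact ⟨⟨⟨g, hg⟩, by rw [mem_stabilizer_iff]; exact h1⟩, h2⟩
  · rintro ⟨⟨⟨g, hg⟩, hs⟩, h2⟩
    rw [mem_stabilizer_iff] at hs
    exact ⟨g, hg, hs, h2⟩

end Cfsg.Agent.H99.W2P
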