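import Mathlib
import Cfsg.Agent.H74.W2PDefs
import Cfsg.Agent.H99.W2PAux

set_option autoImplicit false
set_option linter.unusedSectionVars false

namespace Cfsg.Agent.H99.W2P

open Cfsg.Agent.H74.W2P Equiv MulAction

variable {Ω : Type*} [Fintype Ω] [DecidableEq Ω]

theorem div_t1 {G : Subgroup (Perm Ω)} {p : ℕ} {x : Perm Ω} (hyp : Hyp G p x) (a₀ b₀ : Ω)
    (hb₀ : ¬ x.SameCycle a₀ b₀) (hcong : CongW G p x a₀ b₀)
    (hE : ∀ k : ZMod p, k ≠ 0 → k ∈ Eset G x a₀ b₀ p) (ω : Ω) (hω : ω ≠ a₀) :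
    (p - 1) ∣ 2 * kval G x a₀ ω := by
  classical
  have hp := hyp.hp
  have hp3 : 3 ≤ p := by
    have h1 := hp.two_le
    have h2 := hyp.hp2
    omega
  have : NeZero p := ⟨hp.ne_zero⟩
  obtain ⟨A, hAdef⟩ : ∃ A : Matrix Ω Ω ℤ, A = orbMat G a₀ ω := ⟨_, rfl⟩
  have hA : Cent G A := hAdef ▸ orbMat_cent G a₀ ω
  have hA01 : ∀ i j, A i j = 0 ∨ A i j = 1 := fun i j => hAdef ▸ orbMat_zero_or_one G a₀ ω i j
  have hAdiag : ∀ i, A i i = 0 := fun i => hAdef ▸ orbMat_diag G hω i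
  have hAbase : ∀ j, A a₀ j = 1 ↔ j ∈ orbit (stabilizer G a₀) ω :=
    fun j => hAdef ▸ orbMat_base G a₀ ω j
  -- integer quantities
  obtain ⟨S1, hS1⟩ : ∃ S1 : ℤ, S1 = ∑ z ∈ Finset.range p, A a₀ ((x ^ z) a₀) := ⟨_, rfl⟩
  obtain ⟨S2, hS2⟩ : ∃ S2 : ℤ, S2 = ∑ z ∈ Finset.range p, A b₀ ((x ^ z) b₀) := ⟨_, rfl⟩
  obtain ⟨nZ, hnZ⟩ : ∃ nZ : ℤ, nZ = ∑ j, A a₀ j := ⟨_, rfl⟩
  obtain ⟨aZ, haZ⟩ : ∃ aZ : ℤ, aZ = ∑ j, A a₀ j * (if x.SameCycle a₀ j then 1 else -1) :=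
    ⟨_, rfl⟩
  -- the scalars `wch`
  have hwch : ∀ h : ZMod p, wch x a₀ b₀ p (A.map (Int.cast : ℤ → ℂ)) h =
      (∑ z ∈ Finset.range p, ((A a₀ ((x ^ z) a₀) + A b₀ ((x ^ z) b₀) : ℤ) : ℂ) *
        zeta p ^ (h.val * z)) - (aZ : ℂ) := by
    intro h
    unfold wch
    congr 1
    · apply Finset.sum_congr rfl
      intro z _
      simp [Matrix.map_apply]
    · rw [haZ]
      push_cast
      apply Finset.sum_congr rfl
      intro j _
      simp only [Matrix.map_apply, sig]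
  have hw0 : wch x a₀ b₀ p (A.map (Int.cast : ℤ → ℂ)) 0 = ((S1 + S2 - aZ : ℤ) : ℂ) := by
    rw [hwch, hS1, hS2]
    simp only [ZMod.val_zero, zero_mul, pow_zero, mul_one]
    push_cast
    rw [Finset.sum_add_distrib]
  have hsum : ∑ h : ZMod p, wch x a₀ b₀ p (A.map (Int.cast : ℤ → ℂ)) h
      = - ((p : ℂ) * (aZ : ℂ)) := by
    simp only [hwch]
    rw [Finset.sum_sub_distrib, Finset.sum_comm]
    have h1 : ∀ z ∈ Finset.range p, ∑ h : ZMod p,
        ((A a₀ ((x ^ z) a₀) + A b₀ ((x ^ z) b₀) : ℤ) : ℂ) * zeta p ^ (h.val * z) = 0 := by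
      intro z hz
      rw [← Finset.mul_sum, aux_sum_zeta hp z (Finset.mem_range.mp hz)]
      split_ifs with h0
      · subst h0
        simp [hAdiag]
      · simp
    rw [Finset.sum_congr rfl h1, Finset.sum_const_zero, Finset.sum_const, Finset.card_univ,
      ZMod.card, zero_sub, nsmul_eq_mul]
  -- all `wch A h`, `h ≠ 0`, are equal
  obtain ⟨w, hw⟩ : ∃ w : ℂ, w = wch x a₀ b₀ p (A.map (Int.cast : ℤ → ℂ)) 1 := ⟨_, rfl⟩
  have hwh : ∀ h : ZMod p, h ≠ 0 → wch x a₀ b₀ p (A.map (Int.cast : ℤ → ℂ)) h = w := by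
    intro h hh
    rw [hw]
    exact (hE h hh).2 A hA
  have hsum2 : ∑ h : ZMod p, wch x a₀ b₀ p (A.map (Int.cast : ℤ → ℂ)) h
      = ((S1 + S2 - aZ : ℤ) : ℂ) + ((p : ℂ) - 1) * w := by
    rw [← Finset.add_sum_erase Finset.univ _ (Finset.mem_univ (0 : ZMod p)), hw0]
    congr 1
    rw [Finset.sum_congr rfl (fun h hh => hwh h (Finset.ne_of_mem_erase hh)), Finset.sum_const,
      Finset.card_erase_of_mem (Finset.mem_univ _), Finset.card_univ, ZMod.card, nsmul_eq_mul,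
      Nat.cast_sub hp.one_le, Nat.cast_one]
  -- `w` is an integer
  have hwint : IsIntegral ℤ w := by
    obtain ⟨u, hu, hu2⟩ := hcong A hA 1
    rw [hw, hu2]
    have hζi : IsIntegral ℤ (zeta p) := (aux_zeta_prim hp.ne_zero).isIntegral hp.pos
    refine IsIntegral.add (IsIntegral.sum _ (fun j _ => isIntegral_algebraMap)) ?_
    exact (isIntegral_one.sub hζi).mul hu
  have hp1 : ((p : ℤ) - 1) ≠ 0 := by
    have : (3 : ℤ) ≤ (p : ℤ) := by exact_mod_cast hp3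
    omega
  have hweq : w = ((-(S1 + S2) - ((p : ℤ) - 1) * aZ : ℤ) : ℂ) / (((p : ℤ) - 1 : ℤ) : ℂ) := by
    have hp1' : ((p : ℂ) - 1) ≠ 0 := by
      have : (((p : ℤ) - 1 : ℤ) : ℂ) ≠ 0 := by exact_mod_cast hp1
      simpa using this
    have h1 := hsum.symm.trans hsum2
    have h2 : ((p : ℂ) - 1) * w = -((p : ℂ) * (aZ : ℂ)) - ((S1 + S2 - aZ : ℤ) : ℂ) := by
      linear_combination -h1
    push_cast
    rw [eq_div_iff hp1']
    push_cast at h2
    linear_combination h2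
  have hdvd1 : ((p : ℤ) - 1) ∣ (-(S1 + S2) - ((p : ℤ) - 1) * aZ) := by
    apply aux_int_dvd hp1
    rw [← hweq]
    exact hwint
  have hdvd2 : ((p : ℤ) - 1) ∣ S1 + S2 := by
    have h1 : ((p : ℤ) - 1) ∣ ((p : ℤ) - 1) * aZ := dvd_mul_right _ _
    have h2 := dvd_add hdvd1 h1
    have h3 : -(S1 + S2) - ((p : ℤ) - 1) * aZ + ((p : ℤ) - 1) * aZ = -(S1 + S2) := by ring
    rw [h3] at h2
    exact (dvd_neg.mp h2)
  -- `S2 = S1`
  have hC1 : aZ + nZ = 2 * S1 := by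
    have h1 := aux_cyc_sum hyp a₀ (fun j => A a₀ j)
    rw [haZ, hnZ, hS1, ← h1, ← Finset.sum_add_distrib, Finset.mul_sum]
    apply Finset.sum_congr rfl
    intro j _
    split_ifs <;> ring
  have hpd : (p : ℤ) ∣ S2 - S1 := by
    obtain ⟨u, hu, hu2⟩ := hcong A hA 0
    apply aux_dvd_of_one_sub_zeta_mul hp u hu
    rw [hw0] at hu2
    have h1 : (∑ j, ((A a₀ j : ℤ) : ℂ)) = (nZ : ℂ) := by rw [hnZ]; push_cast; rfl
    rw [h1] at hu2
    have h2 : (1 - zeta p) * u = ((S1 + S2 - aZ : ℤ) : ℂ) - (nZ : ℂ) := by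
      rw [hu2]; ring
    rw [h2]
    have h3 : S1 + S2 - aZ - nZ = S2 - S1 := by linarith
    rw [← h3]
    push_cast
    ring
  have hbound : ∀ (c : Ω) , 0 ≤ ∑ z ∈ Finset.range p, A c ((x ^ z) c) ∧
      ∑ z ∈ Finset.range p, A c ((x ^ z) c) ≤ (p : ℤ) - 1 := by
    intro c
    constructor
    · apply Finset.sum_nonneg
      intro z _
      rcases hA01 c ((x ^ z) c) with h | h <;> rw [h] <;> norm_num
    · have hpp : p - 1 + 1 = p := Nat.sub_add_cancel hp.pos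
      rw [← hpp, Finset.sum_range_succ', pow_zero, Perm.one_apply, hAdiag, add_zero]
      have h1 : ∑ k ∈ Finset.range (p - 1), A c ((x ^ (k + 1)) c)
          ≤ ∑ _k ∈ Finset.range (p - 1), (1 : ℤ) := by
        apply Finset.sum_le_sum
        intro z _
        rcases hA01 c ((x ^ (z + 1)) c) with h | h <;> rw [h] <;> norm_num
      rw [Finset.sum_const, Finset.card_range, nsmul_eq_mul, mul_one] at h1
      have h2 : ((p - 1 + 1 : ℕ) : ℤ) - 1 = ((p - 1 : ℕ) : ℤ) := by push_cast; ring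
      rw [h2]
      exact h1
  have hS21 : S2 = S1 := by
    have hb1 := hbound a₀
    have hb2 := hbound b₀
    rw [← hS1] at hb1
    rw [← hS2] at hb2
    have h1 : S2 - S1 = 0 := by
      apply Int.eq_zero_of_abs_lt_dvd hpd
      rw [abs_lt]
      constructor <;> omega
    omega
  -- `S1 = kval`
  have hk : (kval G x a₀ ω : ℤ) = S1 := by
    have h1 := aux_cyc_sum hyp a₀ (fun j => A a₀ j)
    rw [hS1, ← h1]
    unfold kval
    rw [Nat.card_eq_fintype_card, Fintype.card_subtype, Finset.card_filter]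
    push_cast
    apply Finset.sum_congr rfl
    intro j _
    by_cases hj1 : x.SameCycle a₀ j
    · by_cases hj2 : j ∈ orbit (stabilizer G a₀) ω
      · rw [if_pos ⟨hj2, hj1⟩, if_pos hj1, (hAbase j).mpr hj2]
      · rw [if_neg (fun h => hj2 h.1), if_pos hj1]
        rcases hA01 a₀ j with h | h
        · exact h.symm
        · exact absurd ((hAbase j).mp h) hj2
    · rw [if_neg (fun h => hj1 h.2), if_neg hj1]
  have hfin : ((p - 1 : ℕ) : ℤ) ∣ ((2 * kval G x a₀ ω : ℕ) : ℤ) := by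
    push_cast
    rw [Nat.cast_sub hp.one_le, Nat.cast_one, hk]
    have h1 : S1 + S2 = 2 * S1 := by rw [hS21]; ring
    rw [← h1]
    exact hdvd2
  exact Int.natCast_dvd_natCast.mp hfin

end Cfsg.Agent.H99.W2P
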