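import Mathlib
import Cfsg.Agent.H74.W2PDefs
import Cfsg.Agent.H99.W2PAux

set_option autoImplicit false
set_option linter.unusedSectionVars false

namespace Cfsg.Agent.H99.W2P

open Cfsg.Agent.H74.W2P Equiv MulAction

theorem aux_sum_prim {p : ℕ} [NeZero p] (hp : p.Prime) {μ : ℂ} (hμ : IsPrimitiveRoot μ p) (z : ℕ)
    (hz : z < p) : ∑ h : ZMod p, μ ^ (h.val * z) = if z = 0 then (p : ℂ) else 0 := by
  rw [aux_sum_zmod_val (fun i => μ ^ (i * z))]
  split_ifs with h0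
  · subst h0; simp
  · have h1 : ∀ i, μ ^ (i * z) = (μ ^ z) ^ i := fun i => by rw [← pow_mul, mul_comm]
    simp only [h1]
    have hcop : Nat.Coprime z p :=
      ((Nat.Prime.coprime_iff_not_dvd hp).mpr
        (Nat.not_dvd_of_pos_of_lt (Nat.pos_of_ne_zero h0) hz)).symm
    have hz' : IsPrimitiveRoot (μ ^ z) p := hμ.pow_of_coprime z hcop
    exact hz'.geom_sum_eq_zero hp.one_lt

variable {Ω : Type*} [Fintype Ω] [DecidableEq Ω]

theorem aux_cyc_card {G : Subgroup (Perm Ω)} {p : ℕ} {x : Perm Ω} (hyp : Hyp G p x) (a : Ω) :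
    (Finset.univ.filter (fun j => x.SameCycle a j)).card = p := by
  have h1 := aux_cyc_sum hyp a (fun _ => (1 : ℕ))
  rw [Finset.card_filter, h1, Finset.sum_const, Finset.card_range, smul_eq_mul, mul_one]

theorem aux_two_cycles {G : Subgroup (Perm Ω)} {p : ℕ} {x : Perm Ω} (hyp : Hyp G p x) (a₀ ω j : Ω)
    (hω : ¬ x.SameCycle a₀ ω) : x.SameCycle ω j ↔ ¬ x.SameCycle a₀ j := by
  constructor
  · intro h1 h2
    exact hω (h2.trans h1.symm)
  · intro h1
    by_contra h2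
    have hdisj : Disjoint (Finset.univ.filter (fun j => x.SameCycle a₀ j))
        (Finset.univ.filter (fun j => x.SameCycle ω j)) := by
      rw [Finset.disjoint_left]
      intro i hi1 hi2
      rw [Finset.mem_filter] at hi1 hi2
      exact hω (hi1.2.trans hi2.2.symm)
    have hsub : (Finset.univ.filter (fun j => x.SameCycle a₀ j)) ∪
        (Finset.univ.filter (fun j => x.SameCycle ω j)) ⊆ Finset.univ.erase j := by
      intro i hi
      rw [Finset.mem_union, Finset.mem_filter, Finset.mem_filter] at hi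
      rw [Finset.mem_erase]
      refine ⟨?_, Finset.mem_univ _⟩
      rintro rfl
      rcases hi with hi | hi
      · exact h1 hi.2
      · exact h2 hi.2
    have hc := Finset.card_le_card hsub
    rw [Finset.card_union_of_disjoint hdisj, aux_cyc_card hyp, aux_cyc_card hyp,
      Finset.card_erase_of_mem (Finset.mem_univ _), Finset.card_univ, hyp.hcard] at hc
    have := hyp.hp.pos
    omega

theorem aux_sig_mem (G : Subgroup (Perm Ω)) (x : Perm Ω) (a₀ : Ω) : sig x a₀ ∈ U0 G x a₀ := by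
  apply Submodule.subset_span
  exact ⟨1, G.one_mem, rfl⟩

/-- If `U0` contains all `Vh h`, `h ≠ 0`, then it contains all functions of sum zero. -/
theorem aux_sumzero_mem {G : Subgroup (Perm Ω)} {p : ℕ} {x : Perm Ω} (hyp : Hyp G p x) (a₀ : Ω)
    (h2 : ∀ h : ZMod p, h ≠ 0 → Vh x p h ≤ U0 G x a₀) (f : Ω → ℂ) (hf : ∑ ω, f ω = 0) :
    f ∈ U0 G x a₀ := by
  classical
  have hp := hyp.hp
  have : NeZero p := ⟨hp.ne_zero⟩
  have hζ := aux_zeta_prim hp.ne_zero
  have hxp := aux_pow_p hyp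
  obtain ⟨Q, hQ⟩ : ∃ Q : ZMod p → Ω → ℂ, Q = fun h ω =>
      ∑ k ∈ Finset.range p, ((zeta p ^ h.val)⁻¹) ^ k * f ((x ^ k) ω) := ⟨_, rfl⟩
  have hQmem : ∀ h, Q h ∈ Vh x p h := by
    intro h
    show ∀ ω, (Q h) (x ω) = zeta p ^ h.val * (Q h) ω
    intro ω
    obtain ⟨θ, hθ⟩ : ∃ θ : ℂ, θ = zeta p ^ h.val := ⟨_, rfl⟩
    have hθ0 : θ ≠ 0 := by rw [hθ]; exact pow_ne_zero _ (hζ.ne_zero hp.ne_zero)
    have hθp : θ ^ p = 1 := by rw [hθ, ← pow_mul, mul_comm, pow_mul, hζ.pow_eq_one, one_pow]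
    rw [hQ]
    simp only
    rw [← hθ, Finset.mul_sum]
    obtain ⟨g, hg⟩ : ∃ g : ℕ → ℂ, g = fun k => θ * (θ⁻¹ ^ k * f ((x ^ k) ω)) := ⟨_, rfl⟩
    have h1 : ∀ k, θ⁻¹ ^ k * f ((x ^ k) (x ω)) = g (k + 1) := by
      intro k
      rw [hg]
      simp only
      rw [pow_succ x k, Perm.mul_apply, pow_succ θ⁻¹ k]
      field_simp
    have h2' : ∀ k, θ * (θ⁻¹ ^ k * f ((x ^ k) ω)) = g k := by
      intro k; rw [hg]
    rw [Finset.sum_congr rfl (fun k _ => h1 k), Finset.sum_congr rfl (fun k _ => h2' k)]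
    have h3 := Finset.sum_range_succ' g p
    have h4 := Finset.sum_range_succ g p
    have h5 : g p = g 0 := by
      rw [hg]
      simp only
      rw [inv_pow, hθp, hxp, pow_zero, pow_zero]
      simp
    rw [h4, h5] at h3
    exact (add_right_cancel h3).symm
  have hQsum : ∀ ω, ∑ h : ZMod p, Q h ω = (p : ℂ) * f ω := by
    intro ω
    rw [hQ]
    simp only
    rw [Finset.sum_comm]
    have h1 : ∀ k ∈ Finset.range p, ∑ h : ZMod p, ((zeta p ^ h.val)⁻¹) ^ k * f ((x ^ k) ω)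
        = (if k = 0 then (p : ℂ) else 0) * f ((x ^ k) ω) := by
      intro k hk
      rw [← Finset.sum_mul]
      congr 1
      have h3 : ∀ h : ZMod p, ((zeta p ^ h.val)⁻¹) ^ k = (zeta p)⁻¹ ^ (h.val * k) := by
        intro h
        rw [← inv_pow, ← pow_mul]
      rw [Finset.sum_congr rfl (fun h _ => h3 h)]
      exact aux_sum_prim hp hζ.inv k (Finset.mem_range.mp hk)
    rw [Finset.sum_congr rfl h1, Finset.sum_eq_single 0]
    · simp
    · intro k _ hk
      rw [if_neg hk, zero_mul]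
    · intro h0
      exact absurd (Finset.mem_range.mpr hp.pos) h0
  -- the component `h = 0`
  obtain ⟨c, hc⟩ : ∃ c : ℂ, c = ∑ j, (if x.SameCycle a₀ j then f j else 0) := ⟨_, rfl⟩
  have hQ0 : Q 0 = c • sig x a₀ := by
    funext ω
    rw [hQ]
    simp only [ZMod.val_zero, pow_zero, inv_one, one_pow, one_mul, Pi.smul_apply, smul_eq_mul]
    rw [← aux_cyc_sum hyp ω f]
    unfold sig
    by_cases hω : x.SameCycle a₀ ω
    · rw [if_pos hω, mul_one, hc]
      apply Finset.sum_congr rfl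
      intro j _
      have : x.SameCycle ω j ↔ x.SameCycle a₀ j :=
        ⟨fun h => hω.trans h, fun h => hω.symm.trans h⟩
      simp only [this]
    · rw [if_neg hω, mul_neg, mul_one, hc]
      have h1 : ∑ j, (if x.SameCycle ω j then f j else 0)
          + ∑ j, (if x.SameCycle a₀ j then f j else 0) = ∑ j, f j := by
        rw [← Finset.sum_add_distrib]
        apply Finset.sum_congr rfl
        intro j _
        have := aux_two_cycles hyp a₀ ω j hω
        by_cases hj : x.SameCycle a₀ j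
        · rw [if_pos hj, if_neg (fun h => (this.mp h) hj), zero_add]
        · rw [if_neg hj, if_pos (this.mpr hj), add_zero]
      rw [hf] at h1
      linear_combination h1
  have hmem : ∀ h : ZMod p, Q h ∈ U0 G x a₀ := by
    intro h
    by_cases hh : h = 0
    · rw [hh, hQ0]
      exact Submodule.smul_mem _ _ (aux_sig_mem G x a₀)
    · exact h2 h hh (hQmem h)
  have hfeq : f = (p : ℂ)⁻¹ • ∑ h : ZMod p, Q h := by
    funext ω
    rw [Pi.smul_apply, Finset.sum_apply, hQsum ω, smul_eq_mul, ← mul_assoc,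
      inv_mul_cancel₀ (Nat.cast_ne_zero.mpr hp.ne_zero), one_mul]
  rw [hfeq]
  exact Submodule.smul_mem _ _ (Submodule.sum_mem _ (fun h _ => hmem h))

theorem b_two_false {G : Subgroup (Perm Ω)} {p : ℕ} {x : Perm Ω} (hyp : Hyp G p x) (a₀ : Ω)
    (hsc : ScalU G x a₀) (h2 : ∀ h : ZMod p, h ≠ 0 → Vh x p h ≤ U0 G x a₀) : False := by
  classical
  have hp := hyp.hp
  have htr : IsPretransitive G Ω := hyp.hprim.toIsPretransitive
  -- (b) columns of centralizer matrices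
  have hcol : ∀ A : Matrix Ω Ω ℂ, CentC G A → ∀ i j k : Ω, i ≠ j → k ≠ i → k ≠ j →
      A k i = A k j := by
    intro A hA i j k hij hki hkj
    obtain ⟨f, hfdef⟩ : ∃ f : Ω → ℂ, f = fun l => (if l = i then (1 : ℂ) else 0) -
        (if l = j then 1 else 0) := ⟨_, rfl⟩
    have hf0 : ∑ l, f l = 0 := by
      rw [hfdef]
      simp
    have hfU := aux_sumzero_mem hyp a₀ h2 f hf0
    have h1 := congrFun (hsc A hA f hfU) k
    rw [Pi.smul_apply, smul_eq_mul] at h1
    have h3 : f k = 0 := by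
      rw [hfdef]
      simp [hki, hkj]
    rw [h3, mul_zero] at h1
    have h4 : A.mulVec f k = A k i - A k j := by
      rw [hfdef]
      simp [Matrix.mulVec, dotProduct, mul_sub, Finset.sum_sub_distrib]
    rw [h4] at h1
    exact sub_eq_zero.mp h1
  -- (c) the stabilizer is transitive on the other points
  obtain ⟨δ, hδdef⟩ : ∃ δ : Ω, δ = x a₀ := ⟨_, rfl⟩
  have hδ : δ ≠ a₀ := by rw [hδdef]; exact hyp.hxfix a₀
  have hA : CentC G ((orbMat G a₀ δ).map (Int.cast : ℤ → ℂ)) := by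
    intro g hg i j
    simp only [Matrix.map_apply]
    rw [orbMat_cent G a₀ δ g hg i j]
  have hstab : ∀ j : Ω, j ≠ a₀ → ∃ g ∈ G, g a₀ = a₀ ∧ g δ = j := by
    intro j hj
    by_cases hjδ : j = δ
    · exact ⟨1, G.one_mem, rfl, by rw [hjδ]; rfl⟩
    · have h1 := hcol _ hA δ j a₀ (Ne.symm hjδ) (Ne.symm hδ) (Ne.symm hj)
      simp only [Matrix.map_apply] at h1
      have h3 : orbMat G a₀ δ a₀ δ = 1 :=
        (orbMat_eq_one_iff G a₀ δ a₀ δ).mpr ⟨1, G.one_mem, rfl, rfl⟩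
      rw [h3] at h1
      have h4 : orbMat G a₀ δ a₀ j = 1 := by
        have : ((orbMat G a₀ δ a₀ j : ℤ) : ℂ) = ((1 : ℤ) : ℂ) := by rw [← h1]
        exact_mod_cast this
      exact (orbMat_eq_one_iff G a₀ δ a₀ j).mp h4
  -- (d) two-transitivity
  apply hyp.hnot2
  rw [is_two_pretransitive_iff]
  intro a b c d hab hcd
  obtain ⟨g1, hg1⟩ := exists_smul_eq G a a₀
  obtain ⟨g2, hg2⟩ := exists_smul_eq G c a₀
  have hb' : g1 • b ≠ a₀ := by
    intro h
    rw [← hg1] at h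
    exact hab ((smul_left_cancel_iff g1).mp h).symm
  have hd' : g2 • d ≠ a₀ := by
    intro h
    rw [← hg2] at h
    exact hcd ((smul_left_cancel_iff g2).mp h).symm
  obtain ⟨k1, hk1, hk1a, hk1δ⟩ := hstab (g1 • b) hb'
  obtain ⟨k2, hk2, hk2a, hk2δ⟩ := hstab (g2 • d) hd'
  refine ⟨g2⁻¹ * (⟨k2, hk2⟩ : G) * (⟨k1, hk1⟩ : G)⁻¹ * g1, ?_, ?_⟩
  · rw [mul_smul, mul_smul, mul_smul, hg1]
    have e1 : (⟨k1, hk1⟩ : G)⁻¹ • a₀ = a₀ := by
      rw [inv_smul_eq_iff]; exact hk1a.symm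
    have e2 : (⟨k2, hk2⟩ : G) • a₀ = a₀ := hk2a
    rw [e1, e2, inv_smul_eq_iff, hg2]
  · rw [mul_smul, mul_smul, mul_smul]
    have e1 : (⟨k1, hk1⟩ : G)⁻¹ • (g1 • b) = δ := by
      rw [inv_smul_eq_iff]; exact hk1δ.symm
    have e2 : (⟨k2, hk2⟩ : G) • δ = g2 • d := hk2δ
    rw [e1, e2, inv_smul_smul]

end Cfsg.Agent.H99.W2P
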