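import Mathlib
import Cfsg.Agent.H74.W2PDefs

set_option autoImplicit false

namespace Cfsg.Agent.H99.W2P

open Cfsg.Agent.H74.W2P Equiv MulAction

variable {Ω : Type*} [Fintype Ω] [DecidableEq Ω]

/-- In a primitive group of degree `2p` (with an element of order `p`) the stabilizer of a point
has no other fixed point: all nontrivial suborbits have length at least `2`. -/
theorem two_le_nval {G : Subgroup (Perm Ω)} {p : ℕ} {x : Perm Ω} (hyp : Hyp G p x) (a₀ ω : Ω)
    (hω : ω ≠ a₀) : 2 ≤ nval G a₀ ω := by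
  classical
  have hprim := hyp.hprim
  have htr : IsPretransitive G Ω := hyp.hprim.toIsPretransitive
  have hp := hyp.hp
  have hcardΩ : Fintype.card Ω = 2 * p := hyp.hcard
  have hnt : Nontrivial Ω := by
    rw [← Fintype.one_lt_card_iff_nontrivial, hcardΩ]
    have := hp.two_le
    omega
  by_contra hlt
  unfold nval at hlt
  -- `H` fixes `ω`
  have hfix : ∀ h : stabilizer G a₀, h • ω = ω := by
    intro h
    have h1 : Nat.card (orbit (stabilizer G a₀) ω) ≤ 1 := by omega
    have h2 : Subsingleton (orbit (stabilizer G a₀) ω) :=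
      (Finite.card_le_one_iff_subsingleton).mp h1
    have h3 := h2.elim ⟨h • ω, mem_orbit _ _⟩ ⟨ω, mem_orbit_self _⟩
    exact congrArg Subtype.val h3
  have hle : stabilizer G a₀ ≤ stabilizer G ω := by
    intro g hg
    rw [mem_stabilizer_iff]
    exact hfix ⟨g, hg⟩
  have hco : IsCoatom (stabilizer G a₀) := (isCoatom_stabilizer_iff_preprimitive G a₀).mpr hprim
  have hco' : IsCoatom (stabilizer G ω) := (isCoatom_stabilizer_iff_preprimitive G ω).mpr hprim
  have heq : stabilizer G a₀ = stabilizer G ω := by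
    rcases eq_or_lt_of_le hle with h | h
    · exact h
    · exact absurd (hco.2 _ h) hco'.1
  obtain ⟨g, hg⟩ := exists_smul_eq G a₀ ω
  have hginv : g⁻¹ • ω = a₀ := by rw [inv_smul_eq_iff, hg]
  -- `g` normalizes `H`
  have hgN : g ∈ Subgroup.normalizer ((stabilizer G a₀ : Subgroup G) : Set G) := by
    rw [Subgroup.mem_normalizer_iff]
    intro h
    rw [mem_stabilizer_iff]
    constructor
    · intro hh
      have : g * h * g⁻¹ ∈ stabilizer G ω := by
        rw [mem_stabilizer_iff, mul_smul, mul_smul, hginv, hh, hg]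
      rw [heq]
      exact this
    · intro hh
      rw [heq, mem_stabilizer_iff, mul_smul, mul_smul, hginv] at hh
      rw [← hg] at hh
      exact (smul_left_cancel_iff g).mp hh
  have hgH : g ∉ stabilizer G a₀ := by
    intro hgs
    rw [mem_stabilizer_iff, hg] at hgs
    exact hω hgs
  have hNtop : Subgroup.normalizer ((stabilizer G a₀ : Subgroup G) : Set G) = ⊤ := by
    apply hco.2
    exact lt_of_le_of_ne Subgroup.le_normalizer (fun h => hgH (h ▸ hgN))
  -- `H = ⊥`
  have hbot : stabilizer G a₀ = ⊥ := by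
    rw [eq_bot_iff]
    intro h hh
    rw [Subgroup.mem_bot]
    apply Subtype.ext
    apply Equiv.Perm.ext
    intro b
    obtain ⟨g', hg'⟩ := exists_smul_eq G a₀ b
    have hg'N : g'⁻¹ ∈ Subgroup.normalizer ((stabilizer G a₀ : Subgroup G) : Set G) := by
      rw [hNtop]; exact Subgroup.mem_top _
    have h1 := (Subgroup.mem_normalizer_iff.mp hg'N h).mp hh
    rw [mem_stabilizer_iff, inv_inv, mul_smul, mul_smul, hg', inv_smul_eq_iff, hg'] at h1
    exact h1
  -- `G` is cyclic of order `p`
  have hx1 : (⟨x, hyp.hxG⟩ : G) ≠ 1 := by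
    intro h1
    have h2 : x = 1 := congrArg Subtype.val h1
    have h3 := hyp.hxord
    rw [h2, orderOf_one] at h3
    exact hp.one_lt.ne h3
  have hz : Subgroup.zpowers (⟨x, hyp.hxG⟩ : G) = ⊤ := by
    rw [hbot] at hco
    apply hco.2
    apply bot_lt_iff_ne_bot.mpr
    intro hb
    apply hx1
    have := Subgroup.mem_zpowers (⟨x, hyp.hxG⟩ : G)
    rw [hb, Subgroup.mem_bot] at this
    exact this
  have hcardG : Nat.card G = p := by
    have h1 : Nat.card (Subgroup.zpowers (⟨x, hyp.hxG⟩ : G)) = orderOf (⟨x, hyp.hxG⟩ : G) :=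
      Nat.card_zpowers _
    rw [hz, Subgroup.card_top, Subgroup.orderOf_mk, hyp.hxord] at h1
    exact h1
  have hidx : (stabilizer G a₀).index = Nat.card Ω := index_stabilizer_of_transitive G a₀
  rw [hbot, Subgroup.index_bot, hcardG, Nat.card_eq_fintype_card, hcardΩ] at hidx
  have := hp.pos
  omega

end Cfsg.Agent.H99.W2P
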