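import Mathlib
import Cfsg.Prelude.Def_Blocks
import Cfsg.Prelude.Def_Local
import Cfsg.Agent.H4.Twin
import Cfsg.Agent.H4.Blich1
import Cfsg.Agent.H81.WBO
import Cfsg.Agent.H80.Block
import Cfsg.Agent.H80.GroupBasic

set_option autoImplicit false

open scoped ComplexConjugate

namespace Cfsg.Agent.H99.Rn

/-- The common kernel of the characters of the principal block is a `p'`-group, hence lies in
`O_{p'}(G)`. -/
theorem rn_kernel {G : Type*} [Group G] [Finite G] (p : ℕ) [Fact p.Prime] (M : Ideal Cfsg.AlgInt)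
    (hM : Cfsg.IsPModular p M) (g : G)
    (hg : ∀ χ ∈ Cfsg.principalBlock M G, (χ : G → ℂ) g = (χ : G → ℂ) 1) :
    g ∈ Cfsg.pPrimeCore p G := by
  classical
  letI : Fintype G := Fintype.ofFinite G
  letI := Cfsg.Agent.H4.fintypeIrr G
  have hchar : ∀ χ : Cfsg.IrrCharacter G, Cfsg.IsCharacter G (χ : G → ℂ) :=
    fun χ => Cfsg.Agent.H4.isCharacter_of_isIrrCharacter χ.2
  obtain ⟨L, hL⟩ : ∃ L : Subgroup G, ∀ x, x ∈ L ↔
      ∀ χ ∈ Cfsg.principalBlock M G, (χ : G → ℂ) x = (χ : G → ℂ) 1 :=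
    ⟨{ carrier := {x | ∀ χ ∈ Cfsg.principalBlock M G, (χ : G → ℂ) x = (χ : G → ℂ) 1}
       mul_mem' := fun {a b} ha hb χ hχ =>
         Cfsg.Agent.H4.char_ker_mul (hchar χ) (ha χ hχ) (hb χ hχ)
       one_mem' := fun χ _ => rfl
       inv_mem' := fun {a} ha χ hχ => Cfsg.Agent.H4.char_ker_inv (hchar χ) (ha χ hχ) },
      fun x => Iff.rfl⟩
  have hLn : L.Normal := by
    constructor
    intro x hx y
    rw [hL] at hx ⊢
    intro χ hχ
    rw [Cfsg.Agent.H4.isClassFunction_of_isCharacter (hchar χ) x y]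
    exact hx χ hχ
  have hMp : M.IsPrime := Cfsg.Agent.H20.isPrime_of_isPModular hM
  have hp : p.Prime := Fact.out
  have hcop : (Nat.card L).Coprime p := by
    rw [Nat.coprime_comm, Nat.Prime.coprime_iff_not_dvd hp]
    intro hdvd
    obtain ⟨y, hy⟩ := exists_prime_orderOf_dvd_card' p hdvd
    have hy' : orderOf (y : G) = p := by rw [Subgroup.orderOf_coe]; exact hy
    have hyL := (hL (y : G)).mp y.2
    have h0 := Cfsg.Agent.H81.wbo_one hM (Cfsg.Agent.H80.trivChar G) (1 : G) (y : G)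
      (by rw [orderOf_one]; exact fun h => hp.one_lt.ne' (Nat.dvd_one.mp h))
      (by rw [hy'])
    rw [← Cfsg.Agent.H80.principalBlock_eq] at h0
    rw [finsum_mem_eq_finite_toFinset_sum _ (Set.toFinite _)] at h0
    have h1 := congrArg Complex.re h0
    rw [Complex.re_sum, Complex.zero_re] at h1
    have hnonneg : ∀ χ ∈ (Set.toFinite (Cfsg.principalBlock M G)).toFinset,
        0 ≤ ((χ : G → ℂ) 1 * conj ((χ : G → ℂ) (y : G))).re := by
      intro χ hχ
      rw [Set.Finite.mem_toFinset] at hχ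
      rw [hyL χ hχ, Cfsg.Agent.H4.isCharacter_one_eq (hchar χ), Complex.conj_natCast,
        ← Nat.cast_mul, Complex.natCast_re]
      exact Nat.cast_nonneg _
    have hmem : Cfsg.Agent.H80.trivChar G ∈ (Set.toFinite (Cfsg.principalBlock M G)).toFinset := by
      rw [Set.Finite.mem_toFinset]
      exact Cfsg.Agent.H80.trivChar_mem_principalBlock hMp
    have h2 := Finset.single_le_sum hnonneg hmem
    rw [h1] at h2
    have h3 : ((Cfsg.Agent.H80.trivChar G : G → ℂ) 1
        * conj ((Cfsg.Agent.H80.trivChar G : G → ℂ) (y : G))).re = 1 := by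
      rw [Cfsg.Agent.H80.trivChar_apply, Cfsg.Agent.H80.trivChar_apply]
      simp
    rw [h3] at h2
    linarith
  exact Cfsg.Agent.H80.le_pPrimeCore p L hLn hcop ((hL g).mpr hg)

end Cfsg.Agent.H99.Rn
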