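import Cfsg.Agent.H99.Heis

set_option autoImplicit false

namespace Cfsg.Agent.H99

open Matrix
open scoped MatrixGroups

section
variable {F : Type*} [Field F]

theorem mem_normalizer_of_gens {G : Type*} [Group G] (R : Subgroup G) [Finite R] (s : Set G)
    (hs : R = Subgroup.closure s) (w : G) (h : ∀ g ∈ s, w * g * w⁻¹ ∈ R) :
    w ∈ Subgroup.normalizer (R : Set G) := by
  apply mem_normalizer_of_finite
  intro n hn
  have h3 : Subgroup.closure s ≤ R.comap (MulAut.conj w).toMonoidHom := by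
    rw [Subgroup.closure_le]
    intro g hg
    exact h g hg
  rw [hs] at hn
  exact h3 hn

theorem pow_mulVec_eigen {n : ℕ} (M : Matrix (Fin n) (Fin n) F) (w : Fin n → F) (l : F)
    (h : M *ᵥ w = l • w) (j : ℕ) : (M ^ j) *ᵥ w = l ^ j • w := by
  induction j with
  | zero => simp
  | succ j ih =>
    rw [pow_succ, ← Matrix.mulVec_mulVec, h, Matrix.mulVec_smul, ih, smul_smul, pow_succ, mul_comm]

theorem mem_sl_iff {n : ℕ} (g : GL (Fin n) F) :
    g ∈ Cfsg.Geo.specialLinear (Fin n) F ↔ (g : Matrix (Fin n) (Fin n) F).det = 1 := by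
  unfold Cfsg.Geo.specialLinear
  rw [MonoidHom.mem_ker]
  constructor
  · intro h
    have := congrArg Units.val h
    simpa using this
  · intro h
    apply Units.ext
    simpa using h

theorem det_of_basis {n : ℕ} (v : Module.Basis (Fin n) F (Fin n → F))
    (M : Matrix (Fin n) (Fin n) F) :
    M.det = (LinearMap.toMatrix v v (Matrix.toLin' M)).det := by
  rw [LinearMap.det_toMatrix, LinearMap.det_toLin']

/-- A Heisenberg group in standard form lies in the special linear group. -/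
theorem heis_le_sl (R : Subgroup (GL (Fin 3) F)) (a b : GL (Fin 3) F) (ν : F)
    (v : Module.Basis (Fin 3) F (Fin 3 → F)) (h3 : (3 : F) ≠ 0) (hν : ν ^ 2 + ν + 1 = 0)
    (hav : ∀ k : Fin 3, (a : Matrix (Fin 3) (Fin 3) F) *ᵥ v k = ν ^ (k : ℕ) • v k)
    (hbv : ∀ k : Fin 3, (b : Matrix (Fin 3) (Fin 3) F) *ᵥ v k = v (k + 1))
    (hRcl : R = Subgroup.closure {a, b}) : R ≤ Cfsg.Geo.specialLinear (Fin 3) F := by
  obtain ⟨ν3, -, -, -, -⟩ := cube_root_facts ν hν h3
  rw [hRcl, Subgroup.closure_le]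
  rintro g (rfl | rfl)
  · rw [SetLike.mem_coe, mem_sl_iff, det_of_basis v]
    have hM : LinearMap.toMatrix v v (Matrix.toLin' (g : Matrix (Fin 3) (Fin 3) F)) =
        Matrix.diagonal (fun k : Fin 3 => ν ^ (k : ℕ)) := by
      ext i j
      rw [LinearMap.toMatrix_apply, Matrix.toLin'_apply, hav, map_smul, Module.Basis.repr_self,
        Finsupp.smul_apply, Finsupp.single_apply, Matrix.diagonal_apply]
      by_cases hij : i = j
      · subst hij
        simp
      · rw [if_neg hij, if_neg (fun h => hij h.symm), smul_zero]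
    rw [hM, Matrix.det_diagonal, Fin.prod_univ_three]
    simp only [Fin.val_zero, Fin.val_one, Fin.val_two]
    linear_combination ν3
  · rw [SetLike.mem_coe, mem_sl_iff, det_of_basis v]
    have hM : ∀ i j, LinearMap.toMatrix v v (Matrix.toLin' (g : Matrix (Fin 3) (Fin 3) F)) i j =
        if j + 1 = i then 1 else 0 := by
      intro i j
      rw [LinearMap.toMatrix_apply, Matrix.toLin'_apply, hbv, Module.Basis.repr_self,
        Finsupp.single_apply]
    rw [Matrix.det_fin_three]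
    simp [hM]

/-- An operator commuting with both generators of a Heisenberg group is scalar. -/
theorem heis_centralizer_scalar (a b : GL (Fin 3) F) (ν : F)
    (v : Module.Basis (Fin 3) F (Fin 3 → F)) (h3 : (3 : F) ≠ 0) (hν : ν ^ 2 + ν + 1 = 0)
    (hav : ∀ k : Fin 3, (a : Matrix (Fin 3) (Fin 3) F) *ᵥ v k = ν ^ (k : ℕ) • v k)
    (hbv : ∀ k : Fin 3, (b : Matrix (Fin 3) (Fin 3) F) *ᵥ v k = v (k + 1))
    (y : GL (Fin 3) F) (hya : y * a = a * y) (hyb : y * b = b * y) :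
    ∃ l : F, (y : Matrix (Fin 3) (Fin 3) F) = l • (1 : Matrix (Fin 3) (Fin 3) F) := by
  obtain ⟨ν3, ν1, ν21, ν0, ν2ν⟩ := cube_root_facts ν hν h3
  obtain ⟨u, hu⟩ : ∃ u : Fin 3 → F, u = (y : Matrix (Fin 3) (Fin 3) F) *ᵥ v 0 := ⟨_, rfl⟩
  have hAu : (a : Matrix (Fin 3) (Fin 3) F) *ᵥ u = u := by
    rw [hu, Matrix.mulVec_mulVec, ← Units.val_mul, ← hya, Units.val_mul, ← Matrix.mulVec_mulVec,
      hav]
    simp
  have hsum := v.sum_repr u
  rw [Fin.sum_univ_three] at hsum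
  obtain ⟨cf, hcf⟩ : ∃ cf : Fin 3 → F, cf = fun k => v.repr u k := ⟨_, rfl⟩
  have hsum' : u = cf 0 • v 0 + cf 1 • v 1 + cf 2 • v 2 := by
    rw [hcf]
    exact hsum.symm
  have hAu' : (a : Matrix (Fin 3) (Fin 3) F) *ᵥ u =
      cf 0 • v 0 + (cf 1 * ν) • v 1 + (cf 2 * ν ^ 2) • v 2 := by
    rw [hsum', Matrix.mulVec_add, Matrix.mulVec_add, Matrix.mulVec_smul, Matrix.mulVec_smul,
      Matrix.mulVec_smul, hav, hav, hav]
    simp only [Fin.val_zero, Fin.val_one, Fin.val_two, pow_zero, pow_one, one_smul, smul_smul]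
  have hz : ∑ k : Fin 3, (![0, cf 1 * (ν - 1), cf 2 * (ν ^ 2 - 1)] : Fin 3 → F) k • v k = 0 := by
    rw [Fin.sum_univ_three]
    simp only [Matrix.cons_val_zero, Matrix.cons_val_one, Matrix.cons_val_two, Matrix.head_cons,
      Matrix.tail_cons, zero_smul, zero_add]
    have h5 : (cf 1 * (ν - 1)) • v 1 + (cf 2 * (ν ^ 2 - 1)) • v 2 =
        (cf 0 • v 0 + (cf 1 * ν) • v 1 + (cf 2 * ν ^ 2) • v 2) -
          (cf 0 • v 0 + cf 1 • v 1 + cf 2 • v 2) := by
      module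
    rw [h5, ← hAu', ← hsum', hAu, sub_self]
  have hli := Fintype.linearIndependent_iff.mp v.linearIndependent _ hz
  have hc1 : cf 1 = 0 := by
    have h5 := hli 1
    simp only [Matrix.cons_val_one] at h5
    rcases mul_eq_zero.mp h5 with h6 | h6
    · exact h6
    · exact absurd (sub_eq_zero.mp h6) ν1
  have hc2 : cf 2 = 0 := by
    have h5 := hli 2
    simp only [Matrix.cons_val_two, Matrix.tail_cons, Matrix.head_cons] at h5
    rcases mul_eq_zero.mp h5 with h6 | h6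
    · exact h6
    · exact absurd (sub_eq_zero.mp h6) ν21
  have hy0 : (y : Matrix (Fin 3) (Fin 3) F) *ᵥ v 0 = cf 0 • v 0 := by
    rw [← hu, hsum', hc1, hc2, zero_smul, zero_smul, add_zero, add_zero]
  have hstep : ∀ k : Fin 3, (y : Matrix (Fin 3) (Fin 3) F) *ᵥ v k = cf 0 • v k →
      (y : Matrix (Fin 3) (Fin 3) F) *ᵥ v (k + 1) = cf 0 • v (k + 1) := by
    intro k hk
    rw [← hbv, Matrix.mulVec_mulVec, ← Units.val_mul, hyb, Units.val_mul, ← Matrix.mulVec_mulVec,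
      hk, Matrix.mulVec_smul]
  have hy1 := hstep 0 hy0
  have hy2 := hstep 1 hy1
  refine ⟨cf 0, ?_⟩
  apply mat_ext_basis v
  intro k
  rw [Matrix.smul_mulVec, Matrix.one_mulVec]
  fin_cases k
  · exact hy0
  · exact hy1
  · exact hy2

/-- Operators diagonal in the standard basis, with all eigenvalues having the same cube,
normalize a Heisenberg group. -/
theorem heis_diag_normalizes (R : Subgroup (GL (Fin 3) F)) [Finite R] (a b c : GL (Fin 3) F)
    (ν : F) (v : Module.Basis (Fin 3) F (Fin 3 → F)) (h3 : (3 : F) ≠ 0)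
    (haR : a ∈ R) (hbR : b ∈ R) (hcR : c ∈ R) (hν : ν ^ 2 + ν + 1 = 0)
    (hc : (c : Matrix (Fin 3) (Fin 3) F) = ν • (1 : Matrix (Fin 3) (Fin 3) F))
    (hav : ∀ k : Fin 3, (a : Matrix (Fin 3) (Fin 3) F) *ᵥ v k = ν ^ (k : ℕ) • v k)
    (hbv : ∀ k : Fin 3, (b : Matrix (Fin 3) (Fin 3) F) *ᵥ v k = v (k + 1))
    (hRcl : R = Subgroup.closure {a, b})
    (y : GL (Fin 3) F) (d : Fin 3 → F) (t : F)
    (hy : ∀ k, (y : Matrix (Fin 3) (Fin 3) F) *ᵥ v k = d k • v k) (hd : ∀ k, d k ^ 3 = t) :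
    y ∈ Subgroup.normalizer (R : Set (GL (Fin 3) F)) := by
  obtain ⟨ν3, ν1, ν21, ν0, ν2ν⟩ := cube_root_facts ν hν h3
  have hd0 : ∀ k, d k ≠ 0 := by
    intro k h0
    have h1 := hy k
    rw [h0, zero_smul] at h1
    have h2 : ((y⁻¹ * y : GL (Fin 3) F) : Matrix (Fin 3) (Fin 3) F) *ᵥ v k = 0 := by
      rw [Units.val_mul, ← Matrix.mulVec_mulVec, h1, Matrix.mulVec_zero]
    rw [inv_mul_cancel, Units.val_one, Matrix.one_mulVec] at h2
    exact v.ne_zero k h2
  have ht0 : t ≠ 0 := by rw [← hd 0]; exact pow_ne_zero _ (hd0 0)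
  obtain ⟨i, hi⟩ := mu3_pow ν hν (d 0 / d 2) (by rw [div_pow, hd, hd, div_self ht0])
  obtain ⟨j, hj⟩ := mu3_pow ν hν (d 1 * d 2 / (d 0 * d 0))
    (by rw [div_pow, mul_pow, mul_pow, hd, hd, hd, div_self (mul_ne_zero ht0 ht0)])
  have hi' : d 0 = d 2 * ν ^ i := by
    rw [← hi]
    field_simp [hd0 2]
  have hj' : d 1 * d 2 = d 0 * d 0 * ν ^ j := by
    rw [← hj]
    field_simp [hd0 0]
  have hνi : (ν ^ i) ^ 3 = 1 := by rw [← pow_mul, mul_comm, pow_mul, ν3, one_pow]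
  have hνj : (ν ^ j) ^ 3 = 1 := by rw [← pow_mul, mul_comm, pow_mul, ν3, one_pow]
  have e0 : d 1 = d 0 * ν ^ i * ν ^ j := by
    have h5 : (d 1 - d 0 * ν ^ i * ν ^ j) * d 2 = 0 := by
      linear_combination hj' + d 0 * ν ^ j * hi'
    rcases mul_eq_zero.mp h5 with h6 | h6
    · exact sub_eq_zero.mp h6
    · exact absurd h6 (hd0 2)
  have e1 : d 2 = d 1 * ν ^ i * (ν ^ j) ^ 2 := by
    linear_combination (-(ν ^ i) * (ν ^ j) ^ 2) * e0 - d 0 * (ν ^ i) ^ 2 * hνj -
      (ν ^ i) ^ 2 * hi' - d 2 * hνi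
  have hrel : ∀ k : Fin 3, d (k + 1) = d k * (ν ^ i * (ν ^ ((k + 1 : Fin 3) : ℕ)) ^ j) := by
    intro k
    fin_cases k
    · show d 1 = d 0 * (ν ^ i * (ν ^ 1) ^ j)
      rw [pow_one, ← mul_assoc]
      exact e0
    · show d 2 = d 1 * (ν ^ i * (ν ^ 2) ^ j)
      rw [← pow_mul, mul_comm 2 j, pow_mul, ← mul_assoc]
      exact e1
    · show d 0 = d 2 * (ν ^ i * (ν ^ 0) ^ j)
      rw [pow_zero, one_pow, mul_one]
      exact hi'
  have hH : ∀ w, ((c ^ i * a ^ j * b : GL (Fin 3) F) : Matrix (Fin 3) (Fin 3) F) *ᵥ w =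
      ν ^ i • ((a : Matrix (Fin 3) (Fin 3) F) ^ j *ᵥ ((b : Matrix (Fin 3) (Fin 3) F) *ᵥ w)) := by
    intro w
    rw [Units.val_mul, Units.val_mul, Units.val_pow_eq_pow_val, Units.val_pow_eq_pow_val, hc,
      smul_pow, one_pow, Matrix.smul_mul, Matrix.one_mul, Matrix.smul_mul, Matrix.smul_mulVec,
      Matrix.mulVec_mulVec]
  have hyb : y * b = c ^ i * a ^ j * b * y := by
    apply Units.ext
    apply mat_ext_basis v
    intro k
    rw [Units.val_mul, ← Matrix.mulVec_mulVec, hbv, hy, Units.val_mul (c ^ i * a ^ j * b) y,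
      ← Matrix.mulVec_mulVec, hy, Matrix.mulVec_smul, hH, hbv,
      pow_mulVec_eigen _ _ _ (hav (k + 1)), smul_smul, smul_smul, hrel k, mul_assoc]
  have hya : y * a = a * y := by
    apply Units.ext
    apply mat_ext_basis v
    intro k
    rw [Units.val_mul, ← Matrix.mulVec_mulVec, hav, Matrix.mulVec_smul, hy, Units.val_mul,
      ← Matrix.mulVec_mulVec, hy, Matrix.mulVec_smul, hav, smul_smul, smul_smul, mul_comm]
  apply mem_normalizer_of_gens R {a, b} hRcl
  rintro g (rfl | rfl)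
  · rw [hya, mul_inv_cancel_right]
    exact haR
  · rw [hyb, mul_inv_cancel_right]
    exact R.mul_mem (R.mul_mem (R.pow_mem hcR i) (R.pow_mem haR j)) hbR

/-- The operators inverting both generators (up to scalars) normalize a Heisenberg group. -/
theorem heis_swap_normalizes (R : Subgroup (GL (Fin 3) F)) [Finite R] (a b : GL (Fin 3) F)
    (ν : F) (v : Module.Basis (Fin 3) F (Fin 3 → F)) (h3 : (3 : F) ≠ 0)
    (haR : a ∈ R) (hbR : b ∈ R) (hν : ν ^ 2 + ν + 1 = 0)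
    (hav : ∀ k : Fin 3, (a : Matrix (Fin 3) (Fin 3) F) *ᵥ v k = ν ^ (k : ℕ) • v k)
    (hbv : ∀ k : Fin 3, (b : Matrix (Fin 3) (Fin 3) F) *ᵥ v k = v (k + 1))
    (hRcl : R = Subgroup.closure {a, b})
    (y : GL (Fin 3) F) (l : F)
    (hy : ∀ k, (y : Matrix (Fin 3) (Fin 3) F) *ᵥ v k = l • v (-k)) :
    y ∈ Subgroup.normalizer (R : Set (GL (Fin 3) F)) := by
  obtain ⟨ν3, ν1, ν21, ν0, ν2ν⟩ := cube_root_facts ν hν h3
  have hrel : ∀ k : Fin 3, ν ^ (k : ℕ) = ν ^ ((-k : Fin 3) : ℕ) * ν ^ ((-k : Fin 3) : ℕ) := by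
    intro k
    fin_cases k
    · show ν ^ 0 = ν ^ 0 * ν ^ 0
      rw [pow_zero, one_mul]
    · show ν ^ 1 = ν ^ 2 * ν ^ 2
      linear_combination (-ν) * ν3
    · show ν ^ 2 = ν ^ 1 * ν ^ 1
      ring
  have hidx : ∀ k : Fin 3, -(k + 1) = -k + 1 + 1 := by decide
  have hya : y * a = a * a * y := by
    apply Units.ext
    apply mat_ext_basis v
    intro k
    rw [Units.val_mul, ← Matrix.mulVec_mulVec, hav, Matrix.mulVec_smul, hy, Units.val_mul,
      Units.val_mul, ← Matrix.mulVec_mulVec, hy, Matrix.mulVec_smul, ← Matrix.mulVec_mulVec, hav,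
      Matrix.mulVec_smul, hav, smul_smul, smul_smul, smul_smul, hrel k]
    congr 1
    ring
  have hyb : y * b = b * b * y := by
    apply Units.ext
    apply mat_ext_basis v
    intro k
    rw [Units.val_mul, ← Matrix.mulVec_mulVec, hbv, hy, Units.val_mul,
      Units.val_mul, ← Matrix.mulVec_mulVec, hy, Matrix.mulVec_smul, ← Matrix.mulVec_mulVec, hbv,
      hbv, hidx k]
  apply mem_normalizer_of_gens R {a, b} hRcl
  rintro g (rfl | rfl)
  · rw [hya, mul_inv_cancel_right]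
    exact R.mul_mem haR haR
  · rw [hyb, mul_inv_cancel_right]
    exact R.mul_mem hbR hbR

end

end Cfsg.Agent.H99
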