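import Mathlib
import Cfsg.Agent.H99.ElSTR

/-!
helper99: piece D-INV of S5958: for `T ^ r = 1` a decomposition into `t` `T`-invariant subspaces
of dimension `a` exists as soon as the residues allow it.
-/

set_option autoImplicit false
set_option linter.unusedSectionVars false

namespace Cfsg.Agent.H99.Dec

open Cfsg.Agent.H99.El

theorem cons_decomp {α : Type*} [CompleteLattice α] [IsModularLattice α] {t : ℕ} (x : α)
    (D : Fin t → α) (hD : iSupIndep D) (hdisj : Disjoint x (⨆ j, D j)) :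
    iSupIndep (Fin.cons x D : Fin (t + 1) → α) ∧
      (⨆ j, (Fin.cons x D : Fin (t + 1) → α) j) = x ⊔ ⨆ j, D j := by
  classical
  have hcomp : (Fin.cons x D : Fin (t + 1) → α) ∘ Fin.succ = D := by
    funext j
    simp
  have hsup : (Finset.univ.map ⟨Fin.succ, Fin.succ_injective t⟩).sup
      (Fin.cons x D : Fin (t + 1) → α) = ⨆ j, D j := by
    rw [Finset.sup_map]
    show Finset.univ.sup ((Fin.cons x D : Fin (t + 1) → α) ∘ Fin.succ) = _
    rw [hcomp, Finset.sup_univ_eq_iSup]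
  constructor
  · rw [iSupIndep_iff_supIndep_univ, Fin.univ_succ, Finset.cons_eq_insert]
    apply Finset.SupIndep.insert
    · rw [Finset.supIndep_map]
      show Finset.univ.SupIndep ((Fin.cons x D : Fin (t + 1) → α) ∘ Fin.succ)
      rw [hcomp]
      exact iSupIndep_iff_supIndep_univ.mp hD
    · rw [hsup, Fin.cons_zero]
      exact hdisj
  · rw [← Finset.sup_univ_eq_iSup, Fin.univ_succ, Finset.sup_cons, hsup, Fin.cons_zero]

section

variable {F : Type*} [Field F] [Fintype F] {V : Type*} [AddCommGroup V] [Module F V]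
  [FiniteDimensional F V]

/-- Invariant subspaces of every admissible shape inside an invariant subspace `W`. -/
theorem exists_grid_rel (T : Module.End F V) (r : ℕ) (hr : r.Prime) (hrF : (r : F) ≠ 0)
    (hT : T ^ r = 1) (W : Submodule F V) (hW : ∀ v ∈ W, T v ∈ W) :
    ∃ (j : ℕ) (G : ℕ → ℕ → Submodule F V),
      j * orderOf (Fintype.card F : ZMod r) + Module.finrank F ↥(W ⊓ LinearMap.ker (T - 1))
        = Module.finrank F W ∧
      (∀ s t, s ≤ j → t ≤ Module.finrank F ↥(W ⊓ LinearMap.ker (T - 1)) →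
        (∀ v ∈ G s t, T v ∈ G s t) ∧ G s t ≤ W ∧
        Module.finrank F (G s t) = s * orderOf (Fintype.card F : ZMod r) + t) := by
  have hKinv : ∀ v ∈ W ⊓ LinearMap.ker (T - 1), T v ∈ W ⊓ LinearMap.ker (T - 1) := by
    intro v hv
    have h1 := (mem_ker_sub_one T v).mp hv.2
    rw [h1]
    exact hv
  obtain ⟨U₁, hU₁inv, hcompl⟩ := Cfsg.Agent.H4.El.exists_invariant_compl T r hrF hT _ hKinv
  have hW'inv : ∀ v ∈ U₁ ⊓ W, T v ∈ U₁ ⊓ W := fun v hv => ⟨hU₁inv v hv.1, hW v hv.2⟩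
  have hfix : ∀ v ∈ U₁ ⊓ W, T v = v → v = 0 := by
    intro v hv hTv
    have h1 : v ∈ (W ⊓ LinearMap.ker (T - 1)) ⊓ U₁ :=
      ⟨⟨hv.2, (mem_ker_sub_one T v).mpr hTv⟩, hv.1⟩
    rw [hcompl.inf_eq_bot] at h1
    exact (Submodule.mem_bot F).mp h1
  have hsum : (W ⊓ LinearMap.ker (T - 1)) ⊔ (U₁ ⊓ W) = W := by
    rw [← sup_inf_assoc_of_le U₁ (inf_le_left : W ⊓ LinearMap.ker (T - 1) ≤ W),
      hcompl.sup_eq_top, top_inf_eq]
  have hdisj : (W ⊓ LinearMap.ker (T - 1)) ⊓ (U₁ ⊓ W) = ⊥ := by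
    rw [eq_bot_iff]
    calc (W ⊓ LinearMap.ker (T - 1)) ⊓ (U₁ ⊓ W) ≤ (W ⊓ LinearMap.ker (T - 1)) ⊓ U₁ :=
          inf_le_inf_left _ inf_le_left
      _ = ⊥ := hcompl.inf_eq_bot
  obtain ⟨j, B, hj, hB1, -⟩ := chain_of_step (fun U => ∀ v ∈ U, T v ∈ U)
    (orderOf (Fintype.card F : ZMod r)) (orderOf_card_pos r hr hrF) (U₁ ⊓ W)
    (by
      intro v hv
      rw [(Submodule.mem_bot F).mp hv, map_zero]
      exact Submodule.zero_mem _)
    (fun U hU hUW hne => exists_step T r hr hrF hT (U₁ ⊓ W) hW'inv hfix U hU hUW hne)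
  obtain ⟨C, hC1, -⟩ := exists_flag (W ⊓ LinearMap.ker (T - 1))
  refine ⟨j, fun s t => B s ⊔ C t, ?_, ?_⟩
  · have h1 := Submodule.finrank_sup_add_finrank_inf_eq (W ⊓ LinearMap.ker (T - 1)) (U₁ ⊓ W)
    rw [hsum, hdisj, finrank_bot, add_zero, hj] at h1
    omega
  · intro s t hs ht
    obtain ⟨hBinv, hBU, hBrank⟩ := hB1 s hs
    obtain ⟨hCK, hCrank⟩ := hC1 t ht
    refine ⟨?_, sup_le (hBU.trans inf_le_right) (hCK.trans inf_le_left), ?_⟩
    · intro v hv
      obtain ⟨b, hb, c, hc, rfl⟩ := Submodule.mem_sup.mp hv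
      rw [map_add, (mem_ker_sub_one T c).mp (hCK hc).2]
      exact Submodule.add_mem _ (Submodule.mem_sup_left (hBinv b hb)) (Submodule.mem_sup_right hc)
    · have hdisj' : B s ⊓ C t = ⊥ := by
        rw [eq_bot_iff]
        calc B s ⊓ C t ≤ (U₁ ⊓ W) ⊓ (W ⊓ LinearMap.ker (T - 1)) := inf_le_inf hBU hCK
          _ = ⊥ := by rw [inf_comm]; exact hdisj
      have h1 := Submodule.finrank_sup_add_finrank_inf_eq (B s) (C t)
      rw [hdisj', finrank_bot, add_zero, hBrank, hCrank] at h1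
      exact h1

theorem exists_invariant_decomposition_aux (T : Module.End F V) (r : ℕ) (hr : r.Prime)
    (hrF : (r : F) ≠ 0) (hT : T ^ r = 1) (a : ℕ) :
    ∀ (t : ℕ) (W : Submodule F V), (∀ v ∈ W, T v ∈ W) → Module.finrank F W = a * t →
      Module.finrank F W % orderOf (Fintype.card F : ZMod r)
        = t * (a % orderOf (Fintype.card F : ZMod r)) →
      ∃ D : Fin t → Submodule F V, (∀ j, Module.finrank F (D j) = a) ∧ iSupIndep D ∧
        (⨆ j, D j) = W ∧ ∀ j, ∀ v ∈ D j, T v ∈ D j := by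
  obtain ⟨c, hc⟩ : ∃ c, c = orderOf (Fintype.card F : ZMod r) := ⟨_, rfl⟩
  rw [← hc]
  have hcpos : 0 < c := hc ▸ orderOf_card_pos r hr hrF
  intro t
  induction t with
  | zero =>
    intro W _ hWa _
    rw [Nat.mul_zero] at hWa
    have hW0 : W = ⊥ := Submodule.finrank_eq_zero.mp hWa
    refine ⟨fun _ => ⊥, fun j => j.elim0, fun j => j.elim0, ?_, fun j => j.elim0⟩
    rw [hW0, iSup_of_empty]
  | succ t ih =>
    intro W hW hWa hWk
    obtain ⟨j, G, hj, hG⟩ := exists_grid_rel T r hr hrF hT W hW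
    rw [← hc] at hj hG
    obtain ⟨fK, hfK⟩ : ∃ fK, fK = Module.finrank F ↥(W ⊓ LinearMap.ker (T - 1)) := ⟨_, rfl⟩
    rw [← hfK] at hj hG
    -- the first summand
    have hD₁ : ∃ D₁ : Submodule F V, (∀ v ∈ D₁, T v ∈ D₁) ∧ D₁ ≤ W ∧
        Module.finrank F D₁ = a := by
      by_cases hcase : a / c ≤ j
      · have h1 : fK % c = (t + 1) * (a % c) := by
          rw [← hWk, ← hj, Nat.mul_add_mod_self_right]
        have h2 : a % c ≤ fK := by
          have h3 : fK % c ≤ fK := Nat.mod_le _ _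
          have h4 : a % c ≤ (t + 1) * (a % c) := Nat.le_mul_of_pos_left _ (Nat.succ_pos t)
          omega
        obtain ⟨g1, g2, g3⟩ := hG (a / c) (a % c) hcase h2
        exact ⟨_, g1, g2, g3.trans (Nat.div_add_mod' a c)⟩
      · have h1 : j * c ≤ a := by
          have h2 : j ≤ a / c := by omega
          calc j * c ≤ (a / c) * c := Nat.mul_le_mul_right c h2
            _ ≤ a := Nat.div_mul_le_self a c
        have h2 : a - j * c ≤ fK := by
          have h3 : a ≤ a * (t + 1) := Nat.le_mul_of_pos_right _ (Nat.succ_pos t)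
          omega
        obtain ⟨g1, g2, g3⟩ := hG j (a - j * c) le_rfl h2
        exact ⟨_, g1, g2, g3.trans (by omega)⟩
    obtain ⟨D₁, hD₁inv, hD₁W, hD₁a⟩ := hD₁
    obtain ⟨U₂, hU₂inv, hcompl⟩ := Cfsg.Agent.H4.El.exists_invariant_compl T r hrF hT D₁ hD₁inv
    have hW'inv : ∀ v ∈ U₂ ⊓ W, T v ∈ U₂ ⊓ W := fun v hv => ⟨hU₂inv v hv.1, hW v hv.2⟩
    have hsum : D₁ ⊔ (U₂ ⊓ W) = W := by
      rw [← sup_inf_assoc_of_le U₂ hD₁W, hcompl.sup_eq_top, top_inf_eq]
    have hdisj : D₁ ⊓ (U₂ ⊓ W) = ⊥ := by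
      rw [eq_bot_iff]
      calc D₁ ⊓ (U₂ ⊓ W) ≤ D₁ ⊓ U₂ := inf_le_inf_left _ inf_le_left
        _ = ⊥ := hcompl.inf_eq_bot
    have hW'a : Module.finrank F ↥(U₂ ⊓ W) = a * t := by
      have h1 := Submodule.finrank_sup_add_finrank_inf_eq D₁ (U₂ ⊓ W)
      rw [hsum, hdisj, finrank_bot, add_zero, hWa, hD₁a, Nat.mul_succ] at h1
      omega
    have hW'k : Module.finrank F ↥(U₂ ⊓ W) % c = t * (a % c) := by
      rw [hW'a]
      have h1 : (a * t) % c = (t * (a % c)) % c := by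
        rw [Nat.mul_mod, Nat.mul_mod t (a % c) c, Nat.mod_mod, Nat.mul_comm]
      have h2 : t * (a % c) < c := by
        have h3 : Module.finrank F W % c < c := Nat.mod_lt _ hcpos
        have h4 : t * (a % c) ≤ (t + 1) * (a % c) := Nat.mul_le_mul_right _ (Nat.le_succ t)
        omega
      rw [h1, Nat.mod_eq_of_lt h2]
    obtain ⟨D', hD'a, hD'i, hD't, hD'inv⟩ := ih (U₂ ⊓ W) hW'inv hW'a hW'k
    have hdisj' : Disjoint D₁ (⨆ j, D' j) := by
      rw [hD't, disjoint_iff]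
      exact hdisj
    obtain ⟨hi, hs⟩ := cons_decomp D₁ D' hD'i hdisj'
    refine ⟨Fin.cons D₁ D', ?_, hi, ?_, ?_⟩
    · intro j
      refine Fin.cases ?_ (fun j => ?_) j
      · rw [Fin.cons_zero]
        exact hD₁a
      · rw [Fin.cons_succ]
        exact hD'a j
    · rw [hs, hD't]
      exact hsum
    · intro j
      refine Fin.cases ?_ (fun j => ?_) j
      · rw [Fin.cons_zero]
        exact hD₁inv
      · rw [Fin.cons_succ]
        exact hD'inv j

/-- **D-INV** -/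
theorem exists_invariant_decomposition (T : Module.End F V) (r : ℕ) (hr : r.Prime)
    (hrF : (r : F) ≠ 0) (hT : T ^ r = 1) (a t : ℕ) (hV : Module.finrank F V = a * t)
    (hk : Module.finrank F V % orderOf (Fintype.card F : ZMod r)
      = t * (a % orderOf (Fintype.card F : ZMod r))) :
    ∃ D : Fin t → Submodule F V, (∀ j, Module.finrank F (D j) = a) ∧ iSupIndep D ∧
      (⨆ j, D j) = ⊤ ∧ ∀ j, (D j).map T = D j := by
  obtain ⟨D, h1, h2, h3, h4⟩ := exists_invariant_decomposition_aux T r hr hrF hT a t ⊤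
    (fun _ _ => Submodule.mem_top) (by rw [finrank_top]; exact hV) (by rw [finrank_top]; exact hk)
  refine ⟨D, h1, h2, h3, ?_⟩
  intro j
  have hinj : Function.Injective T := by
    have hr1 : r - 1 + 1 = r := Nat.sub_add_cancel hr.pos
    have h5 : T ^ (r - 1) * T = 1 := by rw [← pow_succ, hr1, hT]
    intro v w hvw
    have h6 : (T ^ (r - 1) * T) v = (T ^ (r - 1) * T) w := by
      rw [Module.End.mul_apply, Module.End.mul_apply, hvw]
    rw [h5] at h6
    exact h6
  have hle : (D j).map T ≤ D j := by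
    intro v hv
    obtain ⟨u, hu, rfl⟩ := Submodule.mem_map.mp hv
    exact h4 j u hu
  apply Submodule.eq_of_le_of_finrank_le hle
  rw [← LinearEquiv.finrank_eq (Submodule.equivMapOfInjective T hinj (D j))]

end

end Cfsg.Agent.H99.Dec
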