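import Mathlib
import Cfsg.Agent.H99.Decomp

/-!
helper99: piece D-STD of S5958: a space of dimension `a * t` is a direct sum of `t` subspaces of
dimension `a`.
-/

set_option autoImplicit false

namespace Cfsg.Agent.H99.Dec

theorem exists_std_decomposition {F : Type*} [Field F] {V : Type*} [AddCommGroup V]
    [Module F V] [FiniteDimensional F V] (a t : ℕ) (hV : Module.finrank F V = a * t) :
    ∃ D : Fin t → Submodule F V, (∀ j, Module.finrank F (D j) = a) ∧ iSupIndep D ∧
      (⨆ j, D j) = ⊤ := by
  classical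
  have hV' : Module.finrank F V = t * a := by rw [hV, mul_comm]
  obtain ⟨b₀⟩ : Nonempty (Module.Basis (Fin (t * a)) F V) := ⟨Module.finBasisOfFinrankEq F V hV'⟩
  obtain ⟨b, hb⟩ : ∃ b : Module.Basis (Fin t × Fin a) F V, b = b₀.reindex finProdFinEquiv.symm :=
    ⟨_, rfl⟩
  obtain ⟨h1, h2, h3, -⟩ := Cfsg.Agent.H99.decomposition_of_blocks (F := F) (V := V)
    (fun k => b k) b.linearIndependent b.span_eq LinearMap.id id (fun _ => 1)
    (fun _ => one_ne_zero) (fun k => by rw [one_smul]; rfl)
    (fun j : Fin t => ({j} : Finset (Fin t)) ×ˢ (Finset.univ : Finset (Fin a))) id a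
    (fun j => by
      rw [Finset.card_product, Finset.card_singleton, Finset.card_univ, Fintype.card_fin, one_mul])
    (fun j j' hjj' => by
      rw [Finset.disjoint_left]
      intro k hk hk'
      rw [Finset.mem_product, Finset.mem_singleton] at hk hk'
      exact hjj' (hk.1.symm.trans hk'.1))
    (fun k => ⟨k.1, by
      rw [Finset.mem_product, Finset.mem_singleton]
      exact ⟨rfl, Finset.mem_univ _⟩⟩)
    (fun j => Finset.image_id)
  exact ⟨_, h1, h2, h3⟩

end Cfsg.Agent.H99.Dec
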