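import Cfsg.Agent.H99.EmMain
import Cfsg.Agent.H99.EmDefs2

/-!
# S5990 (helper99): the case `r = 2 = p` from its two halves
-/

set_option autoImplicit false
open scoped MatrixGroups
open scoped Matrix

namespace Cfsg.Agent.H99.Em

open Cfsg.Agent.H45 Cfsg.Agent.H42.Spd Cfsg.Agent.H42.Ti Cfsg.Agent.H48.Ep Cfsg.Agent.H77.Tq
  Cfsg.Agent.H77.Tm Module

universe u

/-- EM-TWOEVEN from EM-TWOPOS, EM-TWOWIT and helper77's TM-SCAL. -/
theorem twoEven (hPos : StTwoPos.{u}) (hWit : StTwoWit.{u})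
    (hScal : Cfsg.Agent.H77.Tm.StScal.{u}) : StTwoEven.{u} := by
  intro F _ _ k m a b h2 hab hk hme hm hmk
  constructor
  · intro hL
    by_contra hneg
    push Not at hneg
    obtain ⟨hodd, hm4⟩ := hneg
    have hkev : Even k := by
      rcases Nat.even_or_odd k with h | h
      · exact h
      · exact absurd (Odd.add_one h) hodd
    have hm0 : m % 4 = 0 := by
      obtain ⟨t, ht⟩ := hme
      omega
    obtain ⟨x, hxΩ, hx2, hxns, hxfix⟩ := hWit F k m a b h2 hab hk hkev hm0
    exact hxfix (hL x hxΩ ⟨1, by rw [hx2]; simp⟩ hxns)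
  · intro hR x hxΩ ⟨z, hz⟩ _
    have hx2O : x ^ 2 ∈ Cfsg.isometryGroup F (Cfsg.quadFormMinus k F a b) :=
      Subgroup.pow_mem _ (em_omega_le _ hxΩ) 2
    have hzz := hScal F k a b (x ^ 2) z hx2O hz
    have hz1 : z = 1 := by
      have h3 : (z - 1) * (z - 1) = 0 := by
        have : (z - 1) * (z - 1) = z * z - 2 * z + 1 := by ring
        rw [this, hzz, h2]
        ring_nf
        linear_combination h2
      have h4 : z - 1 = 0 := by
        rcases mul_eq_zero.mp h3 with h | h <;> exact h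
      exact sub_eq_zero.mp h4
    have hx2 : x ^ 2 = 1 := by
      apply Units.ext
      rw [hz, hz1, one_smul]
      rfl
    exact hPos F k m a b h2 hab hk hme hm hmk hR x hxΩ hx2

end Cfsg.Agent.H99.Em
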