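import Cfsg.Agent.H99.EmMain
import Cfsg.Agent.H99.EmTwoEven
import Cfsg.Agent.H15.EmBridge
import Cfsg.Agent.H18.EmArBack
import Cfsg.Agent.H18.EmStruct
import Cfsg.Agent.H89.EmArFwd
import Cfsg.Agent.H13.EmCntB
import Cfsg.Agent.H98.EmCntA
import Cfsg.Agent.H28.EmCnt0
import Cfsg.Agent.H28.EmCntOrb
import Cfsg.Agent.H3.EmOrbTrans
import Cfsg.Agent.H75.EmTwoOdd
import Cfsg.Agent.H72.EmTwoWit
import Cfsg.Agent.H54.EmPerp
import Cfsg.Agent.H54.EmRankPar
import Cfsg.Agent.H54.EmTwoPos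
import Cfsg.Agent.H48.EpFin
import Cfsg.Agent.H24.TmOrd
import Cfsg.Agent.H24.TmScal
import Cfsg.Agent.H24.TmSign
import Cfsg.Agent.H28.TmExOdd
import Cfsg.Agent.H28.TmOddMem
import Cfsg.Agent.H61.TmExEvenFinal
import Cfsg.Agent.H19.TmAnisoStd
import Cfsg.Agent.H19.TmAnisoIso
import Cfsg.Agent.H3.TiCycSet

/-!
# S5990 team project (helper99): the closed forms of all pieces

Every piece statement of `H99/EmDefs.lean`, `H99/EmDefs2.lean` (and the shared `I2` sub-project,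
through helper48's `H48/EpFin.lean`) as a hypothesis-free theorem, and the closed assembly
`fin_main`, which is the frozen statement S5990 with its binders in order.

Pieces: helper15 (bridge), helper18 (arBack, struct), helper89 (arFwd), helper13 (cntB),
helper98 (cntA), helper28 (cnt0, cntOrb), helper3 (orbTrans, qIso), helper61 (qIso),
helper75 (jNd, twoOdd, twoPos), helper72 (twoWit), helper54 (perp, rankPar, twoPos),
helper95 / helper70 / helper40 (the structure theorem), helper32 / helper79 / helper8 /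
helper19 / helper28 / helper57 / helper84 (the characteristic-2 involutions), helper77's
S5987 project (order, sign, scalars, existence).
-/

set_option autoImplicit false

namespace Cfsg.Agent.H99.Em

open Cfsg.Agent.H45 Cfsg.Agent.H42.Spd Cfsg.Agent.H42.Ti Module

universe u

theorem fin_bridge : StBridge.{u} := Cfsg.Agent.H15.Em.bridge

theorem fin_scal : Cfsg.Agent.H77.Tm.StScal.{u} := Cfsg.Agent.H24.Tm.scal

theorem fin_sign : Cfsg.Agent.H77.Tm.StSign.{u} := Cfsg.Agent.H24.Tm.sign fin_scal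

theorem fin_exEven : Cfsg.Agent.H77.Tm.StExEven.{u} :=
  Cfsg.Agent.H61.Tm.exEven Cfsg.Agent.H19.Tm.anisoStd Cfsg.Agent.H19.Tm.anisoIso
    Cfsg.Agent.H28.Tm.oddMemAll Cfsg.Agent.H48.Ep.fin_qstruct Cfsg.Agent.H48.Ep.fin_typeU
    Cfsg.Agent.H48.Ep.fin_complPlus

/-- EM-STRUCT, closed. -/
theorem fin_me : StME.{u} := Cfsg.Agent.H18.Em.struct Cfsg.Agent.H48.Ep.fin_struct fin_bridge

theorem fin_orbTrans : StOrbTrans.{u} := Cfsg.Agent.H3.Em.orbTransC

theorem fin_cntOrb : StCntOrb.{u} := Cfsg.Agent.H28.Em.cntOrb fin_orbTrans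

theorem fin_cntA : StCntA.{u} := Cfsg.Agent.H98.Em.cntA fin_me fin_bridge fin_cntOrb

theorem fin_cntB : StCntB.{u} := Cfsg.Agent.H13.Em.cntB fin_me

theorem fin_cnt0 : StCnt0.{u} := Cfsg.Agent.H28.Em.cnt0 fin_me fin_bridge fin_cntOrb

theorem fin_twoOdd : StTwoOdd.{u} := Cfsg.Agent.H75.Em.twoOdd_fin

theorem fin_twoPos : StTwoPos.{u} :=
  Cfsg.Agent.H54.Em.twoPos Cfsg.Agent.H48.Ep.fin_i2Pos
    (Cfsg.Agent.H54.Em.perp Cfsg.Agent.H48.Ep.fin_qSum) Cfsg.Agent.H54.Em.rankPar fin_bridge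

theorem fin_twoEven : StTwoEven.{u} := twoEven fin_twoPos Cfsg.Agent.H72.Em.twoWit fin_scal

end Cfsg.Agent.H99.Em
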