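import Cfsg.Agent.H99.EmDefs

/-!
# S5990 team project (helper99): the main assembly
-/

set_option autoImplicit false
open scoped MatrixGroups
open scoped Matrix

namespace Cfsg.Agent.H99.Em

open Cfsg.Agent.H45 Cfsg.Agent.H42.Spd Cfsg.Agent.H42.Ti Cfsg.Agent.H48.Ep Cfsg.Agent.H77.Tq
  Cfsg.Agent.H77.Tm Module Polynomial

universe u

theorem em_omega_le {F : Type u} [Field F] {ι : Type} [Fintype ι] [DecidableEq ι]
    (Q : (ι → F) → F) : Cfsg.Geo.omegaGL Q ≤ Cfsg.isometryGroup F Q := by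
  unfold Cfsg.Geo.omegaGL
  exact Subgroup.map_subtype_le _

/-- Elements of `Ω⁻` of order `r` with an admissible number `A ≥ 1` of blocks. -/
theorem em_exists (hExOdd : Cfsg.Agent.H77.Tm.StExOdd.{u})
    (hExEven : Cfsg.Agent.H77.Tm.StExEven.{u}) (hCyc : StCycSet.{u})
    {F : Type u} [Field F] [Fintype F] {p : ℕ} [Fact p.Prime] [CharP F p]
    (d : ℕ) (hd : 4 ≤ d) (a b : F) (hab : Aniso a b) (r : ℕ) (hr : r.Prime) (hr2 : r ≠ 2)
    (hrp : r ≠ p) (hrF : (r : F) ≠ 0) (hipos : 0 < ii F r) (A : ℕ) (hA1 : 1 ≤ A)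
    (hAle : cc F r * A ≤ 2 * d)
    (hAadm : cc F r * A = 2 * d → ¬ (Odd (ii F r) ∨ Even A)) :
    ∃ x : GL (MI (d - 1)) F, x ∈ Cfsg.Geo.omegaGL (Cfsg.quadFormMinus (d - 1) F a b) ∧
      x ^ r = 1 ∧ fixDim (d - 1) x + cc F r * A = 2 * (d - 1) + 2 ∧
      ∀ z : F, (x : Matrix (MI (d - 1)) (MI (d - 1)) F) ≠
        z • (1 : Matrix (MI (d - 1)) (MI (d - 1)) F) := by
  have hk : 3 ≤ d - 1 := by omega
  rcases Nat.even_or_odd (ii F r) with hev | hodd
  · have hci : cc F r = ii F r := by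
      have h0 : cc F r = if Even (ii F r) then ii F r else 2 * ii F r := rfl
      rw [h0, if_pos hev]
    rw [hci] at hAle hAadm ⊢
    obtain ⟨⟨Φs, hΦ⟩, -⟩ := hCyc F r hr hrF
    obtain ⟨h', hh'⟩ := hev
    have e1 : ii F r / 2 = h' := by omega
    obtain ⟨x, hxΩ, hxr, hxfix, hxns, -⟩ := hExEven F p (d - 1) a b r hab hk hr hr2 hrp
      ⟨h', hh'⟩ Φs hΦ A hA1
      (by
        intro _
        rw [e1]
        have e2 : ii F r * A = 2 * (h' * A) := by rw [hh']; ring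
        omega)
      (by
        intro hAev
        rw [e1]
        have e2 : ii F r * A = 2 * (h' * A) := by rw [hh']; ring
        have hne : ii F r * A ≠ 2 * d := fun h => hAadm h (Or.inr hAev)
        omega)
    exact ⟨x, hxΩ, hxr, hxfix, hxns⟩
  · have hci : cc F r = 2 * ii F r := by
      have h0 : cc F r = if Even (ii F r) then ii F r else 2 * ii F r := rfl
      rw [h0, if_neg (Nat.not_even_iff_odd.mpr hodd)]
    rw [hci] at hAle hAadm ⊢
    have hne : 2 * ii F r * A ≠ 2 * d := fun h => hAadm h (Or.inl hodd)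
    obtain ⟨x, hxΩ, hxr, hxfix, hxns⟩ := hExOdd F p (d - 1) a b r hab hk hr hr2 hrp hodd A hA1
      (by
        have e2 : 2 * ii F r * A = 2 * (ii F r * A) := by ring
        omega)
    exact ⟨x, hxΩ, hxr, hxfix, hxns⟩

set_option maxHeartbeats 1000000 in
/-- S5990 from its pieces. -/
theorem em_main (hOrd : Cfsg.Agent.H77.Tm.StOrd) (hSign : Cfsg.Agent.H77.Tm.StSign.{u})
    (hExOdd : Cfsg.Agent.H77.Tm.StExOdd.{u}) (hExEven : Cfsg.Agent.H77.Tm.StExEven.{u})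
    (hCyc : StCycSet.{u}) (hME : StME.{u}) (hCntA : StCntA.{u}) (hCntB : StCntB.{u})
    (hCnt0 : StCnt0.{u}) (hAB : StArBack) (hAF : StArFwd) (hTwoOdd : StTwoOdd.{u})
    (hTwoEven : StTwoEven.{u})
    {F : Type u} [Field F] [Fintype F] {p : ℕ} [Fact p.Prime] [CharP F p] {q : ℕ} (hq : Fintype.card F = q)
    (d m : ℕ) (hd : 4 ≤ d) (hm : 2 ≤ m) (hme : Even m) (hmn : m + 2 ≤ 2 * d) (a b : F) (hab : ∀ x y : F, x ^ 2 + a * x * y + b * y ^ 2 = 0 → x = 0 ∧ y = 0)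
    (r : ℕ) [Fact r.Prime] (hr : r = 2 ∨ r ≠ p)
    (hrΩ : r ∣ Nat.card {W : Submodule F ((Fin (d - 1) ⊕ Fin (d - 1)) ⊕ Fin 2 → F) // Module.finrank F ↥W = m ∧ Cfsg.Geo.IsNondegenerateOn (QuadraticMap.polar (Cfsg.quadFormMinus (d - 1) F a b)) W ∧ ¬ Cfsg.Geo.IsPlusTypeOn (Cfsg.quadFormMinus (d - 1) F a b) W})
    (i c : ℕ) (hi : i = orderOf (q : ZMod r)) (hc : c = if Even i then i else 2 * i) :
    (∀ x : GL ((Fin (d - 1) ⊕ Fin (d - 1)) ⊕ Fin 2) F, x ∈ Cfsg.Geo.omegaGL (Cfsg.quadFormMinus (d - 1) F a b) →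
      (∃ z : F, ((x ^ r : GL ((Fin (d - 1) ⊕ Fin (d - 1)) ⊕ Fin 2) F) : Matrix ((Fin (d - 1) ⊕ Fin (d - 1)) ⊕ Fin 2) ((Fin (d - 1) ⊕ Fin (d - 1)) ⊕ Fin 2) F) = z • (1 : Matrix ((Fin (d - 1) ⊕ Fin (d - 1)) ⊕ Fin 2) ((Fin (d - 1) ⊕ Fin (d - 1)) ⊕ Fin 2) F)) →
      (∀ z : F, (x : Matrix ((Fin (d - 1) ⊕ Fin (d - 1)) ⊕ Fin 2) ((Fin (d - 1) ⊕ Fin (d - 1)) ⊕ Fin 2) F) ≠ z • (1 : Matrix ((Fin (d - 1) ⊕ Fin (d - 1)) ⊕ Fin 2) ((Fin (d - 1) ⊕ Fin (d - 1)) ⊕ Fin 2) F)) →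
      ∃ W : Submodule F ((Fin (d - 1) ⊕ Fin (d - 1)) ⊕ Fin 2 → F), (Module.finrank F ↥W = m ∧ Cfsg.Geo.IsNondegenerateOn (QuadraticMap.polar (Cfsg.quadFormMinus (d - 1) F a b)) W ∧ ¬ Cfsg.Geo.IsPlusTypeOn (Cfsg.quadFormMinus (d - 1) F a b) W) ∧ W.map (Matrix.toLin' (x : Matrix ((Fin (d - 1) ⊕ Fin (d - 1)) ⊕ Fin 2) ((Fin (d - 1) ⊕ Fin (d - 1)) ⊕ Fin 2) F)) ≤ W) ↔
    ((r = 2 ∧ p = 2 ∧ (Even d ∨ m % 4 = 2)) ∨
     (r = 2 ∧ p ≠ 2 ∧ (Even d ∨ q % 8 ≠ 7 ∨ m % 4 = 2)) ∨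
     (r ≠ p ∧ 2 < r ∧ Odd i ∧ ((2 * d) % c = 0 ∨ (c ≤ m ∧ 0 < m % c ∧ m % c ≤ (2 * d) % c))) ∨
     (r ≠ p ∧ 2 < r ∧ Even i ∧
       (((2 * d) % c = 0 ∧ (Even ((2 * d) / i) ∨ (m % c = 0 ∧ Odd (m / i)))) ∨
        (0 < (2 * d) % c ∧ i ≤ m ∧ ((0 < m % c ∧ m % c < (2 * d) % c) ∨ (m % c = 0 ∧ Odd (m / i)) ∨
                                    (m % c = (2 * d) % c ∧ Even ((2 * d + m - 2 * ((2 * d) % c)) / i))))))) := by
  have hp : p.Prime := Fact.out
  have hrP : r.Prime := Fact.out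
  subst hq
  have hk : 3 ≤ d - 1 := by omega
  have hmk : m ≤ 2 * (d - 1) := by omega
  have hd1 : d - 1 + 1 = d := by omega
  by_cases hr2 : r = 2
  · subst hr2
    by_cases hp2 : p = 2
    · have h2F : (2 : F) = 0 := by
        subst hp2
        exact_mod_cast CharP.cast_eq_zero F 2
      have key := hTwoEven F (d - 1) m a b h2F hab hk hme hm hmk
      rw [hd1] at key
      constructor
      · intro hL
        exact Or.inl ⟨rfl, hp2, key.mp hL⟩
      · rintro (⟨-, -, h⟩ | ⟨-, h, -⟩ | ⟨h, -⟩ | ⟨h, -⟩)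
        · exact key.mpr h
        · exact absurd hp2 h
        · exact absurd hp2.symm h
        · exact absurd hp2.symm h
    · have h2F : (2 : F) ≠ 0 := by
        intro h0
        have h1 : ((2 : ℕ) : F) = 0 := by exact_mod_cast h0
        have h2 := (CharP.cast_eq_zero_iff F p 2).mp h1
        exact hp2 ((Nat.prime_dvd_prime_iff_eq hp Nat.prime_two).mp h2)
      have key := hTwoOdd F (d - 1) m a b h2F hab hk hme hm hmk
      rw [hd1] at key
      constructor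
      · intro hL
        exact Or.inr (Or.inl ⟨rfl, hp2, key.mp hL⟩)
      · rintro (⟨-, h, -⟩ | ⟨-, -, h⟩ | ⟨-, h, -⟩ | ⟨-, h, -⟩)
        · exact absurd h hp2
        · exact key.mpr h
        · omega
        · omega
  · have hrp : r ≠ p := hr.resolve_left hr2
    have hr3 : 2 < r := by have := hrP.two_le; omega
    have hrq : ¬ r ∣ Fintype.card F := by
      obtain ⟨f, -, hf⟩ := FiniteField.card F p
      intro h
      rw [hf] at h
      exact hrp ((Nat.prime_dvd_prime_iff_eq hrP hp).mp (hrP.dvd_of_dvd_pow h))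
    have hrF : (r : F) ≠ 0 := by
      intro h0
      have h2 := (CharP.cast_eq_zero_iff F p r).mp h0
      exact hrp ((Nat.prime_dvd_prime_iff_eq hp hrP).mp h2).symm
    obtain ⟨hipos, -, -⟩ := hOrd (Fintype.card F) r hrP hrq
    have hii : ii F r = i := by rw [hi]; rfl
    have hcc : cc F r = c := by
      rw [hc, hi]; rfl
    rw [← hi] at hipos
    have hipos' : 0 < ii F r := by rw [hii]; exact hipos
    have hrodd : Odd r := hrP.odd_of_ne_two hr2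
    have hRhs : ((r = 2 ∧ p = 2 ∧ (Even d ∨ m % 4 = 2)) ∨
     (r = 2 ∧ p ≠ 2 ∧ (Even d ∨ Fintype.card F % 8 ≠ 7 ∨ m % 4 = 2)) ∨
     (r ≠ p ∧ 2 < r ∧ Odd i ∧ ((2 * d) % c = 0 ∨ (c ≤ m ∧ 0 < m % c ∧ m % c ≤ (2 * d) % c))) ∨
     (r ≠ p ∧ 2 < r ∧ Even i ∧
       (((2 * d) % c = 0 ∧ (Even ((2 * d) / i) ∨ (m % c = 0 ∧ Odd (m / i)))) ∨
        (0 < (2 * d) % c ∧ i ≤ m ∧ ((0 < m % c ∧ m % c < (2 * d) % c) ∨ (m % c = 0 ∧ Odd (m / i)) ∨
                                    (m % c = (2 * d) % c ∧ Even ((2 * d + m - 2 * ((2 * d) % c)) / i))))))) ↔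
        RhsOddE d m i c := by
      unfold RhsOddE
      constructor
      · rintro (⟨h, -⟩ | ⟨h, -⟩ | ⟨-, -, h⟩ | ⟨-, -, h⟩)
        · exact absurd h hr2
        · exact absurd h hr2
        · exact Or.inl h
        · exact Or.inr h
      · rintro (h | h)
        · exact Or.inr (Or.inr (Or.inl ⟨hrp, hr3, h⟩))
        · exact Or.inr (Or.inr (Or.inr ⟨hrp, hr3, h⟩))
    rw [hRhs]
    constructor
    · intro hL
      by_contra hneg
      rcases hAF d m i c hipos hc hme hm hmn hd hneg with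
        ⟨A, hA1, hAle, hAadm, hAno⟩ | ⟨hmc, h2 | ⟨A, hA1, hAle, hAadm, hAlt, hcase⟩⟩
      · obtain ⟨x, hxΩ, hxr, hxfix, hxns⟩ := em_exists hExOdd hExEven hCyc d hd a b hab r hrP hr2
          hrp hrF hipos' A hA1 (by rw [hcc]; exact hAle) (by rw [hcc, hii]; exact hAadm)
        obtain ⟨W, hW, hWinv⟩ := hL x hxΩ ⟨1, by rw [hxr]; simp⟩ hxns
        obtain ⟨A', hA'fix, -, -, hup⟩ := hME F p (d - 1) a b r hab hrP hr2 hrp x
          (em_omega_le _ hxΩ) hxr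
        rw [hcc] at hA'fix hxfix
        have hAA : A' = A := by
          have h1 : c * A' = c * A := by omega
          have hcpos : 0 < c := by
            rw [hc]; split_ifs <;> omega
          exact Nat.eq_of_mul_eq_mul_left hcpos h1
        subst hAA
        obtain ⟨j, hjA, hmj, hkle, hk0, hkk⟩ := hup m W hme hW hWinv
        rw [hcc] at hmj
        rw [hii] at hk0 hkk
        exact hAno j (kk (Matrix.toLin' (x : Matrix (MI (d - 1)) (MI (d - 1)) F)) W) hjA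
          (by omega) hmj.symm hk0 (fun h1 h2 => hkk (by omega) h2)
      · exact hCnt0 F p (d - 1) a b r m hab hk hrP hr2 hrp hme hm hmk (by rw [hcc]; omega) hrΩ
      · obtain ⟨x, hxΩ, hxr, hxfix, hxns⟩ := em_exists hExOdd hExEven hCyc d hd a b hab r hrP hr2
          hrp hrF hipos' A hA1 (by rw [hcc]; exact hAle) (by rw [hcc, hii]; exact hAadm)
        rcases hcase with h | ⟨h, hty⟩
        · exact hCntA F p (d - 1) a b r m hab hk hrP hr2 hrp hme hm (by rw [hcc]; exact hmc) x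
            (em_omega_le _ hxΩ) hxr (by rw [hcc] at hxfix; omega) (by rw [hcc] at hxfix ⊢; omega)
            hrΩ
        · exact hCntB F p (d - 1) a b r m hab hk hrP hr2 hrp hme hm (by rw [hcc]; exact hmc) x
            (em_omega_le _ hxΩ) hxr A hxfix (by rw [hcc] at hxfix; omega)
            (by rw [hii]; exact hty) hrΩ
    · intro hR x hxΩ ⟨z, hz⟩ _
      obtain ⟨y, hyO, hyr, hyW⟩ := hSign F (d - 1) a b x r z hrodd (em_omega_le _ hxΩ) hz
      obtain ⟨A, hAfix, hA0, hfixall, -⟩ := hME F p (d - 1) a b r hab hrP hr2 hrp y hyO hyr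
      rw [hcc] at hAfix
      rw [hii] at hA0
      obtain ⟨j, e, hj, he, hee, hje, he0, hek⟩ := hAB d m i c A hipos hc hme hm hmn hd hR
        (by omega) (by intro h; exact hA0 (by omega))
      obtain ⟨W, hW, hWinv⟩ := hfixall j e hj (by omega) hee (by rw [hii]; exact he0)
        (by
          rw [hii]
          intro h1 h2
          exact hek (by omega) h2)
      rw [hcc, hje] at hW
      exact ⟨W, hW, hyW W hWinv⟩

end Cfsg.Agent.H99.Em
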