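import Mathlib

set_option autoImplicit false

namespace Cfsg.Agent.H99

open Matrix

section
variable {F : Type*} [Field F]

/-- Cayley–Hamilton for `2 × 2` matrices. -/
theorem mat2_cayley (M : Matrix (Fin 2) (Fin 2) F) : M * M = M.trace • M - M.det • 1 := by
  ext i j
  fin_cases i <;> fin_cases j <;>
    simp [Matrix.mul_apply, Fin.sum_univ_two, Matrix.trace_fin_two, Matrix.det_fin_two] <;> ring

theorem mat2_scalar_of_entries (M : Matrix (Fin 2) (Fin 2) F) (h01 : M 0 1 = 0) (h10 : M 1 0 = 0)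
    (h : M 0 0 = M 1 1) : M = (M 0 0) • (1 : Matrix (Fin 2) (Fin 2) F) := by
  ext i j
  fin_cases i <;> fin_cases j <;> simp [h01, h10, h]

/-- A polynomial relation of degree two satisfied by a non-scalar `2 × 2` matrix determines its
trace and determinant. -/
theorem mat2_trace_det_of_sq (M : Matrix (Fin 2) (Fin 2) F)
    (hM : ∀ z : F, M ≠ z • (1 : Matrix (Fin 2) (Fin 2) F)) (a b : F)
    (h : M * M = a • M + b • 1) : M.trace = a ∧ M.det = -b := by
  have h1 := mat2_cayley M
  rw [h] at h1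
  have h2 : (M.trace - a) • M = (M.det + b) • (1 : Matrix (Fin 2) (Fin 2) F) := by
    rw [sub_smul, add_smul, sub_eq_iff_eq_add, ← eq_sub_iff_add_eq.mp h1]
    abel
  have h3 : M.trace = a := by
    by_contra hne
    have hne' : M.trace - a ≠ 0 := sub_ne_zero.mpr hne
    apply hM ((M.trace - a)⁻¹ * (M.det + b))
    calc M = (M.trace - a)⁻¹ • ((M.trace - a) • M) := by
          rw [smul_smul, inv_mul_cancel₀ hne', one_smul]
      _ = ((M.trace - a)⁻¹ * (M.det + b)) • (1 : Matrix (Fin 2) (Fin 2) F) := by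
          rw [h2, smul_smul]
  refine ⟨h3, ?_⟩
  rw [h3, sub_self, zero_smul] at h2
  have h4 := congrFun (congrFun h2 0) 0
  simp at h4
  linear_combination -h4

/-- A matrix commuting with a non-scalar `2 × 2` matrix `M` is a polynomial in `M`. -/
theorem mat2_centralizer (M : Matrix (Fin 2) (Fin 2) F)
    (hM : ∀ z : F, M ≠ z • (1 : Matrix (Fin 2) (Fin 2) F)) (A : Matrix (Fin 2) (Fin 2) F)
    (hA : A * M = M * A) : ∃ a b : F, A = a • 1 + b • M := by
  have e00 := congrFun (congrFun hA 0) 0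
  have e01 := congrFun (congrFun hA 0) 1
  have e10 := congrFun (congrFun hA 1) 0
  have e11 := congrFun (congrFun hA 1) 1
  simp only [Matrix.mul_apply, Fin.sum_univ_two] at e00 e01 e10 e11
  by_cases h01 : M 0 1 = 0
  · by_cases h10 : M 1 0 = 0
    · have hd : M 0 0 ≠ M 1 1 := by
        intro hd
        exact hM _ (mat2_scalar_of_entries M h01 h10 hd)
      have hd' : M 0 0 - M 1 1 ≠ 0 := sub_ne_zero.mpr hd
      simp only [h01, h10, mul_zero, zero_mul, add_zero, zero_add] at e01 e10
      have hA01 : A 0 1 = 0 := by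
        have h5 : A 0 1 * (M 0 0 - M 1 1) = 0 := by linear_combination -e01
        rcases mul_eq_zero.mp h5 with h | h
        · exact h
        · exact absurd h hd'
      have hA10 : A 1 0 = 0 := by
        have h5 : A 1 0 * (M 0 0 - M 1 1) = 0 := by linear_combination e10
        rcases mul_eq_zero.mp h5 with h | h
        · exact h
        · exact absurd h hd'
      refine ⟨A 0 0 - (A 0 0 - A 1 1) / (M 0 0 - M 1 1) * M 0 0,
        (A 0 0 - A 1 1) / (M 0 0 - M 1 1), ?_⟩
      ext i j
      fin_cases i <;> fin_cases j <;> simp [hA01, hA10, h01, h10] <;> field_simp <;> ring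
    · refine ⟨A 0 0 - A 1 0 / M 1 0 * M 0 0, A 1 0 / M 1 0, ?_⟩
      ext i j
      fin_cases i <;> fin_cases j <;> simp <;> field_simp
      · linear_combination e00
      · linear_combination e10
  · refine ⟨A 0 0 - A 0 1 / M 0 1 * M 0 0, A 0 1 / M 0 1, ?_⟩
    ext i j
    fin_cases i <;> fin_cases j <;> simp <;> field_simp
    · linear_combination -e00
    · linear_combination -e01

/-- The centralizer of a non-scalar `2 × 2` matrix is commutative. -/
theorem mat2_centralizer_comm (M : Matrix (Fin 2) (Fin 2) F)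
    (hM : ∀ z : F, M ≠ z • (1 : Matrix (Fin 2) (Fin 2) F)) (A B : Matrix (Fin 2) (Fin 2) F)
    (hA : A * M = M * A) (hB : B * M = M * B) : A * B = B * A := by
  obtain ⟨a, b, rfl⟩ := mat2_centralizer M hM A hA
  obtain ⟨c, d, rfl⟩ := mat2_centralizer M hM B hB
  simp only [add_mul, mul_add, Matrix.smul_mul, Matrix.mul_smul, Matrix.one_mul, Matrix.mul_one,
    smul_smul]
  rw [mul_comm c a, mul_comm d b, mul_comm c b, mul_comm d a]
  abel

end

section
variable {F : Type*} [Field F] [Fintype F]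

theorem mat2_two_ne_zero (hodd : Fintype.card F % 2 = 1) : (2 : F) ≠ 0 := by
  intro h2
  have h3 : ringChar F ∣ 2 := ringChar.dvd (by exact_mod_cast h2)
  have h4 : ringChar F = 2 := by
    rcases (Nat.dvd_prime Nat.prime_two).mp h3 with h | h
    · exact absurd h CharP.ringChar_ne_one
    · exact h
  have h5 := FiniteField.even_card_iff_char_two.mp h4
  omega

open Polynomial in
/-- A non-degenerate binary quadratic form over a finite field of odd order represents `1`. -/
theorem binary_form_universal (hodd : Fintype.card F % 2 = 1) (α β γ : F)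
    (hdisc : β ^ 2 - 4 * α * γ ≠ 0) :
    ∃ v₀ v₁ : F, α * v₀ ^ 2 + β * v₀ * v₁ + γ * v₁ ^ 2 = 1 := by
  have h2 : (2 : F) ≠ 0 := mat2_two_ne_zero hodd
  by_cases hα : α = 0
  · subst hα
    have hβ : β ≠ 0 := by
      intro h
      apply hdisc
      rw [h]
      ring
    exact ⟨(1 - γ) / β, 1, by field_simp; ring⟩
  · obtain ⟨δ, hδ⟩ : ∃ δ : F, δ = (4 * α * γ - β ^ 2) / (4 * α) := ⟨_, rfl⟩
    have h4α : (4 : F) * α ≠ 0 := by
      have h4 : (4 : F) = 2 * 2 := by norm_num
      rw [h4]
      exact mul_ne_zero (mul_ne_zero h2 h2) hα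
    have hδ' : δ * (4 * α) = 4 * α * γ - β ^ 2 := by
      rw [hδ, div_mul_cancel₀ _ h4α]
    have hδ0 : δ ≠ 0 := by
      intro h
      rw [h, zero_mul] at hδ'
      apply hdisc
      linear_combination hδ'
    obtain ⟨u, w, huw⟩ := FiniteField.exists_root_sum_quadratic (f := C α * X ^ 2)
      (g := C δ * X ^ 2 - C 1) (degree_C_mul_X_pow 2 hα)
      (by rw [degree_sub_C (by rw [degree_C_mul_X_pow 2 hδ0]; norm_num),
        degree_C_mul_X_pow 2 hδ0]; rfl) hodd
    simp only [eval_mul, eval_C, eval_pow, eval_X, eval_sub] at huw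
    refine ⟨u - β * w / (2 * α), w, ?_⟩
    field_simp
    linear_combination (4 * α) * huw - w ^ 2 * hδ'

/-- A `2 × 2` matrix of determinant `1` and trace `t` with `t ^ 2 ≠ 4` over a finite field of odd
order is conjugate to the companion matrix by a matrix of determinant `1`. -/
theorem mat2_conj_companion (hodd : Fintype.card F % 2 = 1) (M : Matrix (Fin 2) (Fin 2) F)
    (t : F) (htr : M.trace = t) (hdet : M.det = 1) (ht : t ^ 2 - 4 ≠ 0) :
    ∃ g : Matrix (Fin 2) (Fin 2) F, g.det = 1 ∧ M * g = g * !![0, -1; 1, t] := by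
  rw [Matrix.trace_fin_two] at htr
  rw [Matrix.det_fin_two] at hdet
  obtain ⟨v₀, v₁, hv⟩ := binary_form_universal hodd (M 1 0) (M 1 1 - M 0 0) (-M 0 1) (by
    intro h
    apply ht
    rw [← htr]
    linear_combination h + 4 * hdet)
  refine ⟨!![v₀, M 0 0 * v₀ + M 0 1 * v₁; v₁, M 1 0 * v₀ + M 1 1 * v₁], ?_, ?_⟩
  · rw [Matrix.det_fin_two_of]
    linear_combination hv
  · ext i j
    fin_cases i <;> fin_cases j <;> simp [Matrix.mul_apply, Fin.sum_univ_two]
    · rw [← htr]
      linear_combination (-v₀) * hdet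
    · rw [← htr]
      linear_combination (-v₁) * hdet

/-- Two `2 × 2` matrices of determinant `1` with the same trace `t`, `t ^ 2 ≠ 4`, over a finite
field of odd order are conjugate by a matrix of determinant `1`. -/
theorem mat2_sl_conj (hodd : Fintype.card F % 2 = 1) (M M' : Matrix (Fin 2) (Fin 2) F)
    (t : F) (htr : M.trace = t) (hdet : M.det = 1) (htr' : M'.trace = t) (hdet' : M'.det = 1)
    (ht : t ^ 2 - 4 ≠ 0) :
    ∃ P : Matrix (Fin 2) (Fin 2) F, P.det = 1 ∧ M * P = P * M' := by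
  obtain ⟨g, hg, hMg⟩ := mat2_conj_companion hodd M t htr hdet ht
  obtain ⟨g', hg', hMg'⟩ := mat2_conj_companion hodd M' t htr' hdet' ht
  have hunit : IsUnit g'.det := by rw [hg']; exact isUnit_one
  refine ⟨g * g'⁻¹, ?_, ?_⟩
  · rw [Matrix.det_mul, Matrix.det_nonsing_inv, hg, hg']
    simp
  · have h1 : !![0, -1; 1, t] * g'⁻¹ = g'⁻¹ * M' := by
      have h2 : g'⁻¹ * (M' * g') * g'⁻¹ = g'⁻¹ * (g' * !![0, -1; 1, t]) * g'⁻¹ := by rw [hMg']
      rw [← Matrix.mul_assoc, Matrix.mul_assoc, Matrix.mul_nonsing_inv _ hunit, Matrix.mul_one,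
        ← Matrix.mul_assoc, Matrix.nonsing_inv_mul _ hunit, Matrix.one_mul] at h2
      exact h2.symm
    rw [← Matrix.mul_assoc, hMg, Matrix.mul_assoc, h1, Matrix.mul_assoc]

end

end Cfsg.Agent.H99
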