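import Cfsg.Agent.H99.ExtConj
import Cfsg.Agent.H99.Mat2
import Cfsg.Agent.H99.NT

set_option autoImplicit false

namespace Cfsg.Agent.H99

open Matrix Module
open scoped MatrixGroups

section
variable {F : Type*} [Field F] {n : ℕ}

/-- In odd characteristic, a field subalgebra of degree 2 is generated by an element whose square
is a non-square scalar. -/
theorem field_subalgebra_odd_gen (h2 : (2 : F) ≠ 0) (K : Subalgebra F (Matrix (Fin n) (Fin n) F))
    (hK : Cfsg.Geo.IsFieldSubalgebra 2 K) :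
    ∃ κ₀ ∈ K, ∃ ω : F, κ₀ * κ₀ = ω • (1 : Matrix (Fin n) (Fin n) F) ∧ (∀ s : F, s * s ≠ ω) ∧
      ∀ y ∈ K, ∃ a b : F, y = a • (1 : Matrix (Fin n) (Fin n) F) + b • κ₀ := by
  obtain ⟨κ, hκ, hns, hgen⟩ := field_subalgebra_gen K hK
  obtain ⟨α, β, hαβ⟩ := hgen (κ * κ) (K.mul_mem hκ hκ)
  obtain ⟨h, hh⟩ : ∃ h : F, h + h = β := ⟨β / 2, by rw [← two_mul, mul_div_cancel₀ _ h2]⟩
  subst hh
  have hκ₀ : κ - h • (1 : Matrix (Fin n) (Fin n) F) ∈ K :=
    K.sub_mem hκ (field_subalgebra_smul_mem K _)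
  have hsq : (κ - h • (1 : Matrix (Fin n) (Fin n) F)) * (κ - h • 1) = (α + h * h) • 1 := by
    rw [Matrix.sub_mul, Matrix.mul_sub, Matrix.mul_sub, hαβ, Matrix.smul_mul, Matrix.mul_smul,
      Matrix.one_mul, Matrix.mul_one, Matrix.smul_mul, Matrix.one_mul, smul_smul]
    module
  refine ⟨κ - h • 1, hκ₀, α + h * h, hsq, ?_, ?_⟩
  · intro s hs
    have hprod : (κ - h • (1 : Matrix (Fin n) (Fin n) F) - s • 1) * (κ - h • 1 + s • 1) = 0 := by
      rw [Matrix.sub_mul, Matrix.mul_add, Matrix.mul_add, hsq, Matrix.smul_mul, Matrix.mul_smul,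
        Matrix.one_mul, Matrix.mul_one, Matrix.smul_mul, Matrix.one_mul, smul_smul, ← hs]
      module
    by_cases h0 : κ - h • (1 : Matrix (Fin n) (Fin n) F) - s • 1 = 0
    · apply hns (h + s)
      rw [add_smul]
      rw [sub_eq_zero] at h0
      rw [← h0]
      abel
    · have hm : κ - h • (1 : Matrix (Fin n) (Fin n) F) - s • 1 ∈ K :=
        K.sub_mem hκ₀ (field_subalgebra_smul_mem K _)
      obtain ⟨y, hyK, hy⟩ := hK.inv _ hm h0
      have hy' : y * (κ - h • (1 : Matrix (Fin n) (Fin n) F) - s • 1) = 1 := by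
        rw [hK.comm y hyK _ hm]; exact hy
      have h3 : κ - h • (1 : Matrix (Fin n) (Fin n) F) + s • 1 = 0 := by
        have := congrArg (fun A => y * A) hprod
        simp only [← Matrix.mul_assoc, hy', Matrix.one_mul, Matrix.mul_zero] at this
        exact this
      apply hns (h - s)
      rw [sub_smul]
      have h4 : κ = h • (1 : Matrix (Fin n) (Fin n) F) - s • 1 := by
        rw [← sub_eq_zero, ← h3]
        abel
      exact h4
  · intro y hy
    obtain ⟨a, b, rfl⟩ := hgen y hy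
    exact ⟨a + b * h, b, by module⟩

/-- The ratio of two non-squares of a finite field of odd order is a square. -/
theorem nonsquare_ratio [Fintype F] (h2 : (2 : F) ≠ 0) (z ω : F) (hz : ∀ s : F, s * s ≠ z)
    (hω : ∀ s : F, s * s ≠ ω) : ∃ c : F, c ≠ 0 ∧ z = ω * (c * c) := by
  have hchar : ringChar F ≠ 2 := ringChar_ne_two_of_two_ne_zero h2
  have hz0 : z ≠ 0 := by
    rintro rfl
    exact hz 0 (by simp)
  have hω0 : ω ≠ 0 := by
    rintro rfl
    exact hω 0 (by simp)
  have key : ∀ t : F, t ≠ 0 → (∀ s : F, s * s ≠ t) → t ^ (Fintype.card F / 2) = -1 := by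
    intro t ht0 ht
    rcases FiniteField.pow_dichotomy hchar ht0 with h | h
    · exfalso
      obtain ⟨r, hr⟩ := (FiniteField.isSquare_iff hchar ht0).mpr h
      exact ht r hr.symm
    · exact h
  have hsq : IsSquare (z / ω) := by
    rw [FiniteField.isSquare_iff hchar (div_ne_zero hz0 hω0), div_pow, key z hz0 hz,
      key ω hω0 hω]
    simp
  obtain ⟨c, hc⟩ := hsq
  refine ⟨c, ?_, ?_⟩
  · rintro rfl
    rw [mul_zero] at hc
    exact div_ne_zero hz0 hω0 hc
  · rw [← hc]
    field_simp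

theorem card_odd_of_two_ne_zero [Fintype F] (h2 : (2 : F) ≠ 0) : Fintype.card F % 2 = 1 := by
  have hchar : ringChar F ≠ 2 := ringChar_ne_two_of_two_ne_zero h2
  have h := (FiniteField.even_card_iff_char_two (F := F)).not.mp hchar
  omega

end

section
variable {F V : Type*} [Field F] [AddCommGroup V] [Module F V]

/-- A map acting through a prescribed `2 × 2` block on one pair of a basis of pairs, and
trivially on the other pairs. -/
theorem exists_pair_block_map {I : Type*} [Fintype I] [DecidableEq I] (bs : Basis (I ⊕ I) F V)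
    (i₀ : I) (M₀ : Matrix (Fin 2) (Fin 2) F) :
    ∃ C : V →ₗ[F] V,
      C (bs (Sum.inl i₀)) = M₀ 0 0 • bs (Sum.inl i₀) + M₀ 1 0 • bs (Sum.inr i₀) ∧
      C (bs (Sum.inr i₀)) = M₀ 0 1 • bs (Sum.inl i₀) + M₀ 1 1 • bs (Sum.inr i₀) ∧
      (∀ i, i ≠ i₀ → C (bs (Sum.inl i)) = bs (Sum.inl i) ∧ C (bs (Sum.inr i)) = bs (Sum.inr i)) ∧
      LinearMap.det C = M₀.det := by
  classical
  obtain ⟨M, hM⟩ : ∃ M : I → Matrix (Fin 2) (Fin 2) F, M = Function.update (fun _ => 1) i₀ M₀ :=
    ⟨_, rfl⟩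
  obtain ⟨C, hC⟩ : ∃ C : V →ₗ[F] V, ∀ k, C (bs k) =
      Sum.elim (fun i => M i 0 0 • bs (Sum.inl i) + M i 1 0 • bs (Sum.inr i))
        (fun i => M i 0 1 • bs (Sum.inl i) + M i 1 1 • bs (Sum.inr i)) k :=
    ⟨bs.constr F _, fun k => Basis.constr_basis _ _ _ _⟩
  have hdet : LinearMap.det C = ∏ i, (M i).det :=
    det_of_pair_blocks bs C M (fun i => hC (Sum.inl i)) (fun i => hC (Sum.inr i))
  have hMi₀ : M i₀ = M₀ := by rw [hM, Function.update_self]
  have hMi : ∀ i, i ≠ i₀ → M i = 1 := fun i hi => by rw [hM, Function.update_of_ne hi]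
  refine ⟨C, ?_, ?_, ?_, ?_⟩
  · rw [hC, Sum.elim_inl, hMi₀]
  · rw [hC, Sum.elim_inr, hMi₀]
  · intro i hi
    rw [hC, hC, Sum.elim_inl, Sum.elim_inr, hMi i hi]
    simp
  · rw [hdet, Finset.prod_eq_single i₀, hMi₀]
    · intro i _ hi
      rw [hMi i hi, Matrix.det_one]
    · intro h
      exact absurd (Finset.mem_univ i₀) h

/-- A basis of eigenvectors, indexed by prescribed types, for an operator acting as scalars on
two complementary subspaces. -/
theorem exists_eigenbasis_of_bases {ι₁ ι₂ : Type*} (x : V →ₗ[F] V) (U W : Submodule F V)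
    (hd : Disjoint U W) (hs : U ⊔ W = ⊤) (α β : F) (hU : ∀ u ∈ U, x u = α • u)
    (hW : ∀ w ∈ W, x w = β • w) (bU : Basis ι₁ F U) (bW : Basis ι₂ F W) :
    ∃ bas : Basis (ι₁ ⊕ ι₂) F V,
      ∀ j, x (bas j) = (Sum.elim (fun _ => α) (fun _ => β) j) • bas j := by
  classical
  have hliU : LinearIndependent F (fun k => (bU k : V)) :=
    bU.linearIndependent.map' U.subtype (Submodule.ker_subtype U)
  have hliW : LinearIndependent F (fun k => (bW k : V)) :=
    bW.linearIndependent.map' W.subtype (Submodule.ker_subtype W)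
  have hspU : Submodule.span F (Set.range (fun k => (bU k : V))) = U := by
    have h1 : Set.range (fun k => (bU k : V)) = U.subtype '' Set.range bU := by
      rw [← Set.range_comp]; rfl
    rw [h1, Submodule.span_image, bU.span_eq, Submodule.map_subtype_top]
  have hspW : Submodule.span F (Set.range (fun k => (bW k : V))) = W := by
    have h1 : Set.range (fun k => (bW k : V)) = W.subtype '' Set.range bW := by
      rw [← Set.range_comp]; rfl
    rw [h1, Submodule.span_image, bW.span_eq, Submodule.map_subtype_top]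
  have hli : LinearIndependent F (Sum.elim (fun k => (bU k : V)) (fun k => (bW k : V))) :=
    LinearIndependent.sum_type hliU hliW (by rw [hspU, hspW]; exact hd)
  have hsp : ⊤ ≤ Submodule.span F
      (Set.range (Sum.elim (fun k => (bU k : V)) (fun k => (bW k : V)))) := by
    rw [Set.Sum.elim_range, Submodule.span_union, hspU, hspW, hs]
  refine ⟨Basis.mk hli hsp, fun j => ?_⟩
  rw [Basis.mk_apply]
  rcases j with j | j
  · exact hU _ (bU j).2
  · exact hW _ (bW j).2

end

end Cfsg.Agent.H99
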