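import Cfsg.Agent.H99.ExtField
import Cfsg.Agent.H99.Transport

set_option autoImplicit false

namespace Cfsg.Agent.H99

open Matrix Module
open scoped MatrixGroups

section
variable {F : Type*} [Field F] {V : Type*} [AddCommGroup V] [Module F V]

/-- An operator with scalar square and no eigenvector has a basis of pairs `(v, x v)`. -/
theorem exists_cyclic_pairs [FiniteDimensional F V] (x : V →ₗ[F] V) (z : F)
    (hx : ∀ v, x (x v) = z • v) (hev : ∀ v, v ≠ 0 → ∀ μ : F, x v ≠ μ • v) :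
    ∃ (I : Type) (_ : Fintype I) (_ : DecidableEq I) (b : Basis (I ⊕ I) F V),
      ∀ i, x (b (Sum.inl i)) = b (Sum.inr i) ∧ x (b (Sum.inr i)) = z • b (Sum.inl i) := by
  classical
  obtain ⟨d, hd⟩ := even_finrank_of_noeigen x z hx hev (finrank F (⊤ : Submodule F V)) ⊤ rfl
    (fun _ _ => Submodule.mem_top)
  obtain ⟨I, hI1, hI2, e, f, hli, hsp, hrel⟩ := exists_pairs_swap x z hx
    (fun v hv0 μ hμ => absurd hμ (hev v hv0 μ)) d ⊤ hd (fun _ _ => Submodule.mem_top)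
  have hsw : ∀ i, ∃ α β : F, α * β = z ∧ x (e i) = α • f i ∧ x (f i) = β • e i := by
    intro i
    rcases hrel i with ⟨α, β, -, he, -⟩ | ⟨α, β, hαβ, he, hf⟩
    · exact absurd he (hev (e i) (hli.ne_zero (Sum.inl i)) α)
    · exact ⟨α, β, by rw [hαβ, neg_neg], he, hf⟩
  choose α β hαβ he hf using hsw
  have hα0 : ∀ i, α i ≠ 0 := by
    intro i h0
    apply hev (e i) (hli.ne_zero (Sum.inl i)) 0
    rw [he, h0, zero_smul, zero_smul]
  obtain ⟨bs, hbs⟩ : ∃ bs : Basis (I ⊕ I) F V, ∀ k, bs k = Sum.elim e f k :=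
    ⟨Basis.mk hli hsp.ge, fun k => Basis.mk_apply _ _ k⟩
  have hw0 : ∀ k : I ⊕ I, Sum.elim (fun _ => (1 : F)) α k ≠ 0 := by
    rintro (i | i)
    · exact one_ne_zero
    · exact hα0 i
  have hb : ∀ k, (bs.unitsSMul (fun k => Units.mk0 _ (hw0 k))) k =
      Sum.elim (fun _ => (1 : F)) α k • bs k := by
    intro k
    rw [Basis.unitsSMul_apply]
    rfl
  refine ⟨I, hI1, hI2, bs.unitsSMul (fun k => Units.mk0 _ (hw0 k)), fun i => ⟨?_, ?_⟩⟩
  · rw [hb, hb, hbs, hbs]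
    simp [he]
  · rw [hb, hb, hbs, hbs]
    simp only [Sum.elim_inr, Sum.elim_inl, one_smul, map_smul, hf, smul_smul, hαβ]

end

section
variable {F : Type*} [Field F] {n : ℕ}

/-- Conjugating by a matrix of determinant one built from a basis change and an element of the
centralizer. -/
theorem exists_sl_conj_centralizer {κ : Type*} [Fintype κ] [DecidableEq κ]
    (x : Matrix.SpecialLinearGroup (Fin n) F) (b b' : Basis κ F (Fin n → F))
    (C : (Fin n → F) →ₗ[F] (Fin n → F))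
    (hC : ∀ v, C ((x : Matrix (Fin n) (Fin n) F) *ᵥ v) = (x : Matrix (Fin n) (Fin n) F) *ᵥ C v)
    (hdet : LinearMap.det C * LinearMap.det (b.equiv b' (Equiv.refl κ)).toLinearMap = 1) :
    ∃ Q : Matrix.SpecialLinearGroup (Fin n) F, ∀ k,
      ((Q * x * Q⁻¹ : Matrix.SpecialLinearGroup (Fin n) F) : Matrix (Fin n) (Fin n) F) *ᵥ b' k =
        (b.equiv b' (Equiv.refl κ)) ((x : Matrix (Fin n) (Fin n) F) *ᵥ b k) := by
  obtain ⟨T, hT⟩ : ∃ T : (Fin n → F) ≃ₗ[F] (Fin n → F), T = b.equiv b' (Equiv.refl κ) :=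
    ⟨_, rfl⟩
  rw [← hT] at hdet ⊢
  have hTb : ∀ k, T (b k) = b' k := by
    intro k
    rw [hT, Basis.equiv_apply]
    rfl
  have hM : (LinearMap.toMatrix' (T.toLinearMap ∘ₗ C)).det = 1 := by
    rw [LinearMap.det_toMatrix', LinearMap.det_comp, mul_comm]
    exact hdet
  have hMv : ∀ v, (LinearMap.toMatrix' (T.toLinearMap ∘ₗ C)) *ᵥ v = T (C v) := by
    intro v
    rw [LinearMap.toMatrix'_mulVec]
    rfl
  refine ⟨⟨LinearMap.toMatrix' (T.toLinearMap ∘ₗ C), hM⟩, fun k => ?_⟩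
  obtain ⟨Q, hQ⟩ : ∃ Q : Matrix.SpecialLinearGroup (Fin n) F,
      Q = ⟨LinearMap.toMatrix' (T.toLinearMap ∘ₗ C), hM⟩ := ⟨_, rfl⟩
  rw [← hQ]
  have hQv : ∀ v, (Q : Matrix (Fin n) (Fin n) F) *ᵥ v = T (C v) := by
    intro v
    rw [hQ]
    exact hMv v
  obtain ⟨u, hu⟩ : ∃ u : Fin n → F,
      u = ((Q⁻¹ : Matrix.SpecialLinearGroup (Fin n) F) : Matrix (Fin n) (Fin n) F) *ᵥ b' k :=
    ⟨_, rfl⟩
  have hQu : (Q : Matrix (Fin n) (Fin n) F) *ᵥ u = b' k := by
    rw [hu, Matrix.mulVec_mulVec, ← Matrix.SpecialLinearGroup.coe_mul, mul_inv_cancel,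
      Matrix.SpecialLinearGroup.coe_one, Matrix.one_mulVec]
  have hCu : C u = b k := by
    apply T.injective
    rw [← hQv, hQu, hTb]
  rw [Matrix.SpecialLinearGroup.coe_mul, Matrix.SpecialLinearGroup.coe_mul,
    ← Matrix.mulVec_mulVec, ← Matrix.mulVec_mulVec, ← hu, hQv, hC, hCu]

/-- Conjugating an operator with an eigenbasis to one with a prescribed eigenbasis, by a matrix
of determinant one. -/
theorem exists_sl_conj_eigenbasis {κ : Type*} [Fintype κ] [DecidableEq κ] [Nonempty κ]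
    (x : Matrix.SpecialLinearGroup (Fin n) F) (b b' : Basis κ F (Fin n → F)) (l : κ → F)
    (hx : ∀ k, (x : Matrix (Fin n) (Fin n) F) *ᵥ b k = l k • b k) :
    ∃ Q : Matrix.SpecialLinearGroup (Fin n) F, ∀ k,
      ((Q * x * Q⁻¹ : Matrix.SpecialLinearGroup (Fin n) F) : Matrix (Fin n) (Fin n) F) *ᵥ b' k =
        l k • b' k := by
  obtain ⟨δ, hδ, hP⟩ := exists_sl_of_bases b b'
  obtain ⟨k₀⟩ : Nonempty κ := inferInstance
  obtain ⟨Q, hQ⟩ := hP (Function.update (fun _ => (1 : F)) k₀ δ⁻¹) (by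
    rw [Finset.prod_update_of_mem (Finset.mem_univ k₀)]
    simp [hδ])
  have hw0 : ∀ k, Function.update (fun _ => (1 : F)) k₀ δ⁻¹ k ≠ 0 := by
    intro k
    by_cases hk : k = k₀
    · subst hk
      simpa using hδ
    · simp [hk]
  refine ⟨Q, fun k => ?_⟩
  have h1 : (Q * x * Q⁻¹) * Q = Q * x := by group
  have h2 : ((Q * x * Q⁻¹ : Matrix.SpecialLinearGroup (Fin n) F) : Matrix (Fin n) (Fin n) F) *ᵥ
      ((Q : Matrix (Fin n) (Fin n) F) *ᵥ b k) =
        (Q : Matrix (Fin n) (Fin n) F) *ᵥ ((x : Matrix (Fin n) (Fin n) F) *ᵥ b k) := by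
    rw [Matrix.mulVec_mulVec, ← Matrix.SpecialLinearGroup.coe_mul, h1,
      Matrix.SpecialLinearGroup.coe_mul, Matrix.mulVec_mulVec]
  have h3 : (Q : Matrix (Fin n) (Fin n) F) *ᵥ b k =
      Function.update (fun _ => (1 : F)) k₀ δ⁻¹ k • b' k := by
    rw [← Matrix.toLin'_apply]
    exact hQ k
  rw [hx, Matrix.mulVec_smul, h3, Matrix.mulVec_smul, smul_smul, mul_comm, ← smul_smul] at h2
  exact smul_right_injective _ (hw0 k) h2

/-- A `K`-basis: for `κ₀` with non-square scalar square, a basis of pairs `(v, κ₀ v)` indexed by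
any prescribed type of the right size. -/
theorem exists_K_basis (κ₀ : Matrix (Fin n) (Fin n) F) (ω : F)
    (hκ₀ : κ₀ * κ₀ = ω • (1 : Matrix (Fin n) (Fin n) F)) (hω : ∀ s : F, s * s ≠ ω)
    (I : Type) [Fintype I] [DecidableEq I] (hI : Fintype.card I + Fintype.card I = n) :
    ∃ bK : Basis (I ⊕ I) F (Fin n → F),
      ∀ i, κ₀ *ᵥ bK (Sum.inl i) = bK (Sum.inr i) ∧ κ₀ *ᵥ bK (Sum.inr i) = ω • bK (Sum.inl i) := by
  classical
  have hx : ∀ v, Matrix.toLin' κ₀ (Matrix.toLin' κ₀ v) = ω • v := by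
    intro v
    rw [Matrix.toLin'_apply, Matrix.toLin'_apply, Matrix.mulVec_mulVec, hκ₀, Matrix.smul_mulVec,
      Matrix.one_mulVec]
  have hev : ∀ v, v ≠ 0 → ∀ μ : F, Matrix.toLin' κ₀ v ≠ μ • v := by
    intro v hv μ hμ
    exact hω μ (eigen_sq hx hv hμ)
  obtain ⟨I', hI'1, hI'2, b, hb⟩ := exists_cyclic_pairs (Matrix.toLin' κ₀) ω hx hev
  have hcard := Module.finrank_eq_card_basis b
  rw [Module.finrank_fin_fun, Fintype.card_sum] at hcard
  have hII : Fintype.card I' = Fintype.card I := by omega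
  let e : I' ≃ I := Fintype.equivOfCardEq hII
  refine ⟨b.reindex (Equiv.sumCongr e e), fun i => ⟨?_, ?_⟩⟩
  · rw [Basis.reindex_apply, Basis.reindex_apply, ← Matrix.toLin'_apply]
    exact (hb (e.symm i)).1
  · rw [Basis.reindex_apply, Basis.reindex_apply, ← Matrix.toLin'_apply]
    exact (hb (e.symm i)).2

end

end Cfsg.Agent.H99
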