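import Cfsg.Agent.H99.ExtCases

set_option autoImplicit false

namespace Cfsg.Agent.H99

open Matrix Module
open scoped MatrixGroups

section
variable {F : Type*} [Field F]

theorem exists_sqrt_of_two_eq_zero [Fintype F] (h2 : (2 : F) = 0) (a : F) :
    ∃ s : F, s * s = a := by
  have : CharP F 2 := CharTwo.of_one_ne_zero_of_two_eq_zero one_ne_zero h2
  have hchar : ringChar F = 2 := ringChar.eq F 2
  obtain ⟨s, hs⟩ := FiniteField.isSquare_of_char_two hchar a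
  exact ⟨s, hs.symm⟩

/-- In characteristic 2, every non-scalar element of `SL₂(F)` with scalar square has a conjugate
normalizing a field subalgebra of degree 2. -/
theorem ext_char_two [Fintype F] (h2 : (2 : F) = 0) (K : Subalgebra F (Matrix (Fin 2) (Fin 2) F))
    (hK : Cfsg.Geo.IsFieldSubalgebra 2 K) (x : Matrix.SpecialLinearGroup (Fin 2) F) (z : F)
    (hz : ((x ^ 2 : Matrix.SpecialLinearGroup (Fin 2) F) : Matrix (Fin 2) (Fin 2) F) =
      z • (1 : Matrix (Fin 2) (Fin 2) F))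
    (hns : ∀ c : F, (x : Matrix (Fin 2) (Fin 2) F) ≠ c • (1 : Matrix (Fin 2) (Fin 2) F)) :
    ∃ P : Matrix.SpecialLinearGroup (Fin 2) F, P⁻¹ * x * P ∈
      (Cfsg.Geo.subalgebraNormalizer K).comap
        (Matrix.SpecialLinearGroup.toGL : Matrix.SpecialLinearGroup (Fin 2) F →* GL (Fin 2) F) := by
  classical
  obtain ⟨l, hl⟩ := exists_sqrt_of_two_eq_zero h2 z
  have hxz := sl_sq_apply x z hz
  have hz0 : z ≠ 0 := sq_scalar_ne_zero (by norm_num) x z hxz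
  have hl0 : l ≠ 0 := by
    rintro rfl
    exact hz0 (by rw [← hl, mul_zero])
  obtain ⟨u₂, hu₂⟩ : ∃ u₂ : Fin 2 → F, (x : Matrix (Fin 2) (Fin 2) F) *ᵥ u₂ ≠ l • u₂ := by
    by_contra hcon
    push Not at hcon
    apply hns l
    apply mat_ext_basis (Pi.basisFun F (Fin 2))
    intro k
    rw [hcon, Matrix.smul_mulVec, Matrix.one_mulVec]
  obtain ⟨u₁, hu₁⟩ : ∃ u₁ : Fin 2 → F, u₁ = (x : Matrix (Fin 2) (Fin 2) F) *ᵥ u₂ - l • u₂ :=
    ⟨_, rfl⟩
  have hu₁0 : u₁ ≠ 0 := by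
    rw [hu₁]
    exact sub_ne_zero.mpr hu₂
  have hxu₂ : (x : Matrix (Fin 2) (Fin 2) F) *ᵥ u₂ = l • u₂ + u₁ := by
    rw [hu₁]
    abel
  have hxu₁ : (x : Matrix (Fin 2) (Fin 2) F) *ᵥ u₁ = l • u₁ := by
    have h1 := hxz u₂
    rw [Matrix.toLin'_apply, Matrix.toLin'_apply] at h1
    rw [hu₁, Matrix.mulVec_sub, Matrix.mulVec_smul, h1, ← hl]
    have h3 : (l * l) • u₂ - l • (x : Matrix (Fin 2) (Fin 2) F) *ᵥ u₂ =
        l • ((x : Matrix (Fin 2) (Fin 2) F) *ᵥ u₂ - l • u₂) +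
          (2 : F) • ((l * l) • u₂ - l • (x : Matrix (Fin 2) (Fin 2) F) *ᵥ u₂) := by
      module
    rw [h3, h2, zero_smul, add_zero]
  have hli : LinearIndependent F ![u₁, u₂] := by
    rw [LinearIndependent.pair_iff]
    intro s t hst
    have h1 := congrArg (fun v => (x : Matrix (Fin 2) (Fin 2) F) *ᵥ v - l • v) hst
    simp only [Matrix.mulVec_add, Matrix.mulVec_smul, hxu₁, hxu₂, Matrix.mulVec_zero, smul_zero,
      sub_zero] at h1
    have h3 : t • u₁ = 0 := by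
      rw [← h1]
      module
    have ht : t = 0 := by
      rcases smul_eq_zero.mp h3 with h | h
      · exact h
      · exact absurd h hu₁0
    rw [ht, zero_smul, add_zero] at hst
    rcases smul_eq_zero.mp hst with h | h
    · exact ⟨h, ht⟩
    · exact absurd h hu₁0
  obtain ⟨b, hb⟩ : ∃ b : Basis (Fin 2) F (Fin 2 → F), ⇑b = ![u₁, u₂] :=
    ⟨basisOfLinearIndependentOfCardEqFinrank hli (by simp),
      coe_basisOfLinearIndependentOfCardEqFinrank _ _⟩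
  have hb0 : b 0 = u₁ := by rw [hb]; rfl
  have hb1 : b 1 = u₂ := by rw [hb]; rfl
  obtain ⟨κ, hκ, hκns, hgen⟩ := field_subalgebra_gen K hK
  obtain ⟨α₀, β₀, hαβ⟩ := hgen (κ * κ) (K.mul_mem hκ hκ)
  have hβ₀ : β₀ ≠ 0 := by
    rintro rfl
    rw [zero_smul, add_zero] at hαβ
    obtain ⟨s, hs⟩ := exists_sqrt_of_two_eq_zero h2 α₀
    have hprod : (κ - s • (1 : Matrix (Fin 2) (Fin 2) F)) * (κ - s • 1) = 0 := by
      rw [Matrix.sub_mul, Matrix.mul_sub, Matrix.mul_sub, hαβ, Matrix.smul_mul, Matrix.mul_smul,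
        Matrix.one_mul, Matrix.mul_one, Matrix.smul_mul, Matrix.one_mul, smul_smul, ← hs]
      have h3 : (s * s) • (1 : Matrix (Fin 2) (Fin 2) F) - s • κ - (s • κ - (s * s) • 1) =
          (2 : F) • ((s * s) • (1 : Matrix (Fin 2) (Fin 2) F) - s • κ) := by module
      rw [h3, h2, zero_smul]
    have hm : κ - s • (1 : Matrix (Fin 2) (Fin 2) F) ∈ K :=
      K.sub_mem hκ (field_subalgebra_smul_mem K _)
    have h0 : κ - s • (1 : Matrix (Fin 2) (Fin 2) F) ≠ 0 := fun h0 => hκns s (sub_eq_zero.mp h0)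
    obtain ⟨y, hyK, hy⟩ := hK.inv _ hm h0
    apply h0
    have := congrArg (fun A => A * y) hprod
    simp only [Matrix.mul_assoc, hy, Matrix.mul_one, Matrix.zero_mul] at this
    exact this
  obtain ⟨e, he⟩ : ∃ e : Fin 2 → F, e ≠ 0 :=
    ⟨Pi.single 0 1, fun h => by have := congrFun h 0; simp at this⟩
  have hlβ : l * β₀ ≠ 0 := mul_ne_zero hl0 hβ₀
  have hli' : LinearIndependent F ![(l * β₀) • e, κ *ᵥ e] := by
    rw [LinearIndependent.pair_iff]
    intro s t hst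
    have ht : t = 0 := by
      by_contra ht
      apply field_subalgebra_noeigen K hK κ hκ hκns e he (-(t⁻¹ * (s * (l * β₀))))
      have h3 : t • κ *ᵥ e = -(s • (l * β₀) • e) := eq_neg_of_add_eq_zero_right hst
      have h4 : κ *ᵥ e = t⁻¹ • (t • κ *ᵥ e) := by rw [smul_smul, inv_mul_cancel₀ ht, one_smul]
      rw [h4, h3]
      module
    rw [ht, zero_smul, add_zero, smul_smul] at hst
    rcases smul_eq_zero.mp hst with h | h
    · rcases mul_eq_zero.mp h with h' | h'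
      · exact ⟨h', ht⟩
      · exact absurd h' hlβ
    · exact absurd h he
  obtain ⟨b', hb'⟩ : ∃ b' : Basis (Fin 2) F (Fin 2 → F), ⇑b' = ![(l * β₀) • e, κ *ᵥ e] :=
    ⟨basisOfLinearIndependentOfCardEqFinrank hli' (by simp),
      coe_basisOfLinearIndependentOfCardEqFinrank _ _⟩
  have hb'0 : b' 0 = (l * β₀) • e := by rw [hb']; rfl
  have hb'1 : b' 1 = κ *ᵥ e := by rw [hb']; rfl
  obtain ⟨δ, hδ, hP⟩ := exists_sl_of_bases b b'
  obtain ⟨w, hw⟩ := exists_sqrt_of_two_eq_zero h2 δ⁻¹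
  have hw0 : w ≠ 0 := by
    rintro rfl
    rw [mul_zero] at hw
    exact inv_ne_zero hδ hw.symm
  obtain ⟨P, hP'⟩ := hP (fun _ => w) (by rw [Fin.prod_univ_two, hw, inv_mul_cancel₀ hδ])
  obtain ⟨y, hy⟩ : ∃ y : Matrix.SpecialLinearGroup (Fin 2) F, y = P * x * P⁻¹ := ⟨_, rfl⟩
  have hyP : ∀ v, (y : Matrix (Fin 2) (Fin 2) F) *ᵥ ((P : Matrix (Fin 2) (Fin 2) F) *ᵥ v) =
      (P : Matrix (Fin 2) (Fin 2) F) *ᵥ ((x : Matrix (Fin 2) (Fin 2) F) *ᵥ v) := by
    intro v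
    have h1 : y * P = P * x := by rw [hy]; group
    rw [Matrix.mulVec_mulVec, Matrix.mulVec_mulVec, ← Matrix.SpecialLinearGroup.coe_mul,
      ← Matrix.SpecialLinearGroup.coe_mul, h1]
  have hP1 : (P : Matrix (Fin 2) (Fin 2) F) *ᵥ u₁ = w • (l * β₀) • e := by
    rw [← hb0, ← hb'0, ← Matrix.toLin'_apply]
    exact hP' 0
  have hP2 : (P : Matrix (Fin 2) (Fin 2) F) *ᵥ u₂ = w • κ *ᵥ e := by
    rw [← hb1, ← hb'1, ← Matrix.toLin'_apply]
    exact hP' 1
  have hy1 : (y : Matrix (Fin 2) (Fin 2) F) *ᵥ e = l • e := by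
    have h1 := hyP u₁
    rw [hxu₁, Matrix.mulVec_smul, hP1, smul_smul, Matrix.mulVec_smul, smul_comm] at h1
    exact smul_right_injective _ (mul_ne_zero hw0 hlβ) h1
  have hy2 : (y : Matrix (Fin 2) (Fin 2) F) *ᵥ (κ *ᵥ e) = l • κ *ᵥ e + (l * β₀) • e := by
    have h1 := hyP u₂
    rw [hxu₂, Matrix.mulVec_add, Matrix.mulVec_smul, hP1, hP2, Matrix.mulVec_smul] at h1
    apply smul_right_injective _ hw0
    show w • (y : Matrix (Fin 2) (Fin 2) F) *ᵥ (κ *ᵥ e) = w • (l • κ *ᵥ e + (l * β₀) • e)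
    rw [h1]
    module
  have hκκ : κ *ᵥ (κ *ᵥ e) = α₀ • e + β₀ • κ *ᵥ e := by
    rw [Matrix.mulVec_mulVec, hαβ, Matrix.add_mulVec, Matrix.smul_mulVec, Matrix.one_mulVec,
      Matrix.smul_mulVec]
  have hmem : κ + β₀ • (1 : Matrix (Fin 2) (Fin 2) F) ∈ K :=
    K.add_mem hκ (field_subalgebra_smul_mem K _)
  have hg1 : (y : Matrix (Fin 2) (Fin 2) F) * κ =
      (κ + β₀ • (1 : Matrix (Fin 2) (Fin 2) F)) * (y : Matrix (Fin 2) (Fin 2) F) := by
    apply mat_ext_basis b'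
    intro k
    fin_cases k
    · show ((y : Matrix (Fin 2) (Fin 2) F) * κ) *ᵥ b' 0 =
        ((κ + β₀ • (1 : Matrix (Fin 2) (Fin 2) F)) * (y : Matrix (Fin 2) (Fin 2) F)) *ᵥ b' 0
      rw [hb'0, ← Matrix.mulVec_mulVec, ← Matrix.mulVec_mulVec, Matrix.mulVec_smul,
        Matrix.mulVec_smul, hy2, Matrix.mulVec_smul, hy1, Matrix.add_mulVec, Matrix.smul_mulVec,
        Matrix.one_mulVec]
      simp only [Matrix.mulVec_smul]
      module
    · show ((y : Matrix (Fin 2) (Fin 2) F) * κ) *ᵥ b' 1 =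
        ((κ + β₀ • (1 : Matrix (Fin 2) (Fin 2) F)) * (y : Matrix (Fin 2) (Fin 2) F)) *ᵥ b' 1
      rw [hb'1, ← Matrix.mulVec_mulVec, ← Matrix.mulVec_mulVec, hκκ, Matrix.mulVec_add,
        Matrix.mulVec_smul, Matrix.mulVec_smul, hy1, hy2, Matrix.add_mulVec, Matrix.smul_mulVec,
        Matrix.one_mulVec, Matrix.mulVec_add, Matrix.mulVec_smul, Matrix.mulVec_smul, hκκ]
      have h3 : α₀ • l • e + β₀ • (l • κ *ᵥ e + (l * β₀) • e) =
          l • (α₀ • e + β₀ • κ *ᵥ e) + (l * β₀) • κ *ᵥ e + β₀ • (l • κ *ᵥ e + (l * β₀) • e) +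
            (2 : F) • (-(l * β₀) • κ *ᵥ e) := by
        module
      rw [h3, h2, zero_smul, add_zero]
  have hg2 : κ * (y : Matrix (Fin 2) (Fin 2) F) =
      (y : Matrix (Fin 2) (Fin 2) F) * (κ + β₀ • (1 : Matrix (Fin 2) (Fin 2) F)) := by
    rw [Matrix.mul_add, hg1, Matrix.add_mul, Matrix.mul_smul, Matrix.smul_mul, Matrix.mul_one,
      Matrix.one_mul]
    have h3 : κ * (y : Matrix (Fin 2) (Fin 2) F) + β₀ • (y : Matrix (Fin 2) (Fin 2) F) +
        β₀ • (y : Matrix (Fin 2) (Fin 2) F) = κ * (y : Matrix (Fin 2) (Fin 2) F) +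
          (2 : F) • (β₀ • (y : Matrix (Fin 2) (Fin 2) F)) := by
      module
    rw [h3, h2, zero_smul, add_zero]
  refine ⟨P⁻¹, ?_⟩
  rw [inv_inv, ← hy, Subgroup.mem_comap]
  apply mem_subalgebraNormalizer_of_gen K κ hgen _ (κ + β₀ • 1) (κ + β₀ • 1) hmem hmem
  · rw [Matrix.SpecialLinearGroup.coe_GL_coe_matrix]
    exact hg1
  · rw [Matrix.SpecialLinearGroup.coe_GL_coe_matrix]
    exact hg2

end

end Cfsg.Agent.H99
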