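import Cfsg.Agent.H99.PairDet
import Cfsg.Agent.H99.HeisNorm

set_option autoImplicit false

namespace Cfsg.Agent.H99

open Matrix Module
open scoped MatrixGroups

section
variable {F : Type*} [Field F] {n : ℕ}

/-- A field subalgebra of degree 2 is spanned by `1` and any non-scalar element. -/
theorem field_subalgebra_gen (K : Subalgebra F (Matrix (Fin n) (Fin n) F))
    (hK : Cfsg.Geo.IsFieldSubalgebra 2 K) :
    ∃ κ ∈ K, (∀ c : F, κ ≠ c • (1 : Matrix (Fin n) (Fin n) F)) ∧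
      ∀ y ∈ K, ∃ α β : F, y = α • (1 : Matrix (Fin n) (Fin n) F) + β • κ := by
  have hfr := hK.finrank_eq
  have hfd : FiniteDimensional F K := Module.finite_of_finrank_pos (by rw [hfr]; norm_num)
  have hnt : Nontrivial K := Module.nontrivial_of_finrank_pos (R := F) (by rw [hfr]; norm_num)
  have h1 : (1 : K) ≠ 0 := one_ne_zero
  obtain ⟨κ', hκ'⟩ : ∃ κ' : K, κ' ∉ Submodule.span F {(1 : K)} := by
    by_contra hcon
    push Not at hcon
    have htop : Submodule.span F {(1 : K)} = ⊤ := eq_top_iff.mpr (fun x _ => hcon x)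
    have h2 := finrank_span_singleton (K := F) h1
    rw [htop, finrank_top, hfr] at h2
    omega
  have hli : LinearIndependent F ![(1 : K), κ'] := by
    rw [LinearIndependent.pair_iff' h1]
    intro a ha
    apply hκ'
    rw [Submodule.mem_span_singleton]
    exact ⟨a, ha⟩
  obtain ⟨b, hb⟩ : ∃ b : Basis (Fin 2) F K, ⇑b = ![(1 : K), κ'] :=
    ⟨basisOfLinearIndependentOfCardEqFinrank hli (by rw [hfr]; rfl),
      coe_basisOfLinearIndependentOfCardEqFinrank _ _⟩
  refine ⟨(κ' : Matrix (Fin n) (Fin n) F), κ'.2, ?_, ?_⟩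
  · intro c hc
    apply hκ'
    rw [Submodule.mem_span_singleton]
    refine ⟨c, ?_⟩
    apply Subtype.ext
    rw [hc]
    simp
  · intro y hy
    have h3 := b.sum_repr ⟨y, hy⟩
    rw [Fin.sum_univ_two, hb] at h3
    refine ⟨b.repr ⟨y, hy⟩ 0, b.repr ⟨y, hy⟩ 1, ?_⟩
    have h4 := congrArg (Subtype.val) h3
    simp at h4
    exact h4.symm

theorem field_subalgebra_smul_mem (K : Subalgebra F (Matrix (Fin n) (Fin n) F)) (c : F) :
    c • (1 : Matrix (Fin n) (Fin n) F) ∈ K := by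
  have := K.algebraMap_mem c
  rwa [Algebra.algebraMap_eq_smul_one] at this

/-- Non-zero elements of a field subalgebra act injectively. -/
theorem field_subalgebra_inj (K : Subalgebra F (Matrix (Fin n) (Fin n) F))
    (hK : Cfsg.Geo.IsFieldSubalgebra 2 K) (δ : Matrix (Fin n) (Fin n) F) (hδ : δ ∈ K)
    (hδ0 : δ ≠ 0) (v : Fin n → F) (hv : δ *ᵥ v = 0) : v = 0 := by
  obtain ⟨y, hyK, hy⟩ := hK.inv _ hδ hδ0
  have hy' : y * δ = 1 := by rw [hK.comm y hyK _ hδ]; exact hy
  have h1 : (y * δ) *ᵥ v = 0 := by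
    rw [← Matrix.mulVec_mulVec, hv, Matrix.mulVec_zero]
  rwa [hy', Matrix.one_mulVec] at h1

/-- Non-scalar elements of a field subalgebra have no eigenvector. -/
theorem field_subalgebra_noeigen (K : Subalgebra F (Matrix (Fin n) (Fin n) F))
    (hK : Cfsg.Geo.IsFieldSubalgebra 2 K) (κ : Matrix (Fin n) (Fin n) F) (hκ : κ ∈ K)
    (hns : ∀ c : F, κ ≠ c • (1 : Matrix (Fin n) (Fin n) F))
    (v : Fin n → F) (hv : v ≠ 0) (c : F) : κ *ᵥ v ≠ c • v := by
  intro h
  apply hv
  apply field_subalgebra_inj K hK (κ - c • 1) (K.sub_mem hκ (field_subalgebra_smul_mem K c))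
    (fun h0 => hns c (sub_eq_zero.mp h0))
  rw [Matrix.sub_mulVec, h, Matrix.smul_mulVec, Matrix.one_mulVec, sub_self]

/-- An invertible matrix conjugating a generator of `K` into `K` in both directions normalizes
`K`. -/
theorem mem_subalgebraNormalizer_of_gen (K : Subalgebra F (Matrix (Fin n) (Fin n) F))
    (κ₀ : Matrix (Fin n) (Fin n) F)
    (hgen : ∀ y ∈ K, ∃ a b : F, y = a • (1 : Matrix (Fin n) (Fin n) F) + b • κ₀)
    (g : GL (Fin n) F) (κ₁ κ₂ : Matrix (Fin n) (Fin n) F) (h1 : κ₁ ∈ K) (h2 : κ₂ ∈ K)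
    (hg1 : (g : Matrix (Fin n) (Fin n) F) * κ₀ = κ₁ * (g : Matrix (Fin n) (Fin n) F))
    (hg2 : κ₀ * (g : Matrix (Fin n) (Fin n) F) = (g : Matrix (Fin n) (Fin n) F) * κ₂) :
    g ∈ Cfsg.Geo.subalgebraNormalizer K := by
  have hgi : (g : Matrix (Fin n) (Fin n) F) * ((g⁻¹ : GL (Fin n) F) : Matrix (Fin n) (Fin n) F) =
      1 := by
    rw [← Units.val_mul, mul_inv_cancel, Units.val_one]
  have hig : ((g⁻¹ : GL (Fin n) F) : Matrix (Fin n) (Fin n) F) * (g : Matrix (Fin n) (Fin n) F) =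
      1 := by
    rw [← Units.val_mul, inv_mul_cancel, Units.val_one]
  intro k
  constructor
  · intro hk
    obtain ⟨a, b, rfl⟩ := hgen k hk
    have e : (g : Matrix (Fin n) (Fin n) F) * (a • (1 : Matrix (Fin n) (Fin n) F) + b • κ₀) *
        ((g⁻¹ : GL (Fin n) F) : Matrix (Fin n) (Fin n) F) = a • 1 + b • κ₁ := by
      rw [Matrix.mul_add, Matrix.add_mul, Matrix.mul_smul, Matrix.smul_mul, Matrix.mul_one, hgi,
        Matrix.mul_smul, Matrix.smul_mul, hg1, Matrix.mul_assoc, hgi, Matrix.mul_one]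
    rw [e]
    exact K.add_mem (field_subalgebra_smul_mem K a) (K.smul_mem h1 b)
  · intro hk
    obtain ⟨a, b, hab⟩ := hgen _ hk
    have e : k = a • 1 + b • κ₂ := by
      have e1 : k = ((g⁻¹ : GL (Fin n) F) : Matrix (Fin n) (Fin n) F) *
          ((g : Matrix (Fin n) (Fin n) F) * k *
            ((g⁻¹ : GL (Fin n) F) : Matrix (Fin n) (Fin n) F)) *
          (g : Matrix (Fin n) (Fin n) F) := by
        rw [Matrix.mul_assoc, Matrix.mul_assoc, hig, Matrix.mul_one, ← Matrix.mul_assoc, hig,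
          Matrix.one_mul]
      rw [e1, hab, Matrix.mul_add, Matrix.add_mul, Matrix.mul_smul, Matrix.smul_mul,
        Matrix.mul_one, hig, Matrix.mul_smul, Matrix.smul_mul, Matrix.mul_assoc, hg2,
        ← Matrix.mul_assoc, hig, Matrix.one_mul]
    rw [e]
    exact K.add_mem (field_subalgebra_smul_mem K a) (K.smul_mem h2 b)

/-- A scalar plus a rank-one operator never normalizes a field subalgebra of degree 2 in
dimension at least 3. -/
theorem rank_one_not_normalize (hn : 3 ≤ n) (K : Subalgebra F (Matrix (Fin n) (Fin n) F))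
    (hK : Cfsg.Geo.IsFieldSubalgebra 2 K) (g : GL (Fin n) F) (c : F) (hc : c ≠ 0)
    (r : Fin n → F) (hr : r ≠ 0) (φ : (Fin n → F) →ₗ[F] F) (hφ : φ ≠ 0)
    (hg : ∀ v, (g : Matrix (Fin n) (Fin n) F) *ᵥ v = c • v + φ v • r) :
    g ∉ Cfsg.Geo.subalgebraNormalizer K := by
  intro hgN
  obtain ⟨κ, hκ, hns, -⟩ := field_subalgebra_gen K hK
  have hκ' : (g : Matrix (Fin n) (Fin n) F) * κ *
      ((g⁻¹ : GL (Fin n) F) : Matrix (Fin n) (Fin n) F) ∈ K := (hgN κ).mp hκ
  obtain ⟨κ', hκ'def⟩ : ∃ κ' : Matrix (Fin n) (Fin n) F, κ' = (g : Matrix (Fin n) (Fin n) F) * κ *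
      ((g⁻¹ : GL (Fin n) F) : Matrix (Fin n) (Fin n) F) := ⟨_, rfl⟩
  rw [← hκ'def] at hκ'
  have hrel : (g : Matrix (Fin n) (Fin n) F) * κ = κ' * (g : Matrix (Fin n) (Fin n) F) := by
    rw [hκ'def, Matrix.mul_assoc, ← Units.val_mul, inv_mul_cancel, Units.val_one, Matrix.mul_one]
  have hvec : ∀ v, c • κ *ᵥ v + φ (κ *ᵥ v) • r = c • κ' *ᵥ v + φ v • κ' *ᵥ r := by
    intro v
    have h1 : ((g : Matrix (Fin n) (Fin n) F) * κ) *ᵥ v =
        (κ' * (g : Matrix (Fin n) (Fin n) F)) *ᵥ v := by rw [hrel]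
    rw [← Matrix.mulVec_mulVec, ← Matrix.mulVec_mulVec, hg, hg, Matrix.mulVec_add,
      Matrix.mulVec_smul, Matrix.mulVec_smul] at h1
    exact h1
  by_cases hcase : κ' = κ
  · rw [hcase] at hvec
    obtain ⟨v₀, hv₀⟩ : ∃ v₀, φ v₀ ≠ 0 := by
      by_contra h
      push Not at h
      exact hφ (LinearMap.ext h)
    have h2 := hvec v₀
    have h3 : κ *ᵥ r = ((φ v₀)⁻¹ * φ (κ *ᵥ v₀)) • r := by
      have h4 : φ (κ *ᵥ v₀) • r = φ v₀ • κ *ᵥ r := add_left_cancel h2
      rw [← smul_smul, h4, smul_smul, inv_mul_cancel₀ hv₀, one_smul]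
    exact field_subalgebra_noeigen K hK κ hκ hns r hr _ h3
  · have hδK : κ' - κ ∈ K := K.sub_mem hκ' hκ
    have hδ0 : κ' - κ ≠ 0 := sub_ne_zero.mpr hcase
    obtain ⟨δ', hδ'K, hδ'⟩ := hK.inv _ hδK hδ0
    have hδ'' : δ' * (κ' - κ) = 1 := by rw [hK.comm δ' hδ'K _ hδK]; exact hδ'
    have hker : ∀ v, φ v = 0 → (κ' - κ) *ᵥ v = (c⁻¹ * φ (κ *ᵥ v)) • r := by
      intro v hv
      have h2 := hvec v
      rw [hv, zero_smul, add_zero] at h2
      rw [Matrix.sub_mulVec]
      have h3 : c • (κ' *ᵥ v - κ *ᵥ v) = φ (κ *ᵥ v) • r := by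
        rw [smul_sub, ← h2]
        abel
      rw [← smul_smul, ← h3, smul_smul, inv_mul_cancel₀ hc, one_smul]
    have hker' : LinearMap.ker φ ≤ Submodule.span F {δ' *ᵥ r} := by
      intro v hv
      have h2 := hker v (LinearMap.mem_ker.mp hv)
      have h3 : v = (c⁻¹ * φ (κ *ᵥ v)) • δ' *ᵥ r := by
        rw [← Matrix.mulVec_smul, ← h2, Matrix.mulVec_mulVec, hδ'', Matrix.one_mulVec]
      rw [h3]
      exact Submodule.smul_mem _ _ (Submodule.mem_span_singleton_self _)
    have h5 := Submodule.finrank_mono hker'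
    have h6 : finrank F (Submodule.span F {δ' *ᵥ r}) ≤ 1 := by
      have := finrank_span_le_card (R := F) ({δ' *ᵥ r} : Set (Fin n → F))
      simpa using this
    have h7 := LinearMap.finrank_range_add_finrank_ker φ
    have h8 : finrank F (LinearMap.range φ) ≤ 1 := by
      have := Submodule.finrank_le (LinearMap.range φ)
      rwa [Module.finrank_self] at this
    rw [Module.finrank_fin_fun] at h7
    omega

/-- Matrices of the form `c + d E_{ij}` of determinant one have no conjugate normalizing a field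
subalgebra of degree 2, in dimension at least 3. -/
theorem rank_one_derangement (hn : 3 ≤ n) (K : Subalgebra F (Matrix (Fin n) (Fin n) F))
    (hK : Cfsg.Geo.IsFieldSubalgebra 2 K) (x : Matrix.SpecialLinearGroup (Fin n) F) (c d : F)
    (hc : c ≠ 0) (hd : d ≠ 0) (i j : Fin n)
    (hx : (x : Matrix (Fin n) (Fin n) F) = c • 1 + d • Matrix.single i j 1)
    (P : Matrix.SpecialLinearGroup (Fin n) F) :
    P⁻¹ * x * P ∉ (Cfsg.Geo.subalgebraNormalizer K).comap
      (Matrix.SpecialLinearGroup.toGL : Matrix.SpecialLinearGroup (Fin n) F →* GL (Fin n) F) := by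
  rw [Subgroup.mem_comap]
  have hPP : ((P⁻¹ : Matrix.SpecialLinearGroup (Fin n) F) : Matrix (Fin n) (Fin n) F) *
      (P : Matrix (Fin n) (Fin n) F) = 1 := by
    rw [← Matrix.SpecialLinearGroup.coe_mul, inv_mul_cancel, Matrix.SpecialLinearGroup.coe_one]
  have hPP' : (P : Matrix (Fin n) (Fin n) F) *
      ((P⁻¹ : Matrix.SpecialLinearGroup (Fin n) F) : Matrix (Fin n) (Fin n) F) = 1 := by
    rw [← Matrix.SpecialLinearGroup.coe_mul, mul_inv_cancel, Matrix.SpecialLinearGroup.coe_one]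
  apply rank_one_not_normalize hn K hK _ c hc
    (((P⁻¹ : Matrix.SpecialLinearGroup (Fin n) F) : Matrix (Fin n) (Fin n) F) *ᵥ Pi.single i 1)
    ?_ (d • (LinearMap.proj j ∘ₗ Matrix.toLin' (P : Matrix (Fin n) (Fin n) F))) ?_ ?_
  · intro h0
    have h1 : (P : Matrix (Fin n) (Fin n) F) *ᵥ
        (((P⁻¹ : Matrix.SpecialLinearGroup (Fin n) F) : Matrix (Fin n) (Fin n) F) *ᵥ
          (Pi.single i 1 : Fin n → F)) = 0 := by
      rw [h0, Matrix.mulVec_zero]
    rw [Matrix.mulVec_mulVec, hPP', Matrix.one_mulVec] at h1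
    have h2 := congrFun h1 i
    simp at h2
  · intro h0
    have h1 := congrArg (fun f : (Fin n → F) →ₗ[F] F =>
      f (((P⁻¹ : Matrix.SpecialLinearGroup (Fin n) F) : Matrix (Fin n) (Fin n) F) *ᵥ
        (Pi.single j 1 : Fin n → F))) h0
    simp only [LinearMap.smul_apply, LinearMap.comp_apply, Matrix.toLin'_apply,
      Matrix.mulVec_mulVec, hPP', Matrix.one_mulVec, LinearMap.proj_apply, Pi.single_eq_same,
      LinearMap.zero_apply, smul_eq_mul, mul_one] at h1
    exact hd h1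
  · intro v
    rw [Matrix.SpecialLinearGroup.coe_GL_coe_matrix, Matrix.SpecialLinearGroup.coe_mul,
      Matrix.SpecialLinearGroup.coe_mul, hx, ← Matrix.mulVec_mulVec, ← Matrix.mulVec_mulVec,
      Matrix.add_mulVec, Matrix.smul_mulVec, Matrix.one_mulVec, Matrix.smul_mulVec,
      Matrix.single_mulVec, Matrix.mulVec_add, Matrix.mulVec_smul, Matrix.mulVec_mulVec, hPP,
      Matrix.one_mulVec, Matrix.mulVec_smul]
    congr 1
    simp only [LinearMap.smul_apply, LinearMap.comp_apply, Matrix.toLin'_apply,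
      LinearMap.proj_apply, smul_eq_mul, one_mul]
    have e : Function.update (0 : Fin n → F) i (((P : Matrix (Fin n) (Fin n) F) *ᵥ v) j) =
        ((P : Matrix (Fin n) (Fin n) F) *ᵥ v) j • (Pi.single i 1 : Fin n → F) := by
      ext k
      by_cases hk : k = i
      · subst hk
        simp
      · simp [hk]
    rw [e, Matrix.mulVec_smul, smul_smul]

end

end Cfsg.Agent.H99
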