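import Cfsg.Agent.H99.ExtField

set_option autoImplicit false

namespace Cfsg.Agent.H99

open Matrix Module
open scoped MatrixGroups

section
variable {F : Type*} [Field F] {n : ℕ}

/-- In characteristic 2 and dimension at least 3, a transvection is an involution with no
conjugate normalizing a field subalgebra of degree 2. -/
theorem ext_necessary_even (h2 : (2 : F) = 0) (hn : 3 ≤ n)
    (K : Subalgebra F (Matrix (Fin n) (Fin n) F)) (hK : Cfsg.Geo.IsFieldSubalgebra 2 K) :
    ∃ x : Matrix.SpecialLinearGroup (Fin n) F,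
      (∃ z : F, ((x ^ 2 : Matrix.SpecialLinearGroup (Fin n) F) : Matrix (Fin n) (Fin n) F) =
        z • (1 : Matrix (Fin n) (Fin n) F)) ∧
      (∀ z : F, (x : Matrix (Fin n) (Fin n) F) ≠ z • (1 : Matrix (Fin n) (Fin n) F)) ∧
      ∀ P : Matrix.SpecialLinearGroup (Fin n) F, P⁻¹ * x * P ∉
        (Cfsg.Geo.subalgebraNormalizer K).comap
          (Matrix.SpecialLinearGroup.toGL :
            Matrix.SpecialLinearGroup (Fin n) F →* GL (Fin n) F) := by
  classical
  obtain ⟨i, j, hij⟩ : ∃ i j : Fin n, i ≠ j :=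
    ⟨⟨0, by omega⟩, ⟨1, by omega⟩, fun h => by simp [Fin.ext_iff] at h⟩
  obtain ⟨x, hx⟩ : ∃ x : Matrix.SpecialLinearGroup (Fin n) F,
      (x : Matrix (Fin n) (Fin n) F) = 1 + Matrix.single i j 1 :=
    ⟨⟨Matrix.transvection i j 1, Matrix.det_transvection_of_ne i j hij 1⟩, rfl⟩
  have hx' : (x : Matrix (Fin n) (Fin n) F) = (1 : F) • 1 + (1 : F) • Matrix.single i j 1 := by
    rw [hx, one_smul, one_smul]
  refine ⟨x, ⟨1, ?_⟩, ?_, fun P => rank_one_derangement hn K hK x 1 1 one_ne_zero one_ne_zero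
    i j hx' P⟩
  · rw [pow_two, Matrix.SpecialLinearGroup.coe_mul, hx, Matrix.add_mul, Matrix.mul_add,
      Matrix.mul_add, Matrix.one_mul, Matrix.one_mul, Matrix.mul_one,
      Matrix.single_mul_single_of_ne _ _ _ _ (Ne.symm hij), one_smul, add_zero]
    have h3 : (1 : Matrix (Fin n) (Fin n) F) + Matrix.single i j 1 + Matrix.single i j 1 =
        1 + (2 : F) • Matrix.single i j 1 := by
      module
    rw [h3, h2, zero_smul, add_zero]
  · intro z hz
    have h1 := congrFun (congrFun hz i) j
    rw [hx] at h1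
    simp [hij] at h1

/-- In odd characteristic and dimension at least 3, if `-1` is an `n`-th power then there is an
element with scalar square with no conjugate normalizing a field subalgebra of degree 2. -/
theorem ext_necessary_odd (h2 : (2 : F) ≠ 0) (hn : 3 ≤ n) (l : F) (hl : l ^ n = -1)
    (K : Subalgebra F (Matrix (Fin n) (Fin n) F)) (hK : Cfsg.Geo.IsFieldSubalgebra 2 K) :
    ∃ x : Matrix.SpecialLinearGroup (Fin n) F,
      (∃ z : F, ((x ^ 2 : Matrix.SpecialLinearGroup (Fin n) F) : Matrix (Fin n) (Fin n) F) =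
        z • (1 : Matrix (Fin n) (Fin n) F)) ∧
      (∀ z : F, (x : Matrix (Fin n) (Fin n) F) ≠ z • (1 : Matrix (Fin n) (Fin n) F)) ∧
      ∀ P : Matrix.SpecialLinearGroup (Fin n) F, P⁻¹ * x * P ∉
        (Cfsg.Geo.subalgebraNormalizer K).comap
          (Matrix.SpecialLinearGroup.toGL :
            Matrix.SpecialLinearGroup (Fin n) F →* GL (Fin n) F) := by
  classical
  have hl0 : l ≠ 0 := by
    rintro rfl
    rw [zero_pow (by omega)] at hl
    exact one_ne_zero (neg_eq_zero.mp hl.symm)
  obtain ⟨i, j, hij⟩ : ∃ i j : Fin n, i ≠ j :=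
    ⟨⟨0, by omega⟩, ⟨1, by omega⟩, fun h => by simp [Fin.ext_iff] at h⟩
  obtain ⟨d, hd⟩ : ∃ d : Fin n → F, d = Function.update (fun _ => l) i (-l) := ⟨_, rfl⟩
  have hdi : d i = -l := by rw [hd, Function.update_self]
  have hdj : ∀ k, k ≠ i → d k = l := fun k hk => by rw [hd, Function.update_of_ne hk]
  have hdet : (Matrix.diagonal d).det = 1 := by
    rw [Matrix.det_diagonal, hd, Finset.prod_update_of_mem (Finset.mem_univ i), Finset.prod_const,
      Finset.card_sdiff_of_subset (Finset.subset_univ _), Finset.card_univ, Fintype.card_fin,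
      Finset.card_singleton]
    have h3 : -l * l ^ (n - 1) = -(l ^ n) := by
      obtain ⟨n', rfl⟩ : ∃ n', n = n' + 1 := ⟨n - 1, by omega⟩
      rw [Nat.add_sub_cancel, pow_succ]
      ring
    rw [h3, hl, neg_neg]
  have hx' : Matrix.diagonal d = l • (1 : Matrix (Fin n) (Fin n) F) +
      (-2 * l) • Matrix.single i i 1 := by
    ext a b
    by_cases hab : a = b
    · subst hab
      by_cases hai : a = i
      · subst hai
        simp [hdi]
        ring
      · simp [hdj a hai, Ne.symm hai]
    · simp [Matrix.one_apply_ne hab, Matrix.single_apply, hab]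
      intro h1 h2'
      exact absurd (h1.symm.trans h2') hab
  have hsq : Matrix.diagonal d * Matrix.diagonal d =
      (l * l) • (1 : Matrix (Fin n) (Fin n) F) := by
    rw [Matrix.diagonal_mul_diagonal, Matrix.smul_one_eq_diagonal]
    congr 1
    funext k
    by_cases hk : k = i
    · subst hk
      rw [hdi]
      ring
    · rw [hdj k hk]
  obtain ⟨x, hx⟩ : ∃ x : Matrix.SpecialLinearGroup (Fin n) F,
      (x : Matrix (Fin n) (Fin n) F) = Matrix.diagonal d := ⟨⟨Matrix.diagonal d, hdet⟩, rfl⟩
  refine ⟨x, ⟨l * l, ?_⟩, ?_, fun P => rank_one_derangement hn K hK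
    x l (-2 * l) hl0 (mul_ne_zero (neg_ne_zero.mpr h2) hl0) i i (hx.trans hx') P⟩
  · rw [pow_two, Matrix.SpecialLinearGroup.coe_mul, hx]
    exact hsq
  · intro z hz
    rw [hx] at hz
    have h1 := congrFun (congrFun hz i) i
    have h3 := congrFun (congrFun hz j) j
    rw [Matrix.diagonal_apply_eq, hdi] at h1
    rw [Matrix.diagonal_apply_eq, hdj j (Ne.symm hij)] at h3
    simp only [Matrix.smul_apply, Matrix.one_apply_eq, smul_eq_mul, mul_one] at h1 h3
    have h4 : (2 : F) * l = 0 := by linear_combination h3 - h1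
    rcases mul_eq_zero.mp h4 with h | h
    · exact h2 h
    · exact hl0 h

end

end Cfsg.Agent.H99
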