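import Cfsg.Agent.H99.ExtCases

set_option autoImplicit false

namespace Cfsg.Agent.H99

open Matrix Module
open scoped MatrixGroups

section
variable {F : Type*} [Field F] {n : ℕ}

/-- If `y` acts diagonally on a `K`-basis with eigenvalues `l'` such that
`l' (inr i) = ε * l' (inl i)`, `ε² = 1`, then `y κ₀ = ε κ₀ y`. -/
theorem semicomm_of_eigen_pairs {I : Type*} (κ₀ : Matrix (Fin n) (Fin n) F) (ω : F)
    (bK : Basis (I ⊕ I) F (Fin n → F))
    (hbK : ∀ i, κ₀ *ᵥ bK (Sum.inl i) = bK (Sum.inr i) ∧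
      κ₀ *ᵥ bK (Sum.inr i) = ω • bK (Sum.inl i))
    (y : Matrix (Fin n) (Fin n) F) (l' : I ⊕ I → F) (hy : ∀ k, y *ᵥ bK k = l' k • bK k)
    (ε : F) (hε : ε * ε = 1) (hl' : ∀ i, l' (Sum.inr i) = ε * l' (Sum.inl i)) :
    y * κ₀ = (ε • κ₀) * y := by
  apply mat_ext_basis bK
  rintro (i | i)
  · rw [← Matrix.mulVec_mulVec, ← Matrix.mulVec_mulVec, (hbK i).1, hy, hy, Matrix.mulVec_smul,
      Matrix.smul_mulVec, (hbK i).1, hl', smul_smul, mul_comm]
  · rw [← Matrix.mulVec_mulVec, ← Matrix.mulVec_mulVec, (hbK i).2, Matrix.mulVec_smul, hy, hy,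
      Matrix.mulVec_smul, Matrix.smul_mulVec, (hbK i).2, hl', smul_smul, smul_smul, smul_smul]
    congr 1
    linear_combination (-(ω * l' (Sum.inl i))) * hε

/-- Operators with an eigenbasis whose eigenvalues pair up. -/
theorem ext_case_eigen {I : Type} [Fintype I] [DecidableEq I]
    (hI : Fintype.card I + Fintype.card I = n) (hn : 0 < n)
    (x : Matrix.SpecialLinearGroup (Fin n) F) (bX : Basis (I ⊕ I) F (Fin n → F)) (l' : I ⊕ I → F)
    (hx : ∀ k, (x : Matrix (Fin n) (Fin n) F) *ᵥ bX k = l' k • bX k)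
    (ε : F) (hε : ε * ε = 1) (hl' : ∀ i, l' (Sum.inr i) = ε * l' (Sum.inl i))
    (κ₀ : Matrix (Fin n) (Fin n) F) (ω : F)
    (hκ₀ : κ₀ * κ₀ = ω • (1 : Matrix (Fin n) (Fin n) F)) (hω : ∀ s : F, s * s ≠ ω) :
    ∃ Q : Matrix.SpecialLinearGroup (Fin n) F,
      ((Q * x * Q⁻¹ : Matrix.SpecialLinearGroup (Fin n) F) : Matrix (Fin n) (Fin n) F) * κ₀ =
        (ε • κ₀) *
          ((Q * x * Q⁻¹ : Matrix.SpecialLinearGroup (Fin n) F) : Matrix (Fin n) (Fin n) F) := by
  classical
  obtain ⟨bK, hbK⟩ := exists_K_basis κ₀ ω hκ₀ hω I hI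
  have hne : Nonempty I := by
    by_contra hemp
    rw [not_nonempty_iff] at hemp
    rw [Fintype.card_eq_zero] at hI
    omega
  have : Nonempty (I ⊕ I) := ⟨Sum.inl (Classical.arbitrary I)⟩
  obtain ⟨Q, hQ⟩ := exists_sl_conj_eigenbasis x bX bK l' hx
  exact ⟨Q, semicomm_of_eigen_pairs κ₀ ω bK hbK _ l' hQ ε hε hl'⟩

/-- Operators whose square is a non-square scalar. -/
theorem ext_case_nonsquare [Fintype F] (h2 : (2 : F) ≠ 0) (hn : 0 < n)
    (x : Matrix.SpecialLinearGroup (Fin n) F) (z : F)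
    (hxz : ∀ v, Matrix.toLin' (x : Matrix (Fin n) (Fin n) F)
      (Matrix.toLin' (x : Matrix (Fin n) (Fin n) F) v) = z • v)
    (hz : ∀ s : F, s * s ≠ z)
    (κ₀ : Matrix (Fin n) (Fin n) F) (ω : F)
    (hκ₀ : κ₀ * κ₀ = ω • (1 : Matrix (Fin n) (Fin n) F)) (hω : ∀ s : F, s * s ≠ ω) :
    ∃ Q : Matrix.SpecialLinearGroup (Fin n) F,
      ((Q * x * Q⁻¹ : Matrix.SpecialLinearGroup (Fin n) F) : Matrix (Fin n) (Fin n) F) * κ₀ =
        κ₀ * ((Q * x * Q⁻¹ : Matrix.SpecialLinearGroup (Fin n) F) : Matrix (Fin n) (Fin n) F) := by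
  classical
  have hev : ∀ v, v ≠ 0 → ∀ μ : F, Matrix.toLin' (x : Matrix (Fin n) (Fin n) F) v ≠ μ • v := by
    intro v hv μ hμ
    exact hz μ (eigen_sq hxz hv hμ)
  obtain ⟨I, hI1, hI2, bX, hbX⟩ :=
    exists_cyclic_pairs (Matrix.toLin' (x : Matrix (Fin n) (Fin n) F)) z hxz hev
  have hcard := Module.finrank_eq_card_basis bX
  rw [Module.finrank_fin_fun, Fintype.card_sum] at hcard
  obtain ⟨bK, hbK⟩ := exists_K_basis κ₀ ω hκ₀ hω I hcard.symm
  obtain ⟨c, hc0, hc⟩ := nonsquare_ratio h2 z ω hz hω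
  have hz0 : z ≠ 0 := by
    rintro rfl
    exact hz 0 (by simp)
  have hw0 : ∀ k : I ⊕ I, Sum.elim (fun _ => (1 : F)) (fun _ => c) k ≠ 0 := by
    rintro (i | i)
    · exact one_ne_zero
    · exact hc0
  obtain ⟨b', hb'⟩ : ∃ b' : Basis (I ⊕ I) F (Fin n → F),
      ∀ k, b' k = Sum.elim (fun _ => (1 : F)) (fun _ => c) k • bK k :=
    ⟨bK.unitsSMul (fun k => Units.mk0 _ (hw0 k)), fun k => by rw [Basis.unitsSMul_apply]; rfl⟩
  have hne : Nonempty I := by
    by_contra hemp
    rw [not_nonempty_iff] at hemp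
    rw [Fintype.card_eq_zero] at hcard
    omega
  obtain ⟨i₀⟩ := hne
  obtain ⟨T, hT⟩ : ∃ T : (Fin n → F) ≃ₗ[F] (Fin n → F), T = bX.equiv b' (Equiv.refl _) :=
    ⟨_, rfl⟩
  have hTb : ∀ k, T (bX k) = b' k := by
    intro k
    rw [hT, Basis.equiv_apply]
    rfl
  have hδ : LinearMap.det T.toLinearMap ≠ 0 := (LinearEquiv.isUnit_det' T).ne_zero
  obtain ⟨a, b, hab⟩ := binary_form_universal (card_odd_of_two_ne_zero h2)
    (LinearMap.det T.toLinearMap) 0 (-z * LinearMap.det T.toLinearMap) (by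
      have h4 : (4 : F) ≠ 0 := by
        have : (4 : F) = 2 * 2 := by norm_num
        rw [this]
        exact mul_ne_zero h2 h2
      have e : (0 : F) ^ 2 - 4 * LinearMap.det T.toLinearMap *
          (-z * LinearMap.det T.toLinearMap) =
          4 * z * (LinearMap.det T.toLinearMap * LinearMap.det T.toLinearMap) := by ring
      rw [e]
      exact mul_ne_zero (mul_ne_zero h4 hz0) (mul_ne_zero hδ hδ))
  obtain ⟨C, hC1, hC2, hC3, hCdet⟩ := exists_pair_block_map bX i₀ !![a, z * b; b, a]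
  have hCx' : C ∘ₗ Matrix.toLin' (x : Matrix (Fin n) (Fin n) F) =
      Matrix.toLin' (x : Matrix (Fin n) (Fin n) F) ∘ₗ C := by
    apply bX.ext
    rintro (i | i)
    · by_cases hi : i = i₀
      · subst hi
        simp only [LinearMap.comp_apply]
        rw [(hbX i).1, hC2, hC1, map_add, map_smul, map_smul, (hbX i).1, (hbX i).2]
        simp only [Matrix.of_apply, Matrix.cons_val', Matrix.cons_val_zero, Matrix.cons_val_one,
          Matrix.cons_val_fin_one]
        module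
      · simp only [LinearMap.comp_apply]
        rw [(hbX i).1, (hC3 i hi).1, (hC3 i hi).2, (hbX i).1]
    · by_cases hi : i = i₀
      · subst hi
        simp only [LinearMap.comp_apply]
        rw [(hbX i).2, hC2, map_smul, hC1, map_add, map_smul, map_smul, (hbX i).1, (hbX i).2]
        simp only [Matrix.of_apply, Matrix.cons_val', Matrix.cons_val_zero, Matrix.cons_val_one,
          Matrix.cons_val_fin_one]
        module
      · simp only [LinearMap.comp_apply]
        rw [(hbX i).2, (hC3 i hi).2, map_smul, (hC3 i hi).1, (hbX i).2]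
  have hCx : ∀ v, C ((x : Matrix (Fin n) (Fin n) F) *ᵥ v) =
      (x : Matrix (Fin n) (Fin n) F) *ᵥ C v := by
    intro v
    have := congrArg (fun f : (Fin n → F) →ₗ[F] (Fin n → F) => f v) hCx'
    simpa only [LinearMap.comp_apply, Matrix.toLin'_apply] using this
  obtain ⟨Q, hQ⟩ := exists_sl_conj_centralizer x bX b' C hCx (by
    rw [hCdet, ← hT, Matrix.det_fin_two_of]
    linear_combination hab)
  refine ⟨Q, ?_⟩
  have hy : ((Q * x * Q⁻¹ : Matrix.SpecialLinearGroup (Fin n) F) : Matrix (Fin n) (Fin n) F) =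
      c • κ₀ := by
    apply mat_ext_basis b'
    rintro (i | i)
    · rw [hQ, ← hT, ← Matrix.toLin'_apply, (hbX i).1, hTb, hb', hb', Matrix.smul_mulVec,
        Matrix.mulVec_smul, (hbK i).1]
      simp
    · rw [hQ, ← hT, ← Matrix.toLin'_apply, (hbX i).2, map_smul, hTb, hb', hb',
        Matrix.smul_mulVec, Matrix.mulVec_smul, (hbK i).2]
      simp only [Sum.elim_inl, Sum.elim_inr, one_smul, smul_smul]
      congr 1
      rw [hc]
      ring
  rw [hy, Matrix.smul_mul, Matrix.mul_smul]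

/-- Every element of `SL_n(F)` with scalar square is conjugate to one that commutes or
anticommutes with `κ₀`, provided `n = 2` or `-1` is not an `n`-th power. -/
theorem ext_odd [Fintype F] (h2 : (2 : F) ≠ 0) (m : ℕ) (hnm : n = m + m) (hn : 0 < n)
    (x : Matrix.SpecialLinearGroup (Fin n) F) (z : F)
    (hxz : ∀ v, Matrix.toLin' (x : Matrix (Fin n) (Fin n) F)
      (Matrix.toLin' (x : Matrix (Fin n) (Fin n) F) v) = z • v)
    (hcond : n = 2 ∨ ∀ l : F, l ^ n ≠ -1)
    (κ₀ : Matrix (Fin n) (Fin n) F) (ω : F)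
    (hκ₀ : κ₀ * κ₀ = ω • (1 : Matrix (Fin n) (Fin n) F)) (hω : ∀ s : F, s * s ≠ ω) :
    ∃ (Q : Matrix.SpecialLinearGroup (Fin n) F) (ε : F), ε * ε = 1 ∧
      ((Q * x * Q⁻¹ : Matrix.SpecialLinearGroup (Fin n) F) : Matrix (Fin n) (Fin n) F) * κ₀ =
        (ε • κ₀) *
          ((Q * x * Q⁻¹ : Matrix.SpecialLinearGroup (Fin n) F) : Matrix (Fin n) (Fin n) F) := by
  classical
  by_cases hsq : ∃ l : F, l * l = z
  · obtain ⟨l, rfl⟩ := hsq
    have hl : l ≠ 0 := by
      intro h0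
      exact sq_scalar_ne_zero hn x (l * l) hxz (by rw [h0, mul_zero])
    obtain ⟨X, hX⟩ : ∃ X : (Fin n → F) →ₗ[F] (Fin n → F),
      X = Matrix.toLin' (x : Matrix (Fin n) (Fin n) F) := ⟨_, rfl⟩
    rw [← hX] at hxz
    obtain ⟨hd, hs⟩ := eigen_decomp X l hl h2 hxz
    obtain ⟨U, hU⟩ : ∃ U : Submodule F (Fin n → F), U = LinearMap.ker (X - l • LinearMap.id) :=
      ⟨_, rfl⟩
    obtain ⟨W, hW⟩ : ∃ W : Submodule F (Fin n → F), W = LinearMap.ker (X + l • LinearMap.id) :=
      ⟨_, rfl⟩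
    rw [← hU, ← hW] at hd hs
    have hUx : ∀ u ∈ U, X u = l • u := by
      intro u hu
      rw [hU, LinearMap.mem_ker, LinearMap.sub_apply, LinearMap.smul_apply, LinearMap.id_apply,
        sub_eq_zero] at hu
      exact hu
    have hWx : ∀ w ∈ W, X w = (-l) • w := by
      intro w hw
      rw [hW, LinearMap.mem_ker, LinearMap.add_apply, LinearMap.smul_apply,
        LinearMap.id_apply] at hw
      rw [neg_smul]
      exact eq_neg_of_add_eq_zero_left hw
    have hdim : finrank F U + finrank F W = n := by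
      have h1 := Submodule.finrank_sup_add_finrank_inf_eq U W
      rw [hs, disjoint_iff.mp hd, finrank_bot, finrank_top, Module.finrank_fin_fun, add_zero] at h1
      exact h1.symm
    have hxv : ∀ v, (x : Matrix (Fin n) (Fin n) F) *ᵥ v = X v := by
      intro v
      rw [hX, Matrix.toLin'_apply]
    rcases Nat.even_or_odd (finrank F U) with ⟨a, ha⟩ | hodd
    · obtain ⟨b, hb⟩ : ∃ b, finrank F W = b + b := ⟨m - a, by omega⟩
      obtain ⟨bas, hbas⟩ := exists_eigenbasis_of_bases X U W hd hs l (-l) hUx hWx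
        ((Module.finBasisOfFinrankEq F U ha).reindex finSumFinEquiv.symm)
        ((Module.finBasisOfFinrankEq F W hb).reindex finSumFinEquiv.symm)
      obtain ⟨bX, hbX⟩ : ∃ bX : Basis ((Fin a ⊕ Fin b) ⊕ (Fin a ⊕ Fin b)) F (Fin n → F),
          ∀ k, bX k = bas (Equiv.sumSumSumComm (Fin a) (Fin b) (Fin a) (Fin b) k) :=
        ⟨bas.reindex (Equiv.sumSumSumComm (Fin a) (Fin b) (Fin a) (Fin b)).symm,
          fun k => by rw [Basis.reindex_apply, Equiv.symm_symm]⟩
      obtain ⟨Q, hQ⟩ := ext_case_eigen (I := Fin a ⊕ Fin b)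
        (by simp only [Fintype.card_sum, Fintype.card_fin]; omega) hn x bX
        (fun k => Sum.elim (fun _ => l) (fun _ => -l)
          (Equiv.sumSumSumComm (Fin a) (Fin b) (Fin a) (Fin b) k))
        (fun k => by rw [hxv, hbX, hbas])
        1 (one_mul 1) (by rintro (j | j) <;> simp) κ₀ ω hκ₀ hω
      exact ⟨Q, 1, one_mul 1, hQ⟩
    · rcases hcond with h2n | hno
      · have hWodd : Odd (finrank F W) := by
          rcases hodd with ⟨t, ht⟩
          exact ⟨m - t - 1, by omega⟩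
        have h1 : finrank F U = 1 := by
          rcases hodd with ⟨t, ht⟩
          rcases hWodd with ⟨t', ht'⟩
          omega
        have h1' : finrank F W = 1 := by omega
        obtain ⟨bas, hbas⟩ := exists_eigenbasis_of_bases X U W hd hs l (-l) hUx hWx
          (Module.finBasisOfFinrankEq F U h1) (Module.finBasisOfFinrankEq F W h1')
        obtain ⟨Q, hQ⟩ := ext_case_eigen (I := Fin 1)
          (by simp only [Fintype.card_fin]; omega) hn x bas
          (fun k => Sum.elim (fun _ => l) (fun _ => -l) k)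
          (fun k => by rw [hxv, hbas])
          (-1) (by ring) (by intro i; simp) κ₀ ω hκ₀ hω
        exact ⟨Q, -1, by ring, hQ⟩
      · exfalso
        have hdet := det_of_eigen_decomp X U W hd hs l (-l) hUx hWx
        rw [hX, LinearMap.det_toLin', x.det_coe] at hdet
        have hWodd : Odd (finrank F W) := by
          rcases hodd with ⟨t, ht⟩
          exact ⟨m - t - 1, by omega⟩
        rw [hWodd.neg_pow, mul_neg, ← pow_add, hdim] at hdet
        exact hno l (by linear_combination hdet)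
  · push Not at hsq
    obtain ⟨Q, hQ⟩ := ext_case_nonsquare h2 hn x z hxz hsq κ₀ ω hκ₀ hω
    exact ⟨Q, 1, one_mul 1, by rw [one_smul]; exact hQ⟩

/-- In odd characteristic, every element of `SL_n(F)` with scalar square has a conjugate
normalizing a field subalgebra of degree 2, provided `n = 2` or `-1` is not an `n`-th power. -/
theorem ext_odd_normalizes [Fintype F] (h2 : (2 : F) ≠ 0)
    (K : Subalgebra F (Matrix (Fin n) (Fin n) F)) (hK : Cfsg.Geo.IsFieldSubalgebra 2 K)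
    (m : ℕ) (hnm : n = m + m) (hn : 0 < n)
    (x : Matrix.SpecialLinearGroup (Fin n) F) (z : F)
    (hz : ((x ^ 2 : Matrix.SpecialLinearGroup (Fin n) F) : Matrix (Fin n) (Fin n) F) =
      z • (1 : Matrix (Fin n) (Fin n) F))
    (hcond : n = 2 ∨ ∀ l : F, l ^ n ≠ -1) :
    ∃ P : Matrix.SpecialLinearGroup (Fin n) F, P⁻¹ * x * P ∈
      (Cfsg.Geo.subalgebraNormalizer K).comap
        (Matrix.SpecialLinearGroup.toGL : Matrix.SpecialLinearGroup (Fin n) F →* GL (Fin n) F) := by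
  obtain ⟨κ₀, hκ₀K, ω, hκ₀, hω, hgen⟩ := field_subalgebra_odd_gen h2 K hK
  obtain ⟨Q, ε, hε, hQ⟩ := ext_odd h2 m hnm hn x z (sl_sq_apply x z hz) hcond κ₀ ω hκ₀ hω
  refine ⟨Q⁻¹, ?_⟩
  rw [inv_inv, Subgroup.mem_comap]
  apply mem_subalgebraNormalizer_of_gen K κ₀ hgen _ (ε • κ₀) (ε • κ₀) (K.smul_mem hκ₀K ε)
    (K.smul_mem hκ₀K ε)
  · rw [Matrix.SpecialLinearGroup.coe_GL_coe_matrix]
    exact hQ
  · rw [Matrix.SpecialLinearGroup.coe_GL_coe_matrix, Matrix.mul_smul, hQ, Matrix.smul_mul,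
      smul_smul, hε, one_smul]

end

end Cfsg.Agent.H99
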