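import Cfsg.Agent.H99.HeisConj
import Cfsg.Agent.H99.Subfield

set_option autoImplicit false

namespace Cfsg.Agent.H99

open Matrix
open scoped MatrixGroups

section
variable {F : Type*} [Field F]

/-- In a finite field with `9 ∣ q - 1`, every cube root of unity is a cube. -/
theorem exists_cube_root [Fintype F] (h9 : 9 ∣ Fintype.card F - 1) (z : F) (hz : z ^ 3 = 1) :
    ∃ s : F, s ≠ 0 ∧ s ^ 3 = z := by
  have hz0 : z ≠ 0 := by
    intro h
    rw [h] at hz
    simp at hz
  obtain ⟨g, hg⟩ := IsCyclic.exists_monoid_generator (α := Fˣ)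
  have hord : orderOf g = Fintype.card F - 1 := by
    rw [orderOf_eq_card_of_forall_mem_powers hg, Nat.card_units, Nat.card_eq_fintype_card]
  obtain ⟨m, hm⟩ := (Submonoid.mem_powers_iff _ _).mp (hg (Units.mk0 z hz0))
  have hz3 : (Units.mk0 z hz0) ^ 3 = 1 := by
    apply Units.ext
    rw [Units.val_pow_eq_pow_val, Units.val_mk0, hz, Units.val_one]
  rw [← hm, ← pow_mul] at hz3
  have hdvd := orderOf_dvd_of_pow_eq_one hz3
  rw [hord] at hdvd
  obtain ⟨t, ht⟩ := h9
  rw [ht] at hdvd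
  have h3t : 3 * t ∣ m := by
    have h1 : 3 * (3 * t) ∣ 3 * m := by
      have : 3 * (3 * t) = 9 * t := by ring
      rw [this, mul_comm 3 m]
      exact hdvd
    exact (Nat.mul_dvd_mul_iff_left (by norm_num)).mp h1
  obtain ⟨k, hk⟩ := h3t
  refine ⟨((g ^ (t * k) : Fˣ) : F), Units.ne_zero _, ?_⟩
  have h1 : (g ^ (t * k)) ^ 3 = Units.mk0 z hz0 := by
    rw [← hm, ← pow_mul, hk]
    congr 1
    ring
  have h2 := congrArg Units.val h1
  rw [Units.val_pow_eq_pow_val, Units.val_mk0] at h2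
  exact h2

theorem card_sl3_mul [Fintype F] :
    Nat.card (Cfsg.Geo.specialLinear (Fin 3) F) * (Fintype.card F - 1) =
      Nat.card (GL (Fin 3) F) := by
  unfold Cfsg.Geo.specialLinear
  have h1 := Subgroup.card_mul_index
    (Matrix.GeneralLinearGroup.det : GL (Fin 3) F →* Fˣ).ker
  rw [Subgroup.index_ker] at h1
  have hsurj : (Matrix.GeneralLinearGroup.det : GL (Fin 3) F →* Fˣ).range = ⊤ := by
    rw [eq_top_iff]
    intro u _
    have hdet : (Matrix.diagonal (![(u : F), 1, 1] : Fin 3 → F)).det = (u : F) := by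
      rw [Matrix.det_diagonal, Fin.prod_univ_three]
      simp
    refine ⟨Matrix.GeneralLinearGroup.mkOfDetNeZero (Matrix.diagonal (![(u : F), 1, 1])) (by
      rw [hdet]; exact u.ne_zero), ?_⟩
    apply Units.ext
    rw [Matrix.GeneralLinearGroup.val_det_apply]
    exact hdet
  rw [hsurj, Subgroup.card_top, Nat.card_units, Nat.card_eq_fintype_card (α := F)] at h1
  exact h1

theorem arith_three_part (m c : ℕ) (hm : m % 3 ≠ 0)
    (h : 81 * c * (3 * m) = (9 * m * (3 * m ^ 2 + 3 * m + 1)) * (3 * m * (3 * m + 1) * (3 * m + 2)) *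
      (3 * m * (3 * m + 1) ^ 2)) : False := by
  have hm0 : 0 < m := by
    rcases Nat.eq_zero_or_pos m with h0 | h0
    · rw [h0] at hm
      exact absurd rfl hm
    · exact h0
  have h' : (81 * m) * (3 * c) =
      (81 * m) * (m ^ 2 * (3 * m ^ 2 + 3 * m + 1) * (3 * m + 1) ^ 3 * (3 * m + 2)) := by
    have e : 81 * c * (3 * m) = (81 * m) * (3 * c) := by ring
    rw [← e, h]
    ring
  have h2 := Nat.eq_of_mul_eq_mul_left (by positivity) h'
  have h3 : 3 ∣ m ^ 2 * (3 * m ^ 2 + 3 * m + 1) * (3 * m + 1) ^ 3 * (3 * m + 2) :=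
    Dvd.intro _ h2
  rcases (Nat.prime_three.dvd_mul).mp h3 with h4 | h4
  · rcases (Nat.prime_three.dvd_mul).mp h4 with h5 | h5
    · rcases (Nat.prime_three.dvd_mul).mp h5 with h6 | h6
      · have := Nat.prime_three.dvd_of_dvd_pow h6
        omega
      · generalize m ^ 2 = n at h6
        omega
    · have := Nat.prime_three.dvd_of_dvd_pow h5
      omega
  · omega

/-- For `p ≡ 4, 7 (mod 9)` a subgroup of `GL₃(p)` containing a subgroup of order 27 of `SL₃(p)`
has index prime to 3 in `SL₃(p)`. -/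
theorem sl3_not_three_dvd [Fintype F] (p : ℕ) (hF : Fintype.card F = p) (hp3 : p % 3 = 1)
    (hp9 : p % 9 ≠ 1) (R N : Subgroup (GL (Fin 3) F)) (hR : Nat.card R = 27) (hRN : R ≤ N)
    (hRS : R ≤ Cfsg.Geo.specialLinear (Fin 3) F) :
    ¬ 3 ∣ N.relIndex (Cfsg.Geo.specialLinear (Fin 3) F) := by
  intro h3
  have h1 := card_mul_relIndex_of_le (N ⊓ Cfsg.Geo.specialLinear (Fin 3) F)
    (Cfsg.Geo.specialLinear (Fin 3) F) inf_le_right
  rw [Subgroup.inf_relIndex_right] at h1
  have h2 : 27 ∣ Nat.card ↥(N ⊓ Cfsg.Geo.specialLinear (Fin 3) F) := by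
    rw [← hR]
    exact Subgroup.card_dvd_of_le (le_inf hRN hRS)
  obtain ⟨c1, hc1⟩ := h2
  obtain ⟨c2, hc2⟩ := h3
  have h4 := card_sl3_mul (F := F)
  rw [Matrix.card_GL_field, hF, Fin.prod_univ_three, ← h1, hc1, hc2] at h4
  simp only [Fin.val_zero, Fin.val_one, Fin.val_two, pow_zero, pow_one] at h4
  obtain ⟨m, rfl⟩ : ∃ m, p = 3 * m + 1 := ⟨p / 3, by omega⟩
  have e0 : 3 * m + 1 - 1 = 3 * m := by omega
  have e1 : (3 * m + 1) ^ 3 - 1 = 9 * m * (3 * m ^ 2 + 3 * m + 1) :=
    Nat.sub_eq_of_eq_add (by ring)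
  have e2 : (3 * m + 1) ^ 3 - (3 * m + 1) = 3 * m * (3 * m + 1) * (3 * m + 2) :=
    Nat.sub_eq_of_eq_add (by ring)
  have e3 : (3 * m + 1) ^ 3 - (3 * m + 1) ^ 2 = 3 * m * (3 * m + 1) ^ 2 :=
    Nat.sub_eq_of_eq_add (by ring)
  rw [e0, e1, e2, e3] at h4
  apply arith_three_part m (c1 * c2) (by omega)
  rw [← h4]
  ring

/-- An element of prime order `r` normalizing a subgroup `R` and centralizing a non-trivial
element of it centralizes `R`, provided no proper divisor `m ≠ 1` of `|R|` is congruent to `|R|`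
modulo `r`. -/
theorem centralizes_of_normalizes_gen {G : Type*} [Group G] (R : Subgroup G) (y : G)
    (hy : y ∈ Subgroup.normalizer (R : Set G)) (r : ℕ) [Fact r.Prime] (hyr : y ^ r = 1)
    (c : G) (hcR : c ∈ R) (hc1 : c ≠ 1) (hcy : c * y = y * c) (N : ℕ) (hN : N ≠ 0)
    (hcard : Nat.card R = N)
    (harith : ∀ m, m ∣ N → m ≠ 1 → N ≡ m [MOD r] → m = N) : ∀ h ∈ R, h * y = y * h := by
  classical
  have hfin : Finite R := Nat.finite_of_card_ne_zero (by rw [hcard]; exact hN)
  have : Fintype R := Fintype.ofFinite R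
  have hnorm : ∀ h : G, h ∈ R → y * h * y⁻¹ ∈ R := fun h hh =>
    (Subgroup.mem_set_normalizer_iff.mp hy h).mp hh
  let f : Function.End ↥R := fun h => ⟨y * h * y⁻¹, hnorm h h.2⟩
  have hfpow : ∀ (k : ℕ) (h : ↥R), (((f ^ k) h : ↥R) : G) = y ^ k * h * (y ^ k)⁻¹ := by
    intro k
    induction k with
    | zero =>
      intro h
      rw [pow_zero, pow_zero, one_mul, inv_one, mul_one]
      rfl
    | succ k ih =>
      intro h
      rw [pow_succ]
      change (((f ^ k) (f h) : ↥R) : G) = _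
      rw [ih]
      simp [f, pow_succ, mul_assoc]
  have hf : f ^ r ^ 1 = 1 := by
    rw [pow_one]
    funext h
    apply Subtype.ext
    rw [hfpow, hyr]
    simp
    rfl
  have hmod := Equiv.Perm.card_fixedPoints_modEq (p := r) (n := 1) hf
  let C : Subgroup ↥R := (Subgroup.centralizer {y}).subgroupOf R
  have hfix : Function.fixedPoints f = (C : Set ↥R) := by
    ext h
    rw [Function.mem_fixedPoints, Function.IsFixedPt]
    simp only [C, SetLike.mem_coe, Subgroup.mem_subgroupOf, Subgroup.mem_centralizer_iff,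
      Set.mem_singleton_iff, forall_eq]
    constructor
    · intro hh
      have h1 : y * (h : G) * y⁻¹ = h := congrArg Subtype.val hh
      rw [mul_inv_eq_iff_eq_mul] at h1
      exact h1
    · intro hh
      apply Subtype.ext
      show y * (h : G) * y⁻¹ = h
      rw [mul_inv_eq_iff_eq_mul]
      exact hh
  have hcardfix : Fintype.card (Function.fixedPoints f) = Nat.card C := by
    rw [← Nat.card_eq_fintype_card]
    exact Nat.card_congr (Equiv.setCongr hfix)
  have hdvd : Nat.card C ∣ N := by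
    rw [← hcard]
    exact Subgroup.card_subgroup_dvd_card C
  have hne1 : Nat.card C ≠ 1 := by
    intro h1
    have hsub : Subsingleton C := (Nat.card_eq_one_iff_unique.mp h1).1
    have hcC : (⟨c, hcR⟩ : ↥R) ∈ C := by
      simp only [C, Subgroup.mem_subgroupOf, Subgroup.mem_centralizer_iff,
        Set.mem_singleton_iff, forall_eq]
      exact hcy.symm
    have h2 : (⟨⟨c, hcR⟩, hcC⟩ : ↥C) = 1 := Subsingleton.elim _ _
    apply hc1
    have h3 := congrArg (fun u : ↥C => ((u : ↥R) : G)) h2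
    simpa using h3
  have hC8 : Nat.card C = N := by
    rw [Nat.card_eq_fintype_card (α := ↥R)] at hcard
    rw [hcard, hcardfix] at hmod
    exact harith (Nat.card C) hdvd hne1 hmod
  have hCtop : C = ⊤ := by
    apply Subgroup.eq_top_of_card_eq
    rw [hC8, hcard]
  intro h hh
  have h1 : (⟨h, hh⟩ : ↥R) ∈ C := by rw [hCtop]; exact Subgroup.mem_top _
  simp only [C, Subgroup.mem_subgroupOf, Subgroup.mem_centralizer_iff,
    Set.mem_singleton_iff, forall_eq] at h1
  exact h1.symm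

theorem card_arith_27 (r : ℕ) (hrp : r.Prime) (hr : 5 ≤ r) (m : ℕ) (hdvd : m ∣ 27) (hne1 : m ≠ 1)
    (hmod : 27 ≡ m [MOD r]) : m = 27 := by
  have hle : m ≤ 27 := Nat.le_of_dvd (by norm_num) hdvd
  have hd : r ∣ 27 - m := (Nat.modEq_iff_dvd' hle).mp hmod.symm
  rcases dvd_27_cases m hdvd with h | h | h | h
  · exact absurd h hne1
  · exfalso
    subst h
    have h6 : r ∣ 24 := hd
    have h5 := Nat.le_of_dvd (by norm_num) h6
    have h7 : r ∣ 2 ^ 3 * 3 := h6
    rcases (hrp.dvd_mul).mp h7 with h8 | h8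
    · have := Nat.le_of_dvd (by norm_num) (hrp.dvd_of_dvd_pow h8)
      omega
    · have := Nat.le_of_dvd (by norm_num) h8
      omega
  · exfalso
    subst h
    have h6 : r ∣ 2 * 3 ^ 2 := hd
    rcases (hrp.dvd_mul).mp h6 with h8 | h8
    · have := Nat.le_of_dvd (by norm_num) h8
      omega
    · have := Nat.le_of_dvd (by norm_num) (hrp.dvd_of_dvd_pow h8)
      omega
  · exact h

end

end Cfsg.Agent.H99
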