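import Cfsg.Agent.H99.HeisNorm
import Cfsg.Agent.H99.Transport

set_option autoImplicit false

namespace Cfsg.Agent.H99

open Matrix
open scoped MatrixGroups

section
variable {F : Type*} [Field F]

/-- A basis of eigenvectors extracted from a spanning set of eigenvectors. -/
theorem exists_eigenbasis_of_span {n : ℕ} (M : Matrix (Fin n) (Fin n) F) (P : F → Prop)
    (hspan : Submodule.span F {w : Fin n → F | ∃ l, P l ∧ M *ᵥ w = l • w} = ⊤) :
    ∃ (u : Module.Basis (Fin n) F (Fin n → F)) (l : Fin n → F),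
      ∀ k, P (l k) ∧ M *ᵥ u k = l k • u k := by
  classical
  let b := Module.Basis.ofSpan (K := F) hspan.ge
  have hfin : Finite _ := Module.Finite.finite_basis b
  have hft : Fintype _ := Fintype.ofFinite
    ((linearIndepOn_empty F id).extend (Set.empty_subset
      {w : Fin n → F | ∃ l, P l ∧ M *ᵥ w = l • w}))
  have hcard := Module.finrank_eq_card_basis b
  rw [Module.finrank_fin_fun] at hcard
  let e := Fintype.equivFinOfCardEq hcard.symm
  have hmem : ∀ k : Fin n, ∃ l, P l ∧ M *ᵥ (b.reindex e) k = l • (b.reindex e) k := by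
    intro k
    have h1 : (b.reindex e) k ∈ Set.range b := by
      rw [Module.Basis.reindex_apply]
      exact Set.mem_range_self _
    exact Module.Basis.ofSpan_subset hspan.ge h1
  choose l hl using hmem
  exact ⟨b.reindex e, l, hl⟩

theorem cube_span {n : ℕ} (M : Matrix (Fin n) (Fin n) F) (z s ν : F) (hν : ν ^ 2 + ν + 1 = 0)
    (h3 : (3 : F) ≠ 0) (hz : z = s ^ 3) (hs : s ≠ 0)
    (hM : M * M * M = z • (1 : Matrix (Fin n) (Fin n) F)) :
    Submodule.span F {w : Fin n → F | ∃ l, l ^ 3 = z ∧ M *ᵥ w = l • w} = ⊤ := by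
  obtain ⟨ν3, ν1, ν21, ν0, ν2ν⟩ := cube_root_facts ν hν h3
  have hz0 : z ≠ 0 := by rw [hz]; exact pow_ne_zero _ hs
  have hM3 : ∀ w, M *ᵥ (M *ᵥ (M *ᵥ w)) = z • w := by
    intro w
    rw [Matrix.mulVec_mulVec, Matrix.mulVec_mulVec, hM, Matrix.smul_mulVec, Matrix.one_mulVec]
  have hE : ∀ (r : F) (w : Fin n → F), r ^ 3 = z →
      r ^ 2 • w + r • M *ᵥ w + M *ᵥ (M *ᵥ w) ∈
        Submodule.span F {w : Fin n → F | ∃ l, l ^ 3 = z ∧ M *ᵥ w = l • w} := by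
    intro r w hr
    apply Submodule.subset_span
    refine ⟨r, hr, ?_⟩
    rw [Matrix.mulVec_add, Matrix.mulVec_add, Matrix.mulVec_smul, Matrix.mulVec_smul, hM3, ← hr]
    module
  have hsq : ∀ w, M *ᵥ (M *ᵥ w) ∈
      Submodule.span F {w : Fin n → F | ∃ l, l ^ 3 = z ∧ M *ᵥ w = l • w} := by
    intro w
    have h1 := hE s w hz.symm
    have h2 := hE (s * ν) w (by rw [mul_pow, ν3, mul_one, hz])
    have h3' := hE (s * ν ^ 2) w (by
      rw [mul_pow, ← pow_mul, mul_comm 2 3, pow_mul, ν3, one_pow, mul_one, hz])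
    have h4 := Submodule.smul_mem _ (3 : F)⁻¹ (Submodule.add_mem _ (Submodule.add_mem _ h1 h2) h3')
    have h5 : (3 : F)⁻¹ • (s ^ 2 • w + s • M *ᵥ w + M *ᵥ (M *ᵥ w) +
        ((s * ν) ^ 2 • w + (s * ν) • M *ᵥ w + M *ᵥ (M *ᵥ w)) +
        ((s * ν ^ 2) ^ 2 • w + (s * ν ^ 2) • M *ᵥ w + M *ᵥ (M *ᵥ w))) = M *ᵥ (M *ᵥ w) := by
      have e1 : s ^ 2 + (s * ν) ^ 2 + (s * ν ^ 2) ^ 2 = 0 := by
        linear_combination s ^ 2 * (ν ^ 2 - ν + 1) * hν
      have e2 : s + s * ν + s * ν ^ 2 = 0 := by linear_combination s * hν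
      have e3 : s ^ 2 • w + s • M *ᵥ w + M *ᵥ (M *ᵥ w) +
        ((s * ν) ^ 2 • w + (s * ν) • M *ᵥ w + M *ᵥ (M *ᵥ w)) +
        ((s * ν ^ 2) ^ 2 • w + (s * ν ^ 2) • M *ᵥ w + M *ᵥ (M *ᵥ w)) =
          (s ^ 2 + (s * ν) ^ 2 + (s * ν ^ 2) ^ 2) • w + (s + s * ν + s * ν ^ 2) • M *ᵥ w +
            (3 : F) • M *ᵥ (M *ᵥ w) := by
        module
      rw [e3, e1, e2, zero_smul, zero_smul, zero_add, zero_add, smul_smul, inv_mul_cancel₀ h3,
        one_smul]
    rw [h5] at h4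
    exact h4
  rw [eq_top_iff]
  intro x _
  have h1 := hsq (z⁻¹ • M *ᵥ x)
  rw [Matrix.mulVec_smul, Matrix.mulVec_smul, hM3, smul_smul, inv_mul_cancel₀ hz0, one_smul] at h1
  exact h1

theorem sq_span {n : ℕ} (M : Matrix (Fin n) (Fin n) F) (z s : F)
    (h2 : (2 : F) ≠ 0) (hz : z = s ^ 2) (hs : s ≠ 0)
    (hM : M * M = z • (1 : Matrix (Fin n) (Fin n) F)) :
    Submodule.span F {w : Fin n → F | ∃ l, l ^ 2 = z ∧ M *ᵥ w = l • w} = ⊤ := by
  have hM2 : ∀ w, M *ᵥ (M *ᵥ w) = z • w := by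
    intro w
    rw [Matrix.mulVec_mulVec, hM, Matrix.smul_mulVec, Matrix.one_mulVec]
  have hE : ∀ (r : F) (w : Fin n → F), r ^ 2 = z →
      r • w + M *ᵥ w ∈
        Submodule.span F {w : Fin n → F | ∃ l, l ^ 2 = z ∧ M *ᵥ w = l • w} := by
    intro r w hr
    apply Submodule.subset_span
    refine ⟨r, hr, ?_⟩
    rw [Matrix.mulVec_add, Matrix.mulVec_smul, hM2, ← hr]
    module
  rw [eq_top_iff]
  intro x _
  have h1 := hE s x hz.symm
  have h2' := hE (-s) x (by rw [neg_pow_two, hz])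
  have h4 := Submodule.smul_mem _ (2 * s)⁻¹ (Submodule.sub_mem _ h1 h2')
  have h5 : (2 * s)⁻¹ • (s • x + M *ᵥ x - (-s • x + M *ᵥ x)) = x := by
    have e3 : s • x + M *ᵥ x - (-s • x + M *ᵥ x) = (2 * s) • x := by module
    rw [e3, smul_smul, inv_mul_cancel₀ (mul_ne_zero h2 hs), one_smul]
  rw [h5] at h4
  exact h4

/-- Conjugating by an element of determinant one, an operator with eigenbasis `u` becomes an
operator with eigenbasis `v` (and the same eigenvalues). -/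
theorem exists_sl_conj_basis (x : GL (Fin 3) F) (u v : Module.Basis (Fin 3) F (Fin 3 → F))
    (l : Fin 3 → F) (hx : ∀ k, (x : Matrix (Fin 3) (Fin 3) F) *ᵥ u k = l k • u k) :
    ∃ g ∈ Cfsg.Geo.specialLinear (Fin 3) F,
      ∀ k, ((g⁻¹ * x * g : GL (Fin 3) F) : Matrix (Fin 3) (Fin 3) F) *ᵥ v k = l k • v k := by
  obtain ⟨δ, hδ, hP⟩ := exists_sl_of_bases u v
  obtain ⟨P, hPu⟩ := hP ![δ⁻¹, 1, 1] (by
    rw [Fin.prod_univ_three]
    simp [hδ])
  have hw0 : ∀ k : Fin 3, (![δ⁻¹, 1, 1] : Fin 3 → F) k ≠ 0 := by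
    intro k
    fin_cases k
    · simpa using hδ
    · simp
    · simp
  obtain ⟨Q, hQ⟩ : ∃ Q : GL (Fin 3) F, Q = Matrix.SpecialLinearGroup.toGL P := ⟨_, rfl⟩
  have hQc : (Q : Matrix (Fin 3) (Fin 3) F) = (P : Matrix (Fin 3) (Fin 3) F) := by
    rw [hQ]
    rfl
  refine ⟨Q⁻¹, ?_, ?_⟩
  · apply Subgroup.inv_mem
    rw [mem_sl_iff, hQc]
    exact P.2
  · intro k
    rw [inv_inv]
    have h1 : (Q * x * Q⁻¹) * Q = Q * x := by group
    have h2 : ((Q * x * Q⁻¹ : GL (Fin 3) F) : Matrix (Fin 3) (Fin 3) F) *ᵥ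
        ((Q : Matrix (Fin 3) (Fin 3) F) *ᵥ u k) =
          (Q : Matrix (Fin 3) (Fin 3) F) *ᵥ ((x : Matrix (Fin 3) (Fin 3) F) *ᵥ u k) := by
      rw [Matrix.mulVec_mulVec, ← Units.val_mul, h1, Units.val_mul, Matrix.mulVec_mulVec]
    have h3 : (Q : Matrix (Fin 3) (Fin 3) F) *ᵥ u k = (![δ⁻¹, 1, 1] : Fin 3 → F) k • v k := by
      rw [hQc, ← Matrix.toLin'_apply]
      exact hPu k
    rw [hx, Matrix.mulVec_smul, h3, Matrix.mulVec_smul, smul_smul, mul_comm, ← smul_smul] at h2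
    exact smul_right_injective _ (hw0 k) h2

end

end Cfsg.Agent.H99
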