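import Cfsg.Agent.H99.HeisArith

set_option autoImplicit false

namespace Cfsg.Agent.H99

open Matrix
open scoped MatrixGroups

section
variable {F : Type*} [Field F]

/-- A non-scalar matrix with scalar square has an eigenbasis with eigenvalues `l, l, -l`. -/
theorem invol_eigenbasis (M : Matrix (Fin 3) (Fin 3) F) (z s : F) (h2 : (2 : F) ≠ 0)
    (hz : z = s ^ 2) (hs : s ≠ 0) (hM : M * M = z • (1 : Matrix (Fin 3) (Fin 3) F))
    (hns : ∀ z : F, M ≠ z • (1 : Matrix (Fin 3) (Fin 3) F)) :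
    ∃ (u : Module.Basis (Fin 3) F (Fin 3 → F)) (l : F),
      M *ᵥ u 0 = l • u 0 ∧ M *ᵥ u 1 = l • u 1 ∧ M *ᵥ u 2 = (-l) • u 2 := by
  obtain ⟨u, l, hl⟩ := exists_eigenbasis_of_span M (fun l => l ^ 2 = z) (sq_span M z s h2 hz hs hM)
  have hcase : ∀ i j : Fin 3, l i = l j ∨ l i = -l j := by
    intro i j
    have h1 : l i ^ 2 = l j ^ 2 := by rw [(hl i).1, (hl j).1]
    exact sq_eq_sq_iff_eq_or_eq_neg.mp h1
  by_cases h01 : l 0 = l 1
  · rcases hcase 2 0 with h20 | h20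
    · exfalso
      apply hns (l 0)
      apply mat_ext_basis u
      intro k
      rw [Matrix.smul_mulVec, Matrix.one_mulVec, (hl k).2]
      fin_cases k
      · rfl
      · exact congrArg (fun t => t • u 1) h01.symm
      · exact congrArg (fun t => t • u 2) h20
    · refine ⟨u, l 0, (hl 0).2, ?_, ?_⟩
      · rw [(hl 1).2, h01]
      · rw [(hl 2).2, h20]
  · have h10 : l 1 = -l 0 := by
      rcases hcase 1 0 with h | h
      · exact absurd h.symm h01
      · exact h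
    rcases hcase 2 0 with h20 | h20
    · refine ⟨u.reindex (Equiv.swap (1 : Fin 3) 2), l 0, ?_, ?_, ?_⟩
      · rw [Module.Basis.reindex_apply]
        exact (hl 0).2
      · rw [Module.Basis.reindex_apply]
        have e : (Equiv.swap (1 : Fin 3) 2).symm 1 = 2 := by decide
        rw [e, (hl 2).2, h20]
      · rw [Module.Basis.reindex_apply]
        have e : (Equiv.swap (1 : Fin 3) 2).symm 2 = 1 := by decide
        rw [e, (hl 1).2, h10]
    · refine ⟨u.reindex (Equiv.swap (0 : Fin 3) 2), l 1, ?_, ?_, ?_⟩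
      · rw [Module.Basis.reindex_apply]
        have e : (Equiv.swap (0 : Fin 3) 2).symm 0 = 2 := by decide
        rw [e, (hl 2).2, h20, h10]
      · rw [Module.Basis.reindex_apply]
        have e : (Equiv.swap (0 : Fin 3) 2).symm 1 = 1 := by decide
        rw [e, (hl 1).2]
      · rw [Module.Basis.reindex_apply]
        have e : (Equiv.swap (0 : Fin 3) 2).symm 2 = 0 := by decide
        rw [e, (hl 0).2, h10, neg_neg]

/-- The basis `v₀, v₁ + v₂, v₁ - v₂`. -/
theorem exists_swap_basis (h2 : (2 : F) ≠ 0) (v : Module.Basis (Fin 3) F (Fin 3 → F)) :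
    ∃ v' : Module.Basis (Fin 3) F (Fin 3 → F),
      v' 0 = v 0 ∧ v' 1 = v 1 + v 2 ∧ v' 2 = v 1 - v 2 := by
  have hli : LinearIndependent F (![v 0, v 1 + v 2, v 1 - v 2] : Fin 3 → (Fin 3 → F)) := by
    rw [Fintype.linearIndependent_iff]
    intro g hg
    rw [Fin.sum_univ_three] at hg
    simp only [Matrix.cons_val_zero, Matrix.cons_val_one, Matrix.cons_val_two, Matrix.head_cons,
      Matrix.tail_cons] at hg
    have hz : ∑ k : Fin 3, (![g 0, g 1 + g 2, g 1 - g 2] : Fin 3 → F) k • v k = 0 := by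
      rw [Fin.sum_univ_three]
      simp only [Matrix.cons_val_zero, Matrix.cons_val_one, Matrix.cons_val_two, Matrix.head_cons,
        Matrix.tail_cons]
      rw [← hg]
      module
    have h := Fintype.linearIndependent_iff.mp v.linearIndependent _ hz
    have h0 := h 0
    have h1 := h 1
    have h2' := h 2
    simp only [Matrix.cons_val_zero, Matrix.cons_val_one, Matrix.cons_val_two, Matrix.head_cons,
      Matrix.tail_cons] at h0 h1 h2'
    have hg1 : g 1 = 0 := by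
      have h5 : (2 : F) * g 1 = 0 := by linear_combination h1 + h2'
      rcases mul_eq_zero.mp h5 with h6 | h6
      · exact absurd h6 h2
      · exact h6
    have hg2 : g 2 = 0 := by
      rw [hg1, zero_add] at h1
      exact h1
    intro k
    fin_cases k
    · exact h0
    · exact hg1
    · exact hg2
  refine ⟨basisOfLinearIndependentOfCardEqFinrank hli (by simp), ?_, ?_, ?_⟩
  · rw [coe_basisOfLinearIndependentOfCardEqFinrank]
    rfl
  · rw [coe_basisOfLinearIndependentOfCardEqFinrank]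
    rfl
  · rw [coe_basisOfLinearIndependentOfCardEqFinrank]
    rfl

/-- Elements of `SL₃(F)` with scalar square are conjugate into the normalizer of a Heisenberg
group. -/
theorem heis_fix_two (R : Subgroup (GL (Fin 3) F)) [Finite R] (a b : GL (Fin 3) F)
    (ν : F) (v : Module.Basis (Fin 3) F (Fin 3 → F)) (h3 : (3 : F) ≠ 0) (h2 : (2 : F) ≠ 0)
    (haR : a ∈ R) (hbR : b ∈ R) (hν : ν ^ 2 + ν + 1 = 0)
    (hav : ∀ k : Fin 3, (a : Matrix (Fin 3) (Fin 3) F) *ᵥ v k = ν ^ (k : ℕ) • v k)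
    (hbv : ∀ k : Fin 3, (b : Matrix (Fin 3) (Fin 3) F) *ᵥ v k = v (k + 1))
    (hRcl : R = Subgroup.closure {a, b})
    (x : GL (Fin 3) F) (hx : x ∈ Cfsg.Geo.specialLinear (Fin 3) F) (z : F)
    (hxz : (x : Matrix (Fin 3) (Fin 3) F) * (x : Matrix (Fin 3) (Fin 3) F) = z • 1)
    (hns : ∀ z : F, (x : Matrix (Fin 3) (Fin 3) F) ≠ z • (1 : Matrix (Fin 3) (Fin 3) F)) :
    ∃ g ∈ Cfsg.Geo.specialLinear (Fin 3) F,
      g⁻¹ * x * g ∈ Subgroup.normalizer (R : Set (GL (Fin 3) F)) := by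
  rw [mem_sl_iff] at hx
  have hz3 : z ^ 3 = 1 := by
    have h1 := congrArg Matrix.det hxz
    rw [Matrix.det_mul, hx, Matrix.det_smul, Matrix.det_one, Fintype.card_fin, mul_one,
      mul_one] at h1
    exact h1.symm
  have hz0 : z ≠ 0 := by
    intro h
    rw [h] at hz3
    simp at hz3
  obtain ⟨u, l, hu0, hu1, hu2⟩ := invol_eigenbasis (x : Matrix (Fin 3) (Fin 3) F) z (z ^ 2) h2
    (by linear_combination (-z) * hz3) (pow_ne_zero _ hz0) hxz hns
  obtain ⟨v', hv0, hv1, hv2⟩ := exists_swap_basis h2 v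
  obtain ⟨g, hg, hgv⟩ := exists_sl_conj_basis x u v' ![l, l, -l] (by
    intro k
    fin_cases k
    · exact hu0
    · exact hu1
    · exact hu2)
  refine ⟨g, hg, ?_⟩
  have k0 := hgv 0
  have k1 := hgv 1
  have k2 := hgv 2
  simp only [Matrix.cons_val_zero, Matrix.cons_val_one, Matrix.cons_val_two, Matrix.head_cons,
    Matrix.tail_cons] at k0 k1 k2
  rw [hv0] at k0
  rw [hv1, Matrix.mulVec_add] at k1
  rw [hv2, Matrix.mulVec_sub] at k2
  have hy1 : ((g⁻¹ * x * g : GL (Fin 3) F) : Matrix (Fin 3) (Fin 3) F) *ᵥ v 1 = l • v 2 := by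
    have e : (2 : F) • (((g⁻¹ * x * g : GL (Fin 3) F) : Matrix (Fin 3) (Fin 3) F) *ᵥ v 1) =
        (2 : F) • (l • v 2) := by
      have e1 : (2 : F) • (((g⁻¹ * x * g : GL (Fin 3) F) : Matrix (Fin 3) (Fin 3) F) *ᵥ v 1) =
          (((g⁻¹ * x * g : GL (Fin 3) F) : Matrix (Fin 3) (Fin 3) F) *ᵥ v 1 +
            ((g⁻¹ * x * g : GL (Fin 3) F) : Matrix (Fin 3) (Fin 3) F) *ᵥ v 2) +
          (((g⁻¹ * x * g : GL (Fin 3) F) : Matrix (Fin 3) (Fin 3) F) *ᵥ v 1 -
            ((g⁻¹ * x * g : GL (Fin 3) F) : Matrix (Fin 3) (Fin 3) F) *ᵥ v 2) := by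
        module
      rw [e1, k1, k2]
      module
    exact smul_right_injective _ h2 e
  have hy2 : ((g⁻¹ * x * g : GL (Fin 3) F) : Matrix (Fin 3) (Fin 3) F) *ᵥ v 2 = l • v 1 := by
    have e : (2 : F) • (((g⁻¹ * x * g : GL (Fin 3) F) : Matrix (Fin 3) (Fin 3) F) *ᵥ v 2) =
        (2 : F) • (l • v 1) := by
      have e1 : (2 : F) • (((g⁻¹ * x * g : GL (Fin 3) F) : Matrix (Fin 3) (Fin 3) F) *ᵥ v 2) =
          (((g⁻¹ * x * g : GL (Fin 3) F) : Matrix (Fin 3) (Fin 3) F) *ᵥ v 1 +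
            ((g⁻¹ * x * g : GL (Fin 3) F) : Matrix (Fin 3) (Fin 3) F) *ᵥ v 2) -
          (((g⁻¹ * x * g : GL (Fin 3) F) : Matrix (Fin 3) (Fin 3) F) *ᵥ v 1 -
            ((g⁻¹ * x * g : GL (Fin 3) F) : Matrix (Fin 3) (Fin 3) F) *ᵥ v 2) := by
        module
      rw [e1, k1, k2]
      module
    exact smul_right_injective _ h2 e
  apply heis_swap_normalizes R a b ν v h3 haR hbR hν hav hbv hRcl _ l
  intro k
  fin_cases k
  · exact k0
  · exact hy1
  · exact hy2

/-- Elements of `SL₃(F)` with scalar cube are conjugate into the normalizer of a Heisenberg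
group, when `9 ∣ q - 1`. -/
theorem heis_fix_three [Fintype F] (h9 : 9 ∣ Fintype.card F - 1)
    (R : Subgroup (GL (Fin 3) F)) [Finite R] (a b c : GL (Fin 3) F)
    (ν : F) (v : Module.Basis (Fin 3) F (Fin 3 → F)) (h3 : (3 : F) ≠ 0)
    (haR : a ∈ R) (hbR : b ∈ R) (hcR : c ∈ R) (hν : ν ^ 2 + ν + 1 = 0)
    (hc : (c : Matrix (Fin 3) (Fin 3) F) = ν • (1 : Matrix (Fin 3) (Fin 3) F))
    (hav : ∀ k : Fin 3, (a : Matrix (Fin 3) (Fin 3) F) *ᵥ v k = ν ^ (k : ℕ) • v k)
    (hbv : ∀ k : Fin 3, (b : Matrix (Fin 3) (Fin 3) F) *ᵥ v k = v (k + 1))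
    (hRcl : R = Subgroup.closure {a, b})
    (x : GL (Fin 3) F) (hx : x ∈ Cfsg.Geo.specialLinear (Fin 3) F) (z : F)
    (hxz : (x : Matrix (Fin 3) (Fin 3) F) * (x : Matrix (Fin 3) (Fin 3) F) *
      (x : Matrix (Fin 3) (Fin 3) F) = z • 1) :
    ∃ g ∈ Cfsg.Geo.specialLinear (Fin 3) F,
      g⁻¹ * x * g ∈ Subgroup.normalizer (R : Set (GL (Fin 3) F)) := by
  rw [mem_sl_iff] at hx
  have hz3 : z ^ 3 = 1 := by
    have h1 := congrArg Matrix.det hxz
    rw [Matrix.det_mul, Matrix.det_mul, hx, Matrix.det_smul, Matrix.det_one, Fintype.card_fin,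
      mul_one, mul_one, mul_one] at h1
    exact h1.symm
  obtain ⟨s, hs0, hs⟩ := exists_cube_root h9 z hz3
  obtain ⟨u, l, hl⟩ := exists_eigenbasis_of_span (x : Matrix (Fin 3) (Fin 3) F)
    (fun l => l ^ 3 = z) (cube_span _ z s ν hν h3 hs.symm hs0 hxz)
  obtain ⟨g, hg, hgv⟩ := exists_sl_conj_basis x u v l (fun k => (hl k).2)
  exact ⟨g, hg, heis_diag_normalizes R a b c ν v h3 haR hbR hcR hν hc hav hbv hRcl _ l z hgv
    (fun k => (hl k).1)⟩

end

end Cfsg.Agent.H99
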