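import Cfsg.Agent.H64.JzDefs
import Cfsg.Agent.S2950
import Cfsg.Agent.S2951
import Cfsg.Agent.S2952
import Cfsg.Agent.Helper55.UqBase
import Cfsg.Agent.Helper55.J48
import Cfsg.Agent.H51.Local
import Cfsg.Agent.H59.PushKill2
import Cfsg.Agent.H54.UqO2SN
import Cfsg.Agent.H52.SrAsm
import Cfsg.Agent.H40.SrDEC
import Cfsg.Agent.H99.JzResB
import Cfsg.Agent.H12.JzOut1

/-!
# JY-GOOD (piece Y1 of the S2953 team project, leader helper64)

`Base S M T K L` gives all the clauses of S2953 for the single subgroup `P = K ⊔ T`: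
`C_G(O₂(P)) ≤ O₂(P)`, `T` is a Sylow 2-subgroup of `P`, `|P : O₂(P)| = 6`, `P / O₂(P)` is not
abelian, `[Ω₁Z(T), P] ≠ 1`, and `L` is the unique maximal 2-local subgroup over `P`, with `T` a
Sylow 2-subgroup of `L`.
-/

set_option autoImplicit false
set_option linter.style.haveILetI false
open Cfsg

universe u

namespace Cfsg.Agent.H99.Jy

open Cfsg.Agent.H64.Jz Cfsg.Agent.H99.JzResB

/-- the per-`P` clause of S2953, for `P` and the 2-subgroup `T` -/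
def GoodP {G : Type u} [Group G] (T P : Subgroup G) : Prop :=
  Subgroup.centralizer (pCoreOf 2 P : Set G) ≤ pCoreOf 2 P ∧ IsSylowTwoIn T P ∧
    (pCoreOf 2 P).relIndex P = 6 ∧ ¬ ⁅P, P⁆ ≤ pCoreOf 2 P ∧ ⁅omegaCenterOf T, P⁆ ≠ ⊥ ∧
    ∃ L : Subgroup G, IsMaximalTwoLocal L ∧ P ≤ L ∧ IsSylowTwoIn T L ∧
      ∀ L' : Subgroup G, IsMaximalTwoLocal L' → P ≤ L' → L' = L

/-- basic consequences of `Base`: `T` is a Sylow 2-subgroup of `L`, `L` is in the family of `T`,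
`K` is subnormal in `L`, `L` is the only maximal 2-local over `K ⊔ J(T)`, `T ≤ N(K)`. -/
theorem base_facts {G : Type u} [Group G] [Finite G] (S : Sylow 2 G) (M T K L : Subgroup G)
    (hB : Base S M T K L) :
    IsSylowTwoIn T L ∧ L ∈ jOvergroups T ∧ (K.subgroupOf L).IsSubnormal ∧
    (∀ L' : Subgroup G, IsMaximalTwoLocal L' → K ⊔ thompsonSubgroupOf 2 T ≤ L' → L' = L) ∧
    K ⊔ T ≤ Subgroup.normalizer (K : Set G) := by
  obtain ⟨⟨hL, hN, hZ⟩, hO, hM, hMJ, hT, hTS, hK, hLmax, hKL⟩ := hB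
  obtain ⟨L₀, hL₀max, hKL₀, huniq0, hsub0, hsyl0⟩ :=
    Cfsg.Agent.S2950.result hL hN hZ hO S M hM hMJ T hT K hK
  have hLL : L = L₀ := huniq0 L hLmax hKL
  have huniq : ∀ L' : Subgroup G, IsMaximalTwoLocal L' →
      K ⊔ thompsonSubgroupOf 2 T ≤ L' → L' = L :=
    fun L' h1 h2 => (huniq0 L' h1 h2).trans hLL.symm
  have hJT : thompsonSubgroupOf 2 T ≤ T := Subgroup.map_subtype_le _
  obtain ⟨L1, hL1max, hKTL1, -, hL1J, -⟩ :=
    Cfsg.Agent.Helper55.Uq.exists_max hL hN hZ S M hMJ T hT K hK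
  have hL1 : L1 = L := huniq L1 hL1max ((sup_le_sup_left hJT K).trans hKTL1)
  have hnorm := Cfsg.Agent.S2952.result hL hN hZ hO S M hM hMJ T hT K hK
  refine ⟨hLL ▸ hsyl0, hL1 ▸ hL1J, hLL ▸ hsub0, huniq, ?_⟩
  exact (Subgroup.normal_subgroupOf_iff_le_normalizer (le_sup_left : K ≤ K ⊔ T)).1 hnorm

/-- JY-GOOD: all per-`P` clauses of S2953 for `P = K ⊔ T`. -/
theorem good {G : Type u} [Group G] [Finite G] (S : Sylow 2 G) (M T K L : Subgroup G)
    (hB : Base S M T K L) : GoodP T (K ⊔ T) := by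
  obtain ⟨hsyl, hLJ, hsub, huniq, hPK⟩ := base_facts S M T K L hB
  obtain ⟨⟨hL, hN, hZ⟩, hO, hM, hMJ, hT, hTS, hK, hLmax, hKL⟩ := hB
  have hT2 : IsPGroup 2 ↥T := hT.1.1
  have hT1 : T ≠ ⊥ := hT.1.2.1
  obtain ⟨hc1, hc2, hc3, -, hW4, hWsq⟩ := hK.1.1
  have hJT : thompsonSubgroupOf 2 T ≤ T := Subgroup.map_subtype_le _
  have hTL : T ≤ L := hsyl.1
  have hPL : K ⊔ T ≤ L := sup_le (le_sup_left.trans hKL) hTL
  -- `T` is a Sylow 2-subgroup of `P`
  have hsylP : IsSylowTwoIn T (K ⊔ T) := by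
    refine ⟨le_sup_right, hsyl.2.1, ?_⟩
    have h := Subgroup.relIndex_mul_relIndex (H := T) (K := K ⊔ T) (L := L) le_sup_right hPL
    have h2 : Odd (T.relIndex L) := hsyl.2.2
    rw [← h] at h2
    exact (Nat.odd_mul.mp h2).1
  -- `O₂(L) ≤ O₂(P)` and the centralizer clause
  have hOL_T : pCoreOf 2 L ≤ T := Cfsg.Agent.Helper55.J48.pCoreOf_le_of_sylowIn hsyl
  have hOL_P : pCoreOf 2 L ≤ pCoreOf 2 (K ⊔ T) :=
    Cfsg.Agent.H51.le_pCoreOf 2 (hOL_T.trans le_sup_right)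
      (hPL.trans (Cfsg.Agent.Helper55.J48.le_normalizer_pCoreOf L))
      (Cfsg.Agent.H51.pCoreOf_isPGroup 2 L)
  have hcent : Subgroup.centralizer (pCoreOf 2 (K ⊔ T) : Set G) ≤ pCoreOf 2 (K ⊔ T) :=
    (Subgroup.centralizer_le (SetLike.coe_subset_coe.mpr hOL_P)).trans
      ((Cfsg.Agent.Helper55.J48.centralizer_pCoreOf_le hL hLmax.1).trans hOL_P)
  -- `O₂(K) ≤ T`
  have hOK : pCoreOf 2 K ≤ K := Cfsg.Agent.H51.pCoreOf_le 2 K
  have hOT : pCoreOf 2 K ≤ T :=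
    (Cfsg.Agent.H54.Uq.o2sn K L (le_sup_left.trans hKL) hsub).trans hOL_T
  -- `K ⊄ T`
  have hKT : ¬ K ≤ T := by
    intro hKT
    have hKbot : K = ⊥ := by
      rw [← hc1, Subgroup.closure_eq_bot_iff]
      rintro g ⟨hgK, hodd⟩
      obtain ⟨n, hn⟩ := hT2 ⟨g, hKT hgK⟩
      have hn' : g ^ 2 ^ n = 1 := congrArg Subtype.val hn
      have hdvd : orderOf g ∣ 2 ^ n := orderOf_dvd_of_pow_eq_one hn'
      have hcop : Nat.Coprime (orderOf g) (2 ^ n) :=
        Nat.Coprime.pow_right n (Nat.coprime_two_right.mpr hodd)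
      have h1 : orderOf g = 1 := Nat.Coprime.eq_one_of_dvd hcop hdvd
      exact orderOf_eq_one_iff.mp h1
    rw [hKbot, Subgroup.relIndex_bot_right] at hc3
    omega
  -- `K` does not normalize `T`
  have hKNT : ¬ K ≤ Subgroup.normalizer (T : Set G) := by
    intro hKN
    apply hKT
    rw [← hc2, Subgroup.commutator_le]
    intro k hk j hj
    have h1 : k * j * k⁻¹ ∈ T := (Subgroup.mem_normalizer_iff.mp (hKN hk) j).mp (hJT hj)
    rw [commutatorElement_def]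
    exact mul_mem h1 (inv_mem (hJT hj))
  -- the structure of `P = K T`
  have hTK : T ≤ Subgroup.normalizer (K : Set G) := le_sup_right.trans hPK
  obtain ⟨Q, hQT, hPQ, hQ2, hQdich⟩ :=
    Cfsg.Agent.H59.PushKill.pstruct K T (pCoreOf 2 K) hT2 hTK hOK hOT hc3 hc1
  have hD_T : pCoreOf 2 (K ⊔ T) ≤ T := Cfsg.Agent.Helper55.J48.pCoreOf_le_of_sylowIn hsylP
  have hDnorm : ∀ x ∈ K ⊔ T,
      Cfsg.Agent.H59.PushKill.cj (pCoreOf 2 (K ⊔ T)) x = pCoreOf 2 (K ⊔ T) := by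
    intro x hx
    exact Cfsg.Agent.H12.Jz.map_conj_eq_of_mem_normalizer
      (Cfsg.Agent.Helper55.J48.le_normalizer_pCoreOf (K ⊔ T) hx)
  have hDQ : pCoreOf 2 (K ⊔ T) ≤ Q := by
    rcases hQdich (pCoreOf 2 (K ⊔ T)) (Cfsg.Agent.H51.pCoreOf_le 2 _) hDnorm with h | h
    · exact h
    · exact absurd (h.trans hD_T) hKT
  have hQD : Q ≤ pCoreOf 2 (K ⊔ T) :=
    Cfsg.Agent.H51.le_pCoreOf 2 (hQT.trans le_sup_right) hPQ (hT2.to_le hQT)
  have hDeq : pCoreOf 2 (K ⊔ T) = Q := le_antisymm hDQ hQD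
  have hQneT : Q ≠ T := by
    intro h
    apply hKNT
    rw [← h]
    exact le_sup_left.trans hPQ
  have hQrel : Q.relIndex T = 2 := by
    have h1 : Q.relIndex T ≠ 1 := by
      intro h1
      exact hQneT (le_antisymm hQT (Subgroup.relIndex_eq_one.mp h1))
    have h0 : Q.relIndex T ≠ 0 := Subgroup.index_ne_zero_of_finite
    omega
  have h3 : T.relIndex (K ⊔ T) = 3 := by
    have hKP : K ≤ K ⊔ T := le_sup_left
    have hTP : T ≤ K ⊔ T := le_sup_right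
    haveI : (K.subgroupOf (K ⊔ T)).Normal := Subgroup.normal_subgroupOf_of_le_normalizer hPK
    have hsup : K.subgroupOf (K ⊔ T) ⊔ T.subgroupOf (K ⊔ T) = ⊤ := by
      rw [← Subgroup.subgroupOf_sup hKP hTP, Subgroup.subgroupOf_self]
    have hT0 : IsPGroup 2 (T.subgroupOf (K ⊔ T)) := hT2.comap_subtype
    exact Cfsg.Agent.H59.PushKill.index_eq_three (K.subgroupOf (K ⊔ T)) (T.subgroupOf (K ⊔ T))
      ((pCoreOf 2 K).subgroupOf (K ⊔ T)) hsup hT0 (fun x hx => hOK hx) (fun x hx => hOT hx)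
      (by rw [Subgroup.relIndex_subgroupOf hKP]; exact hc3)
  have h6 : (pCoreOf 2 (K ⊔ T)).relIndex (K ⊔ T) = 6 := by
    rw [hDeq, ← Subgroup.relIndex_mul_relIndex (H := Q) (K := T) (L := K ⊔ T) hQT le_sup_right,
      hQrel, h3]
  -- the quotient is not abelian
  have hna : ¬ ⁅K ⊔ T, K ⊔ T⁆ ≤ pCoreOf 2 (K ⊔ T) := by
    intro h
    apply hKNT
    have key : ∀ x ∈ K ⊔ T, ∀ t ∈ T, x * t * x⁻¹ ∈ T := by
      intro x hx t ht
      have hc := Subgroup.commutator_mem_commutator hx ((le_sup_right : T ≤ K ⊔ T) ht)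
      rw [commutatorElement_def] at hc
      have hcT : x * t * x⁻¹ * t⁻¹ ∈ T := hD_T (h hc)
      have e : x * t * x⁻¹ = x * t * x⁻¹ * t⁻¹ * t := by
        group
      rw [e]
      exact mul_mem hcT ht
    intro k hk
    rw [Subgroup.mem_normalizer_iff]
    intro t
    constructor
    · intro ht
      exact key k ((le_sup_left : K ≤ K ⊔ T) hk) t ht
    · intro ht
      have h' := key k⁻¹ (inv_mem ((le_sup_left : K ≤ K ⊔ T) hk)) _ ht
      have e : k⁻¹ * (k * t * k⁻¹) * k⁻¹⁻¹ = t := by group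
      rwa [e] at h'
  -- `[Ω₁Z(T), P] ≠ 1`
  have hZc : ⁅omegaCenterOf T, K ⊔ T⁆ ≠ ⊥ := by
    intro hbot
    obtain ⟨hne, hcl⟩ := Cfsg.Agent.S2951.result hL hN hZ hO S M hM hMJ T hT hTS K hK L hLmax hKL
      (omegaCenterOf (S : Subgroup G)) (omegaCenterOf (thompsonSubgroupOf 2 T)) rfl rfl
    have hZS : omegaCenterOf (S : Subgroup G) = omegaCenterOf (thompsonSubgroupOf 2 T) →
        omegaCenterOf (thompsonSubgroupOf 2 T) ≤ omegaCenterOf T := by
      intro h1 x hx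
      have hxS := hx
      rw [← h1] at hxS
      obtain ⟨-, hxC, hx2⟩ := memOC _ hxS
      exact ocMem T (hJT (memOC _ hx).1)
        (Subgroup.centralizer_le (SetLike.coe_subset_coe.mpr hTS) hxC) hx2
    have hZ0T : omegaCenterOf (thompsonSubgroupOf 2 T) ≤ omegaCenterOf T := by
      rcases hcl with ⟨h1, -⟩ | ⟨h1, -, -⟩ | ⟨h1, -, -⟩
      · exact hZS h1
      · exact hZS h1
      · rw [h1]
    obtain ⟨w, hw, hw1⟩ : ∃ w ∈ omegaCenterOf (thompsonSubgroupOf 2 T) ⊓ wOf K, w ≠ 1 := by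
      by_contra hcon
      push Not at hcon
      exact hne (eq_bot_iff.mpr (fun x hx => Subgroup.mem_bot.mpr (hcon x hx)))
    have hwZT : w ∈ omegaCenterOf T := hZ0T (Subgroup.mem_inf.mp hw).1
    have hwW : w ∈ wOf K := (Subgroup.mem_inf.mp hw).2
    have hwC : w ∈ Subgroup.centralizer (K : Set G) := by
      rw [Subgroup.mem_centralizer_iff]
      intro k hk
      have hc := Subgroup.commutator_mem_commutator hwZT ((le_sup_left : K ≤ K ⊔ T) hk)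
      rw [hbot, Subgroup.mem_bot, commutatorElement_eq_one_iff_mul_comm] at hc
      exact hc.symm
    have hVL : omegaCenterOf (pCoreOf 2 L) ≤ L :=
      fun x hx => Cfsg.Agent.H51.pCoreOf_le 2 L (memOC _ hx).1
    have hfpf := (Cfsg.Agent.H52.Sr.comp1 Cfsg.Agent.H40.Sr.dec hL hN hZ T hT2 hT1 L hLJ hVL K
      hK.1.1 (le_sup_left.trans hKL)).2.2.2
    have hmem : w ∈ wOf K ⊓ Subgroup.centralizer (K : Set G) := Subgroup.mem_inf.mpr ⟨hwW, hwC⟩
    rw [hfpf, Subgroup.mem_bot] at hmem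
    exact hw1 hmem
  exact ⟨hcent, hsylP, h6, hna, hZc, L, hLmax, hPL, hsyl,
    fun L' h1 h2 => huniq L' h1 ((sup_le_sup_left hJT K).trans h2)⟩

end Cfsg.Agent.H99.Jy

#print axioms Cfsg.Agent.H99.Jy.good
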