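import Cfsg.Agent.H52.JxDefs
import Cfsg.Agent.H29.R1Out
import Cfsg.Agent.H48.JxSV
import Cfsg.Agent.H97.JyPFacts
import Cfsg.Agent.H99.JyGood
import Cfsg.Agent.H54.CharP2
import Cfsg.Agent.H66.JyOz

/-!
# JX-KBNORM (piece X5 of the kill of S2953, leader helper52)

In the residual configuration, if `V = Ω₁Z(O₂(L))` is not inside `Q₁ = O₂(K' ⊔ T')`, then every
element of `N_S(T')` normalizes `Q₁`.  Direct glue: the abstract core `H29.R1.r1_out_core`, the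
facts on `V` of helper48 (`H48.Jx.sv`, `H48.Jy.vfacts`) and the structure of `K' ⊔ T'` of
helper97 (`H97.Jy.pfacts`).
-/

set_option autoImplicit false
open Cfsg

universe u

namespace Cfsg.Agent.H99.Jx

open Cfsg.Agent.H64.Jz Cfsg.Agent.H64.Jy Cfsg.Agent.H52.Jx

/-- the conjugation statement behind JX-KBNORM: every `s ∈ N_S(T')` maps `Q₁` into itself -/
theorem kbConj {G : Type u} [Group G] [Finite G] (S : Sylow 2 G) (M K L T' K' L' : Subgroup G)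
    (hR : RCtx2 S M K L T' K' L') (hVQ : ¬ Vof L ≤ pCoreOf 2 (K' ⊔ T')) (s : G)
    (hs : s ∈ (S : Subgroup G)) (hsT : s ∈ Subgroup.normalizer (T' : Set G)) :
    ∀ q ∈ pCoreOf 2 (K' ⊔ T'), s * q * s⁻¹ ∈ pCoreOf 2 (K' ⊔ T') := by
  obtain ⟨hB, hNS, hB', hne⟩ := hR
  obtain ⟨-, -, -, ⟨z, hzV, hz1, hzS, hzO, -, -⟩, hCu, -⟩ :=
    Cfsg.Agent.H48.Jy.vfacts S M K L T' K' L' hB hNS hB' hne
  obtain ⟨hsS, hvS, -, -, hz2, hzc, hVS, hVT, hV2⟩ :=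
    Cfsg.Agent.H48.Jx.sv S M K L T' K' L' ⟨hB, hNS, hB', hne⟩ z hzS hz1
  -- facts on `P' = K' ⊔ T'`
  obtain ⟨hsylL', -, -, -, hPK⟩ := Cfsg.Agent.H99.Jy.base_facts S L T' K' L' hB'
  obtain ⟨-, hsylP, -, -, -, -⟩ := Cfsg.Agent.H99.Jy.good S L T' K' L' hB'
  obtain ⟨hOO, hOL'T, hT'S, hK'L', hT'L'⟩ := Cfsg.Agent.H66.Jy.core_chain S L T' K' L' hB'
  have hT2 : IsPGroup 2 ↥T' := hsylP.2.1
  have hK' := hB'.2.2.2.2.2.2.1
  obtain ⟨hc1, -, hc3, -, -, -⟩ := hK'.1.1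
  have hK'L : ¬ K' ≤ L := hK'.2.1
  have hQT : pCoreOf 2 (K' ⊔ T') ≤ T' := Cfsg.Agent.Helper55.J48.pCoreOf_le_of_sylowIn hsylP
  have hPQ : K' ⊔ T' ≤ Subgroup.normalizer (pCoreOf 2 (K' ⊔ T') : Set G) :=
    Cfsg.Agent.Helper55.J48.le_normalizer_pCoreOf (K' ⊔ T')
  have hPL' : K' ⊔ T' ≤ L' := sup_le hK'L' hT'L'
  have hOL'Q : pCoreOf 2 L' ≤ pCoreOf 2 (K' ⊔ T') :=
    Cfsg.Agent.H51.le_pCoreOf 2 (hOL'T.trans le_sup_right)
      (hPL'.trans (Cfsg.Agent.Helper55.J48.le_normalizer_pCoreOf L'))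
      (Cfsg.Agent.H51.pCoreOf_isPGroup 2 L')
  have hzQ : z ∈ pCoreOf 2 (K' ⊔ T') := hOL'Q hzO
  -- the abstract structure of `P'`
  have hOK : pCoreOf 2 K' ≤ K' := Cfsg.Agent.H51.pCoreOf_le 2 K'
  have hOT : pCoreOf 2 K' ≤ T' := hOO.trans hOL'T
  have hTK : T' ≤ Subgroup.normalizer (K' : Set G) := le_sup_right.trans hPK
  have hOnK : K' ≤ Subgroup.normalizer (pCoreOf 2 K' : Set G) :=
    Cfsg.Agent.Helper55.J48.le_normalizer_pCoreOf K'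
  have hOnT : T' ≤ Subgroup.normalizer (pCoreOf 2 K' : Set G) :=
    hTK.trans (Cfsg.Agent.H54.normalizer_le_normalizer_pCoreOf K')
  have hO2 : IsPGroup 2 ↥(pCoreOf 2 K') := Cfsg.Agent.H51.pCoreOf_isPGroup 2 K'
  obtain ⟨D, k0, hDT, hOD, hKD, hTD, hD2, hinv, -, hcube, -, -, -, -, -⟩ :=
    Cfsg.Agent.H97.Jy.pfacts K' T' (pCoreOf 2 K') hT2 hTK hOK hOT hc3 hOnK hOnT hc1
  have hDQ : D ≤ pCoreOf 2 (K' ⊔ T') :=
    Cfsg.Agent.H51.le_pCoreOf 2 (hDT.trans le_sup_right) (sup_le hKD hTD) (hT2.to_le hDT)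
  -- the element `v`
  obtain ⟨v, hvV, hvQ⟩ := SetLike.not_le_iff_exists.mp hVQ
  have hvT : v ∈ T' := hVT hvV
  have hv2 : v * v = 1 := hV2 v hvV
  have hvD : v ∉ D := fun h => hvQ (hDQ h)
  -- the element `k`
  obtain ⟨k, hkK, hkodd, hkL⟩ : ∃ k ∈ K', Odd (orderOf k) ∧ k ∉ L := by
    by_contra hcon
    push_neg at hcon
    apply hK'L
    rw [← hc1, Subgroup.closure_le]
    rintro g ⟨hgK, hodd⟩
    exact hcon g hgK hodd
  have hk3 : k ^ 3 = 1 :=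
    Cfsg.Agent.H97.Jy.eq_one_of_odd_of_two hO2 (hcube k hkK)
      (Odd.of_dvd_nat hkodd (orderOf_pow_dvd 3))
  have hkz : k * z * k⁻¹ ≠ z := by
    intro h
    apply hkL
    apply hCu z hzV hz1
    rw [Subgroup.mem_centralizer_iff]
    intro y hy
    rw [Set.mem_singleton_iff.mp hy]
    calc z * k = k * z * k⁻¹ * k := by rw [h]
      _ = k * z := by group
  have hkQ : ∀ q ∈ pCoreOf 2 (K' ⊔ T'), k * q * k⁻¹ ∈ pCoreOf 2 (K' ⊔ T') :=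
    fun q hq => (Subgroup.mem_normalizer_iff.mp (hPQ ((le_sup_left : K' ≤ K' ⊔ T') hkK)) q).mp hq
  have hvk' : v * k * v⁻¹ * k ∈ pCoreOf 2 (K' ⊔ T') := hDQ (hOD (hinv v hvT hvD k hkK))
  have hTQv : ∀ t ∈ T', t ∈ pCoreOf 2 (K' ⊔ T') ∨ t * v ∈ pCoreOf 2 (K' ⊔ T') := by
    intro t ht
    by_cases htD : t ∈ D
    · exact Or.inl (hDQ htD)
    · exact Or.inr (hDQ (hD2 t ht v hvT htD hvD))
  exact Cfsg.Agent.H29.R1.r1_out_core T' (pCoreOf 2 (K' ⊔ T')) z v k s hQT hvT hTQv hv2 hz2 hzQ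
    (fun t ht => hzc t (hT'S ht))
    (fun q hq => hvS v hvV q (hT'S (hQT hq))) hk3 hkz hkQ hvk'
    (fun t ht => (Subgroup.mem_normalizer_iff.mp hsT t).mp ht) (hsS s hs v hvV)

/-- JX-KBNORM. -/
theorem kbNorm : StKBNorm.{u} := by
  intro G _ _ S M K L T' K' L' hR hVQ x hxS hxT
  refine Cfsg.Agent.H97.Jy.mem_normalizer_of_conj _ x
    (kbConj S M K L T' K' L' hR hVQ x hxS hxT) ?_
  intro t ht
  have h := kbConj S M K L T' K' L' hR hVQ x⁻¹ (inv_mem hxS) (inv_mem hxT) t ht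
  simpa using h

example : Cfsg.Agent.H52.Jx.StKBNorm.{u} := kbNorm.{u}

end Cfsg.Agent.H99.Jx

#print axioms Cfsg.Agent.H99.Jx.kbNorm
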