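import Cfsg.Agent.H99.JyGood
import Cfsg.Agent.H64.JyDefs
import Cfsg.Agent.H52.JwDefs

/-!
# JY-GOOD / JY-GOODA / JY-GOODB / JY-GOODC (helper64's `H64.JyDefs`) and
# W-PC / W-PS / W-P6 / W-PZ / W-PL (helper52's `H52.JwDefs`) for S2953, exact Props

All are restatements of `Cfsg.Agent.H99.Jy.good` / `base_facts` (`H99/JyGood.lean`).
-/

set_option autoImplicit false
open Cfsg

universe u

namespace Cfsg.Agent.H99.Jy

open Cfsg.Agent.H64.Jz

/-- JY-GOOD. -/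
theorem stGood : Cfsg.Agent.H64.Jy.StGood.{u} := by
  intro G _ _ S M T K L hB
  exact good S M T K L hB

/-- JY-GOODA. -/
theorem stGoodA : Cfsg.Agent.H64.Jy.StGoodA.{u} := by
  intro G _ _ S M T K L hB
  have h := good S M T K L hB
  exact ⟨h.1, h.2.1, h.2.2.2.2.2⟩

/-- JY-GOODB. -/
theorem stGoodB : Cfsg.Agent.H64.Jy.StGoodB.{u} := by
  intro G _ _ S M T K L hB
  have h := good S M T K L hB
  exact ⟨h.2.2.1, h.2.2.2.1⟩

/-- JY-GOODC. -/
theorem stGoodC : Cfsg.Agent.H64.Jy.StGoodC.{u} := by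
  intro G _ _ S M T K L hB
  exact (good S M T K L hB).2.2.2.2.1

/-- W-PC. -/
theorem stPC : Cfsg.Agent.H52.Jw.StPC.{u} := by
  intro G _ _ S M T K L hB
  exact (good S M T K L hB).1

/-- W-PS. -/
theorem stPS : Cfsg.Agent.H52.Jw.StPS.{u} := by
  intro G _ _ S M T K L hB
  exact (good S M T K L hB).2.1

/-- W-P6. -/
theorem stP6 : Cfsg.Agent.H52.Jw.StP6.{u} := by
  intro G _ _ S M T K L hB
  have h := good S M T K L hB
  exact ⟨h.2.2.1, h.2.2.2.1⟩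

/-- W-PZ. -/
theorem stPZ : Cfsg.Agent.H52.Jw.StPZ.{u} := by
  intro G _ _ S M T K L hB
  exact (good S M T K L hB).2.2.2.2.1

/-- W-PL. -/
theorem stPL : Cfsg.Agent.H52.Jw.StPL.{u} := by
  intro G _ _ S M T K L hB
  obtain ⟨hsyl, -, -, huniq, -⟩ := base_facts S M T K L hB
  have hKL : K ⊔ thompsonSubgroupOf 2 T ≤ L := hB.2.2.2.2.2.2.2.2
  have hJT : thompsonSubgroupOf 2 T ≤ T := Subgroup.map_subtype_le _
  exact ⟨sup_le (le_sup_left.trans hKL) hsyl.1, hsyl,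
    fun L' h1 h2 => huniq L' h1 ((sup_le_sup_left hJT K).trans h2)⟩

/-- the per-`P` clauses in helper52's form -/
theorem pClauses {G : Type u} [Group G] [Finite G] (S : Sylow 2 G) (M T K L : Subgroup G)
    (hB : Base S M T K L) : Cfsg.Agent.H52.Jw.PClauses T (K ⊔ T) :=
  good S M T K L hB

example : Cfsg.Agent.H64.Jy.StGood.{u} := stGood.{u}
example : Cfsg.Agent.H64.Jy.StGoodA.{u} := stGoodA.{u}
example : Cfsg.Agent.H64.Jy.StGoodB.{u} := stGoodB.{u}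
example : Cfsg.Agent.H64.Jy.StGoodC.{u} := stGoodC.{u}
example : Cfsg.Agent.H52.Jw.StPC.{u} := stPC.{u}
example : Cfsg.Agent.H52.Jw.StPS.{u} := stPS.{u}
example : Cfsg.Agent.H52.Jw.StP6.{u} := stP6.{u}
example : Cfsg.Agent.H52.Jw.StPZ.{u} := stPZ.{u}
example : Cfsg.Agent.H52.Jw.StPL.{u} := stPL.{u}

end Cfsg.Agent.H99.Jy

#print axioms Cfsg.Agent.H99.Jy.stGood
#print axioms Cfsg.Agent.H99.Jy.stPL
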