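import Cfsg.Agent.H64.JzDefs
import Cfsg.Agent.H26.JzAEq
import Cfsg.Agent.S2946

/-!
# JZ-RESA (piece 10 of the S2951 / S2952 team project "JZ", leader helper64)

In the residual situation (R), if `T'` has an elementary abelian subgroup of the largest order of
`S`, then `Ω₁Z(S) = Ω₁Z(J(S))` has order 2.
-/

set_option autoImplicit false
open Cfsg

universe u

namespace Cfsg.Agent.H99.JzResA

variable {G : Type u} [Group G]

/-- elements of `Ω₁(Z(X))` lie in `X`, centralize `X` and square to one -/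
theorem memOC (X : Subgroup G) {x : G} (hx : x ∈ omegaCenterOf X) :
    x ∈ X ∧ x ∈ Subgroup.centralizer (X : Set G) ∧ x ^ 2 = 1 := by
  unfold omegaCenterOf omegaOne at hx
  induction hx using Subgroup.closure_induction with
  | mem y hy => exact ⟨(Subgroup.mem_inf.mp hy.1).1, (Subgroup.mem_inf.mp hy.1).2, hy.2⟩
  | one => exact ⟨one_mem _, one_mem _, one_pow _⟩
  | mul a b _ _ ha hb =>
    refine ⟨mul_mem ha.1 hb.1, mul_mem ha.2.1 hb.2.1, ?_⟩
    have hc : b * a = a * b := (Subgroup.mem_centralizer_iff.mp ha.2.1) b hb.1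
    have hc' : Commute a b := hc.symm
    rw [hc'.mul_pow, ha.2.2, hb.2.2, one_mul]
  | inv a _ ha =>
    refine ⟨inv_mem ha.1, inv_mem ha.2.1, ?_⟩
    rw [inv_pow, ha.2.2, inv_one]

theorem ocMem (X : Subgroup G) {x : G} (h1 : x ∈ X)
    (h2 : x ∈ Subgroup.centralizer (X : Set G)) (h3 : x ^ 2 = 1) : x ∈ omegaCenterOf X := by
  unfold omegaCenterOf omegaOne
  exact Subgroup.subset_closure ⟨Subgroup.mem_inf.mpr ⟨h1, h2⟩, h3⟩

/-- the centralizer of a nontrivial element of square one is contained in a 2-local subgroup,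
namely the normalizer of the subgroup it generates -/
theorem twoLocal_zpowers {y : G} (hy1 : y ≠ 1) (hy2 : y ^ 2 = 1) :
    IsTwoLocal (Subgroup.normalizer ((Subgroup.zpowers y : Subgroup G) : Set G)) := by
  refine ⟨Subgroup.zpowers y, ?_, ?_, rfl⟩
  · intro g
    refine ⟨1, ?_⟩
    obtain ⟨k, hk⟩ := Subgroup.mem_zpowers_iff.mp g.2
    apply Subtype.ext
    rw [pow_one]
    change (g : G) ^ 2 = 1
    rw [← hk, ← zpow_natCast, ← zpow_mul, mul_comm, zpow_mul, zpow_natCast, hy2, one_zpow]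
  · intro h
    apply hy1
    have : y ∈ (⊥ : Subgroup G) := h ▸ Subgroup.mem_zpowers y
    exact Subgroup.mem_bot.mp this

theorem le_normalizer_zpowers {y : G} {H : Subgroup G}
    (hH : ∀ g ∈ H, g * y = y * g) :
    H ≤ Subgroup.normalizer ((Subgroup.zpowers y : Subgroup G) : Set G) := by
  intro g hg
  apply Subgroup.centralizer_le_normalizer
  rw [Subgroup.mem_centralizer_iff]
  intro h hh
  obtain ⟨k, rfl⟩ := Subgroup.mem_zpowers_iff.mp hh
  have hc : Commute g y := hH g hg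
  exact (hc.zpow_right k).eq.symm

/-- in an abelian situation, `C ⊔ {1, w}` consists of `C` and `C w` -/
theorem sup_two (C W A : Subgroup G) (hA : ∀ a ∈ A, ∀ b ∈ A, a * b = b * a) (hCA : C ≤ A)
    (hWA : W ≤ A) (w : G) (hw : ∀ x ∈ W, x = 1 ∨ x = w) (hww : w * w = 1) (hwW : w ∈ W) :
    ∀ x ∈ C ⊔ W, x ∈ C ∨ x * w ∈ C := by
  intro x hx
  have key : x ∈ A ∧ (x ∈ C ∨ x * w ∈ C) := by
    rw [Subgroup.sup_eq_closure] at hx
    induction hx using Subgroup.closure_induction with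
    | mem y hy =>
      rcases hy with hy | hy
      · exact ⟨hCA hy, Or.inl hy⟩
      · refine ⟨hWA hy, ?_⟩
        rcases hw y hy with rfl | rfl
        · exact Or.inl (one_mem _)
        · right
          rw [hww]
          exact one_mem _
    | one => exact ⟨one_mem _, Or.inl (one_mem _)⟩
    | mul a b _ _ ha hb =>
      refine ⟨mul_mem ha.1 hb.1, ?_⟩
      have hwA : w ∈ A := hWA hwW
      rcases ha.2 with h1 | h1 <;> rcases hb.2 with h2 | h2
      · exact Or.inl (mul_mem h1 h2)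
      · right
        rw [mul_assoc]
        exact mul_mem h1 h2
      · right
        have e : a * b * w = a * w * b := by
          rw [mul_assoc, hA b hb.1 w hwA, ← mul_assoc]
        rw [e]
        exact mul_mem h1 h2
      · left
        have e : a * b = a * w * (b * w) := by
          rw [mul_assoc a w, ← mul_assoc w b w, ← hA b hb.1 w hwA, mul_assoc b w w, hww,
            mul_one]
        rw [e]
        exact mul_mem h1 h2
    | inv a _ ha =>
      refine ⟨inv_mem ha.1, ?_⟩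
      have hwA : w ∈ A := hWA hwW
      rcases ha.2 with h1 | h1
      · exact Or.inl (inv_mem h1)
      · right
        have hwi : w⁻¹ = w := inv_eq_of_mul_eq_one_left hww
        have e : a⁻¹ * w = (a * w)⁻¹ := by
          rw [mul_inv_rev, hwi]
          have hai : a⁻¹ ∈ A := inv_mem ha.1
          exact hA _ hai w hwA
        rw [e]
        exact inv_mem h1
  exact key.2

/-- a subgroup of `C ⊔ {1, w}` meeting `C` trivially has at most two elements -/
theorem card_le_two (Z C W A : Subgroup G) (hA : ∀ a ∈ A, ∀ b ∈ A, a * b = b * a) (hCA : C ≤ A)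
    (hWA : W ≤ A) (hW : Nat.card ↥W = 2) (hZ : Z ≤ C ⊔ W) (hZC : Z ⊓ C = ⊥) :
    Nat.card ↥Z ≤ 2 := by
  -- the nontrivial element of `W`
  obtain ⟨w', hw', hwu⟩ := (Nat.card_eq_two_iff' (1 : ↥W)).mp hW
  have hw1 : (w' : G) ≠ 1 := fun h => hw' (Subtype.ext h)
  have hwall : ∀ x ∈ W, x = 1 ∨ x = (w' : G) := by
    intro x hx
    by_cases hx1 : x = 1
    · exact Or.inl hx1
    · right
      have := hwu ⟨x, hx⟩ (fun h => hx1 (congrArg Subtype.val h))
      exact congrArg Subtype.val this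
  have hww : (w' : G) * (w' : G) = 1 := by
    have h1 : (w' : G) * (w' : G) ∈ W := W.mul_mem w'.2 w'.2
    rcases hwall _ h1 with h | h
    · exact h
    · exfalso
      apply hw1
      have : (w' : G) * (w' : G) = (w' : G) * 1 := by rw [mul_one]; exact h
      exact mul_left_cancel this
  have hdich := sup_two C W A hA hCA hWA (w' : G) hwall hww w'.2
  -- any two nontrivial elements of `Z` coincide
  have huniq : ∀ x ∈ Z, ∀ y ∈ Z, x ≠ 1 → y ≠ 1 → x = y := by
    intro x hx y hy hx1 hy1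
    have hxC : x ∉ C := fun h => hx1 (by
      have : x ∈ Z ⊓ C := Subgroup.mem_inf.mpr ⟨hx, h⟩
      rw [hZC] at this
      exact Subgroup.mem_bot.mp this)
    have hyC : y ∉ C := fun h => hy1 (by
      have : y ∈ Z ⊓ C := Subgroup.mem_inf.mpr ⟨hy, h⟩
      rw [hZC] at this
      exact Subgroup.mem_bot.mp this)
    have hx2 : x * (w' : G) ∈ C := (hdich x (hZ hx)).resolve_left hxC
    have hy2 : y * (w' : G) ∈ C := (hdich y (hZ hy)).resolve_left hyC
    have h5 : x * y⁻¹ ∈ C := by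
      have e : x * y⁻¹ = x * (w' : G) * (y * (w' : G))⁻¹ := by group
      rw [e]
      exact mul_mem hx2 (inv_mem hy2)
    have h6 : x * y⁻¹ ∈ Z ⊓ C := Subgroup.mem_inf.mpr ⟨Z.mul_mem hx (Z.inv_mem hy), h5⟩
    rw [hZC] at h6
    exact mul_inv_eq_one.mp (Subgroup.mem_bot.mp h6)
  by_cases hZb : Z = ⊥
  · rw [hZb, Subgroup.card_bot]
    norm_num
  · obtain ⟨a, ha⟩ := (Subgroup.ne_bot_iff_exists_ne_one).mp hZb
    have : Nat.card ↥Z = 2 := (Nat.card_eq_two_iff' (1 : ↥Z)).mpr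
      ⟨a, ha, fun y hy => Subtype.ext (huniq y y.2 a a.2 (fun h => hy (Subtype.ext h))
        (fun h => ha (Subtype.ext h)))⟩
    omega

variable [Finite G]

open Cfsg.Agent.Helper55.ThJ in
/-- `Ω₁Z(S) ≤ Ω₁Z(J(S))` -/
theorem omegaCenter_le_omegaCenter_J (S : Subgroup G) :
    omegaCenterOf S ≤ omegaCenterOf (thompsonSubgroupOf 2 S) := by
  intro x hx
  obtain ⟨hxS, hxC, hx2⟩ := memOC S hx
  obtain ⟨A, hA⟩ := gens_nonempty S
  have hxA : x ∈ A := Cfsg.Agent.H26.Jz.mem_gen_of_commute hA hxS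
    (fun a ha => Subgroup.mem_centralizer_iff.mp hxC a (hA.1 ha)) hx2
  refine ocMem _ (gen_le_J hA hxA) ?_ hx2
  exact Subgroup.centralizer_le (by exact_mod_cast J_le S) hxC

/-- a nontrivial 2-subgroup has `Ω₁Z ≠ 1` -/
theorem omegaCenter_ne_bot (S : Subgroup G) (hS : IsPGroup 2 ↥S) (hne : S ≠ ⊥) :
    omegaCenterOf S ≠ ⊥ := by
  haveI : Fact (Nat.Prime 2) := ⟨Nat.prime_two⟩
  have hnt : Nontrivial ↥S := (Subgroup.nontrivial_iff_ne_bot S).2 hne
  have hcn : Nontrivial (Subgroup.center ↥S) := hS.center_nontrivial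
  have hpc : 2 ∣ Nat.card (Subgroup.center ↥S) := by
    obtain ⟨k, hk⟩ := (IsPGroup.iff_card.1 (hS.to_subgroup (Subgroup.center ↥S)))
    have hk0 : k ≠ 0 := by
      rintro rfl
      rw [pow_zero] at hk
      have := Finite.one_lt_card (α := Subgroup.center ↥S)
      omega
    rw [hk]; exact dvd_pow_self 2 hk0
  obtain ⟨z', hz'⟩ := exists_prime_orderOf_dvd_card' 2 hpc
  have hzc : (z' : ↥S) ∈ Subgroup.center ↥S := z'.2
  have hzo : orderOf ((z' : ↥S) : G) = 2 := by
    rw [Subgroup.orderOf_coe, Subgroup.orderOf_coe]; exact hz'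
  intro hbot
  have hmem : ((z' : ↥S) : G) ∈ omegaCenterOf S := by
    refine ocMem S (z' : ↥S).2 ?_ ?_
    · rw [Subgroup.mem_centralizer_iff]
      intro v hv
      have := Subgroup.mem_center_iff.1 hzc ⟨v, hv⟩
      exact congrArg Subtype.val this
    · rw [← hzo]; exact pow_orderOf_eq_one _
  rw [hbot, Subgroup.mem_bot] at hmem
  rw [hmem, orderOf_one] at hzo
  norm_num at hzo

end Cfsg.Agent.H99.JzResA

namespace Cfsg.Agent.H99.Jz

open Cfsg.Agent.H99.JzResA

/-- JZ-RESA. -/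
theorem resA : Cfsg.Agent.H64.Jz.StResA.{u} := by
  intro G _ _ S M K L T' K' L' hR ha
  obtain ⟨hB1, hX, hB2, hne⟩ := hR
  obtain ⟨hZN, hO, hM, hMJ, hS, -, hK, hLmax, hKL⟩ := hB1
  obtain ⟨-, -, hLtl, hLJ, hT', hT'S, hK', hL'max, hK'L'⟩ := hB2
  obtain ⟨hchar, hsolv, hZ⟩ := hZN
  have h1 : omegaCenterOf (thompsonSubgroupOf 2 (S : Subgroup G)) ≤
      omegaCenterOf (thompsonSubgroupOf 2 T') :=
    Cfsg.Agent.H26.Jz.omegaCenter_J_le_of_a_eq hT'S ha
  have hT'2 : IsPGroup 2 ↥T' := hT'.1.1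
  have hT'1 : T' ≠ ⊥ := hT'.1.2.1
  have hK'J : IsJComponent T' K' := hK'.1.1
  obtain ⟨hc2, hsplit⟩ := Cfsg.Agent.S2946.result hchar hsolv hZ T' hT'2 hT'1 K' hK'J
    (omegaCenterOf (thompsonSubgroupOf 2 T')) rfl
  -- `Z₀ ∩ C = 1`
  generalize hCdef : (omegaCenterOf (thompsonSubgroupOf 2 T') ⊓
      ((K' ⊔ thompsonSubgroupOf 2 T') ⊓
        Subgroup.centralizer ((K' ⊔ thompsonSubgroupOf 2 T') : Set G))) = C at hsplit
  have hCle : C ≤ omegaCenterOf (thompsonSubgroupOf 2 T') := by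
    rw [← hCdef]
    exact inf_le_left
  have hCcen : ∀ y ∈ C, ∀ g ∈ K', g * y = y * g := by
    intro y hy g hg
    rw [← hCdef] at hy
    have h := (Subgroup.mem_inf.mp (Subgroup.mem_inf.mp hy).2).2
    exact Subgroup.mem_centralizer_iff.mp h g (Or.inl hg)
  have h2 : omegaCenterOf (thompsonSubgroupOf 2 (S : Subgroup G)) ⊓ C = ⊥ := by
    rw [eq_bot_iff]
    intro y hy
    rw [Subgroup.mem_bot]
    by_contra hy1
    obtain ⟨hyZ, hyC⟩ := Subgroup.mem_inf.mp hy
    obtain ⟨hyJ, hyCJ, hy2⟩ := memOC _ hyZ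
    have hX1 := hX _ (twoLocal_zpowers hy1 hy2) (le_normalizer_zpowers (y := y) (fun g hg =>
      Subgroup.mem_centralizer_iff.mp hyCJ g hg))
    have hK'le : K' ≤ Subgroup.normalizer ((Subgroup.zpowers y : Subgroup G) : Set G) :=
      le_normalizer_zpowers (y := y) (fun g hg => hCcen y hyC g hg)
    exact hK'.2.1 (hK'le.trans hX1)
  -- `|Z₀| ≤ 2`
  have hcomm : ∀ a ∈ omegaCenterOf (thompsonSubgroupOf 2 T'),
      ∀ b ∈ omegaCenterOf (thompsonSubgroupOf 2 T'), a * b = b * a := by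
    intro a ha b hb
    exact (Subgroup.mem_centralizer_iff.mp (memOC _ hb).2.1 a (memOC _ ha).1)
  have h3 : Nat.card ↥(omegaCenterOf (thompsonSubgroupOf 2 (S : Subgroup G))) ≤ 2 :=
    card_le_two _ C _ (omegaCenterOf (thompsonSubgroupOf 2 T')) hcomm hCle inf_le_left
      hc2 (by rw [hsplit]; exact h1) h2
  -- `Z ≤ Z₀`, `Z ≠ 1`
  have h4 := omegaCenter_le_omegaCenter_J (S : Subgroup G)
  have h5 : omegaCenterOf (S : Subgroup G) ≠ ⊥ :=
    omegaCenter_ne_bot (S : Subgroup G) S.isPGroup' hS.1.2.1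
  have h6 : 2 ≤ Nat.card ↥(omegaCenterOf (S : Subgroup G)) := by
    have hnt : Nontrivial ↥(omegaCenterOf (S : Subgroup G)) :=
      (Subgroup.nontrivial_iff_ne_bot _).2 h5
    exact Finite.one_lt_card
  have h7 : Nat.card ↥(omegaCenterOf (S : Subgroup G)) ≤
      Nat.card ↥(omegaCenterOf (thompsonSubgroupOf 2 (S : Subgroup G))) :=
    Subgroup.card_le_of_le h4
  have h8 : omegaCenterOf (S : Subgroup G) =
      omegaCenterOf (thompsonSubgroupOf 2 (S : Subgroup G)) :=
    Subgroup.eq_of_le_of_card_ge h4 (by omega)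
  exact Or.inl ⟨h8, by omega⟩

example : Cfsg.Agent.H64.Jz.StResA.{u} := resA.{u}

end Cfsg.Agent.H99.Jz

#print axioms Cfsg.Agent.H99.Jz.resA
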