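import Cfsg.Agent.H99.JzResB
import Cfsg.Agent.H59.SoConj
import Cfsg.Agent.S2950
import Cfsg.Agent.Helper55.UqBase

/-!
# JZ-SC (piece 4 of the S2951 / S2952 team project "JZ", leader helper64), clash-free form

`T = S` and a second `J(S)`-component `K''` outside `L`: clause 1 or clause 2.
The statement of S2946 is a hypothesis (`Cfsg.Agent.H99.JzResB.St46`); `Cfsg.Agent.S2946` is NOT
imported (its closure cannot be imported together with the S2950 chain).

Proof (helper26's (SC)): `Z₁ = C_{Z₀}(K)`, `Z₁'' = C_{Z₀}(K'')` have index at most 2 in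
`Z₀ = Ω₁Z(J(S))` and meet trivially (a common `y ≠ 1` has `K'' ≤ C_G(y) ≤ L` by uniqueness of `L`),
so `|Z₀| ≤ 4`.  If `|Z₀| = 4` and `Z = Ω₁Z(S) ≠ Z₀`, then `Z = ⟨z⟩`, `z ∉ Z₁ ∪ Z₁''`, so some
`s ∈ S` maps the generator of `Z₁` to that of `Z₁''`, whence `K'' ≤ C_G(z₁'') ≤ L^s = L`.
-/

set_option autoImplicit false
set_option linter.style.haveILetI false
open Cfsg

universe u

namespace Cfsg.Agent.H99.JzSC

open Cfsg.Agent.H99.JzResB

variable {G : Type u} [Group G]

/-- a subgroup of order two is `{1, w}` -/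
theorem two_elt (W : Subgroup G) (hW : Nat.card ↥W = 2) :
    ∃ w ∈ W, w ≠ 1 ∧ w * w = 1 ∧ ∀ x ∈ W, x = 1 ∨ x = w := by
  obtain ⟨w', hw', hwu⟩ := (Nat.card_eq_two_iff' (1 : ↥W)).mp hW
  have hw1 : (w' : G) ≠ 1 := fun h => hw' (Subtype.ext h)
  have hwall : ∀ x ∈ W, x = 1 ∨ x = (w' : G) := by
    intro x hx
    by_cases hx1 : x = 1
    · exact Or.inl hx1
    · right
      have := hwu ⟨x, hx⟩ (fun h => hx1 (congrArg Subtype.val h))
      exact congrArg Subtype.val this
  refine ⟨(w' : G), w'.2, hw1, ?_, hwall⟩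
  have h1 : (w' : G) * (w' : G) ∈ W := W.mul_mem w'.2 w'.2
  rcases hwall _ h1 with h | h
  · exact h
  · exfalso
    apply hw1
    have : (w' : G) * (w' : G) = (w' : G) * 1 := by rw [mul_one]; exact h
    exact mul_left_cancel this

/-- `|C ⊔ W| = 4` for commuting subgroups of order two with `W ⊄ C` -/
theorem card_four (C W A : Subgroup G) (hA : ∀ a ∈ A, ∀ b ∈ A, a * b = b * a) (hCA : C ≤ A)
    (hWA : W ≤ A) (hC : Nat.card ↥C = 2) (w : G) (hwW : w ∈ W) (hww : w * w = 1)
    (hwall : ∀ x ∈ W, x = 1 ∨ x = w) (hwC : w ∉ C) : Nat.card ↥(C ⊔ W) = 4 := by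
  have hdich := sup_two C W A hA hCA hWA w hwall hww hwW
  have h2 : C.relIndex (C ⊔ W) = 2 := by
    rw [Subgroup.relIndex_eq_two_iff]
    refine ⟨w, (le_sup_right : W ≤ C ⊔ W) hwW, ?_⟩
    intro b hb
    rcases hdich b hb with h | h
    · refine Or.inr ⟨h, ?_⟩
      intro h'
      apply hwC
      have : w = b⁻¹ * (b * w) := by group
      rw [this]
      exact mul_mem (inv_mem h) h'
    · refine Or.inl ⟨h, ?_⟩
      intro h'
      apply hwC
      have : w = b⁻¹ * (b * w) := by group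
      rw [this]
      exact mul_mem (inv_mem h') h
  have h3 := Subgroup.relIndex_mul_relIndex (H := (⊥ : Subgroup G)) (K := C) (L := C ⊔ W)
    bot_le le_sup_left
  rw [Subgroup.relIndex_bot_left, Subgroup.relIndex_bot_left, hC, h2] at h3
  exact h3.symm

variable [Finite G]

/-- a `J(S)`-component does not centralize `Ω₁Z(S)` -/
theorem not_le_centralizer_Z
    (hZ : ∀ S : Sylow 2 G, Subgroup.centralizer (omegaCenterOf (S : Subgroup G) : Set G) ≤
      Subgroup.normalizer ((S : Subgroup G) : Set G))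
    (S : Sylow 2 G) {K : Subgroup G} (hJc : IsJComponent (S : Subgroup G) K) :
    ¬ K ≤ Subgroup.centralizer (omegaCenterOf (S : Subgroup G) : Set G) := by
  intro hKC
  obtain ⟨hc1, hc2, hc3, -, -, -⟩ := hJc
  have hS2 : IsPGroup 2 ↥(S : Subgroup G) := S.isPGroup'
  have hJS : thompsonSubgroupOf 2 (S : Subgroup G) ≤ (S : Subgroup G) :=
    Subgroup.map_subtype_le _
  have hKN : K ≤ Subgroup.normalizer ((S : Subgroup G) : Set G) := hKC.trans (hZ S)
  have hKS : K ≤ (S : Subgroup G) := by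
    rw [← hc2, Subgroup.commutator_le]
    intro k hk j hj
    have h1 : k * j * k⁻¹ ∈ (S : Subgroup G) :=
      (Subgroup.mem_normalizer_iff.mp (hKN hk) j).mp (hJS hj)
    rw [commutatorElement_def]
    exact mul_mem h1 (inv_mem (hJS hj))
  have hKbot : K = ⊥ := by
    rw [← hc1, Subgroup.closure_eq_bot_iff]
    rintro g ⟨hgK, hodd⟩
    obtain ⟨n, hn⟩ := hS2 ⟨g, hKS hgK⟩
    have hn' : g ^ 2 ^ n = 1 := congrArg Subtype.val hn
    have hdvd : orderOf g ∣ 2 ^ n := orderOf_dvd_of_pow_eq_one hn'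
    have hcop : Nat.Coprime (orderOf g) (2 ^ n) :=
      Nat.Coprime.pow_right n (Nat.coprime_two_right.mpr hodd)
    have h1 : orderOf g = 1 := Nat.Coprime.eq_one_of_dvd hcop hdvd
    exact orderOf_eq_one_iff.mp h1
  rw [hKbot, Subgroup.relIndex_bot_right] at hc3
  omega

/-- JZ-SC, with S2946 as a hypothesis. -/
theorem sc_of (h46 : St46.{u}) : Cfsg.Agent.H64.Jz.StSC.{u} := by
  intro G _ _ S M T K L hB hTS hK''
  subst hTS
  obtain ⟨K'', hK''J, hK''L⟩ := hK''
  obtain ⟨⟨hL, hN, hZ⟩, hO, hM, hMJ, hT, -, hK, hLmax, hKL⟩ := hB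
  obtain ⟨L₀, hL₀max, hKL₀, huniq0, -, hsyl0⟩ :=
    Cfsg.Agent.S2950.result hL hN hZ hO S M hM hMJ (S : Subgroup G) hT K hK
  have hLL : L = L₀ := huniq0 L hLmax hKL
  have huniq : ∀ L' : Subgroup G, IsMaximalTwoLocal L' →
      K ⊔ thompsonSubgroupOf 2 (S : Subgroup G) ≤ L' → L' = L :=
    fun L' h1 h2 => (huniq0 L' h1 h2).trans hLL.symm
  have hSL : (S : Subgroup G) ≤ L := by
    rw [hLL]
    exact hsyl0.1
  -- every 2-local over `K ⊔ J` lies in `L`
  have hU0 : ∀ X : Subgroup G, IsTwoLocal X →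
      K ⊔ thompsonSubgroupOf 2 (S : Subgroup G) ≤ X → X ≤ L := by
    intro X hX hKX
    obtain ⟨X', hX'max, hXX'⟩ := Cfsg.Agent.Helper55.Uq.exists_maximalTwoLocal hX
    have h1 := huniq X' hX'max (hKX.trans hXX')
    rw [← h1]
    exact hXX'
  have hS2 : IsPGroup 2 ↥(S : Subgroup G) := S.isPGroup'
  have hS1 : (S : Subgroup G) ≠ ⊥ := hT.1.2.1
  have hKJ : IsJComponent (S : Subgroup G) K := hK.1.1
  have hJS : thompsonSubgroupOf 2 (S : Subgroup G) ≤ (S : Subgroup G) :=
    Subgroup.map_subtype_le _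
  obtain ⟨hc2, hsplit⟩ := h46 hL hN hZ (S : Subgroup G) hS2 hS1 K hKJ
    (omegaCenterOf (thompsonSubgroupOf 2 (S : Subgroup G))) rfl
  obtain ⟨hc2', hsplit'⟩ := h46 hL hN hZ (S : Subgroup G) hS2 hS1 K'' hK''J
    (omegaCenterOf (thompsonSubgroupOf 2 (S : Subgroup G))) rfl
  generalize hCdef : (omegaCenterOf (thompsonSubgroupOf 2 (S : Subgroup G)) ⊓
      ((K ⊔ thompsonSubgroupOf 2 (S : Subgroup G)) ⊓
        Subgroup.centralizer ((K ⊔ thompsonSubgroupOf 2 (S : Subgroup G)) : Set G))) = C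
    at hsplit
  generalize hC'def : (omegaCenterOf (thompsonSubgroupOf 2 (S : Subgroup G)) ⊓
      ((K'' ⊔ thompsonSubgroupOf 2 (S : Subgroup G)) ⊓
        Subgroup.centralizer ((K'' ⊔ thompsonSubgroupOf 2 (S : Subgroup G)) : Set G))) = C'
    at hsplit'
  have hCle : C ≤ omegaCenterOf (thompsonSubgroupOf 2 (S : Subgroup G)) := by
    rw [← hCdef]
    exact inf_le_left
  have hC'le : C' ≤ omegaCenterOf (thompsonSubgroupOf 2 (S : Subgroup G)) := by
    rw [← hC'def]
    exact inf_le_left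
  have hCcenK : ∀ y ∈ C, ∀ g ∈ K, g * y = y * g := by
    intro y hy g hg
    rw [← hCdef] at hy
    have h := (Subgroup.mem_inf.mp (Subgroup.mem_inf.mp hy).2).2
    exact Subgroup.mem_centralizer_iff.mp h g (Or.inl hg)
  have hC'cenK : ∀ y ∈ C', ∀ g ∈ K'', g * y = y * g := by
    intro y hy g hg
    rw [← hC'def] at hy
    have h := (Subgroup.mem_inf.mp (Subgroup.mem_inf.mp hy).2).2
    exact Subgroup.mem_centralizer_iff.mp h g (Or.inl hg)
  have hZ0cenJ : ∀ y ∈ omegaCenterOf (thompsonSubgroupOf 2 (S : Subgroup G)),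
      ∀ g ∈ thompsonSubgroupOf 2 (S : Subgroup G), g * y = y * g := by
    intro y hy g hg
    exact Subgroup.mem_centralizer_iff.mp (memOC _ hy).2.1 g hg
  -- (U): `C_G(y) ≤ L` for `1 ≠ y ∈ Z₁`
  have hU : ∀ y ∈ C, y ≠ 1 → ∀ g : G, g * y = y * g → g ∈ L := by
    intro y hy hy1 g hg
    have hy2 : y ^ 2 = 1 := (memOC _ (hCle hy)).2.2
    have h1 : K ⊔ thompsonSubgroupOf 2 (S : Subgroup G) ≤
        Subgroup.normalizer ((Subgroup.zpowers y : Subgroup G) : Set G) :=
      sup_le (le_normalizer_zpowers (y := y) (hCcenK y hy))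
        (le_normalizer_zpowers (y := y) (hZ0cenJ y (hCle hy)))
    have h2 := hU0 _ (twoLocal_zpowers hy1 hy2) h1
    have h3 : Subgroup.zpowers g ≤
        Subgroup.normalizer ((Subgroup.zpowers y : Subgroup G) : Set G) := by
      apply le_normalizer_zpowers (y := y)
      intro h hh
      obtain ⟨k, rfl⟩ := Subgroup.mem_zpowers_iff.mp hh
      have hc : Commute g y := hg
      exact (hc.zpow_left k).eq
    exact h2 (h3 (Subgroup.mem_zpowers g))
  -- `Z₁ ∩ Z₁'' = 1`
  have hCC' : C ⊓ C' = ⊥ := by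
    rw [eq_bot_iff]
    intro y hy
    rw [Subgroup.mem_bot]
    by_contra hy1
    obtain ⟨hyC, hyC'⟩ := Subgroup.mem_inf.mp hy
    exact hK''L (fun k hk => hU y hyC hy1 k (hC'cenK y hyC' k hk))
  have hcomm : ∀ a ∈ omegaCenterOf (thompsonSubgroupOf 2 (S : Subgroup G)),
      ∀ b ∈ omegaCenterOf (thompsonSubgroupOf 2 (S : Subgroup G)), a * b = b * a := by
    intro a ha b hb
    exact (Subgroup.mem_centralizer_iff.mp (memOC _ hb).2.1 a (memOC _ ha).1)
  have hcardC : Nat.card ↥C ≤ 2 :=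
    card_le_two C C' _ (omegaCenterOf (thompsonSubgroupOf 2 (S : Subgroup G))) hcomm hC'le
      inf_le_left hc2' (by rw [hsplit']; exact hCle) hCC'
  -- `Z ≤ Z₀`, `Z ≠ 1`
  have h4 := omegaCenter_le_omegaCenter_J (S : Subgroup G)
  have h5 : omegaCenterOf (S : Subgroup G) ≠ ⊥ :=
    omegaCenter_ne_bot (S : Subgroup G) hS2 hS1
  have h6 : 2 ≤ Nat.card ↥(omegaCenterOf (S : Subgroup G)) := by
    have hnt : Nontrivial ↥(omegaCenterOf (S : Subgroup G)) :=
      (Subgroup.nontrivial_iff_ne_bot _).2 h5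
    exact Finite.one_lt_card
  have h7 : Nat.card ↥(omegaCenterOf (S : Subgroup G)) ≤
      Nat.card ↥(omegaCenterOf (thompsonSubgroupOf 2 (S : Subgroup G))) :=
    Subgroup.card_le_of_le h4
  -- clause 1 when `|Z₀| = 2`
  have hclause1 : Nat.card ↥(omegaCenterOf (thompsonSubgroupOf 2 (S : Subgroup G))) = 2 →
      Cfsg.Agent.H64.Jz.Concl S (S : Subgroup G) L := by
    intro hcard
    have h8 : omegaCenterOf (S : Subgroup G) =
        omegaCenterOf (thompsonSubgroupOf 2 (S : Subgroup G)) :=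
      Subgroup.eq_of_le_of_card_ge h4 (by omega)
    exact Or.inl ⟨h8, hcard⟩
  by_cases hCbot : C = ⊥
  · apply hclause1
    rw [hCbot, bot_sup_eq] at hsplit
    rw [← hsplit]
    exact hc2
  have hcardC2 : Nat.card ↥C = 2 := by
    have hnt : Nontrivial ↥C := (Subgroup.nontrivial_iff_ne_bot _).2 hCbot
    have : 1 < Nat.card ↥C := Finite.one_lt_card
    omega
  obtain ⟨c, hcC, hc1, hcc, hCall⟩ := two_elt C hcardC2
  obtain ⟨w, hwW, hw1, hww, hWall⟩ := two_elt _ hc2
  by_cases hwC : w ∈ C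
  · apply hclause1
    have hWC : omegaCenterOf (thompsonSubgroupOf 2 (S : Subgroup G)) ⊓ wOf K ≤ C := by
      intro x hx
      rcases hWall x hx with h | h
      · rw [h]
        exact one_mem _
      · rw [h]
        exact hwC
    rw [sup_eq_left.mpr hWC] at hsplit
    rw [← hsplit]
    exact hcardC2
  -- now `|Z₀| = 4`
  have hcard4 : Nat.card ↥(omegaCenterOf (thompsonSubgroupOf 2 (S : Subgroup G))) = 4 := by
    have := card_four C (omegaCenterOf (thompsonSubgroupOf 2 (S : Subgroup G)) ⊓ wOf K)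
      (omegaCenterOf (thompsonSubgroupOf 2 (S : Subgroup G))) hcomm hCle inf_le_left hcardC2
      w hwW hww hWall hwC
    rw [hsplit] at this
    exact this
  have hE1 : ∀ x ∈ omegaCenterOf (thompsonSubgroupOf 2 (S : Subgroup G)),
      x = 1 ∨ x = c ∨ x = w ∨ x = c * w := by
    intro x hx
    rw [← hsplit] at hx
    rcases sup_two C _ (omegaCenterOf (thompsonSubgroupOf 2 (S : Subgroup G))) hcomm hCle
      inf_le_left w hWall hww hwW x hx with h | h
    · rcases hCall x h with h' | h'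
      · exact Or.inl h'
      · exact Or.inr (Or.inl h')
    · have e : x = x * w * w := by rw [mul_assoc, hww, mul_one]
      rcases hCall _ h with h' | h'
      · right; right; left
        rw [e, h', one_mul]
      · right; right; right
        rw [e, h']
  suffices hZeq : omegaCenterOf (S : Subgroup G) =
      omegaCenterOf (thompsonSubgroupOf 2 (S : Subgroup G)) from
    Or.inr (Or.inl ⟨hZeq, hcard4, rfl⟩)
  by_contra hne
  -- `|Z| = 2`
  have hcardZ : Nat.card ↥(omegaCenterOf (S : Subgroup G)) = 2 := by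
    have hdvd : Nat.card ↥(omegaCenterOf (S : Subgroup G)) ∣ 4 := by
      rw [← hcard4]
      exact Subgroup.card_dvd_of_le h4
    have hlt : Nat.card ↥(omegaCenterOf (S : Subgroup G)) ≠ 4 := by
      intro h
      exact hne (Subgroup.eq_of_le_of_card_ge h4 (by omega))
    have hle : Nat.card ↥(omegaCenterOf (S : Subgroup G)) ≤ 4 := Nat.le_of_dvd (by norm_num) hdvd
    interval_cases hn : Nat.card ↥(omegaCenterOf (S : Subgroup G))
    · rfl
    · norm_num at hdvd
    · exact absurd rfl hlt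
  obtain ⟨z, hzZ, hz1, hzz, hZall⟩ := two_elt _ hcardZ
  have hzZ0 : z ∈ omegaCenterOf (thompsonSubgroupOf 2 (S : Subgroup G)) := h4 hzZ
  have hzcen : ∀ s ∈ (S : Subgroup G), s * z = z * s := by
    intro s hs
    exact Subgroup.mem_centralizer_iff.mp (memOC _ hzZ).2.1 s hs
  -- `z ∉ Z₁`, `z ∉ Z₁''`
  have hzC : z ∉ C := by
    intro hzC
    apply not_le_centralizer_Z hZ S hKJ
    intro k hk
    rw [Subgroup.mem_centralizer_iff]
    intro y hy
    rcases hZall y hy with h | h
    · rw [h, one_mul, mul_one]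
    · rw [h]
      exact (hCcenK z hzC k hk).symm
  have hzC' : z ∉ C' := by
    intro hzC'
    apply not_le_centralizer_Z hZ S hK''J
    intro k hk
    rw [Subgroup.mem_centralizer_iff]
    intro y hy
    rcases hZall y hy with h | h
    · rw [h, one_mul, mul_one]
    · rw [h]
      exact (hC'cenK z hzC' k hk).symm
  -- `Z₁'' ≠ 1`
  have hC'bot : C' ≠ ⊥ := by
    intro h
    rw [h, bot_sup_eq] at hsplit'
    rw [← hsplit', hc2'] at hcard4
    norm_num at hcard4
  obtain ⟨c', hc'C'⟩ : ∃ c' : G, c' ∈ C' ∧ c' ≠ 1 := by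
    obtain ⟨a, ha⟩ := (Subgroup.ne_bot_iff_exists_ne_one).mp hC'bot
    exact ⟨(a : G), a.2, fun h => ha (Subtype.ext h)⟩
  obtain ⟨hc'C', hc'1⟩ := hc'C'
  have hcc' : c ≠ c' := by
    intro h
    have : c ∈ C ⊓ C' := Subgroup.mem_inf.mpr ⟨hcC, h ▸ hc'C'⟩
    rw [hCC', Subgroup.mem_bot] at this
    exact hc1 this
  have hzc : z ≠ c := fun h => hzC (h ▸ hcC)
  have hzc' : z ≠ c' := fun h => hzC' (h ▸ hc'C')
  have hzw : z = w ∨ z = c * w := by
    rcases hE1 z hzZ0 with h | h | h | h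
    · exact absurd h hz1
    · exact absurd h hzc
    · exact Or.inl h
    · exact Or.inr h
  have hc'w : c' = w ∨ c' = c * w := by
    rcases hE1 c' (hC'le hc'C') with h | h | h | h
    · exact absurd h hc'1
    · exact absurd h.symm hcc'
    · exact Or.inl h
    · exact Or.inr h
  have hfour : ∀ x ∈ omegaCenterOf (thompsonSubgroupOf 2 (S : Subgroup G)),
      x = 1 ∨ x = z ∨ x = c ∨ x = c' := by
    intro x hx
    rcases hzw with hz' | hz' <;> rcases hc'w with hc'' | hc''
    · exact absurd (hz'.trans hc''.symm) hzc'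
    · rcases hE1 x hx with h | h | h | h
      · exact Or.inl h
      · exact Or.inr (Or.inr (Or.inl h))
      · exact Or.inr (Or.inl (h.trans hz'.symm))
      · exact Or.inr (Or.inr (Or.inr (h.trans hc''.symm)))
    · rcases hE1 x hx with h | h | h | h
      · exact Or.inl h
      · exact Or.inr (Or.inr (Or.inl h))
      · exact Or.inr (Or.inr (Or.inr (h.trans hc''.symm)))
      · exact Or.inr (Or.inl (h.trans hz'.symm))
    · exact absurd (hz'.trans hc''.symm) hzc'
  -- conjugation by `S` preserves `Z₀`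
  have hconjZ0 : ∀ s ∈ (S : Subgroup G),
      ∀ x ∈ omegaCenterOf (thompsonSubgroupOf 2 (S : Subgroup G)),
      s * x * s⁻¹ ∈ omegaCenterOf (thompsonSubgroupOf 2 (S : Subgroup G)) := by
    intro s hs x hx
    have h1 := Cfsg.Agent.H59.So.thompson_map_conj_self (T := (S : Subgroup G)) hs
    have h3 := Cfsg.Agent.H59.So.omegaCenterOf_map_conj s (thompsonSubgroupOf 2 (S : Subgroup G))
    rw [h1] at h3
    have h2 : (MulAut.conj s).toMonoidHom x ∈
        (omegaCenterOf (thompsonSubgroupOf 2 (S : Subgroup G))).map (MulAut.conj s).toMonoidHom :=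
      Subgroup.mem_map_of_mem _ hx
    rw [← h3] at h2
    simpa using h2
  -- `S` does not centralize `Z₀`
  have hmove : ∃ s ∈ (S : Subgroup G), ∃ x ∈ omegaCenterOf (thompsonSubgroupOf 2 (S : Subgroup G)),
      s * x * s⁻¹ ≠ x := by
    by_contra hcon
    push_neg at hcon
    apply hne
    refine le_antisymm h4 ?_
    intro x hx
    obtain ⟨hxJ, -, hx2⟩ := memOC _ hx
    refine ocMem _ (hJS hxJ) ?_ hx2
    rw [Subgroup.mem_centralizer_iff]
    intro s hs
    have h := hcon s hs x hx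
    calc s * x = s * x * s⁻¹ * s := by group
      _ = x * s := by rw [h]
  -- some `s ∈ S` maps `c` to `c'`
  have hswap : ∃ s ∈ (S : Subgroup G), s * c * s⁻¹ = c' := by
    obtain ⟨s, hs, x, hx, hsx⟩ := hmove
    have hzfix : ∀ t ∈ (S : Subgroup G), t * z * t⁻¹ = z := by
      intro t ht
      rw [hzcen t ht]
      group
    have hne1 : ∀ t : G, ∀ y : G, y ≠ 1 → t * y * t⁻¹ ≠ 1 := by
      intro t y hy h
      apply hy
      have : y = t⁻¹ * (t * y * t⁻¹) * t := by group
      rw [this, h]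
      group
    have hnez : ∀ t ∈ (S : Subgroup G), ∀ y : G, y ≠ z → t * y * t⁻¹ ≠ z := by
      intro t ht y hy h
      apply hy
      have h' : t * y * t⁻¹ = t * z * t⁻¹ := h.trans (hzfix t ht).symm
      have : y = t⁻¹ * (t * y * t⁻¹) * t := by group
      rw [this, h']
      group
    rcases hfour x hx with h | h | h | h
    · exfalso
      apply hsx
      rw [h]
      group
    · exfalso
      apply hsx
      rw [h]
      exact hzfix s hs
    · refine ⟨s, hs, ?_⟩
      rw [h] at hsx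
      rcases hfour _ (hconjZ0 s hs c (hCle hcC)) with h' | h' | h' | h'
      · exact absurd h' (hne1 s c hc1)
      · exact absurd h' (hnez s hs c (fun e => hzc e.symm))
      · exact absurd h' hsx
      · exact h'
    · refine ⟨s⁻¹, inv_mem hs, ?_⟩
      rw [h] at hsx
      have h2 : s * c' * s⁻¹ = c := by
        rcases hfour _ (hconjZ0 s hs c' (hC'le hc'C')) with h' | h' | h' | h'
        · exact absurd h' (hne1 s c' hc'1)
        · exact absurd h' (hnez s hs c' (fun e => hzc' e.symm))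
        · exact h'
        · exact absurd h' hsx
      rw [← h2]
      group
  obtain ⟨s, hs, hsc⟩ := hswap
  -- `K'' ≤ C_G(c') = s C_G(c) s⁻¹ ≤ L`
  apply hK''L
  intro k hk
  have hkc : k * c' = c' * k := hC'cenK c' hc'C' k hk
  have h1 : s⁻¹ * k * s * c = c * (s⁻¹ * k * s) := by
    have e1 : s⁻¹ * k * s * c = s⁻¹ * (k * (s * c * s⁻¹)) * s := by group
    have e2 : c * (s⁻¹ * k * s) = s⁻¹ * ((s * c * s⁻¹) * k) * s := by group
    rw [e1, e2, hsc, hkc]
  have h2 : s⁻¹ * k * s ∈ L := hU c hcC hc1 _ h1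
  have hsL : s ∈ L := hSL hs
  have e : k = s * (s⁻¹ * k * s) * s⁻¹ := by group
  rw [e]
  exact L.mul_mem (L.mul_mem hsL h2) (L.inv_mem hsL)

example : St46.{u} → Cfsg.Agent.H64.Jz.StSC.{u} := sc_of.{u}

end Cfsg.Agent.H99.JzSC

#print axioms Cfsg.Agent.H99.JzSC.sc_of
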