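import Cfsg.Agent.S1225

/-!
# (G2) for the S2951 / S2952 team project "JZ" (leader helper64)

A strongly embedded subgroup is transitive on its involutions (on top of S1225).
-/

set_option autoImplicit false
open Cfsg

universe u

namespace Cfsg.Agent.H99.Jz

/-- A strongly embedded subgroup does not contain all involutions of the group. -/
theorem exists_invol_not_mem {G : Type u} [Group G] [Finite G] (H : Subgroup G)
    (hH : IsStronglyEmbedded H) (s : G) (hs : orderOf s = 2) (hsH : s ∈ H) :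
    ∃ u : G, orderOf u = 2 ∧ u ∉ H := by
  by_contra hcon
  push_neg at hcon
  obtain ⟨hne, -, hodd⟩ := hH
  obtain ⟨g, hg⟩ : ∃ g : G, g ∉ H := by
    by_contra h
    push_neg at h
    exact hne (eq_top_iff.mpr fun x _ => h x)
  have hx2 : orderOf (g * s * g⁻¹) = 2 := by
    have h1 := orderOf_injective (MulAut.conj g).toMonoidHom (MulAut.conj g).injective s
    rw [hs] at h1
    exact h1
  have hxH : g * s * g⁻¹ ∈ H := hcon _ hx2
  have hxHg : g * s * g⁻¹ ∈ H.map (MulAut.conj g).toMonoidHom := ⟨s, hsH, rfl⟩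
  have hmem : g * s * g⁻¹ ∈ H ⊓ H.map (MulAut.conj g).toMonoidHom := ⟨hxH, hxHg⟩
  have hdvd : 2 ∣ Nat.card ↥(H ⊓ H.map (MulAut.conj g).toMonoidHom) := by
    have h1 := Subgroup.orderOf_dvd_natCard (H ⊓ H.map (MulAut.conj g).toMonoidHom) hmem
    rwa [hx2] at h1
  have := hodd g hg
  rw [Nat.odd_iff] at this
  omega

/-- (G2): a strongly embedded subgroup is transitive on its involutions. -/
theorem stronglyEmbedded_invol_conj {G : Type u} [Group G] [Finite G] (H : Subgroup G)
    (hH : IsStronglyEmbedded H) (s t : G) (hs : orderOf s = 2) (hsH : s ∈ H)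
    (ht : orderOf t = 2) (htH : t ∈ H) : ∃ d ∈ H, d * s * d⁻¹ = t := by
  obtain ⟨u, hu, huH⟩ := exists_invol_not_mem H hH s hs hsH
  obtain ⟨⟨d, hd, hdst⟩, -⟩ := Cfsg.Agent.S1225.result H hH u hu huH s t hs hsH ht htH
  exact ⟨d, hd.1, hdst⟩

end Cfsg.Agent.H99.Jz

#print axioms Cfsg.Agent.H99.Jz.stronglyEmbedded_invol_conj
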