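import Cfsg.Agent.H21.BrauerTuan
import Cfsg.Agent.H21.SimpleTools

/-!
# No simple groups of certain orders `p^a q^b r` (Brauer–Tuan + Sylow counting)  (helper99, for helper21)
-/

set_option autoImplicit false

namespace Cfsg.Agent.H99.NS

open Cfsg

/-- Generic form: a simple group of order `N = p^a q^b r` (not a prime) cannot exist when the
Sylow count for `r` with `C(S_r) = S_r` is arithmetically impossible. -/
theorem no_simple_bt_gen {G : Type*} [Group G] [Finite G] [IsSimpleGroup G]
    (N p q r a b : ℕ) (hp : p.Prime) (hq : q.Prime) (hr : r.Prime) (hpr : p ≠ r) (hqr : q ≠ r)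
    (hcardN : Nat.card G = N) (hN : N = p ^ a * q ^ b * r)
    (hnp : ¬ N.Prime)
    (hnum : ∀ d n : ℕ, d ∣ r - 1 → d ≠ 1 → r * d * n = N → n % r = 1 → False) :
    False := by
  classical
  have : Fact r.Prime := ⟨hr⟩
  have hcard : Nat.card G = p ^ a * q ^ b * r := hcardN.trans hN
  have hG : ¬ IsMulCommutative G :=
    Cfsg.Agent.H21.not_comm_of_not_prime (by rw [hcardN]; exact hnp)
  obtain ⟨P⟩ : Nonempty (Sylow r G) := inferInstance
  have hP : Nat.card P = r :=
    Cfsg.Agent.H21.BrauerTuan.card_sylow p q r a b hp hq hpr hqr hcard P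
  have hC : Subgroup.centralizer ((P : Subgroup G) : Set G) = (P : Subgroup G) :=
    Cfsg.Agent.H21.BrauerTuan.centralizer_sylow_eq p q r a b hp hq hpr hqr hcard P
  obtain ⟨d, hd, hd1, hdr, -⟩ := Cfsg.Agent.H21.simple_sylow_prime_card_NC hG P hP
  have hcN := Cfsg.Agent.H21.card_centralizer_mul_relIndex_normalizer (P : Subgroup G)
  rw [← hd, hC] at hcN
  have hnd : ¬ r ∣ p ^ a * q ^ b := by
    intro h
    rcases (Nat.Prime.dvd_mul hr).mp h with h | h
    · exact hpr ((Nat.prime_dvd_prime_iff_eq hr hp).mp (hr.dvd_of_dvd_pow h)).symm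
    · exact hqr ((Nat.prime_dvd_prime_iff_eq hr hq).mp (hr.dvd_of_dvd_pow h)).symm
  obtain ⟨-, -, -, -, hmod, -, -, hNn, -⟩ := Cfsg.Agent.H21.simple_sylow_facts hG (p := r)
    (k := 1) (m := p ^ a * q ^ b) (by rw [hcard, pow_one, mul_comm]) hnd one_ne_zero P
  have hPc : Nat.card (P : Subgroup G) = r := hP
  rw [← hcN, hPc, hcardN] at hNn
  exact hnum d _ hdr hd1 hNn hmod

theorem no_simple_bt {G : Type*} [Group G] [Finite G] [IsSimpleGroup G]
    (h : Nat.card G ∈ ([120, 180, 240, 264, 336, 480, 528, 560, 672, 792, 1008, 1040, 1056, 1080] : List ℕ)) :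
    False := by
  simp only [List.mem_cons, List.mem_nil_iff, or_false] at h
  rcases h with h | h | h | h | h | h | h | h | h | h | h | h | h | h
  · -- 120 = 2^3 * 5 * 3
    refine no_simple_bt_gen 120 2 5 3 3 1 (by norm_num) (by norm_num) (by norm_num) (by norm_num)
      (by norm_num) h (by norm_num) (by norm_num) ?_
    intro d n hd hd1 hN hmod
    have hd' : d ≤ 2 := Nat.le_of_dvd (by norm_num) hd
    interval_cases d <;> omega
  · -- 180 = 2^2 * 3^2 * 5
    refine no_simple_bt_gen 180 2 3 5 2 2 (by norm_num) (by norm_num) (by norm_num) (by norm_num)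
      (by norm_num) h (by norm_num) (by norm_num) ?_
    intro d n hd hd1 hN hmod
    have hd' : d ≤ 4 := Nat.le_of_dvd (by norm_num) hd
    interval_cases d <;> omega
  · -- 240 = 2^4 * 3 * 5
    refine no_simple_bt_gen 240 2 3 5 4 1 (by norm_num) (by norm_num) (by norm_num) (by norm_num)
      (by norm_num) h (by norm_num) (by norm_num) ?_
    intro d n hd hd1 hN hmod
    have hd' : d ≤ 4 := Nat.le_of_dvd (by norm_num) hd
    interval_cases d <;> omega
  · -- 264 = 2^3 * 11 * 3
    refine no_simple_bt_gen 264 2 11 3 3 1 (by norm_num) (by norm_num) (by norm_num) (by norm_num)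
      (by norm_num) h (by norm_num) (by norm_num) ?_
    intro d n hd hd1 hN hmod
    have hd' : d ≤ 2 := Nat.le_of_dvd (by norm_num) hd
    interval_cases d <;> omega
  · -- 336 = 2^4 * 7 * 3
    refine no_simple_bt_gen 336 2 7 3 4 1 (by norm_num) (by norm_num) (by norm_num) (by norm_num)
      (by norm_num) h (by norm_num) (by norm_num) ?_
    intro d n hd hd1 hN hmod
    have hd' : d ≤ 2 := Nat.le_of_dvd (by norm_num) hd
    interval_cases d <;> omega
  · -- 480 = 2^5 * 3 * 5
    refine no_simple_bt_gen 480 2 3 5 5 1 (by norm_num) (by norm_num) (by norm_num) (by norm_num)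
      (by norm_num) h (by norm_num) (by norm_num) ?_
    intro d n hd hd1 hN hmod
    have hd' : d ≤ 4 := Nat.le_of_dvd (by norm_num) hd
    interval_cases d <;> omega
  · -- 528 = 2^4 * 3 * 11
    refine no_simple_bt_gen 528 2 3 11 4 1 (by norm_num) (by norm_num) (by norm_num) (by norm_num)
      (by norm_num) h (by norm_num) (by norm_num) ?_
    intro d n hd hd1 hN hmod
    have hd' : d ≤ 10 := Nat.le_of_dvd (by norm_num) hd
    interval_cases d <;> omega
  · -- 560 = 2^4 * 5 * 7
    refine no_simple_bt_gen 560 2 5 7 4 1 (by norm_num) (by norm_num) (by norm_num) (by norm_num)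
      (by norm_num) h (by norm_num) (by norm_num) ?_
    intro d n hd hd1 hN hmod
    have hd' : d ≤ 6 := Nat.le_of_dvd (by norm_num) hd
    interval_cases d <;> omega
  · -- 672 = 2^5 * 3 * 7
    refine no_simple_bt_gen 672 2 3 7 5 1 (by norm_num) (by norm_num) (by norm_num) (by norm_num)
      (by norm_num) h (by norm_num) (by norm_num) ?_
    intro d n hd hd1 hN hmod
    have hd' : d ≤ 6 := Nat.le_of_dvd (by norm_num) hd
    interval_cases d <;> omega
  · -- 792 = 2^3 * 3^2 * 11
    refine no_simple_bt_gen 792 2 3 11 3 2 (by norm_num) (by norm_num) (by norm_num) (by norm_num)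
      (by norm_num) h (by norm_num) (by norm_num) ?_
    intro d n hd hd1 hN hmod
    have hd' : d ≤ 10 := Nat.le_of_dvd (by norm_num) hd
    interval_cases d <;> omega
  · -- 1008 = 2^4 * 3^2 * 7
    refine no_simple_bt_gen 1008 2 3 7 4 2 (by norm_num) (by norm_num) (by norm_num) (by norm_num)
      (by norm_num) h (by norm_num) (by norm_num) ?_
    intro d n hd hd1 hN hmod
    have hd' : d ≤ 6 := Nat.le_of_dvd (by norm_num) hd
    interval_cases d <;> omega
  · -- 1040 = 2^4 * 13 * 5
    refine no_simple_bt_gen 1040 2 13 5 4 1 (by norm_num) (by norm_num) (by norm_num) (by norm_num)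
      (by norm_num) h (by norm_num) (by norm_num) ?_
    intro d n hd hd1 hN hmod
    have hd' : d ≤ 4 := Nat.le_of_dvd (by norm_num) hd
    interval_cases d <;> omega
  · -- 1056 = 2^5 * 3 * 11
    refine no_simple_bt_gen 1056 2 3 11 5 1 (by norm_num) (by norm_num) (by norm_num) (by norm_num)
      (by norm_num) h (by norm_num) (by norm_num) ?_
    intro d n hd hd1 hN hmod
    have hd' : d ≤ 10 := Nat.le_of_dvd (by norm_num) hd
    interval_cases d <;> omega
  · -- 1080 = 2^3 * 3^3 * 5
    refine no_simple_bt_gen 1080 2 3 5 3 3 (by norm_num) (by norm_num) (by norm_num) (by norm_num)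
      (by norm_num) h (by norm_num) (by norm_num) ?_
    intro d n hd hd1 hN hmod
    have hd' : d ≤ 4 := Nat.le_of_dvd (by norm_num) hd
    interval_cases d <;> omega

end Cfsg.Agent.H99.NS
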