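import Cfsg.Agent.H99.SubTv

set_option autoImplicit false

namespace Cfsg.Agent.H99

open Matrix Module
open scoped MatrixGroups

/-- A non-degenerate symmetric bilinear form `B` with `B(x, x) = 2 Q(x)` over a finite field of
odd order. -/
structure OCtx {F : Type*} [Field F] [Fintype F] {n : ℕ} (Q : (Fin n → F) → F)
    (B : (Fin n → F) → (Fin n → F) → F) : Prop where
  odd : Fintype.card F % 2 = 1
  two : (2 : F) ≠ 0
  add_left : ∀ x y v, B (x + y) v = B x v + B y v
  smul_left : ∀ (c : F) (x v : Fin n → F), B (c • x) v = c * B x v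
  symm : ∀ x y, B x y = B y x
  self : ∀ x, B x x = 2 * Q x
  nondeg : ∀ v : Fin n → F, v ≠ 0 → ∃ x, B x v ≠ 0

namespace OF

section
variable {F : Type*} [Field F] [Fintype F] {n : ℕ} {Q : (Fin n → F) → F}
  {B : (Fin n → F) → (Fin n → F) → F}

theorem add_right (C : OCtx Q B) (v x y : Fin n → F) : B v (x + y) = B v x + B v y := by
  rw [C.symm, C.add_left, C.symm x, C.symm y]

theorem smul_right (C : OCtx Q B) (c : F) (v x : Fin n → F) : B v (c • x) = c * B v x := by
  rw [C.symm, C.smul_left, C.symm x]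

theorem zero_left (C : OCtx Q B) (v : Fin n → F) : B 0 v = 0 := by
  have h := C.smul_left 0 0 v
  rwa [zero_smul, zero_mul] at h

theorem zero_right (C : OCtx Q B) (v : Fin n → F) : B v 0 = 0 := by
  rw [C.symm, zero_left C]

theorem neg_left (C : OCtx Q B) (x v : Fin n → F) : B (-x) v = -B x v := by
  have h := C.smul_left (-1) x v
  rwa [neg_one_smul, neg_one_mul] at h

theorem neg_right (C : OCtx Q B) (v x : Fin n → F) : B v (-x) = -B v x := by
  rw [C.symm, neg_left C, C.symm x]

theorem sub_left (C : OCtx Q B) (x y v : Fin n → F) : B (x - y) v = B x v - B y v := by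
  rw [sub_eq_add_neg, C.add_left, neg_left C, sub_eq_add_neg]

theorem sub_right (C : OCtx Q B) (v x y : Fin n → F) : B v (x - y) = B v x - B v y := by
  rw [sub_eq_add_neg, add_right C, neg_right C, sub_eq_add_neg]

theorem eq_zero_of_forall (C : OCtx Q B) {v : Fin n → F} (h : ∀ x, B x v = 0) : v = 0 := by
  by_contra hv
  obtain ⟨x, hx⟩ := C.nondeg v hv
  exact hx (h x)

theorem eq_of_forall (C : OCtx Q B) {y z : Fin n → F} (h : ∀ x, B x y = B x z) : y = z := by
  have h1 : y - z = 0 := eq_zero_of_forall C (fun x => by rw [sub_right C, h x, sub_self])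
  exact sub_eq_zero.mp h1

theorem exists_lin (C : OCtx Q B) (y : Fin n → F) :
    ∃ ψ : (Fin n → F) →ₗ[F] F, ∀ x, ψ x = B x y :=
  ⟨{ toFun := fun x => B x y
     map_add' := fun a b => C.add_left a b y
     map_smul' := fun c a => by
       show B (c • a) y = c • B a y
       rw [C.smul_left, smul_eq_mul] }, fun x => rfl⟩

/-- The covector of `x ↦ B x y`. -/
def cov (B : (Fin n → F) → (Fin n → F) → F) (y : Fin n → F) : Fin n → F :=
  fun i => B (Pi.single i 1) y

theorem cov_dot (C : OCtx Q B) (y x : Fin n → F) : cov B y ⬝ᵥ x = B x y := by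
  classical
  obtain ⟨ψ, hψ⟩ := exists_lin C y
  rw [← hψ, LinearMap.pi_apply_eq_sum_univ ψ x]
  unfold dotProduct cov
  refine Finset.sum_congr rfl fun i _ => ?_
  have e : (Pi.single i 1 : Fin n → F) = fun j => if i = j then 1 else 0 := by
    ext j
    simp [Pi.single_apply, eq_comm]
  rw [← hψ, e, smul_eq_mul, mul_comm]

theorem cov_add (C : OCtx Q B) (y z : Fin n → F) : cov B (y + z) = cov B y + cov B z := by
  funext i
  exact add_right C _ y z

theorem riesz (C : OCtx Q B) (φ : Fin n → F) : ∃ y, ∀ x, B x y = φ ⬝ᵥ x := by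
  have hinj : Function.Injective (cov B) := by
    intro y z h
    apply eq_of_forall C
    intro x
    rw [← cov_dot C, ← cov_dot C, h]
  obtain ⟨y, hy⟩ := (Finite.injective_iff_surjective.mp hinj) φ
  exact ⟨y, fun x => by rw [← hy, cov_dot C]⟩

/-- Pulling a functional back along a matrix. -/
theorem riesz_pull (C : OCtx Q B) (g : GL (Fin n) F) (y : Fin n → F) :
    ∃ t, ∀ x, B x t = B (act g x) y := by
  obtain ⟨t, ht⟩ := riesz C (cov B y ᵥ* (g : Matrix (Fin n) (Fin n) F))
  refine ⟨t, fun x => ?_⟩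
  rw [ht, ← dotProduct_mulVec, cov_dot C]
  rfl

/-- A vector perpendicular to the common perp of a family lies in its span. -/
theorem span_of_perp_fam (C : OCtx Q B) {k : ℕ} (s : Fin k → Fin n → F) (z : Fin n → F)
    (h : ∀ x, (∀ j, B x (s j) = 0) → B x z = 0) : ∃ c : Fin k → F, z = ∑ j, c j • s j := by
  choose L hL using fun j => exists_lin C (s j)
  obtain ⟨K, hK⟩ := exists_lin C z
  have hle : ⨅ j, LinearMap.ker (L j) ≤ LinearMap.ker K := by
    intro x hx
    rw [LinearMap.mem_ker, hK]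
    apply h
    intro j
    have h1 := (Submodule.mem_iInf _).mp hx j
    rw [LinearMap.mem_ker, hL] at h1
    exact h1
  obtain ⟨c, hc⟩ := (Submodule.mem_span_range_iff_exists_fun F).mp
    (mem_span_of_iInf_ker_le_ker hle)
  refine ⟨c, ?_⟩
  apply eq_of_forall C
  intro x
  have e1 : B x z = ∑ j, c j * B x (s j) := by
    have h2 := congrArg (fun φ : (Fin n → F) →ₗ[F] F => φ x) hc
    simp only [LinearMap.sum_apply, LinearMap.smul_apply, smul_eq_mul, hL, hK] at h2
    exact h2.symm
  obtain ⟨ψ, hψ⟩ := exists_lin C x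
  rw [e1, C.symm x, ← hψ, map_sum]
  refine Finset.sum_congr rfl fun j _ => ?_
  rw [map_smul, smul_eq_mul, hψ, C.symm]

theorem span_of_perp (C : OCtx Q B) (y z : Fin n → F) (h : ∀ x, B x y = 0 → B x z = 0) :
    ∃ k : F, z = k • y := by
  obtain ⟨c, hc⟩ := span_of_perp_fam C ![y] z (fun x hx => h x (by simpa using hx 0))
  exact ⟨c 0, by simpa using hc⟩

/-- An anisotropic vector perpendicular to `k` given vectors. -/
theorem exists_aniso (C : OCtx Q B) (k : ℕ) (hk : 2 * k < n) (s : Fin k → Fin n → F) :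
    ∃ x, (∀ j, B x (s j) = 0) ∧ B x x ≠ 0 := by
  by_contra hcon
  push Not at hcon
  choose L hL using fun j => exists_lin C (s j)
  obtain ⟨U, hU⟩ : ∃ U : Submodule F (Fin n → F), U = ⨅ j, LinearMap.ker (L j) :=
    ⟨_, rfl⟩
  have hUm : ∀ x, x ∈ U ↔ ∀ j, B x (s j) = 0 := by
    intro x
    rw [hU]
    simp only [Submodule.mem_iInf, LinearMap.mem_ker, hL]
  have hpol : ∀ x y, x ∈ U → y ∈ U → B x y = 0 := by
    intro x y hx hy
    have h1 := hcon (x + y) ((hUm _).mp (U.add_mem hx hy))
    rw [C.add_left, add_right C, add_right C, hcon x ((hUm x).mp hx), hcon y ((hUm y).mp hy),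
      C.symm y x] at h1
    have h2 : 2 * B x y = 0 := by linear_combination h1
    rcases mul_eq_zero.mp h2 with h | h
    · exact absurd h C.two
    · exact h
  have hsub : U ≤ Submodule.span F (Set.range s) := by
    intro u hu
    obtain ⟨c, hc⟩ := span_of_perp_fam C s u
      (fun x hx => hpol x u ((hUm x).mpr hx) hu)
    rw [hc]
    exact Submodule.sum_mem _
      (fun j _ => Submodule.smul_mem _ _ (Submodule.subset_span ⟨j, rfl⟩))
  have h1 : finrank F U ≤ k := by
    calc finrank F U ≤ finrank F (Submodule.span F (Set.range s)) :=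
          Submodule.finrank_mono hsub
      _ ≤ Fintype.card (Fin k) := finrank_range_le_card s
      _ = k := by simp
  have h2 : n ≤ finrank F U + k := by
    have e : U = LinearMap.ker (LinearMap.pi L) := by
      rw [hU, LinearMap.ker_pi]
    have h3 := LinearMap.finrank_range_add_finrank_ker (LinearMap.pi L)
    rw [Module.finrank_fin_fun] at h3
    have h4 : finrank F (LinearMap.range (LinearMap.pi L)) ≤ k := by
      calc finrank F (LinearMap.range (LinearMap.pi L))
          ≤ finrank F (Fin k → F) := Submodule.finrank_le _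
        _ = k := by simp
    rw [e]
    omega
  omega

theorem exists_sq_sum (hodd : Fintype.card F % 2 = 1) (α β γ : F) (hα : α ≠ 0) (hβ : β ≠ 0) :
    ∃ b c : F, α * b ^ 2 + β * c ^ 2 + γ = 0 := by
  obtain ⟨b, c, h⟩ := FiniteField.exists_root_sum_quadratic
    (f := Polynomial.C α * Polynomial.X ^ 2 + Polynomial.C 0 * Polynomial.X + Polynomial.C γ)
    (g := Polynomial.C β * Polynomial.X ^ 2 + Polynomial.C 0 * Polynomial.X + Polynomial.C 0)
    (Polynomial.degree_quadratic hα) (Polynomial.degree_quadratic hβ) hodd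
  refine ⟨b, c, ?_⟩
  simp only [Polynomial.eval_add, Polynomial.eval_mul, Polynomial.eval_C, Polynomial.eval_pow,
    Polynomial.eval_X] at h
  linear_combination h

/-- Every vector perpendicular to a family is a sum of two singular vectors perpendicular to
it. -/
theorem sing_split (C : OCtx Q B) (k : ℕ) (hk : 2 * (k + 2) < n) (s : Fin k → Fin n → F)
    (x : Fin n → F) (hx : ∀ j, B x (s j) = 0) :
    ∃ u₁ u₂, B u₁ u₁ = 0 ∧ B u₂ u₂ = 0 ∧ (∀ j, B u₁ (s j) = 0) ∧ (∀ j, B u₂ (s j) = 0) ∧
      x = u₁ + u₂ := by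
  by_cases hxx : B x x = 0
  · exact ⟨x, 0, hxx, zero_left C 0, hx, fun j => zero_left C _, (add_zero x).symm⟩
  · obtain ⟨z', hz's, hz'z'⟩ := exists_aniso C (k + 1) (by omega) (Fin.cons x s)
    have hz'x : B z' x = 0 := by simpa using hz's 0
    have hz's' : ∀ j, B z' (s j) = 0 := fun j => by simpa using hz's j.succ
    obtain ⟨z'', hz''s, hz''z''⟩ := exists_aniso C (k + 2) (by omega)
      (Fin.cons z' (Fin.cons x s))
    have hz''z' : B z'' z' = 0 := by simpa using hz''s 0
    have hz''x : B z'' x = 0 := by simpa using hz''s (Fin.succ 0)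
    have hz''s' : ∀ j, B z'' (s j) = 0 := fun j => by simpa using hz''s j.succ.succ
    obtain ⟨b, c, hbc⟩ := exists_sq_sum C.odd (B z' z') (B z'' z'') (B x x) hz'z' hz''z''
    have h2 : (2 : F) * (2 : F)⁻¹ = 1 := mul_inv_cancel₀ C.two
    refine ⟨(2 : F)⁻¹ • (x + b • z' + c • z''), x - (2 : F)⁻¹ • (x + b • z' + c • z''),
      ?_, ?_, ?_, ?_, by abel⟩
    · simp only [C.add_left, add_right C, C.smul_left, smul_right C, hz'x, hz''x, hz''z',
        C.symm x z', C.symm x z'', C.symm z' z'']
      linear_combination (2 : F)⁻¹ ^ 2 * hbc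
    · simp only [C.add_left, add_right C, sub_left C, sub_right C, C.smul_left, smul_right C,
        hz'x, hz''x, hz''z', C.symm x z', C.symm x z'', C.symm z' z'']
      linear_combination (-(B x x)) * h2 + (2 : F)⁻¹ ^ 2 * hbc
    · intro j
      simp only [C.add_left, C.smul_left, hx j, hz's' j, hz''s' j]
      ring
    · intro j
      simp only [sub_left C, C.add_left, C.smul_left, hx j, hz's' j, hz''s' j]
      ring

theorem exists_sing (C : OCtx Q B) (k : ℕ) (hk : 2 * (k + 2) < n) (s : Fin k → Fin n → F)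
    (t : Fin n → F) (h : ∃ x, (∀ j, B x (s j) = 0) ∧ B x t ≠ 0) :
    ∃ u, B u u = 0 ∧ (∀ j, B u (s j) = 0) ∧ B u t ≠ 0 := by
  obtain ⟨x, hx, hxt⟩ := h
  obtain ⟨u₁, u₂, h1, h2, h3, h4, e⟩ := sing_split C k hk s x hx
  by_cases hu : B u₁ t = 0
  · refine ⟨u₂, h2, h4, fun h' => hxt ?_⟩
    rw [e, C.add_left, hu, h', add_zero]
  · exact ⟨u₁, h1, h3, hu⟩

/-- A singular vector perpendicular to a family and outside its span. -/
theorem exists_sing_new (C : OCtx Q B) (k : ℕ) (hk : 2 * (k + 2) < n)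
    (s : Fin k → Fin n → F) :
    ∃ a z, B a a = 0 ∧ (∀ j, B a (s j) = 0) ∧ (∀ j, B z (s j) = 0) ∧ B a z ≠ 0 := by
  obtain ⟨z, hz, hzz⟩ := exists_aniso C k (by omega) s
  obtain ⟨a, ha, has, haz⟩ := exists_sing C k hk s z ⟨z, hz, hzz⟩
  exact ⟨a, z, ha, has, hz, haz⟩

end

end OF

end Cfsg.Agent.H99
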