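import Cfsg.Agent.H99.OTv

set_option autoImplicit false

namespace Cfsg.Agent.H99

open Matrix Module
open scoped MatrixGroups

namespace OF

section
theorem exists_ne_zero' {F : Type*} [Field F] {n : ℕ} (hn : 5 ≤ n) : ∃ z : Fin n → F, z ≠ 0 :=
  ⟨Pi.single ⟨0, by omega⟩ 1, fun h => by
    have := congrFun h ⟨0, by omega⟩
    simp at this⟩

variable {F : Type*} [Field F] [Fintype F] {n : ℕ} {Q : (Fin n → F) → F}
  {B : (Fin n → F) → (Fin n → F) → F} {M : Subgroup (GL (Fin n) F)}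

/-- From a transvection with singular centre and general axis to the tangent one. -/
theorem tangent_of_general (C : OCtx Q B)
    (hH : Cfsg.Geo.quadSimilarityGroup Q ⊓ Cfsg.Geo.specialLinear (Fin n) F ≤ M)
    {v y₁ : Fin n → F} (h : OT M B v y₁) (hv : B v v = 0) (hvy : B v y₁ = 0)
    (hne : ¬ ∃ k : F, y₁ = k • v) : OT M B v v := by
  obtain ⟨a, hav, hay⟩ : ∃ a, B a v = 0 ∧ B a y₁ ≠ 0 := by
    by_contra hcon
    push Not at hcon
    exact hne (span_of_perp C v y₁ hcon)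
  have hya : B y₁ a ≠ 0 := by
    rw [C.symm]
    exact hay
  have hva : B v a = 0 := by rw [C.symm, hav]
  obtain ⟨g, hg, hiso, hgx⟩ := exists_siegel C v ((B y₁ a)⁻¹ • a) hv
    (by rw [smul_right C, hva, mul_zero])
  have h1 := h.conj_iso C (hH hg) hiso
  have e1 : act g v = v := by
    rw [hgx, smul_right C, hva, hv]
    simp
  have e2 : act g y₁ = y₁ + v := by
    rw [hgx, smul_right C, inv_mul_cancel₀ hya, C.symm y₁ v, hvy]
    simp
  rw [e1, e2] at h1
  have h2 := (h.neg C hvy).add_right C h1 (by rw [neg_right C, hvy, neg_zero])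
  rwa [neg_add_cancel_left] at h2

/-- From one tangent transvection to all transvections of singular orthogonal pairs. -/
theorem pair_of_tangent (C : OCtx Q B) (hn : 9 ≤ n)
    (hH : Cfsg.Geo.quadSimilarityGroup Q ⊓ Cfsg.Geo.specialLinear (Fin n) F ≤ M)
    {c' : Fin n → F} {k : F} (hk : k ≠ 0) (hc' : B c' c' = 0) (hc'0 : c' ≠ 0)
    (h : OT M B c' (k • c')) (u₁ u₂ : Fin n → F) (h1 : B u₁ u₁ = 0) (h2 : B u₂ u₂ = 0)
    (h12 : B u₁ u₂ = 0) : OT M B u₁ u₂ := by
  have hall : ∀ v : Fin n → F, B v v = 0 → OT M B v (k • v) := by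
    intro v hv
    by_cases hv0 : v = 0
    · rw [hv0]
      exact OT.zero C _
    obtain ⟨g, hg, hiso, e⟩ := move_sing C hn c' v hc' hv hc'0 hv0
    have h3 := h.conj_iso C (hH hg) hiso
    rwa [act_smul, e] at h3
  have key : ∀ u₁ u₂ : Fin n → F, B u₁ u₁ = 0 → B u₂ u₂ = 0 → B u₁ u₂ = 0 →
      OT M B u₁ ((2 * k) • u₂) := by
    intro u₁ u₂ h1 h2 h12
    have h21 : B u₂ u₁ = 0 := by rw [C.symm, h12]
    have hs : B (u₁ + u₂) (u₁ + u₂) = 0 := by
      simp only [C.add_left, add_right C, h1, h2, h12, h21]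
      ring
    obtain ⟨g₁, hg₁, hx₁⟩ := (ot_def C _ _).mp (hall (u₁ + u₂) hs)
    obtain ⟨g₂, hg₂, hx₂⟩ := (ot_def C _ _).mp
      ((hall u₁ h1).neg C (by rw [smul_right C, h1, mul_zero]))
    obtain ⟨g₃, hg₃, hx₃⟩ := (ot_def C _ _).mp
      ((hall u₂ h2).neg C (by rw [smul_right C, h2, mul_zero]))
    obtain ⟨g₄, hg₄, -, hx₄⟩ := exists_siegel C u₁ (k • u₂) h1
      (by rw [smul_right C, h12, mul_zero])
    have hq : Q (k • u₂) = 0 :=
      q_eq_zero C (by rw [C.smul_left, smul_right C, h2, mul_zero, mul_zero])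
    refine (ot_def C _ _).mpr ⟨g₁ * g₂ * g₃ * g₄,
      M.mul_mem (M.mul_mem (M.mul_mem hg₁ hg₂) hg₃) (hH hg₄), fun x => ?_⟩
    rw [act_mul, act_mul, act_mul, hx₄, hx₃, hx₂, hx₁]
    simp only [C.add_left, sub_left C, C.smul_left, smul_right C, add_right C, neg_right C, h1,
      h2, h12, h21, hq]
    module
  have h3 := key u₁ ((2 * k)⁻¹ • u₂) h1
    (by rw [C.smul_left, smul_right C, h2, mul_zero, mul_zero])
    (by rw [smul_right C, h12, mul_zero])
  rwa [smul_smul, mul_inv_cancel₀ (mul_ne_zero C.two hk), one_smul] at h3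

theorem all_of_pairs (C : OCtx Q B) (hn : 9 ≤ n)
    (h : ∀ u₁ u₂ : Fin n → F, B u₁ u₁ = 0 → B u₂ u₂ = 0 → B u₁ u₂ = 0 → OT M B u₁ u₂)
    (w y : Fin n → F) (hwy : B w y = 0) : OT M B w y := by
  have key : ∀ u y : Fin n → F, B u u = 0 → B u y = 0 → OT M B u y := by
    intro u y hu huy
    obtain ⟨q₁, q₂, hq₁, hq₂, hq₁u, hq₂u, e⟩ := sing_split C 1 (by omega) ![u] y
      (fun j => by rw [Matrix.cons_val_fin_one, C.symm]; exact huy)
    have hq₁u' : B u q₁ = 0 := by
      rw [C.symm]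
      simpa using hq₁u 0
    have hq₂u' : B u q₂ = 0 := by
      rw [C.symm]
      simpa using hq₂u 0
    rw [e]
    exact (h u q₁ hu hq₁ hq₁u').add_right C (h u q₂ hu hq₂ hq₂u') hq₁u'
  obtain ⟨u₁, u₂, hu₁, hu₂, hu₁y, hu₂y, e⟩ := sing_split C 1 (by omega) ![y] w
    (fun j => by rw [Matrix.cons_val_fin_one]; exact hwy)
  have hu₁y' : B u₁ y = 0 := by simpa using hu₁y 0
  have hu₂y' : B u₂ y = 0 := by simpa using hu₂y 0
  rw [e]
  exact (key u₁ y hu₁ hu₁y').add_left C (key u₂ y hu₂ hu₂y') hu₂y'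

/-- A matrix satisfying the perpendicularity criterion is a similarity. -/
theorem sim_of_good (C : OCtx Q B) (hn : 9 ≤ n) (g : GL (Fin n) F)
    (hF : ∀ u a x : Fin n → F, B u u = 0 → B a a = 0 → B u a = 0 → a ≠ 0 → B x u = 0 →
      B x a = 0 → B (act g x) (act g a) = 0 → B (act g x) (act g u) = 0) :
    g ∈ Cfsg.Geo.quadSimilarityGroup Q := by
  have hF' : ∀ u a x : Fin n → F, B u u = 0 → B a a = 0 → B u a = 0 → (¬ ∃ c : F, a = c • u) →
      B x u = 0 → B x a = 0 → B (act g x) (act g u) = 0 := by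
    intro u a x hu ha hua hne hxu hxa
    by_contra hcon
    have hau : B a u = 0 := by rw [C.symm, hua]
    apply hcon
    refine hF u (B (act g x) (act g a) • u - B (act g x) (act g u) • a) x hu ?_ ?_ ?_ hxu ?_ ?_
    · simp only [sub_left C, sub_right C, C.smul_left, smul_right C, hu, ha, hua, hau]
      ring
    · simp only [sub_right C, smul_right C, hu, hua]
      ring
    · intro h0
      apply hne
      refine ⟨B (act g x) (act g a) / B (act g x) (act g u), ?_⟩
      have h1 : B (act g x) (act g u) • a = B (act g x) (act g a) • u := (sub_eq_zero.mp h0).symm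
      rw [div_eq_inv_mul, ← smul_smul, ← h1, smul_smul, inv_mul_cancel₀ hcon, one_smul]
    · simp only [sub_right C, smul_right C, hxu, hxa]
      ring
    · simp only [act_sub, act_smul, sub_right C, smul_right C]
      ring
  have hP1 : ∀ u x : Fin n → F, B u u = 0 → B x u = 0 → B (act g x) (act g u) = 0 := by
    intro u x hu hxu
    obtain ⟨a, z, ha, has, hzs, haz⟩ := exists_sing_new C 2 (by omega) ![u, x]
    have hau : B a u = 0 := by simpa using has 0
    have hax : B a x = 0 := by simpa using has 1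
    have hzu : B z u = 0 := by simpa using hzs 0
    refine hF' u a x hu ha (by rw [C.symm, hau]) ?_ hxu (by rw [C.symm, hax])
    rintro ⟨c, hc⟩
    apply haz
    rw [hc, C.smul_left, C.symm, hzu, mul_zero]
  have hP2 : ∀ u : Fin n → F, B u u = 0 →
      ∃ c : F, ∀ x, B (act g x) (act g u) = c * B x u := by
    intro u hu
    obtain ⟨t, ht⟩ := riesz_pull C g (act g u)
    obtain ⟨k, hk⟩ := span_of_perp C u t (fun x hx => by rw [ht]; exact hP1 u x hu hx)
    exact ⟨k, fun x => by rw [← ht, hk, smul_right C]⟩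
  have hedge : ∀ u r : Fin n → F, ∀ c cr : F, (∀ x, B (act g x) (act g u) = c * B x u) →
      (∀ x, B (act g x) (act g r) = cr * B x r) → B r u ≠ 0 → c = cr := by
    intro u r c cr hc hcr hru
    have a1 := hc r
    have a2 := hcr u
    rw [C.symm (act g u) (act g r), a1, C.symm u r] at a2
    exact mul_right_cancel₀ hru a2
  obtain ⟨z, hz⟩ := exists_ne_zero' (F := F) (n := n) (by omega)
  obtain ⟨v₀, hv₀, hv₀z⟩ := exists_sing0 C (by omega) z hz
  have hv₀0 : v₀ ≠ 0 := by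
    rintro rfl
    exact hv₀z (zero_left C z)
  obtain ⟨c₀, hc₀⟩ := hP2 v₀ hv₀
  have hB : ∀ v x : Fin n → F, B v v = 0 → B (act g x) (act g v) = c₀ * B x v := by
    intro v x hv
    by_cases hv0 : v = 0
    · rw [hv0, act_zero, zero_right C, zero_right C, mul_zero]
    obtain ⟨c, hc⟩ := hP2 v hv
    obtain ⟨u₁, hu₁, hu₁v₀⟩ := exists_sing0 C (by omega) v₀ hv₀0
    obtain ⟨u₂, hu₂, hu₂v⟩ := exists_sing0 C (by omega) v hv0
    obtain ⟨c₁, hc₁⟩ := hP2 u₁ hu₁
    obtain ⟨c₂, hc₂⟩ := hP2 u₂ hu₂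
    have e1 : c₀ = c₁ := hedge v₀ u₁ c₀ c₁ hc₀ hc₁ hu₁v₀
    have e2 : c = c₂ := hedge v u₂ c c₂ hc hc₂ hu₂v
    have e3 : c = c₀ := by
      by_cases h1 : B u₁ v = 0
      swap
      · rw [e1]
        exact hedge v u₁ c c₁ hc hc₁ h1
      by_cases h2 : B u₂ v₀ = 0
      swap
      · rw [e2]
        exact (hedge v₀ u₂ c₀ c₂ hc₀ hc₂ h2).symm
      by_cases h3 : B u₁ u₂ = 0
      swap
      · rw [e1, e2]
        exact hedge u₂ u₁ c₂ c₁ hc₂ hc₁ h3
      have hr : B (u₁ + u₂) (u₁ + u₂) = 0 := by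
        simp only [C.add_left, add_right C, hu₁, hu₂, h3, C.symm u₂ u₁]
        ring
      obtain ⟨cr, hcr⟩ := hP2 (u₁ + u₂) hr
      have e4 : c₀ = cr := hedge v₀ (u₁ + u₂) c₀ cr hc₀ hcr
        (by rw [C.add_left, h2, add_zero]; exact hu₁v₀)
      have e5 : c = cr := hedge v (u₁ + u₂) c cr hc hcr
        (by rw [C.add_left, h1, zero_add]; exact hu₂v)
      rw [e5, ← e4]
    rw [hc, e3]
  have hall : ∀ x y : Fin n → F, B (act g x) (act g y) = c₀ * B x y := by
    intro x y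
    obtain ⟨u₁, u₂, hu₁, hu₂, -, -, e⟩ := sing_split C 0 (by omega) ![] y (fun j => j.elim0)
    rw [e, act_add, add_right C, add_right C, hB u₁ x hu₁, hB u₂ x hu₂]
    ring
  have hc₀0 : c₀ ≠ 0 := by
    rintro rfl
    obtain ⟨x, hx⟩ := C.nondeg (act g v₀)
      (fun h0 => hv₀0 (act_injective g (by rw [h0, act_zero])))
    have h1 := hall (act g⁻¹ x) v₀
    rw [act_act_inv, zero_mul] at h1
    exact hx h1
  refine ⟨Units.mk0 c₀ hc₀0, fun v => ?_⟩
  have h1 := hall v v
  rw [C.self, C.self] at h1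
  show Q (act g v) = c₀ * Q v
  exact mul_left_cancel₀ C.two (by linear_combination h1)

/-- A non-similarity in `M` yields a transvection in `M` with singular centre. -/
theorem exists_tv_of_nonsim (C : OCtx Q B) (hn : 13 ≤ n)
    (hH : Cfsg.Geo.quadSimilarityGroup Q ⊓ Cfsg.Geo.specialLinear (Fin n) F ≤ M)
    (g : GL (Fin n) F) (hg : g ∈ M) (hns : g ∉ Cfsg.Geo.quadSimilarityGroup Q) :
    ∃ c' y : Fin n → F, OT M B c' y ∧ B c' c' = 0 ∧ c' ≠ 0 ∧ y ≠ 0 ∧ B c' y = 0 := by
  have hex : ∃ u a x : Fin n → F, B u u = 0 ∧ B a a = 0 ∧ B u a = 0 ∧ a ≠ 0 ∧ B x u = 0 ∧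
      B x a = 0 ∧ B (act g x) (act g a) = 0 ∧ B (act g x) (act g u) ≠ 0 := by
    by_contra hcon
    push Not at hcon
    exact hns (sim_of_good C (by omega) g
      (fun u a x h1 h2 h3 h4 h5 h6 h7 => hcon u a x h1 h2 h3 h4 h5 h6 h7))
  obtain ⟨u, a, x, hu, ha, hua, ha0, hxu, hxa, hxga, hxgu⟩ := hex
  have hau : B a u = 0 := by rw [C.symm, hua]
  obtain ⟨s₁, hs₁⟩ := riesz_pull C g⁻¹ u
  obtain ⟨s₂, hs₂⟩ := riesz_pull C g⁻¹ a
  have hz1 : B (act g x) s₁ = 0 := by rw [hs₁, act_inv_act, hxu]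
  have hz2 : B (act g x) s₂ = 0 := by rw [hs₂, act_inv_act, hxa]
  obtain ⟨u', hu', hu's, hu'gu⟩ := exists_sing C 3 (by omega) ![s₁, s₂, act g a] (act g u)
    ⟨act g x, by
      intro j
      fin_cases j
      · exact hz1
      · exact hz2
      · exact hxga, hxgu⟩
  have hu's₁ : B u' s₁ = 0 := by simpa using hu's 0
  have hu's₂ : B u' s₂ = 0 := by simpa using hu's 1
  have hu'ga : B u' (act g a) = 0 := by simpa using hu's 2
  obtain ⟨a', z, ha', ha's, hzs, ha'z⟩ := exists_sing_new C 4 (by omega)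
    ![s₁, s₂, act g a, u']
  have ha's₁ : B a' s₁ = 0 := by simpa using ha's 0
  have ha's₂ : B a' s₂ = 0 := by simpa using ha's 1
  have ha'ga : B a' (act g a) = 0 := by simpa using ha's 2
  have ha'u' : B a' u' = 0 := by simpa using ha's 3
  have hzu' : B z u' = 0 := by simpa using hzs 3
  have hu'a' : B u' a' = 0 := by rw [C.symm, ha'u']
  have hgau' : B (act g a) u' = 0 := by rw [C.symm, hu'ga]
  have hgaa' : B (act g a) a' = 0 := by rw [C.symm, ha'ga]
  have hgus₁ : B (act g u) s₁ = 0 := by rw [hs₁, act_inv_act, hu]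
  have hgus₂ : B (act g u) s₂ = 0 := by rw [hs₂, act_inv_act, hua]
  have hgas₁ : B (act g a) s₁ = 0 := by rw [hs₁, act_inv_act, hau]
  have hgas₂ : B (act g a) s₂ = 0 := by rw [hs₂, act_inv_act, ha]
  obtain ⟨L₁, hL₁, -, hL₁x⟩ := exists_siegel C u a hu hua
  obtain ⟨L₂, hL₂, -, hL₂x⟩ := exists_siegel C u (-a) hu (by rw [neg_right C, hua, neg_zero])
  obtain ⟨L₁', hL₁', -, hL₁'x⟩ := exists_siegel C u' a' hu' hu'a'
  obtain ⟨L₂', hL₂', -, hL₂'x⟩ := exists_siegel C u' (-a') hu'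
    (by rw [neg_right C, hu'a', neg_zero])
  have hqa : Q a = 0 := q_eq_zero C ha
  have hqna : Q (-a) = 0 :=
    q_eq_zero C (by rw [neg_left C, neg_right C, ha, neg_zero, neg_zero])
  have hqa' : Q a' = 0 := q_eq_zero C ha'
  have hqna' : Q (-a') = 0 :=
    q_eq_zero C (by rw [neg_left C, neg_right C, ha', neg_zero, neg_zero])
  have hD₁ : ∀ z, act (g * L₁ * g⁻¹) z = z + B z s₂ • act g u - B z s₁ • act g a := by
    intro z
    rw [act_mul, act_mul, hL₁x, hqa, zero_mul, zero_smul, sub_zero, act_sub, act_add,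
      act_act_inv, act_smul, act_smul, ← hs₂, ← hs₁]
  have hD₂ : ∀ z, act (g * L₂ * g⁻¹) z = z - B z s₂ • act g u + B z s₁ • act g a := by
    intro z
    have hneg : act g (-a) = -act g a := Matrix.mulVec_neg _ _
    rw [act_mul, act_mul, hL₂x, hqna, zero_mul, zero_smul, sub_zero, act_sub, act_add,
      act_act_inv, act_smul, act_smul, neg_right C, ← hs₂, ← hs₁, hneg]
    module
  have hconj : ∀ L : GL (Fin n) F,
      L ∈ Cfsg.Geo.quadSimilarityGroup Q ⊓ Cfsg.Geo.specialLinear (Fin n) F →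
        g * L * g⁻¹ ∈ M :=
    fun L hL => M.mul_mem (M.mul_mem hg (hH hL)) (M.inv_mem hg)
  refine ⟨B (act g u) a' • u' - B (act g u) u' • a', -s₂, ?_, ?_, ?_, ?_, ?_⟩
  · refine (ot_def C _ _).mpr ⟨g * L₁ * g⁻¹ * L₁' * (g * L₂ * g⁻¹) * L₂',
      M.mul_mem (M.mul_mem (M.mul_mem (hconj L₁ hL₁) (hH hL₁')) (hconj L₂ hL₂)) (hH hL₂'),
      fun z => ?_⟩
    rw [act_mul, act_mul, act_mul, hL₂'x, hD₂, hL₁'x, hD₁]
    simp only [C.add_left, sub_left C, C.smul_left, neg_left C, neg_right C, hu', ha', hu'a',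
      ha'u', hu's₁, hu's₂, ha's₁, ha's₂, hgus₁, hgus₂, hgas₁, hgas₂, hgau', hgaa', hqa', hqna']
    module
  · simp only [sub_left C, sub_right C, C.smul_left, smul_right C, hu', ha', hu'a', ha'u']
    ring
  · intro h0
    have h1 := congrArg (fun t => B t z) h0
    simp only [sub_left C, C.smul_left, zero_left C, C.symm u' z, hzu'] at h1
    have h2 : B (act g u) u' * B a' z = 0 := by linear_combination -h1
    rcases mul_eq_zero.mp h2 with h3 | h3
    · exact hu'gu (by rw [C.symm]; exact h3)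
    · exact ha'z h3
  · intro h0
    have hs0 : s₂ = 0 := neg_eq_zero.mp h0
    obtain ⟨x', hx'⟩ := C.nondeg a ha0
    have h1 := hs₂ (act g x')
    rw [hs0, zero_right C, act_inv_act] at h1
    exact hx' h1.symm
  · simp only [sub_left C, C.smul_left, neg_right C, hu's₂, ha's₂]
    ring

/-- Some matrix of determinant one is not a similarity. -/
theorem exists_nonsim (C : OCtx Q B) (hn : 5 ≤ n) :
    ∃ g : GL (Fin n) F, g ∈ Cfsg.Geo.specialLinear (Fin n) F ∧
      g ∉ Cfsg.Geo.quadSimilarityGroup Q := by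
  obtain ⟨z, hz⟩ := exists_ne_zero' (F := F) (n := n) hn
  obtain ⟨v, hv, hvz⟩ := exists_sing0 C hn z hz
  have hv0 : v ≠ 0 := by
    rintro rfl
    exact hvz (zero_left C z)
  obtain ⟨g, hg, hgx⟩ := exists_transvection v (cov B v) (by rw [cov_dot C, hv])
  refine ⟨g, hg, ?_⟩
  rintro ⟨κ, hκ⟩
  have key : ∀ x, ((κ : F) - 1) * B x x = 2 * (B x v * B x v) := by
    intro x
    have h1 : Q (act g x) = (κ : F) * Q x := hκ x
    have h2 : B (act g x) (act g x) = (κ : F) * B x x := by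
      rw [C.self, C.self, h1]
      ring
    rw [hgx] at h2
    simp only [cov_dot C, C.add_left, add_right C, C.smul_left, smul_right C, hv,
      C.symm v x] at h2
    linear_combination -h2
  obtain ⟨x₀, hx₀⟩ := C.nondeg v hv0
  have h1 := key x₀
  have h2 := key (x₀ + v)
  simp only [C.add_left, add_right C, hv, C.symm v x₀] at h2
  have h3 : ((κ : F) - 1) * (2 * B x₀ v) = 0 := by linear_combination h2 - h1
  have hκ1 : (κ : F) - 1 = 0 := by
    rcases mul_eq_zero.mp h3 with h | h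
    · exact h
    · exact absurd h (mul_ne_zero C.two hx₀)
  rw [hκ1, zero_mul] at h1
  exact (mul_ne_zero C.two (mul_ne_zero hx₀ hx₀)) h1.symm

/-- The context of a non-degenerate quadratic form over a field of odd order. -/
theorem octx_of (hodd : Odd (Fintype.card F)) (hQ : Cfsg.Geo.IsNondegenerateQuadraticForm Q) :
    OCtx Q (QuadraticMap.polar Q) := by
  have h2 : (2 : F) ≠ 0 := by
    apply Ring.two_ne_zero
    intro hchar
    have h1 := FiniteField.even_card_of_char_two hchar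
    have h3 := Nat.odd_iff.mp hodd
    omega
  refine ⟨Nat.odd_iff.mp hodd, h2, hQ.polar_bilinear.add_left, hQ.polar_bilinear.smul_left,
    fun x y => QuadraticMap.polar_comm Q x y, fun x => ?_,
    fun v hv => (hQ.nondegenerate v hv).1⟩
  unfold QuadraticMap.polar
  have h3 : x + x = (2 : F) • x := (two_smul F x).symm
  rw [h3, hQ.smul]
  ring

/-- The similarity group of a quadratic form meets `SL_n(F)` in a maximal subgroup. -/
theorem orth_maximal (hn : 13 ≤ n) (hodd : Odd (Fintype.card F))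
    (hQ : Cfsg.Geo.IsNondegenerateQuadraticForm Q) :
    Cfsg.Geo.IsMaximalIn (Cfsg.Geo.specialLinear (Fin n) F)
      (Cfsg.Geo.quadSimilarityGroup Q ⊓ Cfsg.Geo.specialLinear (Fin n) F) := by
  have C := octx_of hodd hQ
  constructor
  · refine lt_of_le_of_ne inf_le_right ?_
    intro heq
    obtain ⟨g, hgSL, hgns⟩ := exists_nonsim C (by omega)
    have h1 : g ∈ Cfsg.Geo.quadSimilarityGroup Q ⊓ Cfsg.Geo.specialLinear (Fin n) F := by
      rw [heq]
      exact hgSL
    exact hgns h1.1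
  · intro M hHM hMK
    by_cases hMS : M ≤ Cfsg.Geo.quadSimilarityGroup Q
    · left
      exact le_antisymm (le_inf hMS hMK) hHM
    · right
      obtain ⟨g, hgM, hgS⟩ := SetLike.not_le_iff_exists.mp hMS
      obtain ⟨c', y, hot, hc', hc'0, hy0, hc'y⟩ := exists_tv_of_nonsim C hn hHM g hgM hgS
      have htan : ∃ k : F, k ≠ 0 ∧ OT M (QuadraticMap.polar Q) c' (k • c') := by
        by_cases hyc : ∃ k : F, y = k • c'
        · obtain ⟨k, rfl⟩ := hyc
          exact ⟨k, by rintro rfl; exact hy0 (zero_smul _ _), hot⟩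
        · exact ⟨1, one_ne_zero, by
            rw [one_smul]
            exact tangent_of_general C hHM hot hc' hc'y hyc⟩
      obtain ⟨k, hk, hot'⟩ := htan
      have h6 := pair_of_tangent C (by omega) hHM hk hc' hc'0 hot'
      have h7 := all_of_pairs C (by omega) h6
      apply le_antisymm hMK
      apply sl_le_of_transvections (by omega) M
      intro w φ hφ
      obtain ⟨y, hy⟩ := riesz C φ
      obtain ⟨t, ht, htx⟩ := (ot_def C w y).mp (h7 w y (by rw [hy]; exact hφ))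
      exact ⟨t, ht, fun x => by rw [htx, hy]⟩

end

end OF

end Cfsg.Agent.H99
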