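import Mathlib

set_option autoImplicit false

/-! Helper lemmas (helper99): a pair of nilpotent elements `N₁`, `N₂` of an algebra with
`N₁ N₂ N₁ = lam N₁` and `N₂ N₁ N₂ = lam N₂` gives a system of `2 × 2` matrix units, hence a
homomorphism from `SL₂`. -/

namespace Cfsg.Agent.H99.OS

open Matrix

section
variable {F : Type*} [Field F] {R : Type*} [Ring R] [Algebra F R]

theorem unit_mul (E₁₁ E₁₂ E₂₁ E₂₂ : R)
    (r1 : E₁₁ * E₁₁ = E₁₁) (r2 : E₁₁ * E₁₂ = E₁₂) (r3 : E₁₁ * E₂₁ = 0) (r4 : E₁₁ * E₂₂ = 0)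
    (r5 : E₁₂ * E₁₁ = 0) (r6 : E₁₂ * E₁₂ = 0) (r7 : E₁₂ * E₂₁ = E₁₁) (r8 : E₁₂ * E₂₂ = E₁₂)
    (r9 : E₂₁ * E₁₁ = E₂₁) (r10 : E₂₁ * E₁₂ = E₂₂) (r11 : E₂₁ * E₂₁ = 0) (r12 : E₂₁ * E₂₂ = 0)
    (r13 : E₂₂ * E₁₁ = 0) (r14 : E₂₂ * E₁₂ = 0) (r15 : E₂₂ * E₂₁ = E₂₁) (r16 : E₂₂ * E₂₂ = E₂₂)
    (a b c d a' b' c' d' : F) :
    (1 + (a - 1) • E₁₁ + b • E₁₂ + c • E₂₁ + (d - 1) • E₂₂)
      * (1 + (a' - 1) • E₁₁ + b' • E₁₂ + c' • E₂₁ + (d' - 1) • E₂₂)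
    = 1 + (a * a' + b * c' - 1) • E₁₁ + (a * b' + b * d') • E₁₂ + (c * a' + d * c') • E₂₁
        + (c * b' + d * d' - 1) • E₂₂ := by
  simp only [mul_add, add_mul, mul_one, one_mul, smul_mul_smul_comm, r1, r2, r3, r4, r5, r6, r7,
    r8, r9, r10, r11, r12, r13, r14, r15, r16, smul_zero]
  module

/-- The map from `2 × 2` matrices attached to the pair `N₁`, `N₂`. -/
def phi (lam : F) (N₁ N₂ : R) (A : Matrix (Fin 2) (Fin 2) F) : R :=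
  1 + (A 0 0 - 1) • (lam⁻¹ • (N₂ * N₁)) + A 0 1 • (lam⁻¹ • N₂) + A 1 0 • N₁
    + (A 1 1 - 1) • (lam⁻¹ • (N₁ * N₂))

theorem phi_one (lam : F) (N₁ N₂ : R) : phi lam N₁ N₂ 1 = 1 := by
  unfold phi
  simp

theorem phi_mul (lam : F) (hlam : lam ≠ 0) (N₁ N₂ : R) (h1 : N₁ * N₁ = 0) (h2 : N₂ * N₂ = 0)
    (h121 : N₁ * N₂ * N₁ = lam • N₁) (h212 : N₂ * N₁ * N₂ = lam • N₂)
    (A B : Matrix (Fin 2) (Fin 2) F) :
    phi lam N₁ N₂ (A * B) = phi lam N₁ N₂ A * phi lam N₁ N₂ B := by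
  have s1 : ∀ x : R, (lam⁻¹ * lam⁻¹) • lam • x = lam⁻¹ • x := by
    intro x
    rw [smul_smul]
    congr 1
    field_simp
  have s2 : ∀ x : R, lam⁻¹ • lam • x = x := by
    intro x
    rw [smul_smul, inv_mul_cancel₀ hlam, one_smul]
  have w1 : N₂ * N₁ * (N₂ * N₁) = lam • (N₂ * N₁) := by
    rw [mul_assoc, ← mul_assoc N₁, h121, mul_smul_comm]
  have w16 : N₁ * N₂ * (N₁ * N₂) = lam • (N₁ * N₂) := by
    rw [mul_assoc, ← mul_assoc N₂, h212, mul_smul_comm]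
  have w8 : N₂ * (N₁ * N₂) = lam • N₂ := by rw [← mul_assoc, h212]
  have w9 : N₁ * (N₂ * N₁) = lam • N₁ := by rw [← mul_assoc, h121]
  have r1 : (lam⁻¹ • (N₂ * N₁)) * (lam⁻¹ • (N₂ * N₁)) = lam⁻¹ • (N₂ * N₁) := by
    rw [smul_mul_smul_comm, w1, s1]
  have r2 : (lam⁻¹ • (N₂ * N₁)) * (lam⁻¹ • N₂) = lam⁻¹ • N₂ := by
    rw [smul_mul_smul_comm, h212, s1]
  have r3 : (lam⁻¹ • (N₂ * N₁)) * N₁ = 0 := by
    rw [smul_mul_assoc, mul_assoc, h1, mul_zero, smul_zero]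
  have r4 : (lam⁻¹ • (N₂ * N₁)) * (lam⁻¹ • (N₁ * N₂)) = 0 := by
    rw [smul_mul_smul_comm, mul_assoc, ← mul_assoc N₁, h1, zero_mul, mul_zero, smul_zero]
  have r5 : (lam⁻¹ • N₂) * (lam⁻¹ • (N₂ * N₁)) = 0 := by
    rw [smul_mul_smul_comm, ← mul_assoc, h2, zero_mul, smul_zero]
  have r6 : (lam⁻¹ • N₂) * (lam⁻¹ • N₂) = 0 := by
    rw [smul_mul_smul_comm, h2, smul_zero]
  have r7 : (lam⁻¹ • N₂) * N₁ = lam⁻¹ • (N₂ * N₁) := by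
    rw [smul_mul_assoc]
  have r8 : (lam⁻¹ • N₂) * (lam⁻¹ • (N₁ * N₂)) = lam⁻¹ • N₂ := by
    rw [smul_mul_smul_comm, w8, s1]
  have r9 : N₁ * (lam⁻¹ • (N₂ * N₁)) = N₁ := by
    rw [mul_smul_comm, w9, s2]
  have r10 : N₁ * (lam⁻¹ • N₂) = lam⁻¹ • (N₁ * N₂) := by
    rw [mul_smul_comm]
  have r12 : N₁ * (lam⁻¹ • (N₁ * N₂)) = 0 := by
    rw [mul_smul_comm, ← mul_assoc, h1, zero_mul, smul_zero]
  have r13 : (lam⁻¹ • (N₁ * N₂)) * (lam⁻¹ • (N₂ * N₁)) = 0 := by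
    rw [smul_mul_smul_comm, mul_assoc, ← mul_assoc N₂, h2, zero_mul, mul_zero, smul_zero]
  have r14 : (lam⁻¹ • (N₁ * N₂)) * (lam⁻¹ • N₂) = 0 := by
    rw [smul_mul_smul_comm, mul_assoc, h2, mul_zero, smul_zero]
  have r15 : (lam⁻¹ • (N₁ * N₂)) * N₁ = N₁ := by
    rw [smul_mul_assoc, h121, s2]
  have r16 : (lam⁻¹ • (N₁ * N₂)) * (lam⁻¹ • (N₁ * N₂)) = lam⁻¹ • (N₁ * N₂) := by
    rw [smul_mul_smul_comm, w16, s1]
  unfold phi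
  rw [unit_mul (lam⁻¹ • (N₂ * N₁)) (lam⁻¹ • N₂) N₁ (lam⁻¹ • (N₁ * N₂)) r1 r2 r3 r4 r5 r6 r7 r8 r9
    r10 h1 r12 r13 r14 r15 r16]
  simp only [Matrix.mul_apply, Fin.sum_univ_two]

theorem phi_lower (lam : F) (N₁ N₂ : R) (c : F) :
    phi lam N₁ N₂ !![1, 0; c, 1] = 1 + c • N₁ := by
  unfold phi
  simp

theorem phi_upper (lam : F) (hlam : lam ≠ 0) (N₁ N₂ : R) (c : F) :
    phi lam N₁ N₂ !![1, c * lam; 0, 1] = 1 + c • N₂ := by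
  unfold phi
  simp [smul_smul, mul_assoc, mul_inv_cancel₀ hlam]

theorem phi_word (lam : F) (N₁ N₂ : R) :
    phi lam N₁ N₂ !![lam, 0; lam, -lam]
      = 1 + (lam - 1) • (lam⁻¹ • (N₂ * N₁)) + lam • N₁ + (-lam - 1) • (lam⁻¹ • (N₁ * N₂)) := by
  unfold phi
  simp

/-- The homomorphism from `SL₂(F)` attached to the pair `N₁`, `N₂`. -/
def phiHom (lam : F) (hlam : lam ≠ 0) (N₁ N₂ : R) (h1 : N₁ * N₁ = 0) (h2 : N₂ * N₂ = 0)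
    (h121 : N₁ * N₂ * N₁ = lam • N₁) (h212 : N₂ * N₁ * N₂ = lam • N₂) :
    Matrix.SpecialLinearGroup (Fin 2) F →* R where
  toFun g := phi lam N₁ N₂ (g : Matrix (Fin 2) (Fin 2) F)
  map_one' := by
    rw [Matrix.SpecialLinearGroup.coe_one]
    exact phi_one lam N₁ N₂
  map_mul' g h := by
    rw [Matrix.SpecialLinearGroup.coe_mul]
    exact phi_mul lam hlam N₁ N₂ h1 h2 h121 h212 _ _

theorem phiHom_apply (lam : F) (hlam : lam ≠ 0) (N₁ N₂ : R) (h1 : N₁ * N₁ = 0)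
    (h2 : N₂ * N₂ = 0) (h121 : N₁ * N₂ * N₁ = lam • N₁) (h212 : N₂ * N₁ * N₂ = lam • N₂)
    (g : Matrix.SpecialLinearGroup (Fin 2) F) :
    phiHom lam hlam N₁ N₂ h1 h2 h121 h212 g = phi lam N₁ N₂ (g : Matrix (Fin 2) (Fin 2) F) :=
  rfl

/-- The word `U L U⁻¹ L⁻¹ U` in `SL₂` when `lam ^ 2 = -1`. -/
theorem sl2_word (lam : F) (hsq : lam ^ 2 = -1)
    (U L Um Lm W : Matrix.SpecialLinearGroup (Fin 2) F)
    (hU : (U : Matrix (Fin 2) (Fin 2) F) = !![1, 1 * lam; 0, 1])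
    (hL : (L : Matrix (Fin 2) (Fin 2) F) = !![1, 0; 1, 1])
    (hUm : (Um : Matrix (Fin 2) (Fin 2) F) = !![1, -1 * lam; 0, 1])
    (hLm : (Lm : Matrix (Fin 2) (Fin 2) F) = !![1, 0; -1, 1])
    (hW : (W : Matrix (Fin 2) (Fin 2) F) = !![lam, 0; lam, -lam]) :
    U * L * Um * Lm * U = W := by
  apply Subtype.ext
  rw [Matrix.SpecialLinearGroup.coe_mul, Matrix.SpecialLinearGroup.coe_mul,
    Matrix.SpecialLinearGroup.coe_mul, Matrix.SpecialLinearGroup.coe_mul, hU, hL, hUm, hLm, hW]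
  simp only [Matrix.mul_fin_two]
  ext i j
  fin_cases i <;> fin_cases j <;> simp
  all_goals first | linear_combination hsq | linear_combination lam * hsq

end

end Cfsg.Agent.H99.OS
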