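import Cfsg.Agent.H99.OSubA
import Cfsg.Agent.H95.ND1

set_option autoImplicit false
set_option linter.unusedSectionVars false

/-! Helper lemmas (helper99): the nilpotent parts of two Siegel transformations satisfy the
`SL₂` relations, so two Siegel elements generate an image of a subgroup of `SL₂`. -/

namespace Cfsg.Agent.H99.OS

open Matrix Cfsg.Agent.H49 Cfsg.Agent.H95

section
variable {ι : Type} [Fintype ι] [DecidableEq ι] {F : Type*} [Field F]

/-- The nilpotent part of a Siegel transformation. -/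
def nil (Q : QuadraticForm F (ι → F)) (u v : ι → F) : Matrix ι ι F :=
  Matrix.vecMulVec v (Cfsg.polarVec (⇑Q) u) - Matrix.vecMulVec u (Cfsg.polarVec (⇑Q) v)

theorem siegelMatrix_eq (Q : QuadraticForm F (ι → F)) (u v : ι → F) (c : F) :
    Cfsg.siegelMatrix (⇑Q) u v c = 1 + c • nil Q u v := rfl

theorem nil_mulVec (Q : QuadraticForm F (ι → F)) (u v x : ι → F) :
    nil Q u v *ᵥ x
      = QuadraticMap.polar (⇑Q) u x • v - QuadraticMap.polar (⇑Q) v x • u := by
  unfold nil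
  rw [Matrix.sub_mulVec, Matrix.vecMulVec_mulVec, Matrix.vecMulVec_mulVec, polarVec_dot,
    polarVec_dot]
  funext k
  simp [mul_comm]

/-- The `2 × 2` determinant of polar values attached to two pairs of vectors. -/
def Dp (Q : QuadraticForm F (ι → F)) (a b u v : ι → F) : F :=
  QuadraticMap.polar (⇑Q) a u * QuadraticMap.polar (⇑Q) b v
    - QuadraticMap.polar (⇑Q) a v * QuadraticMap.polar (⇑Q) b u

theorem Dp_swap (Q : QuadraticForm F (ι → F)) (a b u v : ι → F) :
    Dp Q u v a b = Dp Q a b u v := by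
  unfold Dp
  rw [QuadraticMap.polar_comm (⇑Q) u a, QuadraticMap.polar_comm (⇑Q) v b,
    QuadraticMap.polar_comm (⇑Q) u b, QuadraticMap.polar_comm (⇑Q) v a]
  ring

theorem nil_nil_u (Q : QuadraticForm F (ι → F)) (u v a b : ι → F) :
    nil Q u v *ᵥ (nil Q a b *ᵥ u) = (-(Dp Q a b u v)) • u := by
  rw [nil_mulVec Q a b, nil_mulVec]
  simp only [QuadraticMap.polar_sub_right, QuadraticMap.polar_smul_right, smul_eq_mul]
  rw [QuadraticMap.polar_comm (⇑Q) u b, QuadraticMap.polar_comm (⇑Q) u a,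
    QuadraticMap.polar_comm (⇑Q) v b, QuadraticMap.polar_comm (⇑Q) v a]
  unfold Dp
  module

theorem nil_nil_v (Q : QuadraticForm F (ι → F)) (u v a b : ι → F) :
    nil Q u v *ᵥ (nil Q a b *ᵥ v) = (-(Dp Q a b u v)) • v := by
  rw [nil_mulVec Q a b, nil_mulVec]
  simp only [QuadraticMap.polar_sub_right, QuadraticMap.polar_smul_right, smul_eq_mul]
  rw [QuadraticMap.polar_comm (⇑Q) u b, QuadraticMap.polar_comm (⇑Q) u a,
    QuadraticMap.polar_comm (⇑Q) v b, QuadraticMap.polar_comm (⇑Q) v a]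
  unfold Dp
  module

theorem nil_triple (Q : QuadraticForm F (ι → F)) (u v a b : ι → F) :
    nil Q u v * nil Q a b * nil Q u v = (-(Dp Q a b u v)) • nil Q u v := by
  apply matrix_ext_mulVec
  intro x
  rw [← Matrix.mulVec_mulVec, ← Matrix.mulVec_mulVec, Matrix.smul_mulVec, nil_mulVec Q u v x]
  simp only [Matrix.mulVec_sub, Matrix.mulVec_smul]
  rw [nil_nil_u, nil_nil_v]
  module

theorem nil_sq (Q : QuadraticForm F (ι → F)) (u v : ι → F) (hu : Q u = 0) (hv : Q v = 0)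
    (huv : QuadraticMap.polar (⇑Q) u v = 0) : nil Q u v * nil Q u v = 0 := by
  have hvu : QuadraticMap.polar (⇑Q) v u = 0 := by rw [QuadraticMap.polar_comm]; exact huv
  apply matrix_ext_mulVec
  intro x
  rw [← Matrix.mulVec_mulVec, nil_mulVec Q u v x, nil_mulVec]
  simp only [QuadraticMap.polar_sub_right, QuadraticMap.polar_smul_right, smul_eq_mul,
    polar_self', hu, hv, huv, hvu, mul_zero, sub_zero, zero_smul, Matrix.zero_mulVec]

theorem siegelG_zero_eq (Q : QuadraticForm F (ι → F)) (u v : ι → F) (hu : Q u = 0)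
    (hv : Q v = 0) (huv : QuadraticMap.polar (⇑Q) u v = 0) :
    siegelG Q u v hu hv huv 0 = 1 := by
  apply act_ext
  intro x
  rw [act_siegelG, act_one, zero_smul, add_zero]

theorem siegelG_inv (Q : QuadraticForm F (ι → F)) (u v : ι → F) (hu : Q u = 0)
    (hv : Q v = 0) (huv : QuadraticMap.polar (⇑Q) u v = 0) (c : F) :
    (siegelG Q u v hu hv huv c)⁻¹ = siegelG Q u v hu hv huv (-c) := by
  rw [inv_eq_iff_mul_eq_one, siegelG_mul, add_neg_cancel, siegelG_zero_eq]

/-- The homomorphism from `SL₂(F)` to `GL` attached to two totally singular pairs. -/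
def psi (Q : QuadraticForm F (ι → F)) (u v a b : ι → F) (hu : Q u = 0) (hv : Q v = 0)
    (huv : QuadraticMap.polar (⇑Q) u v = 0) (ha : Q a = 0) (hb : Q b = 0)
    (hab : QuadraticMap.polar (⇑Q) a b = 0) (lam : F) (hlam : lam ≠ 0)
    (hD : lam = -(Dp Q a b u v)) :
    Matrix.SpecialLinearGroup (Fin 2) F →* Matrix.GeneralLinearGroup ι F :=
  (phiHom lam hlam (nil Q u v) (nil Q a b) (nil_sq Q u v hu hv huv) (nil_sq Q a b ha hb hab)
    (by rw [hD]; exact nil_triple Q u v a b)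
    (by rw [hD, ← Dp_swap]; exact nil_triple Q a b u v)).toHomUnits

theorem psi_coe (Q : QuadraticForm F (ι → F)) (u v a b : ι → F) (hu : Q u = 0) (hv : Q v = 0)
    (huv : QuadraticMap.polar (⇑Q) u v = 0) (ha : Q a = 0) (hb : Q b = 0)
    (hab : QuadraticMap.polar (⇑Q) a b = 0) (lam : F) (hlam : lam ≠ 0)
    (hD : lam = -(Dp Q a b u v)) (g : Matrix.SpecialLinearGroup (Fin 2) F) :
    ((psi Q u v a b hu hv huv ha hb hab lam hlam hD g : Matrix.GeneralLinearGroup ι F) :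
      Matrix ι ι F) = phi lam (nil Q u v) (nil Q a b) (g : Matrix (Fin 2) (Fin 2) F) := rfl

theorem psi_lower (Q : QuadraticForm F (ι → F)) (u v a b : ι → F) (hu : Q u = 0) (hv : Q v = 0)
    (huv : QuadraticMap.polar (⇑Q) u v = 0) (ha : Q a = 0) (hb : Q b = 0)
    (hab : QuadraticMap.polar (⇑Q) a b = 0) (lam : F) (hlam : lam ≠ 0)
    (hD : lam = -(Dp Q a b u v)) (g : Matrix.SpecialLinearGroup (Fin 2) F) (c : F)
    (hg : (g : Matrix (Fin 2) (Fin 2) F) = !![1, 0; c, 1]) :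
    psi Q u v a b hu hv huv ha hb hab lam hlam hD g
      = ((siegelG Q u v hu hv huv c : ↥(Cfsg.isometryGroup F (⇑Q))) :
          Matrix.GeneralLinearGroup ι F) := by
  apply Units.ext
  rw [psi_coe, hg, phi_lower, siegelG_coe, siegelMatrix_eq]

theorem psi_upper (Q : QuadraticForm F (ι → F)) (u v a b : ι → F) (hu : Q u = 0) (hv : Q v = 0)
    (huv : QuadraticMap.polar (⇑Q) u v = 0) (ha : Q a = 0) (hb : Q b = 0)
    (hab : QuadraticMap.polar (⇑Q) a b = 0) (lam : F) (hlam : lam ≠ 0)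
    (hD : lam = -(Dp Q a b u v)) (g : Matrix.SpecialLinearGroup (Fin 2) F) (c : F)
    (hg : (g : Matrix (Fin 2) (Fin 2) F) = !![1, c * lam; 0, 1]) :
    psi Q u v a b hu hv huv ha hb hab lam hlam hD g
      = ((siegelG Q a b ha hb hab c : ↥(Cfsg.isometryGroup F (⇑Q))) :
          Matrix.GeneralLinearGroup ι F) := by
  apply Units.ext
  rw [psi_coe, hg, phi_upper lam hlam, siegelG_coe, siegelMatrix_eq]

/-- If the two standard unipotent elements generate `SL₂` over a subfield containing `lam`,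
the group contains the Siegel element with coefficient `lam`. -/
theorem siegel_mem_of_closure_top (Q : QuadraticForm F (ι → F))
    (M : Subgroup ↥(Cfsg.isometryGroup F (⇑Q))) (u v a b : ι → F) (hu : Q u = 0) (hv : Q v = 0)
    (huv : QuadraticMap.polar (⇑Q) u v = 0) (ha : Q a = 0) (hb : Q b = 0)
    (hab : QuadraticMap.polar (⇑Q) a b = 0) (lam : F) (hlam : lam ≠ 0)
    (hD : lam = -(Dp Q a b u v))
    (h1 : siegelG Q u v hu hv huv 1 ∈ M) (h2 : siegelG Q a b ha hb hab 1 ∈ M)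
    (K : Subfield F) (lam' : K) (hl : (lam' : F) = lam)
    (htop : Subgroup.closure {g : Matrix.SpecialLinearGroup (Fin 2) K |
      (g : Matrix (Fin 2) (Fin 2) K) = !![1, 0; 1, 1] ∨
        (g : Matrix (Fin 2) (Fin 2) K) = !![1, lam'; 0, 1]} = ⊤) :
    siegelG Q u v hu hv huv lam ∈ M := by
  obtain ⟨Ψ, hΨ⟩ : ∃ Ψ : Matrix.SpecialLinearGroup (Fin 2) K →* Matrix.GeneralLinearGroup ι F,
      Ψ = (psi Q u v a b hu hv huv ha hb hab lam hlam hD).comp
        (Matrix.SpecialLinearGroup.map K.subtype) := ⟨_, rfl⟩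
  have hle : Subgroup.closure {g : Matrix.SpecialLinearGroup (Fin 2) K |
      (g : Matrix (Fin 2) (Fin 2) K) = !![1, 0; 1, 1] ∨
        (g : Matrix (Fin 2) (Fin 2) K) = !![1, lam'; 0, 1]}
      ≤ (M.map (Cfsg.isometryGroup F (⇑Q)).subtype).comap Ψ := by
    rw [Subgroup.closure_le]
    rintro g (hg | hg)
    · have e : Ψ g = ((siegelG Q u v hu hv huv 1 : ↥(Cfsg.isometryGroup F (⇑Q))) :
          Matrix.GeneralLinearGroup ι F) := by
        rw [hΨ]
        refine psi_lower Q u v a b hu hv huv ha hb hab lam hlam hD _ 1 ?_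
        rw [Matrix.SpecialLinearGroup.map_apply_coe, hg]
        ext i j
        fin_cases i <;> fin_cases j <;> simp
      show Ψ g ∈ M.map (Cfsg.isometryGroup F (⇑Q)).subtype
      rw [e]
      exact Subgroup.mem_map_of_mem _ h1
    · have e : Ψ g = ((siegelG Q a b ha hb hab 1 : ↥(Cfsg.isometryGroup F (⇑Q))) :
          Matrix.GeneralLinearGroup ι F) := by
        rw [hΨ]
        refine psi_upper Q u v a b hu hv huv ha hb hab lam hlam hD _ 1 ?_
        rw [Matrix.SpecialLinearGroup.map_apply_coe, hg]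
        ext i j
        fin_cases i <;> fin_cases j <;> simp [hl]
      show Ψ g ∈ M.map (Cfsg.isometryGroup F (⇑Q)).subtype
      rw [e]
      exact Subgroup.mem_map_of_mem _ h2
  obtain ⟨g₀, hg₀⟩ : ∃ g₀ : Matrix.SpecialLinearGroup (Fin 2) K,
      (g₀ : Matrix (Fin 2) (Fin 2) K) = !![1, 0; lam', 1] :=
    ⟨⟨!![1, 0; lam', 1], by simp [Matrix.det_fin_two]⟩, rfl⟩
  have hmem : g₀ ∈ (M.map (Cfsg.isometryGroup F (⇑Q)).subtype).comap Ψ :=
    hle (by rw [htop]; exact Subgroup.mem_top _)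
  have e : Ψ g₀ = ((siegelG Q u v hu hv huv lam : ↥(Cfsg.isometryGroup F (⇑Q))) :
      Matrix.GeneralLinearGroup ι F) := by
    rw [hΨ]
    refine psi_lower Q u v a b hu hv huv ha hb hab lam hlam hD _ lam ?_
    rw [Matrix.SpecialLinearGroup.map_apply_coe, hg₀]
    ext i j
    fin_cases i <;> fin_cases j <;> simp [hl]
  obtain ⟨g', hg', hgg'⟩ := hmem
  have e2 : g' = siegelG Q u v hu hv huv lam := Subtype.ext (hgg'.trans e)
  rw [← e2]
  exact hg'

/-- When `lam ^ 2 = -1`, an explicit word in the two Siegel elements acts as `-lam` on the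
first pair. -/
theorem word_act (Q : QuadraticForm F (ι → F))
    (M : Subgroup ↥(Cfsg.isometryGroup F (⇑Q))) (u v a b : ι → F) (hu : Q u = 0) (hv : Q v = 0)
    (huv : QuadraticMap.polar (⇑Q) u v = 0) (ha : Q a = 0) (hb : Q b = 0)
    (hab : QuadraticMap.polar (⇑Q) a b = 0) (lam : F) (hlam : lam ≠ 0)
    (hD : lam = -(Dp Q a b u v))
    (h1 : siegelG Q u v hu hv huv 1 ∈ M) (h2 : siegelG Q a b ha hb hab 1 ∈ M)
    (hsq : lam ^ 2 = -1) :
    ∃ m ∈ M, ∀ x, QuadraticMap.polar (⇑Q) u x = 0 → QuadraticMap.polar (⇑Q) v x = 0 →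
      act m x = x + ((-lam - 1) * lam⁻¹) • (nil Q u v *ᵥ (nil Q a b *ᵥ x)) := by
  have h1' : siegelG Q u v hu hv huv (-1) ∈ M := by
    rw [← siegelG_inv]
    exact M.inv_mem h1
  have h2' : siegelG Q a b ha hb hab (-1) ∈ M := by
    rw [← siegelG_inv]
    exact M.inv_mem h2
  refine ⟨siegelG Q a b ha hb hab 1 * siegelG Q u v hu hv huv 1 * siegelG Q a b ha hb hab (-1)
    * siegelG Q u v hu hv huv (-1) * siegelG Q a b ha hb hab 1,
    M.mul_mem (M.mul_mem (M.mul_mem (M.mul_mem h2 h1) h2') h1') h2, fun x hux hvx => ?_⟩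
  obtain ⟨U, hU⟩ : ∃ U : Matrix.SpecialLinearGroup (Fin 2) F,
      (U : Matrix (Fin 2) (Fin 2) F) = !![1, 1 * lam; 0, 1] :=
    ⟨⟨!![1, 1 * lam; 0, 1], by simp [Matrix.det_fin_two]⟩, rfl⟩
  obtain ⟨L, hL⟩ : ∃ L : Matrix.SpecialLinearGroup (Fin 2) F,
      (L : Matrix (Fin 2) (Fin 2) F) = !![1, 0; 1, 1] :=
    ⟨⟨!![1, 0; 1, 1], by simp [Matrix.det_fin_two]⟩, rfl⟩
  obtain ⟨Um, hUm⟩ : ∃ Um : Matrix.SpecialLinearGroup (Fin 2) F,
      (Um : Matrix (Fin 2) (Fin 2) F) = !![1, -1 * lam; 0, 1] :=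
    ⟨⟨!![1, -1 * lam; 0, 1], by simp [Matrix.det_fin_two]⟩, rfl⟩
  obtain ⟨Lm, hLm⟩ : ∃ Lm : Matrix.SpecialLinearGroup (Fin 2) F,
      (Lm : Matrix (Fin 2) (Fin 2) F) = !![1, 0; -1, 1] :=
    ⟨⟨!![1, 0; -1, 1], by simp [Matrix.det_fin_two]⟩, rfl⟩
  obtain ⟨W, hW⟩ : ∃ W : Matrix.SpecialLinearGroup (Fin 2) F,
      (W : Matrix (Fin 2) (Fin 2) F) = !![lam, 0; lam, -lam] :=
    ⟨⟨!![lam, 0; lam, -lam], by
      rw [Matrix.det_fin_two_of]
      linear_combination -hsq⟩, rfl⟩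
  have hword := sl2_word lam hsq U L Um Lm W hU hL hUm hLm hW
  have e : ((siegelG Q a b ha hb hab 1 * siegelG Q u v hu hv huv 1
      * siegelG Q a b ha hb hab (-1) * siegelG Q u v hu hv huv (-1)
      * siegelG Q a b ha hb hab 1 : ↥(Cfsg.isometryGroup F (⇑Q))) :
        Matrix.GeneralLinearGroup ι F)
      = psi Q u v a b hu hv huv ha hb hab lam hlam hD W := by
    rw [← hword, map_mul, map_mul, map_mul, map_mul,
      psi_upper Q u v a b hu hv huv ha hb hab lam hlam hD U 1 hU,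
      psi_lower Q u v a b hu hv huv ha hb hab lam hlam hD L 1 hL,
      psi_upper Q u v a b hu hv huv ha hb hab lam hlam hD Um (-1) hUm,
      psi_lower Q u v a b hu hv huv ha hb hab lam hlam hD Lm (-1) hLm]
    rfl
  have hNx : nil Q u v *ᵥ x = 0 := by
    rw [nil_mulVec, hux, hvx, zero_smul, zero_smul, sub_zero]
  show ((_ : Matrix.GeneralLinearGroup ι F) : Matrix ι ι F) *ᵥ x = _
  rw [e, psi_coe, hW, phi_word]
  simp only [Matrix.add_mulVec, Matrix.one_mulVec, Matrix.smul_mulVec, ← Matrix.mulVec_mulVec]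
  rw [hNx]
  simp only [Matrix.mulVec_zero, smul_zero, add_zero]
  rw [smul_smul]

end

end Cfsg.Agent.H99.OS
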