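import Cfsg.Agent.H99.OSubB

set_option autoImplicit false
set_option linter.unusedSectionVars false

/-! Helper lemmas (helper99): rational vectors, Siegel elements of an overgroup of the orthogonal
subfield group, and the subalgebra of its root coefficients. -/

namespace Cfsg.Agent.H99.OS

open Module Matrix Cfsg.Agent.H49 Cfsg.Agent.H95

section
variable {ι : Type} [Fintype ι] [DecidableEq ι] {F : Type*} [Field F]

/-- Coercion of a vector over the subfield. -/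
def E (F₀ : Subfield F) (x : ι → F₀) : ι → F := fun i => (x i : F)

variable (F₀ : Subfield F)

theorem E_add (x y : ι → F₀) : E F₀ (x + y) = E F₀ x + E F₀ y := by
  funext i; simp [E]

theorem E_sub (x y : ι → F₀) : E F₀ (x - y) = E F₀ x - E F₀ y := by
  funext i; simp [E]

theorem E_neg (x : ι → F₀) : E F₀ (-x) = -E F₀ x := by
  funext i; simp [E]

theorem E_zero : E F₀ (0 : ι → F₀) = 0 := rfl

theorem E_smul (a : F₀) (x : ι → F₀) : E F₀ (a • x) = (a : F) • E F₀ x := by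
  funext i; simp [E]

theorem E_rat (x : ι → F₀) (i : ι) : E F₀ x i ∈ F₀ := (x i).2

theorem E_injective : Function.Injective (E F₀ (ι := ι)) := by
  intro x y h
  funext i
  exact Subtype.ext (congrFun h i)

theorem exists_E (u : ι → F) (hu : ∀ i, u i ∈ F₀) : ∃ x : ι → F₀, E F₀ x = u :=
  ⟨fun i => ⟨u i, hu i⟩, rfl⟩

theorem E_single (j : ι) : E F₀ (Pi.single j (1 : F₀)) = Pi.single j (1 : F) := by
  funext i
  by_cases h : i = j
  · subst h
    simp [E]
  · simp [E, Pi.single_eq_of_ne h]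

end

section
variable {ι : Type} [Fintype ι] [DecidableEq ι] {F : Type*} [Field F]

/-- The Siegel element of the pair `u`, `v` with coefficient `c` exists and lies in `M`. -/
def InM (Q : QuadraticForm F (ι → F)) (M : Subgroup ↥(Cfsg.isometryGroup F (⇑Q)))
    (u v : ι → F) (c : F) : Prop :=
  ∃ (hu : Q u = 0) (hv : Q v = 0) (huv : QuadraticMap.polar (⇑Q) u v = 0),
    siegelG Q u v hu hv huv c ∈ M

variable {Q : QuadraticForm F (ι → F)} {M : Subgroup ↥(Cfsg.isometryGroup F (⇑Q))}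

theorem InM.mem {u v : ι → F} {c : F} (h : InM Q M u v c) (hu : Q u = 0) (hv : Q v = 0)
    (huv : QuadraticMap.polar (⇑Q) u v = 0) : siegelG Q u v hu hv huv c ∈ M := by
  obtain ⟨_, _, _, h⟩ := h
  exact h

theorem InM.add {u v : ι → F} {c d : F} (h1 : InM Q M u v c) (h2 : InM Q M u v d) :
    InM Q M u v (c + d) := by
  obtain ⟨hu, hv, huv, h1⟩ := h1
  obtain ⟨_, _, _, h2⟩ := h2
  refine ⟨hu, hv, huv, ?_⟩
  rw [← siegelG_mul]
  exact M.mul_mem h1 h2

theorem InM.neg {u v : ι → F} {c : F} (h : InM Q M u v c) : InM Q M u v (-c) := by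
  obtain ⟨hu, hv, huv, h⟩ := h
  refine ⟨hu, hv, huv, ?_⟩
  rw [← siegelG_inv]
  exact M.inv_mem h

theorem InM.congr {u v : ι → F} {c d : F} (h : InM Q M u v c) (hcd : c = d) :
    InM Q M u v d := hcd ▸ h

theorem InM.comm {u v w w' : ι → F} {a b : F} (h1 : InM Q M u w a) (h2 : InM Q M w' v b)
    (huv : QuadraticMap.polar (⇑Q) u v = 0) (huw' : QuadraticMap.polar (⇑Q) u w' = 0)
    (hvw : QuadraticMap.polar (⇑Q) v w = 0) (hww' : QuadraticMap.polar (⇑Q) w w' = 1) :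
    InM Q M u v (-(a * b)) := by
  obtain ⟨hu, hw, huw, h1⟩ := h1
  obtain ⟨hw', hv, hw'v, h2⟩ := h2
  refine ⟨hu, hv, huv, ?_⟩
  rw [← siegelG_commutator Q u v w w' hu hv hw hw' huv huw huw' hvw hw'v hww' a b,
    commutatorElement_def]
  exact M.mul_mem (M.mul_mem (M.mul_mem h1 h2) (M.inv_mem h1)) (M.inv_mem h2)

theorem InM.conj {u v : ι → F} {c : F} (h : InM Q M u v c)
    {g : ↥(Cfsg.isometryGroup F (⇑Q))} (hg : g ∈ M) : InM Q M (act g u) (act g v) c := by
  obtain ⟨hu, hv, huv, h⟩ := h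
  refine ⟨by rw [Q_act, hu], by rw [Q_act, hv], by rw [polar_act, huv], ?_⟩
  rw [← conj_siegelG Q g u v hu hv huv c]
  exact M.mul_mem (M.mul_mem hg h) (M.inv_mem hg)

theorem InM.symm {u v : ι → F} {c : F} (h : InM Q M u v c) : InM Q M v u (-c) := by
  obtain ⟨hu, hv, huv, h⟩ := h
  have hvu : QuadraticMap.polar (⇑Q) v u = 0 := by rw [QuadraticMap.polar_comm]; exact huv
  refine ⟨hv, hu, hvu, ?_⟩
  rw [siegelG_symm Q u v hu hv huv hvu (-c),
    siegelG_congr Q u v u v hu hv huv hu hv huv (- -c) c rfl rfl (neg_neg c)]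
  exact h

theorem InM.smul_left {u v : ι → F} {a c : F} (h : InM Q M (a • u) v c) (hu : Q u = 0)
    (huv : QuadraticMap.polar (⇑Q) u v = 0) : InM Q M u v (a * c) := by
  obtain ⟨hau, hv, hauv, h⟩ := h
  refine ⟨hu, hv, huv, ?_⟩
  rw [← siegelG_smul_left Q u v a hu hau hv huv hauv c]
  exact h

/-- The data of an overgroup `M` of the rational Siegel elements. -/
structure OCtx (F₀ : Subfield F) (Q : QuadraticForm F (ι → F))
    (Q₀ : QuadraticForm F₀ (ι → F₀)) (M : Subgroup ↥(Cfsg.isometryGroup F (⇑Q))) : Prop where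
  val : ∀ x : ι → F₀, Q (E F₀ x) = ((Q₀ x : F₀) : F)
  nd : (QuadraticMap.polarBilin Q).Nondegenerate
  nd₀ : (QuadraticMap.polarBilin Q₀).Nondegenerate
  ts : HasTS3 Q
  ts₀ : HasTS3 Q₀
  dim : 13 ≤ Fintype.card ι
  rat : ∀ (x y : ι → F₀), Q₀ x = 0 → Q₀ y = 0 → QuadraticMap.polar (⇑Q₀) x y = 0 →
    ∀ a : F₀, InM Q M (E F₀ x) (E F₀ y) (a : F)

variable {F₀ : Subfield F} {Q₀ : QuadraticForm F₀ (ι → F₀)}

theorem OCtx.pol (C : OCtx F₀ Q Q₀ M) (x y : ι → F₀) :
    QuadraticMap.polar (⇑Q) (E F₀ x) (E F₀ y) = ((QuadraticMap.polar (⇑Q₀) x y : F₀) : F) := by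
  unfold QuadraticMap.polar
  rw [← E_add, C.val, C.val, C.val]
  push_cast
  rfl

theorem OCtx.val0 (C : OCtx F₀ Q Q₀ M) {x : ι → F₀} (hx : Q₀ x = 0) : Q (E F₀ x) = 0 := by
  rw [C.val, hx]
  rfl

theorem OCtx.pol0 (C : OCtx F₀ Q Q₀ M) {x y : ι → F₀}
    (h : QuadraticMap.polar (⇑Q₀) x y = 0) :
    QuadraticMap.polar (⇑Q) (E F₀ x) (E F₀ y) = 0 := by
  rw [C.pol, h]
  rfl

theorem OCtx.pol1 (C : OCtx F₀ Q Q₀ M) {x y : ι → F₀}
    (h : QuadraticMap.polar (⇑Q₀) x y = 1) :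
    QuadraticMap.polar (⇑Q) (E F₀ x) (E F₀ y) = 1 := by
  rw [C.pol, h]
  rfl

theorem OCtx.rat1 (C : OCtx F₀ Q Q₀ M) {x y : ι → F₀} (hx : Q₀ x = 0) (hy : Q₀ y = 0)
    (hxy : QuadraticMap.polar (⇑Q₀) x y = 0) : InM Q M (E F₀ x) (E F₀ y) 1 :=
  C.rat x y hx hy hxy 1

/-- The coefficients `c` such that every rational Siegel pair has its element with coefficient
`c` in `M`. -/
def Ks (F₀ : Subfield F) (Q : QuadraticForm F (ι → F)) (Q₀ : QuadraticForm F₀ (ι → F₀))
    (M : Subgroup ↥(Cfsg.isometryGroup F (⇑Q))) (c : F) : Prop :=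
  ∀ x y : ι → F₀, Q₀ x = 0 → Q₀ y = 0 → QuadraticMap.polar (⇑Q₀) x y = 0 →
    InM Q M (E F₀ x) (E F₀ y) c

theorem OCtx.ks_rat (C : OCtx F₀ Q Q₀ M) (a : F₀) : Ks F₀ Q Q₀ M (a : F) :=
  fun x y hx hy hxy => C.rat x y hx hy hxy a

theorem ks_add {c d : F} (hc : Ks F₀ Q Q₀ M c) (hd : Ks F₀ Q Q₀ M d) :
    Ks F₀ Q Q₀ M (c + d) :=
  fun x y hx hy hxy => (hc x y hx hy hxy).add (hd x y hx hy hxy)

theorem ks_neg {c : F} (hc : Ks F₀ Q Q₀ M c) : Ks F₀ Q Q₀ M (-c) :=
  fun x y hx hy hxy => (hc x y hx hy hxy).neg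

theorem OCtx.ks_mul (C : OCtx F₀ Q Q₀ M) {a b : F} (ha : Ks F₀ Q Q₀ M a)
    (hb : Ks F₀ Q Q₀ M b) : Ks F₀ Q Q₀ M (a * b) := by
  intro x y hx hy hxy
  obtain ⟨w, w', hw, hw', hww', hwW, hw'W⟩ := exists_hyp_pair_orth_ts Q₀ C.nd₀ C.ts₀
    (Submodule.span F₀ {x, y}) (isTS_span_pair Q₀ x y hx hy hxy) (finrank_span_pair_le x y)
  have hxw : QuadraticMap.polar (⇑Q₀) x w = 0 := hwW x (Submodule.subset_span (by simp))
  have hyw : QuadraticMap.polar (⇑Q₀) y w = 0 := hwW y (Submodule.subset_span (by simp))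
  have hxw' : QuadraticMap.polar (⇑Q₀) x w' = 0 := hw'W x (Submodule.subset_span (by simp))
  have hyw' : QuadraticMap.polar (⇑Q₀) y w' = 0 := hw'W y (Submodule.subset_span (by simp))
  have h1 := ha x w hx hw hxw
  have h2 := hb w' y hw' hy (by rw [QuadraticMap.polar_comm]; exact hyw')
  have h3 := InM.comm h1 h2 (C.pol0 hxy) (C.pol0 hxw') (C.pol0 hyw) (C.pol1 hww')
  exact h3.neg.congr (by ring)

/-- Moving the second vector of a rational Siegel pair. -/
theorem OCtx.move_right (C : OCtx F₀ Q Q₀ M) {x y z : ι → F₀} {c : F}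
    (h : InM Q M (E F₀ x) (E F₀ y) c) (hx : Q₀ x = 0) (hy : Q₀ y = 0) (hz : Q₀ z = 0)
    (hxy : QuadraticMap.polar (⇑Q₀) x y = 0) (hxz : QuadraticMap.polar (⇑Q₀) x z = 0)
    (hyz : QuadraticMap.polar (⇑Q₀) y z = 0) (hind : y ∉ Submodule.span F₀ {x, z}) :
    InM Q M (E F₀ x) (E F₀ z) (-c) := by
  have hzy : QuadraticMap.polar (⇑Q₀) z y = 0 := by rw [QuadraticMap.polar_comm]; exact hyz
  obtain ⟨y', hy', hy'W, hyy'⟩ := exists_partner_orth Q₀ C.nd₀ (Submodule.span F₀ {x, z}) y hy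
    (polar_span_pair Q₀ x z y hxy hzy) hind
  have hxy' : QuadraticMap.polar (⇑Q₀) x y' = 0 := hy'W x (Submodule.subset_span (by simp))
  have hzy' : QuadraticMap.polar (⇑Q₀) z y' = 0 := hy'W z (Submodule.subset_span (by simp))
  have h2 : InM Q M (E F₀ y') (E F₀ z) 1 :=
    C.rat1 hy' hz (by rw [QuadraticMap.polar_comm]; exact hzy')
  have h3 := InM.comm h h2 (C.pol0 hxz) (C.pol0 hxy') (C.pol0 hzy) (C.pol1 hyy')
  exact h3.congr (by ring)

/-- Moving the first vector of a rational Siegel pair. -/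
theorem OCtx.move_left (C : OCtx F₀ Q Q₀ M) {x y z : ι → F₀} {c : F}
    (h : InM Q M (E F₀ x) (E F₀ y) c) (hx : Q₀ x = 0) (hy : Q₀ y = 0) (hz : Q₀ z = 0)
    (hxy : QuadraticMap.polar (⇑Q₀) x y = 0) (hzx : QuadraticMap.polar (⇑Q₀) z x = 0)
    (hzy : QuadraticMap.polar (⇑Q₀) z y = 0) (hind : x ∉ Submodule.span F₀ {y, z}) :
    InM Q M (E F₀ z) (E F₀ y) (-c) := by
  have hyx : QuadraticMap.polar (⇑Q₀) y x = 0 := by rw [QuadraticMap.polar_comm]; exact hxy
  have hyz : QuadraticMap.polar (⇑Q₀) y z = 0 := by rw [QuadraticMap.polar_comm]; exact hzy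
  have hxz : QuadraticMap.polar (⇑Q₀) x z = 0 := by rw [QuadraticMap.polar_comm]; exact hzx
  have h2 := C.move_right h.symm hy hx hz hyx hyz hxz hind
  exact h2.symm.congr (by ring)

/-- One non-trivial rational Siegel pair with coefficient `c` gives all of them. -/
theorem OCtx.ks_of_one [Finite F] (C : OCtx F₀ Q Q₀ M) {x y : ι → F₀} {c : F}
    (h : InM Q M (E F₀ x) (E F₀ y) c) (hx : Q₀ x = 0) (hy : Q₀ y = 0)
    (hxy : QuadraticMap.polar (⇑Q₀) x y = 0) (hx0 : x ≠ 0)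
    (hind : y ∉ Submodule.span F₀ {x}) : Ks F₀ Q Q₀ M c := by
  intro x₂ y₂ hx₂ hy₂ hxy₂
  have hdim : finrank F₀ (ι → F₀) = Fintype.card ι := Module.finrank_fintype_fun_eq_card F₀
  have hd := C.dim
  obtain ⟨X, hX⟩ : ∃ X : Submodule F₀ (ι → F₀),
      X = Submodule.span F₀ {x, y} ⊔ Submodule.span F₀ {x₂, y₂} := ⟨_, rfl⟩
  have dX : finrank F₀ X ≤ 4 := by
    rw [hX]
    have h1 := Submodule.finrank_add_le_finrank_add_finrank (Submodule.span F₀ {x, y})
      (Submodule.span F₀ {x₂, y₂})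
    have h2 := finrank_span_pair_le x y
    have h3 := finrank_span_pair_le x₂ y₂
    omega
  have mx : x ∈ X := by
    rw [hX]; exact Submodule.mem_sup_left (Submodule.subset_span (by simp))
  have my : y ∈ X := by
    rw [hX]; exact Submodule.mem_sup_left (Submodule.subset_span (by simp))
  have mx₂ : x₂ ∈ X := by
    rw [hX]; exact Submodule.mem_sup_right (Submodule.subset_span (by simp))
  have my₂ : y₂ ∈ X := by
    rw [hX]; exact Submodule.mem_sup_right (Submodule.subset_span (by simp))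
  obtain ⟨y₃, hy₃, hy₃X, hy₃n⟩ := exists_singular_orth_not_mem' Q₀ C.nd₀ X (by
    have := Submodule.finrank_mono (inf_le_left :
      X ⊓ LinearMap.BilinForm.orthogonal (QuadraticMap.polarBilin Q₀) X ≤ X)
    omega)
  obtain ⟨X', hX'⟩ : ∃ X' : Submodule F₀ (ι → F₀), X' = X ⊔ Submodule.span F₀ {y₃} := ⟨_, rfl⟩
  have dX' : finrank F₀ X' ≤ 5 := by
    rw [hX']
    have h1 := Submodule.finrank_add_le_finrank_add_finrank X (Submodule.span F₀ {y₃})
    have h2 := finrank_span_singleton_le' (F := F₀) y₃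
    omega
  have hXX' : X ≤ X' := by rw [hX']; exact le_sup_left
  have my₃ : y₃ ∈ X' := by
    rw [hX']; exact Submodule.mem_sup_right (Submodule.mem_span_singleton_self y₃)
  obtain ⟨x₃, hx₃, hx₃X, hx₃n⟩ := exists_singular_orth_not_mem' Q₀ C.nd₀ X' (by
    have := Submodule.finrank_mono (inf_le_left :
      X' ⊓ LinearMap.BilinForm.orthogonal (QuadraticMap.polarBilin Q₀) X' ≤ X')
    omega)
  have o1 : QuadraticMap.polar (⇑Q₀) x y₃ = 0 := hy₃X x mx
  have o2 : QuadraticMap.polar (⇑Q₀) y y₃ = 0 := hy₃X y my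
  have o4 : QuadraticMap.polar (⇑Q₀) y₂ y₃ = 0 := hy₃X y₂ my₂
  have p1 : QuadraticMap.polar (⇑Q₀) x x₃ = 0 := hx₃X x (hXX' mx)
  have p2 : QuadraticMap.polar (⇑Q₀) y₃ x₃ = 0 := hx₃X y₃ my₃
  have p3 : QuadraticMap.polar (⇑Q₀) x₂ x₃ = 0 := hx₃X x₂ (hXX' mx₂)
  have p4 : QuadraticMap.polar (⇑Q₀) y₂ x₃ = 0 := hx₃X y₂ (hXX' my₂)
  have i1 : y ∉ Submodule.span F₀ {x, y₃} := by
    intro hmem
    obtain ⟨α, β, hαβ⟩ := Submodule.mem_span_pair.mp hmem
    by_cases hβ : β = 0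
    · apply hind
      rw [hβ, zero_smul, add_zero] at hαβ
      rw [← hαβ]
      exact Submodule.smul_mem _ _ (Submodule.mem_span_singleton_self x)
    · apply hy₃n
      have e : y₃ = β⁻¹ • (y - α • x) := by
        rw [← hαβ, add_sub_cancel_left, smul_smul, inv_mul_cancel₀ hβ, one_smul]
      rw [e]
      exact X.smul_mem _ (X.sub_mem my (X.smul_mem _ mx))
  have i2 : x ∉ Submodule.span F₀ {y₃, x₃} := by
    intro hmem
    obtain ⟨α, β, hαβ⟩ := Submodule.mem_span_pair.mp hmem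
    by_cases hβ : β = 0
    · rw [hβ, zero_smul, add_zero] at hαβ
      have hα : α ≠ 0 := by
        rintro rfl
        rw [zero_smul] at hαβ
        exact hx0 hαβ.symm
      apply hy₃n
      have e : y₃ = α⁻¹ • x := by
        rw [← hαβ, smul_smul, inv_mul_cancel₀ hα, one_smul]
      rw [e]
      exact X.smul_mem _ mx
    · apply hx₃n
      have e : x₃ = β⁻¹ • (x - α • y₃) := by
        rw [← hαβ, add_sub_cancel_left, smul_smul, inv_mul_cancel₀ hβ, one_smul]
      rw [e]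
      exact X'.smul_mem _ (X'.sub_mem (hXX' mx) (X'.smul_mem _ my₃))
  have i3 : y₃ ∉ Submodule.span F₀ {x₃, y₂} := by
    intro hmem
    obtain ⟨α, β, hαβ⟩ := Submodule.mem_span_pair.mp hmem
    by_cases hα : α = 0
    · apply hy₃n
      rw [hα, zero_smul, zero_add] at hαβ
      rw [← hαβ]
      exact X.smul_mem _ my₂
    · apply hx₃n
      have e : x₃ = α⁻¹ • (y₃ - β • y₂) := by
        rw [← hαβ, add_sub_cancel_right, smul_smul, inv_mul_cancel₀ hα, one_smul]
      rw [e]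
      exact X'.smul_mem _ (X'.sub_mem my₃ (X'.smul_mem _ (hXX' my₂)))
  have i4 : x₃ ∉ Submodule.span F₀ {y₂, x₂} := by
    intro hmem
    apply hx₃n
    have hle : Submodule.span F₀ {y₂, x₂} ≤ X' := by
      rw [Submodule.span_le]
      rintro t (rfl | rfl)
      · exact hXX' my₂
      · exact hXX' mx₂
    exact hle hmem
  have s1 := C.move_right h hx hy hy₃ hxy o1 o2 i1
  have s2 := C.move_left s1 hx hy₃ hx₃ o1 (by rw [QuadraticMap.polar_comm]; exact p1)
    (by rw [QuadraticMap.polar_comm]; exact p2) i2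
  have s3 := C.move_right s2 hx₃ hy₃ hy₂ (by rw [QuadraticMap.polar_comm]; exact p2)
    (by rw [QuadraticMap.polar_comm]; exact p4) (by rw [QuadraticMap.polar_comm]; exact o4) i3
  have s4 := C.move_left s3 hx₃ hy₂ hx₂ (by rw [QuadraticMap.polar_comm]; exact p4) p3 hxy₂ i4
  exact s4.congr (by ring)

/-- The coefficient set is either the subfield or everything. -/
theorem OCtx.ks_dichotomy [Fintype F] (C : OCtx F₀ Q Q₀ M) (r : ℕ) (hr : r.Prime)
    (hcard : Fintype.card F = Nat.card F₀ ^ r) :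
    (∀ c, Ks F₀ Q Q₀ M c → c ∈ F₀) ∨ (∀ c, Ks F₀ Q Q₀ M c) := by
  classical
  obtain ⟨K, hK⟩ : ∃ K : Subalgebra F₀ F, ∀ a, a ∈ K ↔ Ks F₀ Q Q₀ M a := by
    refine ⟨{ carrier := {a | Ks F₀ Q Q₀ M a}
              mul_mem' := fun ha hb => C.ks_mul ha hb
              one_mem' := C.ks_rat 1
              add_mem' := fun ha hb => ks_add ha hb
              zero_mem' := C.ks_rat 0
              algebraMap_mem' := fun a => C.ks_rat a }, fun a => Iff.rfl⟩
  have : Fintype F₀ := Fintype.ofFinite _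
  have hfr : Module.finrank F₀ F = r := by
    have h1 := Module.card_eq_pow_finrank (K := F₀) (V := F)
    rw [hcard, Nat.card_eq_fintype_card] at h1
    exact (Nat.pow_right_injective Fintype.one_lt_card h1).symm
  have hsimple := Subalgebra.isSimpleOrder_of_finrank_prime F₀ F (by rw [hfr]; exact hr)
  rcases hsimple.eq_bot_or_eq_top K with hbot | htop
  · left
    intro c hc
    have h1 : c ∈ K := (hK c).mpr hc
    rw [hbot, Algebra.mem_bot] at h1
    obtain ⟨y, hy⟩ := h1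
    rw [← hy]
    exact y.2
  · right
    intro c
    exact (hK c).mp (by rw [htop]; exact Algebra.mem_top)

end

end Cfsg.Agent.H99.OS
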