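import Cfsg.Agent.H99.OSubC

set_option autoImplicit false
set_option linter.unusedSectionVars false

/-! Helper lemmas (helper99): if every coefficient occurs on the rational Siegel pairs of `M`,
then `M` contains `Ω`. -/

namespace Cfsg.Agent.H99.OS

open Module Matrix Cfsg.Agent.H49 Cfsg.Agent.H95

section
variable {ι : Type} [Fintype ι] [DecidableEq ι] {F : Type*} [Field F]
variable {F₀ : Subfield F}

theorem E_mem_span {S : Set (ι → F₀)} {y : ι → F₀} (hy : y ∈ Submodule.span F₀ S) :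
    E F₀ y ∈ Submodule.span F (E F₀ '' S) := by
  induction hy using Submodule.span_induction with
  | mem z hz => exact Submodule.subset_span ⟨z, hz, rfl⟩
  | zero => rw [E_zero]; exact Submodule.zero_mem _
  | add a b _ _ ha hb => rw [E_add]; exact Submodule.add_mem _ ha hb
  | smul a z _ hz => rw [E_smul]; exact Submodule.smul_mem _ _ hz

variable {Q : QuadraticForm F (ι → F)} {M : Subgroup ↥(Cfsg.isometryGroup F (⇑Q))}
variable {Q₀ : QuadraticForm F₀ (ι → F₀)}

/-- If all coefficients occur, every rational singular point is a full point of `M`. -/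
theorem OCtx.full_of_all (C : OCtx F₀ Q Q₀ M) (hall : ∀ c, Ks F₀ Q Q₀ M c) {x : ι → F₀}
    (hx : Q₀ x = 0) (hx0 : x ≠ 0) : E F₀ x ∈ fullPts Q M := by
  apply mem_fullPts_of_eichDir Q M (E F₀ x) (C.val0 hx)
  intro z hz
  obtain ⟨x', hx', -, hxx'⟩ := exists_partner_orth Q₀ C.nd₀ ⊥ x hx
    (by
      intro a ha
      rw [(Submodule.mem_bot F₀).mp ha, QuadraticMap.polar_zero_left])
    (by
      intro h
      exact hx0 ((Submodule.mem_bot F₀).mp h))
  obtain ⟨e, e', he, he', hee', heW, he'W⟩ := exists_hyp_pair_orth_le_one Q₀ C.nd₀ C.ts₀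
    (Submodule.span F₀ {x}) (finrank_span_singleton_le' x)
  have hxe : QuadraticMap.polar (⇑Q₀) x e = 0 := heW x (Submodule.mem_span_singleton_self x)
  have hxe' : QuadraticMap.polar (⇑Q₀) x e' = 0 := he'W x (Submodule.mem_span_singleton_self x)
  obtain ⟨A, hA⟩ : ∃ A : Submodule F₀ (ι → F₀), ∀ y, y ∈ A ↔ QuadraticMap.polar (⇑Q₀) x y = 0 :=
    ⟨LinearMap.ker (QuadraticMap.polarBilin Q₀ x), fun y => by rw [LinearMap.mem_ker]; rfl⟩
  have hsing : ∀ s : ι → F₀, s ∈ A → Q₀ s = 0 → eichDir Q M (E F₀ x) (E F₀ s) := by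
    intro s hsA hs
    have hxs := (hA s).mp hsA
    exact eichDir_of_siegel Q M (E F₀ x) (E F₀ s) (C.val0 hx) (C.val0 hs) (C.pol0 hxs)
      (fun c => (hall c x s hx hs hxs).mem _ _ _)
  have hA2 : ∀ y : ι → F₀, y ∈ A → eichDir Q M (E F₀ x) (E F₀ y) := by
    intro y hy
    have h1 := mem_span_singular Q₀ A e e' ((hA e).mpr hxe) ((hA e').mpr hxe') he he' hee' y hy
    have h2 := E_mem_span h1
    refine eichDir_span Q M (E F₀ x) (C.val0 hx) _ ?_ _ h2
    rintro _ ⟨s, ⟨hsA, hs⟩, rfl⟩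
    exact hsing s hsA hs
  have hp : ∀ i, ((QuadraticMap.polar (⇑Q₀) x (Pi.single i 1) : F₀) : F)
      = QuadraticMap.polar (⇑Q) (E F₀ x) (Pi.single i 1) := by
    intro i
    rw [← C.pol, E_single]
  have key : ∑ i, z i * QuadraticMap.polar (⇑Q) (E F₀ x) (Pi.single i 1) = 0 := by
    have h1 := polarVec_dot Q (E F₀ x) z
    rw [hz] at h1
    rw [← h1]
    simp only [dotProduct, Cfsg.polarVec]
    apply Finset.sum_congr rfl
    intro i _
    ring
  have hzsum : z = ∑ i, z i • (Pi.single i (1 : F) : ι → F) := by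
    funext k
    simp [Finset.sum_apply, Pi.single_apply]
  have hz2 : z = ∑ i, z i • E F₀ (Pi.single i 1
      - QuadraticMap.polar (⇑Q₀) x (Pi.single i 1) • x') := by
    simp only [E_sub, E_smul, E_single, hp, smul_sub, smul_smul]
    rw [Finset.sum_sub_distrib, ← Finset.sum_smul, key, zero_smul, sub_zero]
    exact hzsum
  rw [hz2]
  refine eichDir_span Q M (E F₀ x) (C.val0 hx)
    (Set.range fun i => E F₀ (Pi.single i 1
      - QuadraticMap.polar (⇑Q₀) x (Pi.single i 1) • x')) ?_ _ ?_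
  · rintro _ ⟨i, rfl⟩
    apply hA2
    rw [hA, QuadraticMap.polar_sub_right, QuadraticMap.polar_smul_right, hxx', smul_eq_mul,
      mul_one, sub_self]
  · exact Submodule.sum_mem _ (fun i _ => Submodule.smul_mem _ _ (Submodule.subset_span ⟨i, rfl⟩))

/-- If all coefficients occur, `M` contains `Ω`. -/
theorem OCtx.comm_le_of_all [Fintype F] (C : OCtx F₀ Q Q₀ M) (hall : ∀ c, Ks F₀ Q Q₀ M c) :
    commutator ↥(Cfsg.isometryGroup F (⇑Q)) ≤ M := by
  obtain ⟨e, e', he, he', hee', -, -⟩ := exists_hyp_pair_orth_le_one Q₀ C.nd₀ C.ts₀ ⊥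
    (by rw [finrank_bot]; omega)
  have he0 : e ≠ 0 := by
    rintro rfl
    rw [QuadraticMap.polar_zero_left] at hee'
    exact zero_ne_one hee'
  have he'0 : e' ≠ 0 := by
    rintro rfl
    rw [QuadraticMap.polar_zero_right] at hee'
    exact zero_ne_one hee'
  exact commutator_le_of_fullPts_pair Q C.nd C.ts M (C.full_of_all hall he he0)
    (C.full_of_all hall he' he'0) (by rw [C.pol1 hee']; exact one_ne_zero)

end

end Cfsg.Agent.H99.OS
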