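import Cfsg.Agent.H99.OSubD
import Cfsg.Agent.S0801

set_option autoImplicit false
set_option linter.unusedSectionVars false

/-! Helper lemmas (helper99): the rank-one argument.  If the root coefficients of `M` are
rational, the polar determinant of an arbitrary Siegel pair of `M` against a rational Siegel
pair is rational. -/

namespace Cfsg.Agent.H99.OS

open Module Matrix Cfsg.Agent.H49 Cfsg.Agent.H95

section
variable {ι : Type} [Fintype ι] [DecidableEq ι] {F : Type*} [Field F]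
variable {F₀ : Subfield F}
variable {Q : QuadraticForm F (ι → F)} {M : Subgroup ↥(Cfsg.isometryGroup F (⇑Q))}
variable {Q₀ : QuadraticForm F₀ (ι → F₀)}

/-- The exceptional case of the rank-one argument. -/
theorem OCtx.lam_rat_exc [Finite F] (C : OCtx F₀ Q Q₀ M)
    (hK : ∀ c, Ks F₀ Q Q₀ M c → c ∈ F₀)
    {p₁ p₂ : ι → F₀} (hp₁ : Q₀ p₁ = 0) (hp₂ : Q₀ p₂ = 0)
    (hp : QuadraticMap.polar (⇑Q₀) p₁ p₂ = 0) (hp0 : p₁ ≠ 0)
    {a b : ι → F} (ha : Q a = 0) (hb : Q b = 0) (hab0 : QuadraticMap.polar (⇑Q) a b = 0)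
    (hmem : siegelG Q a b ha hb hab0 1 ∈ M) (lam : F) (hlam0 : lam ≠ 0)
    (hlam : lam = -(Dp Q a b (E F₀ p₁) (E F₀ p₂))) (hsq : lam ^ 2 = -1) : lam ∈ F₀ := by
  have hu := C.val0 hp₁
  have hv := C.val0 hp₂
  have huv := C.pol0 hp
  have hvu : QuadraticMap.polar (⇑Q) (E F₀ p₂) (E F₀ p₁) = 0 := by
    rw [QuadraticMap.polar_comm]; exact huv
  have huu : QuadraticMap.polar (⇑Q) (E F₀ p₁) (E F₀ p₁) = 0 := by
    rw [polar_self', hu, mul_zero]
  have h1 : siegelG Q (E F₀ p₁) (E F₀ p₂) hu hv huv 1 ∈ M := (C.rat1 hp₁ hp₂ hp).mem _ _ _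
  obtain ⟨m, hm, hact⟩ := word_act Q M (E F₀ p₁) (E F₀ p₂) a b hu hv huv ha hb hab0 lam hlam0
    hlam h1 hmem hsq
  have hdim : finrank F₀ (ι → F₀) = Fintype.card ι := Module.finrank_fintype_fun_eq_card F₀
  have hd := C.dim
  obtain ⟨t, d, ht, hd0, htd, htW, hdW⟩ := exists_hyp_pair_orth_ts Q₀ C.nd₀ C.ts₀
    (Submodule.span F₀ {p₁, p₂}) (isTS_span_pair Q₀ p₁ p₂ hp₁ hp₂ hp) (finrank_span_pair_le p₁ p₂)
  have hp₁t : QuadraticMap.polar (⇑Q₀) p₁ t = 0 := htW p₁ (Submodule.subset_span (by simp))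
  have hp₂t : QuadraticMap.polar (⇑Q₀) p₂ t = 0 := htW p₂ (Submodule.subset_span (by simp))
  have hp₁d : QuadraticMap.polar (⇑Q₀) p₁ d = 0 := hdW p₁ (Submodule.subset_span (by simp))
  have hp₂d : QuadraticMap.polar (⇑Q₀) p₂ d = 0 := hdW p₂ (Submodule.subset_span (by simp))
  obtain ⟨X, hX⟩ : ∃ X : Submodule F₀ (ι → F₀),
      X = Submodule.span F₀ {p₁, p₂} ⊔ Submodule.span F₀ {t, d} := ⟨_, rfl⟩
  have dX : finrank F₀ X ≤ 4 := by
    rw [hX]
    have h1 := Submodule.finrank_add_le_finrank_add_finrank (Submodule.span F₀ {p₁, p₂})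
      (Submodule.span F₀ {t, d})
    have h2 := finrank_span_pair_le p₁ p₂
    have h3 := finrank_span_pair_le t d
    omega
  have mp₁ : p₁ ∈ X := by
    rw [hX]; exact Submodule.mem_sup_left (Submodule.subset_span (by simp))
  have mp₂ : p₂ ∈ X := by
    rw [hX]; exact Submodule.mem_sup_left (Submodule.subset_span (by simp))
  have mt : t ∈ X := by
    rw [hX]; exact Submodule.mem_sup_right (Submodule.subset_span (by simp))
  have md : d ∈ X := by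
    rw [hX]; exact Submodule.mem_sup_right (Submodule.subset_span (by simp))
  obtain ⟨z, hz, hzX, hzn⟩ := exists_singular_orth_not_mem' Q₀ C.nd₀ X (by
    have := Submodule.finrank_mono (inf_le_left :
      X ⊓ LinearMap.BilinForm.orthogonal (QuadraticMap.polarBilin Q₀) X ≤ X)
    omega)
  have hp₁z : QuadraticMap.polar (⇑Q₀) p₁ z = 0 := hzX p₁ mp₁
  have hp₂z : QuadraticMap.polar (⇑Q₀) p₂ z = 0 := hzX p₂ mp₂
  have htz : QuadraticMap.polar (⇑Q₀) t z = 0 := hzX t mt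
  have hdz : QuadraticMap.polar (⇑Q₀) d z = 0 := hzX d md
  have hzind : z ∉ Submodule.span F₀ {p₁} := by
    intro hmem'
    apply hzn
    obtain ⟨α, rfl⟩ := Submodule.mem_span_singleton.mp hmem'
    exact X.smul_mem _ mp₁
  -- the action of the word on the first rational vector
  have hmu : act m (E F₀ p₁) = (-lam) • E F₀ p₁ := by
    rw [hact (E F₀ p₁) huu hvu, nil_nil_u, ← hlam, smul_smul]
    have e : (-lam - 1) * lam⁻¹ * lam = -lam - 1 := by
      rw [mul_assoc, inv_mul_cancel₀ hlam0, mul_one]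
    rw [e]
    module
  -- the action of the word on `E t`
  obtain ⟨y₀, hy₀⟩ : ∃ y₀, y₀ = nil Q a b *ᵥ E F₀ t := ⟨_, rfl⟩
  obtain ⟨κ, hκ⟩ : ∃ κ : F, κ = (-lam - 1) * lam⁻¹ := ⟨_, rfl⟩
  have hmt : act m (E F₀ t) = E F₀ t + κ • (QuadraticMap.polar (⇑Q) (E F₀ p₁) y₀ • E F₀ p₂
      - QuadraticMap.polar (⇑Q) (E F₀ p₂) y₀ • E F₀ p₁) := by
    rw [hact (E F₀ t) (C.pol0 hp₁t) (C.pol0 hp₂t), ← hy₀, nil_mulVec, hκ]
  have g1 : InM Q M (act m (E F₀ p₁)) (act m (E F₀ t)) 1 := (C.rat1 hp₁ ht hp₁t).conj hm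
  rw [hmu, hmt] at g1
  have g2 : InM Q M (E F₀ d) (E F₀ z) 1 := C.rat1 hd0 hz hdz
  have hzt : QuadraticMap.polar (⇑Q) (E F₀ z) (E F₀ t) = 0 :=
    C.pol0 (by rw [QuadraticMap.polar_comm]; exact htz)
  have hzu : QuadraticMap.polar (⇑Q) (E F₀ z) (E F₀ p₁) = 0 :=
    C.pol0 (by rw [QuadraticMap.polar_comm]; exact hp₁z)
  have hzv : QuadraticMap.polar (⇑Q) (E F₀ z) (E F₀ p₂) = 0 :=
    C.pol0 (by rw [QuadraticMap.polar_comm]; exact hp₂z)
  have g3 := InM.comm g1 g2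
    (by rw [QuadraticMap.polar_smul_left, C.pol0 hp₁z, smul_zero])
    (by rw [QuadraticMap.polar_smul_left, C.pol0 hp₁d, smul_zero])
    (by
      simp only [QuadraticMap.polar_add_right, QuadraticMap.polar_sub_right,
        QuadraticMap.polar_smul_right, hzt, hzu, hzv, smul_zero, sub_zero, add_zero])
    (by
      simp only [QuadraticMap.polar_add_left, QuadraticMap.polar_sub_left,
        QuadraticMap.polar_smul_left, C.pol1 htd, C.pol0 hp₁d, C.pol0 hp₂d, smul_zero, sub_zero,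
        add_zero])
  have g4 := g3.smul_left hu (C.pol0 hp₁z)
  have g5 : InM Q M (E F₀ p₁) (E F₀ z) lam := g4.congr (by ring)
  exact hK lam (C.ks_of_one g5 hp₁ hz hp₁z hp0 hzind)

/-- The rank-one lemma. -/
theorem OCtx.dp_rat [Fintype F] (C : OCtx F₀ Q Q₀ M) (h2 : (2 : F) ≠ 0)
    (hK : ∀ c, Ks F₀ Q Q₀ M c → c ∈ F₀)
    {p₁ p₂ : ι → F₀} (hp₁ : Q₀ p₁ = 0) (hp₂ : Q₀ p₂ = 0)
    (hp : QuadraticMap.polar (⇑Q₀) p₁ p₂ = 0) (hp0 : p₁ ≠ 0)
    (hind : p₂ ∉ Submodule.span F₀ {p₁})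
    {a b : ι → F} (hab : InM Q M a b 1) : Dp Q a b (E F₀ p₁) (E F₀ p₂) ∈ F₀ := by
  by_cases hD : Dp Q a b (E F₀ p₁) (E F₀ p₂) = 0
  · rw [hD]
    exact F₀.zero_mem
  obtain ⟨ha, hb, hab0, hmem⟩ := hab
  obtain ⟨lam, hlam⟩ : ∃ lam, lam = -(Dp Q a b (E F₀ p₁) (E F₀ p₂)) := ⟨_, rfl⟩
  have hlam0 : lam ≠ 0 := by
    rw [hlam]
    exact neg_ne_zero.mpr hD
  suffices hl : lam ∈ F₀ by
    have e : Dp Q a b (E F₀ p₁) (E F₀ p₂) = -lam := by rw [hlam, neg_neg]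
    rw [e]
    exact F₀.neg_mem hl
  have hu := C.val0 hp₁
  have hv := C.val0 hp₂
  have huv := C.pol0 hp
  have h1 : siegelG Q (E F₀ p₁) (E F₀ p₂) hu hv huv 1 ∈ M := (C.rat1 hp₁ hp₂ hp).mem _ _ _
  obtain ⟨K, hKdef⟩ : ∃ K : Subfield F, K = Subfield.closure {lam} := ⟨_, rfl⟩
  have hlK : lam ∈ K := by
    rw [hKdef]
    exact Subfield.subset_closure (Set.mem_singleton lam)
  have : Fintype K := Fintype.ofFinite _
  have hgen : Subfield.closure ({(⟨lam, hlK⟩ : K)} : Set K) = ⊤ := by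
    rw [eq_top_iff]
    intro y _
    have h3 : K ≤ (Subfield.closure ({(⟨lam, hlK⟩ : K)} : Set K)).map K.subtype := by
      refine le_trans (le_of_eq hKdef) (Subfield.closure_le.mpr ?_)
      intro t ht
      rw [Set.mem_singleton_iff] at ht
      rw [ht]
      exact ⟨⟨lam, hlK⟩, Subfield.subset_closure (Set.mem_singleton _), rfl⟩
    obtain ⟨s, hs, hsy⟩ := h3 y.2
    have e : s = y := Subtype.ext hsy
    rw [← e]
    exact hs
  have h2K : (2 : K) ≠ 0 := by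
    intro h
    apply h2
    have h3 := congrArg K.subtype h
    rwa [map_ofNat, map_zero] at h3
  have hlamK0 : (⟨lam, hlK⟩ : K) ≠ 0 := by
    intro h
    apply hlam0
    exact congrArg Subtype.val h
  rcases Cfsg.Agent.S0801.result h2K (⟨lam, hlK⟩ : K) hlamK0 hgen with ⟨htop, -⟩ | ⟨-, hsq, -⟩
  · have h3 := siegel_mem_of_closure_top Q M (E F₀ p₁) (E F₀ p₂) a b hu hv huv ha hb hab0 lam
      hlam0 hlam h1 hmem K ⟨lam, hlK⟩ rfl htop
    exact hK lam (C.ks_of_one ⟨hu, hv, huv, h3⟩ hp₁ hp₂ hp hp0 hind)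
  · have hsq' : lam ^ 2 = -1 := by
      have h3 := congrArg K.subtype hsq
      rw [map_pow, map_neg, map_one] at h3
      exact h3
    exact C.lam_rat_exc hK hp₁ hp₂ hp hp0 ha hb hab0 hmem lam hlam0 hlam hsq'

/-- The polar determinants of the images of rational Siegel pairs under `M` are rational. -/
theorem OCtx.dp_rat_all [Fintype F] (C : OCtx F₀ Q Q₀ M) (h2 : (2 : F) ≠ 0)
    (hK : ∀ c, Ks F₀ Q Q₀ M c → c ∈ F₀) {g : ↥(Cfsg.isometryGroup F (⇑Q))} (hg : g ∈ M)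
    {x y p w : ι → F₀} (hx : Q₀ x = 0) (hy : Q₀ y = 0)
    (hxy : QuadraticMap.polar (⇑Q₀) x y = 0) (hp : Q₀ p = 0) (hw : Q₀ w = 0)
    (hpw : QuadraticMap.polar (⇑Q₀) p w = 0) :
    Dp Q (act g (E F₀ x)) (act g (E F₀ y)) (E F₀ p) (E F₀ w) ∈ F₀ := by
  by_cases hp0 : p = 0
  · subst hp0
    unfold Dp
    rw [E_zero]
    simp only [QuadraticMap.polar_zero_right, zero_mul, mul_zero, sub_zero]
    exact F₀.zero_mem
  by_cases hind : w ∈ Submodule.span F₀ {p}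
  · obtain ⟨α, rfl⟩ := Submodule.mem_span_singleton.mp hind
    unfold Dp
    rw [E_smul]
    simp only [QuadraticMap.polar_smul_right, smul_eq_mul]
    have e : QuadraticMap.polar (⇑Q) (act g (E F₀ x)) (E F₀ p)
        * ((α : F) * QuadraticMap.polar (⇑Q) (act g (E F₀ y)) (E F₀ p))
        - (α : F) * QuadraticMap.polar (⇑Q) (act g (E F₀ x)) (E F₀ p)
          * QuadraticMap.polar (⇑Q) (act g (E F₀ y)) (E F₀ p) = 0 := by ring
    rw [e]
    exact F₀.zero_mem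
  · exact C.dp_rat h2 hK hp hw hpw hp0 hind ((C.rat1 hx hy hxy).conj hg)

end

end Cfsg.Agent.H99.OS
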