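import Cfsg.Agent.H95.SpMax
import Cfsg.Agent.H17.SubPair

set_option autoImplicit false

/-! Helper lemmas (helper99): the action of `GL ι F` on vectors and the subfield subgroup in
standard position, for an arbitrary index type. -/

namespace Cfsg.Agent.H99.SS

open Matrix
open scoped MatrixGroups

section
variable {ι : Type} [Fintype ι] [DecidableEq ι] {F : Type*} [Field F]

/-- The action of an invertible matrix on a vector. -/
def ac (g : GL ι F) (x : ι → F) : ι → F := (g : Matrix ι ι F) *ᵥ x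

theorem ac_def (g : GL ι F) (x : ι → F) : ac g x = (g : Matrix ι ι F) *ᵥ x := rfl

theorem ac_add (g : GL ι F) (x y : ι → F) : ac g (x + y) = ac g x + ac g y :=
  Matrix.mulVec_add _ _ _

theorem ac_sub (g : GL ι F) (x y : ι → F) : ac g (x - y) = ac g x - ac g y :=
  Matrix.mulVec_sub _ _ _

theorem ac_smul (g : GL ι F) (c : F) (x : ι → F) : ac g (c • x) = c • ac g x :=
  Matrix.mulVec_smul _ _ _

theorem ac_zero (g : GL ι F) : ac g 0 = 0 := Matrix.mulVec_zero _

theorem ac_neg (g : GL ι F) (x : ι → F) : ac g (-x) = -ac g x := Matrix.mulVec_neg _ _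

theorem ac_mul (g h : GL ι F) (x : ι → F) : ac (g * h) x = ac g (ac h x) := by
  unfold ac
  rw [Units.val_mul, Matrix.mulVec_mulVec]

theorem ac_one (x : ι → F) : ac (1 : GL ι F) x = x := by
  unfold ac
  rw [Units.val_one, Matrix.one_mulVec]

theorem ac_inv_ac (g : GL ι F) (x : ι → F) : ac g⁻¹ (ac g x) = x := by
  rw [← ac_mul, inv_mul_cancel, ac_one]

theorem ac_ac_inv (g : GL ι F) (x : ι → F) : ac g (ac g⁻¹ x) = x := by
  rw [← ac_mul, mul_inv_cancel, ac_one]

theorem ac_injective (g : GL ι F) : Function.Injective (ac g) := by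
  intro x y h
  rw [← ac_inv_ac g x, h, ac_inv_ac]

theorem gl_ext (g h : GL ι F) (H : ∀ x, ac g x = ac h x) : g = h :=
  Units.ext (Cfsg.Agent.H17.matrix_ext_mulVec H)

theorem ac_single (g : GL ι F) (j i : ι) :
    ac g (Pi.single j 1) i = (g : Matrix ι ι F) i j := by
  unfold ac
  rw [Matrix.mulVec_single_one]
  rfl

theorem rat_single (F₀ : Subfield F) (j i : ι) : (Pi.single j (1 : F) : ι → F) i ∈ F₀ := by
  by_cases h : i = j
  · subst h
    rw [Pi.single_eq_same]
    exact F₀.one_mem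
  · rw [Pi.single_eq_of_ne h]
    exact F₀.zero_mem

/-- A non-zero scalar multiple of a matrix with entries in the subfield lies in the subfield
subgroup. -/
theorem mem_subfield_of_smul (F₀ : Subfield F) (g : GL ι F) (c : F) (hc : c ≠ 0)
    (M₀ : Matrix ι ι F₀) (hg : (g : Matrix ι ι F) = c • M₀.map F₀.subtype) :
    g ∈ Cfsg.Geo.subfieldSubgroup F₀ 1 := by
  have hdet : M₀.det ≠ 0 := by
    intro h0
    have h1 : (g : Matrix ι ι F).det = 0 := by
      rw [hg, Matrix.det_smul, ← RingHom.mapMatrix_apply, ← RingHom.map_det, h0, map_zero,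
        mul_zero]
    exact (Matrix.isUnits_det_units g).ne_zero h1
  obtain ⟨A, hA⟩ : ∃ A : GL ι F₀, (A : Matrix ι ι F₀) = M₀ :=
    ⟨Matrix.GeneralLinearGroup.mkOfDetNeZero M₀ hdet, rfl⟩
  obtain ⟨Ai, hAi⟩ : ∃ Ai : GL ι F, Ai = Matrix.GeneralLinearGroup.map F₀.subtype A :=
    ⟨_, rfl⟩
  have hAiv : (Ai : Matrix ι ι F) = M₀.map F₀.subtype := by
    ext i j
    rw [hAi, Matrix.GeneralLinearGroup.map_apply, hA]
    rfl
  have hs : Ai⁻¹ * g ∈ Cfsg.Geo.scalars ι F := by
    rw [Cfsg.Geo.mem_scalars_iff]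
    refine ⟨Units.mk0 c hc, ?_⟩
    rw [Units.val_mul, hg, ← hAiv, Matrix.mul_smul, ← Units.val_mul, inv_mul_cancel,
      Units.val_one]
    rfl
  have hmem : Ai * (Ai⁻¹ * g) ∈
      (Matrix.GeneralLinearGroup.map (F₀.subtype : F₀ →+* F)).range ⊔ Cfsg.Geo.scalars ι F :=
    Subgroup.mul_mem_sup ⟨A, hAi.symm⟩ hs
  rw [mul_inv_cancel_left] at hmem
  unfold Cfsg.Geo.subfieldSubgroup
  rw [Subgroup.mem_map]
  exact ⟨g, hmem, by simp⟩

/-- Every element of the subfield subgroup is a non-zero scalar multiple of a matrix with entries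
in the subfield. -/
theorem exists_smul_of_mem_subfield (F₀ : Subfield F) (g : GL ι F)
    (hg : g ∈ Cfsg.Geo.subfieldSubgroup F₀ 1) :
    ∃ (c : F) (M₀ : Matrix ι ι F₀), c ≠ 0 ∧ (g : Matrix ι ι F) = c • M₀.map F₀.subtype := by
  unfold Cfsg.Geo.subfieldSubgroup at hg
  rw [Subgroup.mem_map] at hg
  obtain ⟨h, hh, hhg⟩ := hg
  have hhg' : h = g := by simpa using hhg
  rw [hhg', ← SetLike.mem_coe, Subgroup.mul_normal, Set.mem_mul] at hh
  obtain ⟨a, ha, s, hs, has⟩ := hh
  obtain ⟨A, rfl⟩ := ha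
  rw [SetLike.mem_coe, Cfsg.Geo.mem_scalars_iff] at hs
  obtain ⟨c, hc⟩ := hs
  refine ⟨c, (A : Matrix ι ι F₀), c.ne_zero, ?_⟩
  rw [← has, Units.val_mul, hc, Matrix.mul_smul, Matrix.mul_one]
  congr 1

theorem mem_subfield_iff (F₀ : Subfield F) (g : GL ι F) :
    g ∈ Cfsg.Geo.subfieldSubgroup F₀ 1 ↔
      ∃ c : F, c ≠ 0 ∧ ∀ i j, c * (g : Matrix ι ι F) i j ∈ F₀ := by
  constructor
  · intro hg
    obtain ⟨c, M₀, hc, hgM⟩ := exists_smul_of_mem_subfield F₀ g hg
    refine ⟨c⁻¹, inv_ne_zero hc, fun i j => ?_⟩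
    rw [hgM, Matrix.smul_apply, smul_eq_mul, ← mul_assoc, inv_mul_cancel₀ hc, one_mul]
    exact (M₀ i j).2
  · rintro ⟨c, hc, h⟩
    refine mem_subfield_of_smul F₀ g c⁻¹ (inv_ne_zero hc) (Matrix.of fun i j => ⟨_, h i j⟩) ?_
    ext i j
    rw [Matrix.smul_apply, smul_eq_mul]
    show _ = c⁻¹ * (c * _)
    rw [← mul_assoc, inv_mul_cancel₀ hc, one_mul]

theorem mem_subfield_conj (F₀ : Subfield F) (P g : GL ι F) :
    g ∈ Cfsg.Geo.subfieldSubgroup F₀ P ↔ P⁻¹ * g * P ∈ Cfsg.Geo.subfieldSubgroup F₀ 1 := by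
  unfold Cfsg.Geo.subfieldSubgroup
  simp only [Subgroup.mem_map, MulEquiv.coe_toMonoidHom, MulAut.conj_apply]
  constructor
  · rintro ⟨s, hs, rfl⟩
    exact ⟨s, hs, by group⟩
  · rintro ⟨s, hs, hsg⟩
    refine ⟨s, hs, ?_⟩
    have : s = P⁻¹ * g * P := by
      rw [← hsg]
      group
    rw [this]
    group

/-- An invertible matrix mapping rational points to projectively rational points lies in the
subfield group. -/
theorem mem_subfield_of_proj (F₀ : Subfield F) (A : GL ι F)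
    (h : ∀ u : ι → F, (∀ i, u i ∈ F₀) → ∃ (c : F) (u' : ι → F),
      (∀ i, u' i ∈ F₀) ∧ (A : Matrix ι ι F) *ᵥ u = c • u') :
    A ∈ Cfsg.Geo.subfieldSubgroup F₀ 1 := by
  classical
  rw [mem_subfield_iff]
  rcases isEmpty_or_nonempty ι with hn | hn
  · exact ⟨1, one_ne_zero, fun i => hn.elim i⟩
  obtain ⟨j₀⟩ := hn
  obtain ⟨M, hM⟩ : ∃ M : Matrix ι ι F, M = (A : Matrix ι ι F) := ⟨_, rfl⟩
  rw [← hM] at h ⊢
  have hinj : ∀ v : ι → F, M *ᵥ v = 0 → v = 0 := by
    intro v hv
    have h1 := congrArg (fun w => ((A⁻¹ : GL ι F) : Matrix ι ι F) *ᵥ w) hv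
    simp only [Matrix.mulVec_mulVec, Matrix.mulVec_zero] at h1
    rw [hM, ← Units.val_mul, inv_mul_cancel, Units.val_one, Matrix.one_mulVec] at h1
    exact h1
  have hcol : ∀ j, M *ᵥ (Pi.single j 1) = fun i => M i j := by
    intro j
    rw [Matrix.mulVec_single_one]
    rfl
  obtain ⟨i₀, hi₀⟩ : ∃ i₀, M i₀ j₀ ≠ 0 := by
    by_contra hcon
    push Not at hcon
    have h1 : M *ᵥ (Pi.single j₀ 1) = 0 := by
      rw [hcol]
      funext i
      exact hcon i
    have h2 := congrFun (hinj _ h1) j₀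
    simp at h2
  have norm : ∀ (x : ι → F) (d : F) (u' : ι → F), (∀ i, u' i ∈ F₀) → x = d • u' →
      ∀ i i', x i' ≠ 0 → x i / x i' ∈ F₀ := by
    intro x d u' hu' hx i i' hne
    rw [hx] at hne ⊢
    simp only [Pi.smul_apply, smul_eq_mul] at hne ⊢
    have hd : d ≠ 0 := fun h0 => hne (by rw [h0, zero_mul])
    have hu0 : u' i' ≠ 0 := fun h0 => hne (by rw [h0, mul_zero])
    have : d * u' i / (d * u' i') = u' i / u' i' := by field_simp
    rw [this]
    exact F₀.div_mem (hu' i) (hu' i')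
  obtain ⟨c, hc⟩ : ∃ c : F, c = (M i₀ j₀)⁻¹ := ⟨_, rfl⟩
  have hc0 : c ≠ 0 := by
    rw [hc]
    exact inv_ne_zero hi₀
  refine ⟨c, hc0, fun i j => ?_⟩
  obtain ⟨d₀, u₀, hu₀, hcol₀⟩ := h (Pi.single j₀ 1) (rat_single F₀ j₀)
  rw [hcol] at hcol₀
  have hx : ∀ i, c * M i j₀ ∈ F₀ := by
    intro i
    have := norm _ d₀ u₀ hu₀ hcol₀ i i₀ hi₀
    rw [hc, inv_mul_eq_div]
    exact this
  have hx1 : c * M i₀ j₀ = 1 := by
    rw [hc, inv_mul_cancel₀ hi₀]
  by_cases hj : j = j₀
  · rw [hj]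
    exact hx i
  obtain ⟨d, y, hy, hcolj⟩ := h (Pi.single j 1) (rat_single F₀ j)
  rw [hcol] at hcolj
  have hMj : ∀ i, M i j = d * y i := by
    intro i
    have := congrFun hcolj i
    simpa using this
  obtain ⟨e, z, hz, hsum⟩ := h (Pi.single j₀ 1 + Pi.single j 1)
    (fun i => F₀.add_mem (rat_single F₀ j₀ i) (rat_single F₀ j i))
  rw [Matrix.mulVec_add, hcol, hcol] at hsum
  have hrel : ∀ i, c * M i j₀ + (c * d) * y i = (c * e) * z i := by
    intro i
    have h1 := congrFun hsum i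
    simp only [Pi.add_apply, Pi.smul_apply, smul_eq_mul] at h1
    rw [hMj i] at h1
    linear_combination c * h1
  have hρ : c * d ∈ F₀ := by
    by_contra hρ
    have claim1 : ∀ i i', z i' * y i - z i * y i' = 0 := by
      intro i i'
      by_contra hne
      apply hρ
      have h3 : c * d = (z i * (c * M i' j₀) - z i' * (c * M i j₀)) / (z i' * y i - z i * y i') := by
        rw [eq_div_iff hne]
        linear_combination z i' * hrel i - z i * hrel i'
      rw [h3]
      exact F₀.div_mem (F₀.sub_mem (F₀.mul_mem (hz i) (hx i')) (F₀.mul_mem (hz i') (hx i)))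
        (F₀.sub_mem (F₀.mul_mem (hz i') (hy i)) (F₀.mul_mem (hz i) (hy i')))
    have claim2 : ∀ i i', z i * (c * M i' j₀) - z i' * (c * M i j₀) = 0 := by
      intro i i'
      linear_combination z i * hrel i' - z i' * hrel i + c * d * claim1 i i'
    have hz0 : z i₀ ≠ 0 := by
      intro h0
      have h4 := hrel i₀
      rw [hx1, h0, mul_zero] at h4
      have hy0 : y i₀ ≠ 0 := by
        intro h5
        rw [h5, mul_zero, add_zero] at h4
        exact one_ne_zero h4
      apply hρ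
      have h6 : c * d = -(y i₀)⁻¹ := by
        field_simp
        linear_combination h4
      rw [h6]
      exact F₀.neg_mem (F₀.inv_mem (hy i₀))
    have hprop : ∀ i, M i j = (d * y i₀) * (c * M i j₀) := by
      intro i
      rw [hMj i]
      have h7 := claim1 i i₀
      have h8 := claim2 i i₀
      rw [hx1] at h8
      have h9 : y i = y i₀ * (c * M i j₀) := by
        have : z i₀ * (y i - y i₀ * (c * M i j₀)) = 0 := by
          linear_combination h7 + y i₀ * h8
        rcases mul_eq_zero.mp this with h10 | h10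
        · exact absurd h10 hz0
        · exact sub_eq_zero.mp h10
      rw [h9]
      ring
    have h11 : M *ᵥ (Pi.single j 1 - (d * y i₀ * c) • Pi.single j₀ 1) = 0 := by
      rw [Matrix.mulVec_sub, Matrix.mulVec_smul, hcol, hcol]
      funext i
      simp only [Pi.sub_apply, Pi.smul_apply, smul_eq_mul, Pi.zero_apply]
      rw [hprop i]
      ring
    have h12 := congrFun (hinj _ h11) j
    simp [hj] at h12
  rw [hMj i, ← mul_assoc]
  exact F₀.mul_mem hρ (hy i)

end

end Cfsg.Agent.H99.SS
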