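import Cfsg.Agent.H99.OSubE
import Cfsg.Agent.H99.SpSubA

set_option autoImplicit false
set_option linter.unusedSectionVars false

/-! Helper lemmas (helper99): if the root coefficients of `M` are rational, `M` lies in the
subfield group. -/

namespace Cfsg.Agent.H99.OS

open Module Matrix Cfsg.Agent.H49 Cfsg.Agent.H95
open scoped MatrixGroups

section
variable {ι : Type} [Fintype ι] [DecidableEq ι] {F : Type*} [Field F]
variable {F₀ : Subfield F}

/-- An invertible matrix all of whose `2 × 2` minors on rational pairs of vectors are rational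
lies in the subfield group. -/
theorem mem_subfield_of_minors (F₀ : Subfield F) (g : GL ι F) (h3 : 3 ≤ Fintype.card ι)
    (hmin : ∀ (x y : ι → F), (∀ i, x i ∈ F₀) → (∀ i, y i ∈ F₀) → ∀ α β : ι,
      ((g : Matrix ι ι F) *ᵥ x) α * ((g : Matrix ι ι F) *ᵥ y) β
        - ((g : Matrix ι ι F) *ᵥ x) β * ((g : Matrix ι ι F) *ᵥ y) α ∈ F₀) :
    g ∈ Cfsg.Geo.subfieldSubgroup F₀ 1 := by
  classical
  apply Cfsg.Agent.H99.SS.mem_subfield_of_proj
  intro u hu
  have hinj : ∀ l : ι → F, l ᵥ* (g : Matrix ι ι F) = 0 → l = 0 := by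
    intro l hl
    have h1 := congrArg (fun w => w ᵥ* ((g⁻¹ : GL ι F) : Matrix ι ι F)) hl
    simp only [Matrix.vecMul_vecMul, Matrix.zero_vecMul] at h1
    rw [← Units.val_mul, mul_inv_cancel, Units.val_one, Matrix.vecMul_one] at h1
    exact h1
  obtain ⟨G, hG⟩ : ∃ G : Matrix ι ι F, G = (g : Matrix ι ι F) := ⟨_, rfl⟩
  rw [← hG] at hmin hinj ⊢
  obtain ⟨z, hz⟩ : ∃ z, z = G *ᵥ u := ⟨_, rfl⟩
  rw [← hz]
  by_cases hz0 : z = 0
  · exact ⟨0, 0, fun i => F₀.zero_mem, by rw [hz0, smul_zero]⟩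
  obtain ⟨β₁, hβ₁⟩ : ∃ β₁, z β₁ ≠ 0 := by
    by_contra hcon
    push Not at hcon
    exact hz0 (funext hcon)
  refine ⟨z β₁, fun β => z β / z β₁, ?_, ?_⟩
  swap
  · funext β
    simp only [Pi.smul_apply, smul_eq_mul]
    field_simp
  intro β
  show z β / z β₁ ∈ F₀
  by_cases hβ : β = β₁
  · rw [hβ, div_self hβ₁]
    exact F₀.one_mem
  obtain ⟨γ, hγ₁, hγ⟩ : ∃ γ, γ ≠ β₁ ∧ γ ≠ β := by
    by_contra hcon
    push Not at hcon
    have hsub : (Finset.univ : Finset ι) ⊆ {β₁, β} := by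
      intro γ _
      by_cases h : γ = β₁
      · simp [h]
      · simp [hcon γ h]
    have h4 := Finset.card_le_card hsub
    rw [Finset.card_univ] at h4
    have h5 := Finset.card_le_two (a := β₁) (b := β)
    omega
  have hcol : ∀ j δ, (G *ᵥ (Pi.single j 1)) δ = G δ j := by
    intro j δ
    rw [Matrix.mulVec_single_one]
    rfl
  have hm : ∀ δ j, z β₁ * G δ j - z δ * G β₁ j ∈ F₀ := by
    intro δ j
    have h4 := hmin u (Pi.single j 1) hu (Cfsg.Agent.H99.SS.rat_single F₀ j) β₁ δ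
    rw [← hz, hcol, hcol] at h4
    exact h4
  have hr : ∀ j, z β * G γ j - z γ * G β j ∈ F₀ := by
    intro j
    have h4 := hmin u (Pi.single j 1) hu (Cfsg.Agent.H99.SS.rat_single F₀ j) β γ
    rw [← hz, hcol, hcol] at h4
    exact h4
  have hid : ∀ j, z β * G γ j - z γ * G β j
      = (z β / z β₁) * (z β₁ * G γ j - z γ * G β₁ j)
        - (z γ / z β₁) * (z β₁ * G β j - z β * G β₁ j) := by
    intro j
    field_simp
    ring
  by_cases hdet : ∃ j k, (z β₁ * G γ j - z γ * G β₁ j) * (z β₁ * G β k - z β * G β₁ k)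
      - (z β₁ * G γ k - z γ * G β₁ k) * (z β₁ * G β j - z β * G β₁ j) ≠ 0
  · obtain ⟨j, k, hjk⟩ := hdet
    have e : z β / z β₁ = ((z β * G γ j - z γ * G β j) * (z β₁ * G β k - z β * G β₁ k)
        - (z β * G γ k - z γ * G β k) * (z β₁ * G β j - z β * G β₁ j))
        / ((z β₁ * G γ j - z γ * G β₁ j) * (z β₁ * G β k - z β * G β₁ k)
          - (z β₁ * G γ k - z γ * G β₁ k) * (z β₁ * G β j - z β * G β₁ j)) := by
      rw [eq_div_iff hjk, hid j, hid k]
      ring
    rw [e]
    exact F₀.div_mem (F₀.sub_mem (F₀.mul_mem (hr j) (hm β k)) (F₀.mul_mem (hr k) (hm β j)))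
      (F₀.sub_mem (F₀.mul_mem (hm γ j) (hm β k)) (F₀.mul_mem (hm γ k) (hm β j)))
  · exfalso
    push Not at hdet
    by_cases hν : ∀ j, z β₁ * G β j - z β * G β₁ j = 0
    · have h1 := hinj (z β₁ • Pi.single β 1 - z β • Pi.single β₁ 1) (by
        funext j
        simp only [Matrix.sub_vecMul, Matrix.smul_vecMul, Matrix.single_one_vecMul, Pi.sub_apply,
          Pi.smul_apply, smul_eq_mul, Pi.zero_apply, Matrix.row_apply]
        exact hν j)
      have h2 := congrFun h1 β
      simp only [Pi.sub_apply, Pi.smul_apply, smul_eq_mul, Pi.zero_apply, Pi.single_eq_same,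
        Pi.single_eq_of_ne hβ, mul_one, mul_zero, sub_zero] at h2
      exact hβ₁ h2
    · push Not at hν
      obtain ⟨k, hk⟩ := hν
      have h1 := hinj ((z β₁ * G β k - z β * G β₁ k)
          • (z β₁ • Pi.single γ 1 - z γ • Pi.single β₁ 1)
          - (z β₁ * G γ k - z γ * G β₁ k) • (z β₁ • Pi.single β 1 - z β • Pi.single β₁ 1)) (by
        funext j
        simp only [Matrix.sub_vecMul, Matrix.smul_vecMul, Matrix.single_one_vecMul, Pi.sub_apply,
          Pi.smul_apply, smul_eq_mul, Pi.zero_apply, Matrix.row_apply]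
        have h5 := hdet j k
        linear_combination h5)
      have h2 := congrFun h1 γ
      simp only [Pi.sub_apply, Pi.smul_apply, smul_eq_mul, Pi.zero_apply, Pi.single_eq_same,
        Pi.single_eq_of_ne hγ, Pi.single_eq_of_ne hγ₁, mul_one, mul_zero, sub_zero] at h2
      rcases mul_eq_zero.mp h2 with h6 | h6
      · exact hk h6
      · exact hβ₁ h6

variable {Q : QuadraticForm F (ι → F)} {M : Subgroup ↥(Cfsg.isometryGroup F (⇑Q))}
variable {Q₀ : QuadraticForm F₀ (ι → F₀)}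

/-- An alternating product of two linear functionals which is rational on rational Siegel pairs
is rational on all pairs of rational vectors (odd characteristic). -/
theorem OCtx.alt_rat (C : OCtx F₀ Q Q₀ M) (h2 : (2 : F) ≠ 0) (A B : (ι → F) → F)
    (hA : ∀ x y, A (x + y) = A x + A y) (hA' : ∀ (c : F) x, A (c • x) = c * A x)
    (hB : ∀ x y, B (x + y) = B x + B y) (hB' : ∀ (c : F) x, B (c • x) = c * B x)
    (h : ∀ p w : ι → F₀, Q₀ p = 0 → Q₀ w = 0 → QuadraticMap.polar (⇑Q₀) p w = 0 →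
      A (E F₀ p) * B (E F₀ w) - A (E F₀ w) * B (E F₀ p) ∈ F₀) :
    ∀ p w : ι → F₀, A (E F₀ p) * B (E F₀ w) - A (E F₀ w) * B (E F₀ p) ∈ F₀ := by
  have hAs : ∀ x y, A (x - y) = A x - A y := by
    intro x y
    have h1 := hA (x - y) y
    rw [sub_add_cancel] at h1
    linear_combination -h1
  have hBs : ∀ x y, B (x - y) = B x - B y := by
    intro x y
    have h1 := hB (x - y) y
    rw [sub_add_cancel] at h1
    linear_combination -h1
  have hA0 : A 0 = 0 := by
    have h1 := hA' 0 0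
    rw [zero_smul, zero_mul] at h1
    exact h1
  have hB0 : B 0 = 0 := by
    have h1 := hB' 0 0
    rw [zero_smul, zero_mul] at h1
    exact h1
  have h2m : (2 : F) ∈ F₀ := by
    have h1 := F₀.add_mem F₀.one_mem F₀.one_mem
    rwa [one_add_one_eq_two] at h1
  have hs : ∀ p w : ι → F₀, Q₀ p = 0 → Q₀ w = 0 →
      A (E F₀ p) * B (E F₀ w) - A (E F₀ w) * B (E F₀ p) ∈ F₀ := by
    intro p w hp hw
    by_cases hc : QuadraticMap.polar (⇑Q₀) p w = 0
    · exact h p w hp hw hc
    obtain ⟨s, t', hs, ht', hst', hps, hws, hpt', hwt'⟩ :=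
      exists_hyp_pair_orth_hyp Q₀ C.nd₀ C.ts₀ p w hp hw hc
    obtain ⟨t, ht_def⟩ : ∃ t, t = QuadraticMap.polar (⇑Q₀) p w • t' := ⟨_, rfl⟩
    have ht : Q₀ t = 0 := by rw [ht_def, QuadraticMap.map_smul, ht', smul_zero]
    have hst : QuadraticMap.polar (⇑Q₀) s t = QuadraticMap.polar (⇑Q₀) p w := by
      rw [ht_def, QuadraticMap.polar_smul_right, hst', smul_eq_mul, mul_one]
    have hpt : QuadraticMap.polar (⇑Q₀) p t = 0 := by
      rw [ht_def, QuadraticMap.polar_smul_right, hpt', smul_zero]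
    have hwt : QuadraticMap.polar (⇑Q₀) w t = 0 := by
      rw [ht_def, QuadraticMap.polar_smul_right, hwt', smul_zero]
    have hsw : QuadraticMap.polar (⇑Q₀) s w = 0 := by rw [QuadraticMap.polar_comm]; exact hws
    have htw : QuadraticMap.polar (⇑Q₀) t w = 0 := by rw [QuadraticMap.polar_comm]; exact hwt
    have hts : QuadraticMap.polar (⇑Q₀) t s = QuadraticMap.polar (⇑Q₀) p w := by
      rw [QuadraticMap.polar_comm]; exact hst
    have q1 : Q₀ (p + s) = 0 := by rw [Q_add', hp, hs, hps]; ring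
    have q2 : Q₀ (w - t) = 0 := by rw [Q_sub', hw, ht, hwt]; ring
    have q3 : QuadraticMap.polar (⇑Q₀) (p + s) (w - t) = 0 := by
      rw [QuadraticMap.polar_add_left, QuadraticMap.polar_sub_right,
        QuadraticMap.polar_sub_right, hpt, hsw, hst]
      ring
    have q4 : Q₀ (p + t) = 0 := by rw [Q_add', hp, ht, hpt]; ring
    have q5 : Q₀ (w - s) = 0 := by rw [Q_sub', hw, hs, hws]; ring
    have q6 : QuadraticMap.polar (⇑Q₀) (p + t) (w - s) = 0 := by
      rw [QuadraticMap.polar_add_left, QuadraticMap.polar_sub_right,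
        QuadraticMap.polar_sub_right, hps, htw, hts]
      ring
    have f1 := h (p + s) (w - t) q1 q2 q3
    have f2 := h p t hp ht hpt
    have f3 := h s w hs hw hsw
    have f4 := h (p + t) (w - s) q4 q5 q6
    have f5 := h p s hp hs hps
    have f6 := h t w ht hw htw
    rw [E_add, E_sub, hA, hB, hAs, hBs] at f1 f4
    have key : (2 : F) * (A (E F₀ p) * B (E F₀ w) - A (E F₀ w) * B (E F₀ p)) ∈ F₀ := by
      have h1 := F₀.sub_mem (F₀.add_mem (F₀.add_mem (F₀.sub_mem (F₀.add_mem f1 f2) f3) f4) f5) f6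
      convert h1 using 1
      ring
    have e : A (E F₀ p) * B (E F₀ w) - A (E F₀ w) * B (E F₀ p)
        = (2 : F)⁻¹ * (2 * (A (E F₀ p) * B (E F₀ w) - A (E F₀ w) * B (E F₀ p))) := by
      field_simp
    rw [e]
    exact F₀.mul_mem (F₀.inv_mem h2m) key
  obtain ⟨e, e', he, he', hee', -, -⟩ := exists_hyp_pair_orth_le_one Q₀ C.nd₀ C.ts₀ ⊥
    (by rw [finrank_bot]; omega)
  have hspan : ∀ a : ι → F₀, a ∈ Submodule.span F₀ {s : ι → F₀ | s ∈ (⊤ : Submodule F₀ (ι → F₀))
      ∧ Q₀ s = 0} :=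
    fun a => mem_span_singular Q₀ ⊤ e e' Submodule.mem_top Submodule.mem_top he he' hee' a
      Submodule.mem_top
  have ha : ∀ p : ι → F₀, Q₀ p = 0 → ∀ w : ι → F₀,
      A (E F₀ p) * B (E F₀ w) - A (E F₀ w) * B (E F₀ p) ∈ F₀ := by
    intro p hp w
    induction hspan w using Submodule.span_induction with
    | mem s hs' => exact hs p s hp hs'.2
    | zero =>
      rw [E_zero, hA0, hB0, mul_zero, zero_mul, sub_zero]
      exact F₀.zero_mem
    | add w₁ w₂ _ _ ih1 ih2 =>
      rw [E_add, hA, hB]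
      have h1 := F₀.add_mem ih1 ih2
      convert h1 using 1
      ring
    | smul c w₁ _ ih =>
      rw [E_smul, hA', hB']
      have h1 := F₀.mul_mem c.2 ih
      convert h1 using 1
      ring
  intro p w
  induction hspan p using Submodule.span_induction with
  | mem s hs' => exact ha s hs'.2 w
  | zero =>
    rw [E_zero, hA0, hB0, mul_zero, zero_mul, sub_zero]
    exact F₀.zero_mem
  | add p₁ p₂ _ _ ih1 ih2 =>
    rw [E_add, hA, hB]
    have h1 := F₀.add_mem ih1 ih2
    convert h1 using 1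
    ring
  | smul c p₁ _ ih =>
    rw [E_smul, hA', hB']
    have h1 := F₀.mul_mem c.2 ih
    convert h1 using 1
    ring

/-- If the root coefficients of `M` are rational, every element of `M` lies in the subfield
group. -/
theorem OCtx.le_subfield [Fintype F] (C : OCtx F₀ Q Q₀ M) (h2 : (2 : F) ≠ 0)
    (hK : ∀ c, Ks F₀ Q Q₀ M c → c ∈ F₀)
    (hdual : ∀ α : ι, ∃ (d : ι → F₀) (k : F₀), k ≠ 0 ∧
      ∀ z : ι → F, QuadraticMap.polar (⇑Q) z (E F₀ d) = (k : F) * z α)
    {g : ↥(Cfsg.isometryGroup F (⇑Q))} (hg : g ∈ M) :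
    (g : GL ι F) ∈ Cfsg.Geo.subfieldSubgroup F₀ 1 := by
  have star1 : ∀ x y : ι → F₀, Q₀ x = 0 → Q₀ y = 0 → QuadraticMap.polar (⇑Q₀) x y = 0 →
      ∀ p w : ι → F₀, Dp Q (act g (E F₀ x)) (act g (E F₀ y)) (E F₀ p) (E F₀ w) ∈ F₀ := by
    intro x y hx hy hxy
    exact C.alt_rat h2 (fun z => QuadraticMap.polar (⇑Q) (act g (E F₀ x)) z)
      (fun z => QuadraticMap.polar (⇑Q) (act g (E F₀ y)) z)
      (fun a b => by rw [QuadraticMap.polar_add_right])
      (fun c a => by rw [QuadraticMap.polar_smul_right, smul_eq_mul])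
      (fun a b => by rw [QuadraticMap.polar_add_right])
      (fun c a => by rw [QuadraticMap.polar_smul_right, smul_eq_mul])
      (fun p w hp hw hpw => C.dp_rat_all h2 hK hg hx hy hxy hp hw hpw)
  have star2 : ∀ p w x y : ι → F₀,
      Dp Q (act g (E F₀ x)) (act g (E F₀ y)) (E F₀ p) (E F₀ w) ∈ F₀ := by
    intro p w
    have h1 := C.alt_rat h2 (fun z => QuadraticMap.polar (⇑Q) (act g z) (E F₀ p))
      (fun z => QuadraticMap.polar (⇑Q) (act g z) (E F₀ w))
      (fun a b => by rw [act_add, QuadraticMap.polar_add_left])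
      (fun c a => by rw [act_smul, QuadraticMap.polar_smul_left, smul_eq_mul])
      (fun a b => by rw [act_add, QuadraticMap.polar_add_left])
      (fun c a => by rw [act_smul, QuadraticMap.polar_smul_left, smul_eq_mul])
      (fun x y hx hy hxy => by
        have h3 := star1 x y hx hy hxy p w
        unfold Dp at h3
        convert h3 using 1
        ring)
    intro x y
    have h3 := h1 x y
    unfold Dp
    convert h3 using 1
    ring
  apply mem_subfield_of_minors F₀ (g : GL ι F) (by have := C.dim; omega)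
  intro x y hx hy α β
  obtain ⟨x₀, rfl⟩ := exists_E F₀ x hx
  obtain ⟨y₀, rfl⟩ := exists_E F₀ y hy
  obtain ⟨dα, kα, hkα, hdα⟩ := hdual α
  obtain ⟨dβ, kβ, hkβ, hdβ⟩ := hdual β
  have hkα' : (kα : F) ≠ 0 := fun h => hkα (Subtype.ext h)
  have hkβ' : (kβ : F) ≠ 0 := fun h => hkβ (Subtype.ext h)
  have h := star2 dα dβ x₀ y₀
  unfold Dp at h
  rw [hdα, hdβ, hdα, hdβ] at h
  show (act g (E F₀ x₀)) α * (act g (E F₀ y₀)) β - (act g (E F₀ x₀)) β * (act g (E F₀ y₀)) α ∈ F₀
  have e : (act g (E F₀ x₀)) α * (act g (E F₀ y₀)) β - (act g (E F₀ x₀)) β * (act g (E F₀ y₀)) α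
      = ((kα : F) * kβ)⁻¹ * ((kα : F) * act g (E F₀ x₀) α * ((kβ : F) * act g (E F₀ y₀) β)
        - (kβ : F) * act g (E F₀ x₀) β * ((kα : F) * act g (E F₀ y₀) α)) := by
    field_simp
  rw [e]
  exact F₀.mul_mem (F₀.inv_mem (F₀.mul_mem kα.2 kβ.2)) h

end

end Cfsg.Agent.H99.OS
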