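import Cfsg.Agent.H99.OSubF
import Cfsg.Agent.H95.QuadStd
import Cfsg.Agent.H49.SimpleForms

set_option autoImplicit false
set_option linter.unusedSectionVars false

/-! Helper lemmas (helper99): the orthogonal subfield group in standard position is maximal in
`Ω` (odd characteristic). -/

namespace Cfsg.Agent.H99.OS

open Module Matrix Cfsg.Agent.H49 Cfsg.Agent.H95
open scoped MatrixGroups

section
variable {ι : Type} [Fintype ι] [DecidableEq ι] {F : Type*} [Field F]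
variable {F₀ : Subfield F}
variable {Q : QuadraticForm F (ι → F)} {Q₀ : QuadraticForm F₀ (ι → F₀)}

theorem pol_of_val (val : ∀ x : ι → F₀, Q (E F₀ x) = ((Q₀ x : F₀) : F)) (x y : ι → F₀) :
    QuadraticMap.polar (⇑Q) (E F₀ x) (E F₀ y) = ((QuadraticMap.polar (⇑Q₀) x y : F₀) : F) := by
  unfold QuadraticMap.polar
  rw [← E_add, val, val, val]
  push_cast
  rfl

/-- Rational Siegel elements lie in the subfield group. -/
theorem rat_siegel_mem_subfield (val : ∀ x : ι → F₀, Q (E F₀ x) = ((Q₀ x : F₀) : F))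
    (x y : ι → F₀) (hx : Q (E F₀ x) = 0) (hy : Q (E F₀ y) = 0)
    (hxy : QuadraticMap.polar (⇑Q) (E F₀ x) (E F₀ y) = 0) (a : F₀) :
    ((siegelG Q (E F₀ x) (E F₀ y) hx hy hxy (a : F) : ↥(Cfsg.isometryGroup F (⇑Q))) : GL ι F)
      ∈ Cfsg.Geo.subfieldSubgroup F₀ 1 := by
  apply Cfsg.Agent.H99.SS.mem_subfield_of_proj
  intro u hu
  obtain ⟨u₀, rfl⟩ := exists_E F₀ u hu
  refine ⟨1, _, ?_, (one_smul _ _).symm⟩
  intro i
  rw [siegelG_mulVec, pol_of_val val, pol_of_val val]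
  simp only [Pi.add_apply, Pi.smul_apply, Pi.sub_apply, smul_eq_mul]
  exact F₀.add_mem (E_rat F₀ u₀ i) (F₀.mul_mem a.2 (F₀.sub_mem
    (F₀.mul_mem (SetLike.coe_mem _) (E_rat F₀ y i)) (F₀.mul_mem (SetLike.coe_mem _) (E_rat F₀ x i))))

/-- The orthogonal subfield group in standard position is maximal in `Ω`. -/
theorem subfield_maximal_std [Fintype F] (F₀ : Subfield F) (Q : QuadraticForm F (ι → F))
    (Q₀ : QuadraticForm F₀ (ι → F₀)) (h2 : (2 : F) ≠ 0) (r : ℕ) (hr : r.Prime)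
    (hcard : Fintype.card F = Nat.card F₀ ^ r)
    (val : ∀ x : ι → F₀, Q (E F₀ x) = ((Q₀ x : F₀) : F))
    (nd : (QuadraticMap.polarBilin Q).Nondegenerate)
    (nd₀ : (QuadraticMap.polarBilin Q₀).Nondegenerate)
    (ts : HasTS3 Q) (ts₀ : HasTS3 Q₀) (dim : 13 ≤ Fintype.card ι)
    (hdual : ∀ α : ι, ∃ (d : ι → F₀) (k : F₀), k ≠ 0 ∧
      ∀ z : ι → F, QuadraticMap.polar (⇑Q) z (E F₀ d) = (k : F) * z α)
    (hstrict : ∃ g ∈ Cfsg.Geo.omegaGL (⇑Q), g ∉ Cfsg.Geo.subfieldSubgroup F₀ 1) :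
    Cfsg.Geo.IsMaximalIn (Cfsg.Geo.omegaGL (⇑Q))
      (Cfsg.Geo.subfieldSubgroup F₀ 1 ⊓ Cfsg.Geo.omegaGL (⇑Q)) := by
  constructor
  · refine lt_of_le_of_ne inf_le_right ?_
    intro heq
    obtain ⟨g, hg, hgn⟩ := hstrict
    rw [← heq] at hg
    exact hgn hg.1
  · intro M hHM hMΩ
    have C : OCtx F₀ Q Q₀ (M.comap (Cfsg.isometryGroup F (⇑Q)).subtype) :=
      { val := val
        nd := nd
        nd₀ := nd₀
        ts := ts
        ts₀ := ts₀
        dim := dim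
        rat := by
          intro x y hx hy hxy a
          have hx' : Q (E F₀ x) = 0 := by rw [val, hx]; rfl
          have hy' : Q (E F₀ y) = 0 := by rw [val, hy]; rfl
          have hxy' : QuadraticMap.polar (⇑Q) (E F₀ x) (E F₀ y) = 0 := by
            rw [pol_of_val val, hxy]; rfl
          refine ⟨hx', hy', hxy', ?_⟩
          show ((siegelG Q (E F₀ x) (E F₀ y) hx' hy' hxy' (a : F) :
            ↥(Cfsg.isometryGroup F (⇑Q))) : GL ι F) ∈ M
          apply hHM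
          exact ⟨rat_siegel_mem_subfield val x y hx' hy' hxy' a,
            ⟨_, siegelG_mem_commutator Q nd ts _ _ hx' hy' hxy' _, rfl⟩⟩ }
    rcases C.ks_dichotomy r hr hcard with hK | hall
    · left
      apply le_antisymm _ hHM
      intro g hg
      obtain ⟨g', hg', rfl⟩ := hMΩ hg
      exact ⟨C.le_subfield h2 hK hdual (show g' ∈ M.comap _ from hg), ⟨g', hg', rfl⟩⟩
    · right
      apply le_antisymm hMΩ
      rintro g ⟨g', hg', rfl⟩
      exact C.comm_le_of_all hall hg'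

end

section
variable {F : Type*} [Field F] {m : ℕ}

theorem qodd_val (F₀ : Subfield F) (x : Unit ⊕ (Fin m ⊕ Fin m) → F₀) :
    QOdd m F (E F₀ x) = ((QOdd m F₀ x : F₀) : F) := by
  show Cfsg.quadFormOdd m F (E F₀ x) = ((Cfsg.quadFormOdd m F₀ x : F₀) : F)
  unfold Cfsg.quadFormOdd E
  push_cast
  rfl

theorem qodd_dual (F₀ : Subfield F) (h2 : (2 : F) ≠ 0) (α : Unit ⊕ (Fin m ⊕ Fin m)) :
    ∃ (d : Unit ⊕ (Fin m ⊕ Fin m) → F₀) (k : F₀), k ≠ 0 ∧
      ∀ z : Unit ⊕ (Fin m ⊕ Fin m) → F,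
        QuadraticMap.polar (⇑(QOdd m F)) z (E F₀ d) = (k : F) * z α := by
  classical
  rcases α with u | i | i
  · refine ⟨Pi.single (Sum.inl ()) 1, 2, ?_, fun z => ?_⟩
    · intro h
      apply h2
      have h3 := congrArg F₀.subtype h
      rwa [map_ofNat, map_zero] at h3
    · rw [E_single]
      show QuadraticMap.polar (Cfsg.quadFormOdd m F) z _ = _
      rw [polar_quadFormOdd]
      have e : ((2 : F₀) : F) = 2 := map_ofNat F₀.subtype 2
      rw [e]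
      simp
  · refine ⟨Pi.single (Sum.inr (Sum.inr i)) 1, 1, one_ne_zero, fun z => ?_⟩
    rw [E_single]
    show QuadraticMap.polar (Cfsg.quadFormOdd m F) z _ = _
    rw [polar_quadFormOdd]
    simp [Pi.single_apply]
  · refine ⟨Pi.single (Sum.inr (Sum.inl i)) 1, 1, one_ne_zero, fun z => ?_⟩
    rw [E_single]
    show QuadraticMap.polar (Cfsg.quadFormOdd m F) z _ = _
    rw [polar_quadFormOdd]
    simp [Pi.single_apply]

theorem qodd_strict [Fintype F] (hm : 3 ≤ m) (h2 : (2 : F) ≠ 0) (F₀ : Subfield F) (θ : F)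
    (hθ : θ ∉ F₀) :
    ∃ g ∈ Cfsg.Geo.omegaGL (⇑(QOdd m F)), g ∉ Cfsg.Geo.subfieldSubgroup F₀ 1 := by
  classical
  obtain ⟨i0, i1, h01⟩ : ∃ i0 i1 : Fin m, i0 ≠ i1 :=
    ⟨⟨0, by omega⟩, ⟨1, by omega⟩, by simp [Fin.ext_iff]⟩
  obtain ⟨e₁, he₁d⟩ : ∃ e₁ : Unit ⊕ (Fin m ⊕ Fin m) → F,
      e₁ = Pi.single (Sum.inr (Sum.inl i0)) 1 := ⟨_, rfl⟩
  obtain ⟨e₂, he₂d⟩ : ∃ e₂ : Unit ⊕ (Fin m ⊕ Fin m) → F,
      e₂ = Pi.single (Sum.inr (Sum.inl i1)) 1 := ⟨_, rfl⟩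
  obtain ⟨f₁, hf₁d⟩ : ∃ f₁ : Unit ⊕ (Fin m ⊕ Fin m) → F,
      f₁ = Pi.single (Sum.inr (Sum.inr i0)) 1 := ⟨_, rfl⟩
  have he₁ : QOdd m F e₁ = 0 := by
    show Cfsg.quadFormOdd m F e₁ = 0
    rw [he₁d]
    unfold Cfsg.quadFormOdd
    simp [Pi.single_apply]
  have he₂ : QOdd m F e₂ = 0 := by
    show Cfsg.quadFormOdd m F e₂ = 0
    rw [he₂d]
    unfold Cfsg.quadFormOdd
    simp [Pi.single_apply]
  have h12 : QuadraticMap.polar (⇑(QOdd m F)) e₁ e₂ = 0 := by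
    show QuadraticMap.polar (Cfsg.quadFormOdd m F) e₁ e₂ = 0
    rw [polar_quadFormOdd, he₁d, he₂d]
    simp [Pi.single_apply]
  have p1 : QuadraticMap.polar (⇑(QOdd m F)) e₁ f₁ = 1 := by
    show QuadraticMap.polar (Cfsg.quadFormOdd m F) e₁ f₁ = 1
    rw [polar_quadFormOdd, he₁d, hf₁d]
    simp [Pi.single_apply]
  have p2 : QuadraticMap.polar (⇑(QOdd m F)) e₂ f₁ = 0 := by
    show QuadraticMap.polar (Cfsg.quadFormOdd m F) e₂ f₁ = 0
    rw [polar_quadFormOdd, he₂d, hf₁d]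
    simp [Pi.single_apply, h01]
  refine ⟨((siegelG (QOdd m F) e₁ e₂ he₁ he₂ h12 θ :
    ↥(Cfsg.isometryGroup F (⇑(QOdd m F)))) : GL (Unit ⊕ (Fin m ⊕ Fin m)) F),
    ⟨_, siegelG_mem_commutator (QOdd m F) (QOdd_nondeg m h2) (hasTS3_QOdd m hm) _ _ he₁ he₂ h12 θ,
      rfl⟩, ?_⟩
  intro hmem
  rw [Cfsg.Agent.H99.SS.mem_subfield_iff] at hmem
  obtain ⟨c, hc, hrat⟩ := hmem
  have col : ∀ i, (((siegelG (QOdd m F) e₁ e₂ he₁ he₂ h12 θ :
      ↥(Cfsg.isometryGroup F (⇑(QOdd m F)))) : GL (Unit ⊕ (Fin m ⊕ Fin m)) F) :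
        Matrix (Unit ⊕ (Fin m ⊕ Fin m)) (Unit ⊕ (Fin m ⊕ Fin m)) F) i (Sum.inr (Sum.inr i0))
      = f₁ i + θ * e₂ i := by
    intro i
    have h3 := congrFun (siegelG_mulVec (QOdd m F) e₁ e₂ he₁ he₂ h12 θ f₁) i
    rw [p1, p2, hf₁d, Matrix.mulVec_single_one] at h3
    rw [hf₁d]
    simpa using h3
  have h4 := hrat (Sum.inr (Sum.inr i0)) (Sum.inr (Sum.inr i0))
  have h5 := hrat (Sum.inr (Sum.inl i1)) (Sum.inr (Sum.inr i0))
  rw [col] at h4 h5
  rw [hf₁d, he₂d] at h4 h5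
  simp only [Pi.single_eq_same, ne_eq, reduceCtorEq, not_false_eq_true, Pi.single_eq_of_ne,
    Sum.inr.injEq, mul_zero, add_zero, mul_one, zero_add] at h4 h5
  apply hθ
  have h6 := F₀.mul_mem (F₀.inv_mem h4) h5
  rwa [← mul_assoc, inv_mul_cancel₀ hc, one_mul] at h6

/-- The orthogonal subfield group in standard position is maximal in `Ω_{2m+1}(F)`. -/
theorem qodd_subfield_maximal_one [Fintype F] (hodd : Odd (Fintype.card F)) (hm : 6 ≤ m)
    (F₀ : Subfield F) (r : ℕ) (hr : r.Prime) (hcard : Fintype.card F = Nat.card F₀ ^ r) :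
    Cfsg.Geo.IsMaximalIn (Cfsg.Geo.omegaGL (Cfsg.quadFormOdd m F))
      (Cfsg.Geo.subfieldSubgroup F₀ 1 ⊓ Cfsg.Geo.omegaGL (Cfsg.quadFormOdd m F)) := by
  classical
  have h2 : (2 : F) ≠ 0 := by
    intro h
    have h3 : ringChar F = 2 := CharP.ringChar_of_prime_eq_zero Nat.prime_two (by exact_mod_cast h)
    have h4 := FiniteField.even_card_of_char_two h3
    exact (Nat.not_even_iff_odd.mpr hodd) (Nat.even_iff.mpr h4)
  have h2' : (2 : F₀) ≠ 0 := by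
    intro h
    apply h2
    have h3 := congrArg F₀.subtype h
    rwa [map_ofNat, map_zero] at h3
  have : Fintype F₀ := Fintype.ofFinite _
  obtain ⟨θ, hθ⟩ : ∃ c : F, c ∉ F₀ := by
    by_contra hcon
    push Not at hcon
    have e : Fintype.card F₀ = Fintype.card F := Fintype.card_congr (Equiv.subtypeUnivEquiv hcon)
    rw [Nat.card_eq_fintype_card, e] at hcard
    have h3 : 1 < Fintype.card F := Fintype.one_lt_card
    have h4 : Fintype.card F ^ 1 < Fintype.card F ^ r := Nat.pow_lt_pow_right h3 hr.one_lt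
    rw [pow_one] at h4
    omega
  have hm3 : 3 ≤ m := by omega
  exact subfield_maximal_std F₀ (QOdd m F) (QOdd m F₀) h2 r hr hcard (qodd_val F₀)
    (QOdd_nondeg m h2) (QOdd_nondeg m h2') (hasTS3_QOdd m hm3) (hasTS3_QOdd m hm3)
    (by simp only [Fintype.card_sum, Fintype.card_unit, Fintype.card_fin]; omega)
    (qodd_dual F₀ h2) (qodd_strict hm3 h2 F₀ θ hθ)

end

end Cfsg.Agent.H99.OS
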