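import Cfsg.Agent.H99.SubMain

set_option autoImplicit false

namespace Cfsg.Agent.H99

open Matrix
open scoped MatrixGroups

section
variable {F : Type*} [Field F] {n : ℕ} {F₀ : Subfield F} {M : Subgroup (GL (Fin n) F)}

theorem tv_rat_of_le
    (hsub : Cfsg.Geo.subfieldSubgroup F₀ 1 ⊓ Cfsg.Geo.specialLinear (Fin n) F ≤ M)
    (w φ : Fin n → F) (hw : ∀ i, w i ∈ F₀) (hφ : ∀ i, φ i ∈ F₀) (h : φ ⬝ᵥ w = 0) :
    Tv M w φ := by
  obtain ⟨g, hg, hgx⟩ := rat_tv_mem F₀ w φ hw hφ h
  exact ⟨g, hsub hg, hgx⟩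

theorem tv_el_of_le
    (hsub : Cfsg.Geo.subfieldSubgroup F₀ 1 ⊓ Cfsg.Geo.specialLinear (Fin n) F ≤ M)
    (i j : Fin n) (hij : i ≠ j) : Tv M (Pi.single i 1) (Pi.single j 1) :=
  tv_rat_of_le hsub _ _ (rat_single F₀ i) (rat_single F₀ j)
    (by rw [dotProduct_single_one, Pi.single_eq_of_ne hij])

theorem tv_move_right
    (hsub : Cfsg.Geo.subfieldSubgroup F₀ 1 ⊓ Cfsg.Geo.specialLinear (Fin n) F ≤ M)
    {i j k : Fin n} (hij : i ≠ j) (hki : k ≠ i) (hkj : k ≠ j) (c : F)
    (h : Tv M (c • Pi.single i 1) (Pi.single j 1)) :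
    Tv M (c • Pi.single i 1) (Pi.single k 1) := by
  have h2 := tv_el_of_le hsub j k hkj.symm
  have h3 := Tv.comm1 h h2
    (by
      rw [single_one_dotProduct]
      show c * (Pi.single i (1 : F) : Fin n → F) j = 0
      rw [Pi.single_eq_of_ne hij.symm, mul_zero])
    (by rw [dotProduct_single_one, Pi.single_eq_of_ne hkj.symm])
    (by
      rw [single_one_dotProduct]
      show c * (Pi.single i (1 : F) : Fin n → F) k = 0
      rw [Pi.single_eq_of_ne hki, mul_zero])
  rw [dotProduct_single_one, Pi.single_eq_same, one_smul] at h3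
  exact h3

theorem tv_move_left
    (hsub : Cfsg.Geo.subfieldSubgroup F₀ 1 ⊓ Cfsg.Geo.specialLinear (Fin n) F ≤ M)
    {i j k : Fin n} (hij : i ≠ j) (hki : k ≠ i) (hkj : k ≠ j) (c : F)
    (h : Tv M (c • Pi.single i 1) (Pi.single j 1)) :
    Tv M (c • Pi.single k 1) (Pi.single j 1) := by
  have h2 := tv_el_of_le hsub k i hki
  have h3 := Tv.comm2 h h2
    (by
      rw [single_one_dotProduct]
      show c * (Pi.single i (1 : F) : Fin n → F) j = 0
      rw [Pi.single_eq_of_ne hij.symm, mul_zero])
    (by rw [dotProduct_single_one, Pi.single_eq_of_ne hki])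
    (by rw [dotProduct_single_one, Pi.single_eq_of_ne hkj])
  rw [single_one_dotProduct] at h3
  have h4 := h3.neg (by
    rw [dotProduct_smul, dotProduct_single_one, Pi.single_eq_of_ne hkj, smul_zero])
  refine h4.congr (fun x => ?_)
  congr 1
  show -(-(c * (Pi.single i (1 : F) : Fin n → F) i) • Pi.single k 1) = c • Pi.single k 1
  rw [Pi.single_eq_same, mul_one, neg_smul, neg_neg]

/-- The coefficients of the elementary transvections of `M` do not depend on the position. -/
theorem tv_move (hn : 3 ≤ n)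
    (hsub : Cfsg.Geo.subfieldSubgroup F₀ 1 ⊓ Cfsg.Geo.specialLinear (Fin n) F ≤ M)
    {i j k l : Fin n} (hij : i ≠ j) (hkl : k ≠ l) (c : F)
    (h : Tv M (c • Pi.single i 1) (Pi.single j 1)) :
    Tv M (c • Pi.single k 1) (Pi.single l 1) := by
  have R : ∀ {i j l : Fin n}, i ≠ j → l ≠ i → Tv M (c • Pi.single i 1) (Pi.single j 1) →
      Tv M (c • Pi.single i 1) (Pi.single l 1) := by
    intro i j l hij hli h
    by_cases hlj : l = j
    · rw [hlj]
      exact h
    · exact tv_move_right hsub hij hli hlj c h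
  have L : ∀ {i j k : Fin n}, i ≠ j → k ≠ j → Tv M (c • Pi.single i 1) (Pi.single j 1) →
      Tv M (c • Pi.single k 1) (Pi.single j 1) := by
    intro i j k hij hkj h
    by_cases hki : k = i
    · rw [hki]
      exact h
    · exact tv_move_left hsub hij hki hkj c h
  by_cases hli : l = i
  · subst hli
    by_cases hkj : k = j
    · subst hkj
      obtain ⟨m, hml, hmk⟩ := exists_ne_ne hn l k
      exact R hmk.symm hij (L hml.symm hmk.symm (R hij hml h))
    · exact R hkj hkl.symm (L hij hkj h)
  · exact L (Ne.symm hli) hkl (R hij hli h)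

theorem tv_mul {i j k : Fin n} (hij : i ≠ j) (hjk : j ≠ k) (hik : i ≠ k) (a b : F)
    (ha : Tv M (a • Pi.single i 1) (Pi.single j 1))
    (hb : Tv M (b • Pi.single j 1) (Pi.single k 1)) :
    Tv M ((a * b) • Pi.single i 1) (Pi.single k 1) := by
  have h3 := Tv.comm1 ha hb
    (by
      rw [single_one_dotProduct]
      show a * (Pi.single i (1 : F) : Fin n → F) j = 0
      rw [Pi.single_eq_of_ne hij.symm, mul_zero])
    (by
      rw [single_one_dotProduct]
      show b * (Pi.single j (1 : F) : Fin n → F) k = 0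
      rw [Pi.single_eq_of_ne hjk.symm, mul_zero])
    (by
      rw [single_one_dotProduct]
      show a * (Pi.single i (1 : F) : Fin n → F) k = 0
      rw [Pi.single_eq_of_ne hik.symm, mul_zero])
  rw [single_one_dotProduct] at h3
  refine h3.congr (fun x => ?_)
  congr 1
  show (b * (Pi.single j (1 : F) : Fin n → F) j) • a • Pi.single i 1 = (a * b) • Pi.single i 1
  rw [Pi.single_eq_same, mul_one, smul_smul, mul_comm]

/-- If `M` contains an elementary transvection with an irrational coefficient, it contains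
`SL_n(F)`. -/
theorem sl_le_of_irrational [Fintype F] (hn : 3 ≤ n) (r : ℕ) (hr : r.Prime)
    (hcard : Fintype.card F = Nat.card F₀ ^ r)
    (hsub : Cfsg.Geo.subfieldSubgroup F₀ 1 ⊓ Cfsg.Geo.specialLinear (Fin n) F ≤ M)
    {i j : Fin n} (hij : i ≠ j) {c : F} (hc : c ∉ F₀)
    (h : Tv M (c • Pi.single i 1) (Pi.single j 1)) :
    Cfsg.Geo.specialLinear (Fin n) F ≤ M := by
  classical
  obtain ⟨k, hki, hkj⟩ := exists_ne_ne hn i j
  have hrat : ∀ a : F, a ∈ F₀ → Tv M (a • Pi.single i 1) (Pi.single j 1) := by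
    intro a ha
    refine tv_rat_of_le hsub _ _ (fun l => F₀.mul_mem ha (rat_single F₀ i l)) (rat_single F₀ j) ?_
    rw [single_one_dotProduct]
    show a * (Pi.single i (1 : F) : Fin n → F) j = 0
    rw [Pi.single_eq_of_ne hij.symm, mul_zero]
  obtain ⟨K, hK⟩ : ∃ K : Subalgebra F₀ F, ∀ a, a ∈ K ↔ Tv M (a • Pi.single i 1) (Pi.single j 1) := by
    refine ⟨{ carrier := {a | Tv M (a • Pi.single i 1) (Pi.single j 1)}
              mul_mem' := ?_
              one_mem' := by
                show Tv M _ _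
                exact hrat 1 F₀.one_mem
              add_mem' := ?_
              zero_mem' := by
                show Tv M _ _
                exact hrat 0 F₀.zero_mem
              algebraMap_mem' := fun a => by
                show Tv M ((a : F) • _) _
                exact hrat _ a.2 }, fun a => Iff.rfl⟩
    · intro a b ha hb
      have hb' : Tv M (b • Pi.single j 1) (Pi.single k 1) := tv_move hn hsub hij hkj.symm b hb
      exact tv_move hn hsub hki.symm hij (a * b) (tv_mul hij hkj.symm hki.symm a b ha hb')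
    · intro a b ha hb
      have h1 := Tv.add_left ha hb (by
        rw [single_one_dotProduct]
        show b * (Pi.single i (1 : F) : Fin n → F) j = 0
        rw [Pi.single_eq_of_ne hij.symm, mul_zero])
      rw [← add_smul] at h1
      exact h1
  have : Fintype F₀ := Fintype.ofFinite _
  have hfr : Module.finrank F₀ F = r := by
    have h1 := Module.card_eq_pow_finrank (K := F₀) (V := F)
    rw [hcard, Nat.card_eq_fintype_card] at h1
    exact (Nat.pow_right_injective Fintype.one_lt_card h1).symm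
  have hsimple := Subalgebra.isSimpleOrder_of_finrank_prime F₀ F (by rw [hfr]; exact hr)
  rcases hsimple.eq_bot_or_eq_top K with hbot | htop
  · exfalso
    have h1 : c ∈ K := (hK c).mpr h
    rw [hbot, Algebra.mem_bot] at h1
    obtain ⟨y, hy⟩ := h1
    apply hc
    rw [← hy]
    exact y.2
  · apply sl_le_of_elementary (le_trans (by norm_num) hn) M
    intro k l hkl a
    have h1 : a ∈ K := by
      rw [htop]
      exact Algebra.mem_top
    exact tv_move hn hsub hij hkl a ((hK a).mp h1)

/-- The subfield group (in standard position) is maximal in `SL_n(F)`. -/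
theorem subfield_maximal_one [Fintype F] (hn : 4 ≤ n) (F₀ : Subfield F) (r : ℕ) (hr : r.Prime)
    (hcard : Fintype.card F = Nat.card F₀ ^ r) :
    Cfsg.Geo.IsMaximalIn (Cfsg.Geo.specialLinear (Fin n) F)
      (Cfsg.Geo.subfieldSubgroup F₀ 1 ⊓ Cfsg.Geo.specialLinear (Fin n) F) := by
  classical
  have hn3 : 3 ≤ n := le_trans (by norm_num) hn
  constructor
  · refine lt_of_le_of_ne inf_le_right ?_
    intro heq
    have : Fintype F₀ := Fintype.ofFinite _
    obtain ⟨c, hc⟩ : ∃ c : F, c ∉ F₀ := by
      by_contra hcon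
      push Not at hcon
      have e : Fintype.card F₀ = Fintype.card F := Fintype.card_congr (Equiv.subtypeUnivEquiv hcon)
      rw [Nat.card_eq_fintype_card, e] at hcard
      have h2 : 1 < Fintype.card F := Fintype.one_lt_card
      have h3 : Fintype.card F ^ 1 < Fintype.card F ^ r := Nat.pow_lt_pow_right h2 hr.one_lt
      rw [pow_one] at h3
      omega
    obtain ⟨i⟩ : Nonempty (Fin n) := ⟨⟨0, lt_of_lt_of_le (by norm_num) hn⟩⟩
    obtain ⟨j, hji, -⟩ := exists_ne_ne hn3 i i
    obtain ⟨g, hg, hgx⟩ := exists_transvection (c • (Pi.single i (1 : F) : Fin n → F))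
      (Pi.single j 1) (by
      rw [single_one_dotProduct]
      show c * (Pi.single i (1 : F) : Fin n → F) j = 0
      rw [Pi.single_eq_of_ne hji, mul_zero])
    rw [← heq] at hg
    have hg1 : g ∈ Cfsg.Geo.subfieldSubgroup F₀ 1 := (Subgroup.mem_inf.mp hg).1
    rw [mem_subfield_iff] at hg1
    obtain ⟨c', hc', hrat⟩ := hg1
    have e1 : (g : Matrix (Fin n) (Fin n) F) i i = 1 := by
      rw [← act_single, hgx, single_one_dotProduct, Pi.single_eq_of_ne hji, zero_smul, add_zero,
        Pi.single_eq_same]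
    have e2 : (g : Matrix (Fin n) (Fin n) F) i j = c := by
      rw [← act_single, hgx, single_one_dotProduct, Pi.single_eq_same, one_smul]
      show (Pi.single j (1 : F) : Fin n → F) i + c * (Pi.single i (1 : F) : Fin n → F) i = c
      rw [Pi.single_eq_of_ne hji.symm, Pi.single_eq_same, mul_one, zero_add]
    have h1 := hrat i i
    rw [e1, mul_one] at h1
    have h2 := hrat i j
    rw [e2] at h2
    apply hc
    have h3 := F₀.mul_mem (F₀.inv_mem h1) h2
    rwa [← mul_assoc, inv_mul_cancel₀ hc', one_mul] at h3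
  · intro M hHM hMSL
    by_cases hK : ∀ i j : Fin n, i ≠ j → ∀ c : F, Tv M (c • Pi.single i 1) (Pi.single j 1) → c ∈ F₀
    · left
      have C : SubCtx F₀ M := ⟨hn, hMSL, hHM, hK⟩
      exact le_antisymm (le_inf C.le_subfield hMSL) hHM
    · right
      push Not at hK
      obtain ⟨i, j, hij, c, hc, hcF⟩ := hK
      exact le_antisymm hMSL (sl_le_of_irrational hn3 r hr hcard hHM hij hcF hc)

end

section
variable {G : Type*} [Group G]

theorem isMaximalIn_map (e : G ≃* G) {K H : Subgroup G} (h : Cfsg.Geo.IsMaximalIn K H) :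
    Cfsg.Geo.IsMaximalIn (K.map e.toMonoidHom) (H.map e.toMonoidHom) := by
  obtain ⟨hlt, hmax⟩ := h
  refine ⟨(Subgroup.map_lt_map_iff_of_injective e.injective).mpr hlt, fun M hHM hMK => ?_⟩
  have h1 : H ≤ M.comap e.toMonoidHom := Subgroup.map_le_iff_le_comap.mp hHM
  have h2 : M.comap e.toMonoidHom ≤ K := by
    have h3 := Subgroup.comap_mono (f := e.toMonoidHom) hMK
    rwa [Subgroup.comap_map_eq_self_of_injective e.injective] at h3
  have h4 : (M.comap e.toMonoidHom).map e.toMonoidHom = M :=
    Subgroup.map_comap_eq_self_of_surjective e.surjective M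
  rcases hmax _ h1 h2 with h5 | h5
  · left
    rw [← h4, h5]
  · right
    rw [← h4, h5]

end

section
variable {F : Type*} [Field F] {n : ℕ}

/-- The subfield group is maximal in `SL_n(F)`. -/
theorem subfield_maximal [Fintype F] (hn : 4 ≤ n) (F₀ : Subfield F) (r : ℕ) (hr : r.Prime)
    (hcard : Fintype.card F = Nat.card F₀ ^ r) (P : GL (Fin n) F) :
    Cfsg.Geo.IsMaximalIn (Cfsg.Geo.specialLinear (Fin n) F)
      (Cfsg.Geo.subfieldSubgroup F₀ P ⊓ Cfsg.Geo.specialLinear (Fin n) F) := by
  have h := isMaximalIn_map (MulAut.conj P) (subfield_maximal_one hn F₀ r hr hcard)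
  have e1 : (Cfsg.Geo.specialLinear (Fin n) F).map (MulAut.conj P).toMonoidHom
      = Cfsg.Geo.specialLinear (Fin n) F := by
    have hnorm : (Cfsg.Geo.specialLinear (Fin n) F).Normal := by
      unfold Cfsg.Geo.specialLinear
      infer_instance
    ext g
    rw [Subgroup.mem_map]
    constructor
    · rintro ⟨x, hx, rfl⟩
      exact hnorm.conj_mem x hx P
    · intro hg
      refine ⟨P⁻¹ * g * P, ?_, ?_⟩
      · have h1 := hnorm.conj_mem g hg P⁻¹
        rwa [inv_inv] at h1
      · show P * (P⁻¹ * g * P) * P⁻¹ = g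
        group
  have e2 : Cfsg.Geo.subfieldSubgroup F₀ P
      = (Cfsg.Geo.subfieldSubgroup F₀ 1).map (MulAut.conj P).toMonoidHom := by
    have e3 : Cfsg.Geo.subfieldSubgroup F₀ (1 : GL (Fin n) F)
        = (Matrix.GeneralLinearGroup.map (F₀.subtype : F₀ →+* F)).range ⊔
          Cfsg.Geo.scalars (Fin n) F := by
      unfold Cfsg.Geo.subfieldSubgroup
      ext g
      rw [Subgroup.mem_map]
      constructor
      · rintro ⟨x, hx, rfl⟩
        simpa using hx
      · intro hg
        exact ⟨g, hg, by simp⟩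
    rw [e3]
    rfl
  rw [e1, Subgroup.map_inf_eq _ _ _ (MulAut.conj P).injective, e1, ← e2] at h
  exact h

end

end Cfsg.Agent.H99
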