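import Cfsg.Agent.H99.OSubG
import Cfsg.Agent.H99.SubK
import Cfsg.Agent.H49.Isom
import Cfsg.Agent.H49.Similar

set_option autoImplicit false
set_option linter.unusedSectionVars false

/-! Helper lemmas (helper99): a rational structure for the odd-dimensional quadratic form can be
moved to standard position; the orthogonal subfield group is maximal in `Ω_{2m+1}(F)`. -/

namespace Cfsg.Agent.H99.OS

open Module Matrix Cfsg Cfsg.Geo Cfsg.Agent.H49 Cfsg.Agent.H95 Cfsg.Agent.H99.SS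
open scoped MatrixGroups

section
variable {ι : Type} [Fintype ι] [DecidableEq ι] {F : Type*} [Field F]

/-- Two quadratic forms agreeing on rational vectors are equal. -/
theorem quad_ext_rat (F₀ : Subfield F) (Qa Qb : QuadraticForm F (ι → F))
    (h : ∀ v : ι → F₀, Qa (E F₀ v) = Qb (E F₀ v)) : Qa = Qb := by
  apply quad_ext_basis (Pi.basisFun F ι)
  · intro i
    rw [Pi.basisFun_apply, ← E_single F₀]
    exact h _
  · intro i j
    unfold QuadraticMap.polar
    rw [Pi.basisFun_apply, Pi.basisFun_apply, ← E_single F₀, ← E_single F₀, ← E_add, h, h, h]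

/-- A quadratic form with rational values on rational vectors restricts to a quadratic form
over the subfield. -/
theorem exists_rat_form (F₀ : Subfield F) (Q' : QuadraticForm F (ι → F))
    (h : ∀ x : ι → F₀, Q' (E F₀ x) ∈ F₀) :
    ∃ Q₁ : QuadraticForm F₀ (ι → F₀), ∀ x, Q' (E F₀ x) = ((Q₁ x : F₀) : F) := by
  obtain ⟨q, hq⟩ : ∃ q : (ι → F₀) → F₀, ∀ x, ((q x : F₀) : F) = Q' (E F₀ x) :=
    ⟨fun x => ⟨Q' (E F₀ x), h x⟩, fun x => rfl⟩
  have hpol : ∀ x y : ι → F₀, ((QuadraticMap.polar q x y : F₀) : F)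
      = QuadraticMap.polar (⇑Q') (E F₀ x) (E F₀ y) := by
    intro x y
    unfold QuadraticMap.polar
    push_cast
    rw [hq, hq, hq, E_add]
  refine ⟨QuadraticMap.ofPolar q ?_ ?_ ?_, fun x => (hq x).symm⟩
  · intro a x
    apply Subtype.ext
    rw [smul_eq_mul]
    push_cast
    rw [hq, hq, E_smul, QuadraticMap.map_smul, smul_eq_mul]
  · intro x x' y
    apply Subtype.ext
    push_cast
    rw [hpol, hpol, hpol, E_add, QuadraticMap.polar_add_left]
  · intro a x y
    apply Subtype.ext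
    rw [smul_eq_mul]
    push_cast
    rw [hpol, hpol, E_smul, QuadraticMap.polar_smul_left, smul_eq_mul]

/-- Conjugation by a similitude preserves `Ω`. -/
theorem map_omegaGL_of_sim (Q : (ι → F) → F) (P' : GL ι F) (a : F) (ha : a ≠ 0)
    (h : ∀ z, Q (ac P' z) = a * Q z) :
    (omegaGL Q).map (MulAut.conj P').toMonoidHom = omegaGL Q := by
  have h' : ∀ z, Q (ac P'⁻¹ z) = a⁻¹ * Q z := by
    intro z
    have h1 := h (ac P'⁻¹ z)
    rw [ac_ac_inv] at h1
    rw [h1, ← mul_assoc, inv_mul_cancel₀ ha, one_mul]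
  have key : ∀ (N : GL ι F) (c : F), c ≠ 0 → (∀ z, Q (ac N z) = c * Q z) →
      (∀ z, Q (ac N⁻¹ z) = c⁻¹ * Q z) → ∀ g ∈ omegaGL Q, N * g * N⁻¹ ∈ omegaGL Q := by
    intro N c hc hN hN' g hg
    have hiso : ∀ x : ↥(isometryGroup F Q), N * (x : GL ι F) * N⁻¹ ∈ isometryGroup F Q := by
      intro x
      rw [Cfsg.Agent.H49.mem_isometryGroup_iff]
      intro u
      show Q (ac (N * (x : GL ι F) * N⁻¹) u) = Q u
      have hx := Cfsg.Agent.H49.mem_isometryGroup_iff.mp x.2
      rw [ac_mul, ac_mul, hN]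
      show c * Q (((x : GL ι F) : Matrix ι ι F) *ᵥ ac N⁻¹ u) = Q u
      rw [hx, hN', ← mul_assoc, mul_inv_cancel₀ hc, one_mul]
    obtain ⟨f, hf⟩ : ∃ f : ↥(isometryGroup F Q) →* ↥(isometryGroup F Q),
        ∀ x, ((f x : ↥(isometryGroup F Q)) : GL ι F) = N * (x : GL ι F) * N⁻¹ :=
      ⟨{ toFun := fun x => ⟨N * (x : GL ι F) * N⁻¹, hiso x⟩
         map_one' := by
           apply Subtype.ext
           show N * ((1 : ↥(isometryGroup F Q)) : GL ι F) * N⁻¹ = 1
           rw [Subgroup.coe_one, mul_one, mul_inv_cancel]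
         map_mul' := fun x y => by
           apply Subtype.ext
           show N * ((x * y : ↥(isometryGroup F Q)) : GL ι F) * N⁻¹
             = (N * (x : GL ι F) * N⁻¹) * (N * (y : GL ι F) * N⁻¹)
           rw [Subgroup.coe_mul]
           group }, fun x => rfl⟩
    obtain ⟨g', hg', rfl⟩ := hg
    exact ⟨f g', Cfsg.Agent.H49.map_mem_commutator f hg', hf g'⟩
  ext g
  rw [Subgroup.mem_map]
  constructor
  · rintro ⟨x, hx, rfl⟩
    exact key P' a ha h h' x hx
  · intro hg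
    refine ⟨P'⁻¹ * g * P', ?_, ?_⟩
    · have h1 := key P'⁻¹ a⁻¹ (inv_ne_zero ha) h' (by rw [inv_inv, inv_inv]; exact h) g hg
      rwa [inv_inv] at h1
    · show P' * (P'⁻¹ * g * P') * P'⁻¹ = g
      group

theorem subfield_eq_of_mul (F₀ : Subfield F) (P R : GL ι F)
    (hR : R ∈ subfieldSubgroup F₀ 1) :
    subfieldSubgroup F₀ (P * R) = subfieldSubgroup F₀ P := by
  ext g
  rw [mem_subfield_conj, mem_subfield_conj F₀ P]
  have e : (P * R)⁻¹ * g * (P * R) = R⁻¹ * (P⁻¹ * g * P) * R := by group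
  rw [e]
  constructor
  · intro h
    have h1 := (subfieldSubgroup F₀ 1).mul_mem ((subfieldSubgroup F₀ 1).mul_mem hR h)
      ((subfieldSubgroup F₀ 1).inv_mem hR)
    have e2 : R * (R⁻¹ * (P⁻¹ * g * P) * R) * R⁻¹ = P⁻¹ * g * P := by group
    rwa [e2] at h1
  · intro h
    exact (subfieldSubgroup F₀ 1).mul_mem ((subfieldSubgroup F₀ 1).mul_mem
      ((subfieldSubgroup F₀ 1).inv_mem hR) h) hR

theorem subfield_conj_eq (F₀ : Subfield F) (P : GL ι F) :
    subfieldSubgroup F₀ P = (subfieldSubgroup F₀ 1).map (MulAut.conj P).toMonoidHom := by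
  have e3 : subfieldSubgroup F₀ (1 : GL ι F)
      = (Matrix.GeneralLinearGroup.map (F₀.subtype : F₀ →+* F)).range ⊔ scalars ι F := by
    unfold subfieldSubgroup
    ext g
    rw [Subgroup.mem_map]
    constructor
    · rintro ⟨x, hx, rfl⟩
      simpa using hx
    · intro hg
      exact ⟨g, hg, by simp⟩
  rw [e3]
  rfl

end

section
variable {F : Type*} [Field F] {m : ℕ}

/-- A rational structure for the odd-dimensional form can be moved to standard position by a
rational change of basis, up to a scalar. -/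
theorem qodd_exists_standard [Fintype F] (h2 : (2 : F) ≠ 0) (F₀ : Subfield F)
    (P : GL (Unit ⊕ (Fin m ⊕ Fin m)) F)
    (hP : IsQuadFormRationalStructure (quadFormOdd m F) F₀ P) :
    ∃ (R : GL (Unit ⊕ (Fin m ⊕ Fin m)) F) (a : F), R ∈ subfieldSubgroup F₀ 1 ∧ a ≠ 0 ∧
      ∀ z, quadFormOdd m F (ac (P * R) z) = a * quadFormOdd m F z := by
  classical
  have h2' : (2 : F₀) ≠ 0 := by
    intro h
    apply h2
    have h3 := congrArg F₀.subtype h
    rwa [map_ofNat, map_zero] at h3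
  obtain ⟨Q', hQ'⟩ : ∃ Q' : QuadraticForm F (Unit ⊕ (Fin m ⊕ Fin m) → F),
      ∀ z, Q' z = QOdd m F (ac P z) :=
    ⟨(QOdd m F).comp (Matrix.mulVecLin (P : Matrix (Unit ⊕ (Fin m ⊕ Fin m))
      (Unit ⊕ (Fin m ⊕ Fin m)) F)), fun z => rfl⟩
  obtain ⟨Q₁, hQ₁⟩ := exists_rat_form F₀ Q' (fun x => by
    rw [hQ']
    exact hP (E F₀ x) (E_rat F₀ x))
  have hQ'pol : ∀ x y, QuadraticMap.polar (⇑Q') x y
      = QuadraticMap.polar (⇑(QOdd m F)) (ac P x) (ac P y) := by
    intro x y
    unfold QuadraticMap.polar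
    rw [hQ', hQ', hQ', ac_add]
  have key : ∀ x : Unit ⊕ (Fin m ⊕ Fin m) → F₀,
      (∀ y, QuadraticMap.polar (⇑Q₁) x y = 0) → x = 0 := by
    intro x hx
    have h1 : ∀ y : Unit ⊕ (Fin m ⊕ Fin m) → F₀,
        QuadraticMap.polar (⇑(QOdd m F)) (ac P (E F₀ x)) (ac P (E F₀ y)) = 0 := by
      intro y
      rw [← hQ'pol, pol_of_val hQ₁, hx y]
      rfl
    have h3 : ∀ z : Unit ⊕ (Fin m ⊕ Fin m) → F,
        QuadraticMap.polarBilin (QOdd m F) (ac P (E F₀ x)) z = 0 := by
      intro z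
      obtain ⟨w, hw⟩ : ∃ w, w = ac P⁻¹ z := ⟨_, rfl⟩
      have hwsum : w = ∑ i, w i • (Pi.single i (1 : F) : Unit ⊕ (Fin m ⊕ Fin m) → F) := by
        funext k
        simp [Finset.sum_apply, Pi.single_apply]
      have hz : z = ∑ i, w i • ac P (E F₀ (Pi.single i 1)) := by
        have h4 : z = Matrix.mulVecLin (P : Matrix (Unit ⊕ (Fin m ⊕ Fin m))
            (Unit ⊕ (Fin m ⊕ Fin m)) F) w := by
          rw [hw]
          exact (ac_ac_inv P z).symm
        rw [h4]
        conv_lhs => rw [hwsum]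
        rw [map_sum]
        apply Finset.sum_congr rfl
        intro i _
        rw [map_smul, E_single]
        rfl
      rw [hz, map_sum]
      apply Finset.sum_eq_zero
      intro i _
      rw [map_smul, QuadraticMap.polarBilin_apply_apply, h1, smul_zero]
    have h5 : ac P (E F₀ x) = 0 := (QOdd_nondeg m h2).1 _ h3
    have h6 : E F₀ x = 0 := by
      apply ac_injective P
      rw [h5, ac_zero]
    apply E_injective F₀
    rw [h6, E_zero]
  have hQ₁nd : (QuadraticMap.polarBilin Q₁).Nondegenerate := by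
    constructor
    · intro x hx
      exact key x hx
    · intro y hy
      apply key y
      intro x
      rw [QuadraticMap.polar_comm]
      exact hy x
  have hV : finrank F₀ (Unit ⊕ (Fin m ⊕ Fin m) → F₀) = 2 * m + 1 := by
    rw [Module.finrank_fintype_fun_eq_card]
    simp only [Fintype.card_sum, Fintype.card_unit, Fintype.card_fin]
    omega
  obtain ⟨b, a, ha, hb1, hb2⟩ := odd_standard_gram hV Q₁ hQ₁nd
  obtain ⟨s, hs⟩ : ∃ s : Unit ⊕ (Fin m ⊕ Fin m) → F₀,
      s = Sum.elim (fun _ => 1) (Sum.elim (fun _ => a) (fun _ => 1)) := ⟨_, rfl⟩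
  obtain ⟨g, hg1, hg2⟩ := exists_similarity_of_basis (Pi.basisFun F₀ (Unit ⊕ (Fin m ⊕ Fin m)))
    (QOdd m F₀) Q₁ (fun x hx => (QOdd_nondeg m h2').1 x hx) a ha (fun i => s i • b i)
    (by
      intro i
      rw [QuadraticMap.map_smul, hb1, Pi.basisFun_apply, hs]
      show _ = a * quadFormOdd m F₀ _
      unfold quadFormOdd
      rcases i with u | i | i <;> simp [Pi.single_apply])
    (by
      intro i j
      rw [QuadraticMap.polar_smul_left, QuadraticMap.polar_smul_right, hb2, Pi.basisFun_apply,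
        Pi.basisFun_apply, hs]
      show _ = a * QuadraticMap.polar (quadFormOdd m F₀) _ _
      rw [polar_quadFormOdd]
      rcases i with u | i | i <;> rcases j with u' | j | j <;>
        simp [oddGram, hypGram, Pi.single_apply, Matrix.one_apply]
      · ring
      · by_cases h : i = j
        · subst h
          simp
        · rw [if_neg h, if_neg (Ne.symm h)])
  obtain ⟨Rg, hRg⟩ : ∃ Rg : GL (Unit ⊕ (Fin m ⊕ Fin m)) F₀,
      ∀ v, (Rg : Matrix (Unit ⊕ (Fin m ⊕ Fin m)) (Unit ⊕ (Fin m ⊕ Fin m)) F₀) *ᵥ v = g v := by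
    refine ⟨⟨LinearMap.toMatrix' g.toLinearMap, LinearMap.toMatrix' g.symm.toLinearMap, ?_, ?_⟩,
      fun v => ?_⟩
    · rw [← LinearMap.toMatrix'_comp]
      simp
    · rw [← LinearMap.toMatrix'_comp]
      simp
    · exact LinearMap.toMatrix'_mulVec _ _
  have hRF : ((Matrix.GeneralLinearGroup.map F₀.subtype Rg : GL (Unit ⊕ (Fin m ⊕ Fin m)) F) :
      Matrix (Unit ⊕ (Fin m ⊕ Fin m)) (Unit ⊕ (Fin m ⊕ Fin m)) F)
      = (Rg : Matrix (Unit ⊕ (Fin m ⊕ Fin m)) (Unit ⊕ (Fin m ⊕ Fin m)) F₀).map F₀.subtype := by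
    ext i j
    rw [Matrix.GeneralLinearGroup.map_apply]
    rfl
  refine ⟨Matrix.GeneralLinearGroup.map F₀.subtype Rg, (a : F), ?_, fun h => ha (Subtype.ext h), ?_⟩
  · rw [Cfsg.Agent.H99.SS.mem_subfield_iff]
    refine ⟨1, one_ne_zero, fun i j => ?_⟩
    rw [one_mul, hRF]
    exact ((Rg : Matrix (Unit ⊕ (Fin m ⊕ Fin m)) (Unit ⊕ (Fin m ⊕ Fin m)) F₀) i j).2
  · have hrat : ∀ v : Unit ⊕ (Fin m ⊕ Fin m) → F₀,
        QOdd m F (ac (P * Matrix.GeneralLinearGroup.map F₀.subtype Rg) (E F₀ v))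
          = (a : F) * QOdd m F (E F₀ v) := by
      intro v
      have e1 : ac (Matrix.GeneralLinearGroup.map F₀.subtype Rg) (E F₀ v) = E F₀ (g v) := by
        unfold ac
        rw [hRF, ← hRg]
        exact (funext fun i => RingHom.map_mulVec F₀.subtype
          (Rg : Matrix (Unit ⊕ (Fin m ⊕ Fin m)) (Unit ⊕ (Fin m ⊕ Fin m)) F₀) v i).symm
      rw [ac_mul, e1, ← hQ', hQ₁, hg1, qodd_val]
      push_cast
      rfl
    have heq := quad_ext_rat F₀
      ((QOdd m F).comp (Matrix.mulVecLin ((P * Matrix.GeneralLinearGroup.map F₀.subtype Rg :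
        GL (Unit ⊕ (Fin m ⊕ Fin m)) F) : Matrix (Unit ⊕ (Fin m ⊕ Fin m))
          (Unit ⊕ (Fin m ⊕ Fin m)) F)))
      ((a : F) • QOdd m F) (fun v => hrat v)
    intro z
    have h7 := congrArg (fun q : QuadraticForm F (Unit ⊕ (Fin m ⊕ Fin m) → F) => q z) heq
    exact h7

/-- The orthogonal subfield group is maximal in `Ω_{2m+1}(F)`. -/
theorem qodd_subfield_maximal [Fintype F] (hodd : Odd (Fintype.card F)) (hm : 6 ≤ m)
    (F₀ : Subfield F) (r : ℕ) (hr : r.Prime) (hcard : Fintype.card F = Nat.card F₀ ^ r)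
    (P : GL (Unit ⊕ (Fin m ⊕ Fin m)) F)
    (hP : IsQuadFormRationalStructure (quadFormOdd m F) F₀ P) :
    IsMaximalIn (omegaGL (quadFormOdd m F))
      (subfieldSubgroup F₀ P ⊓ omegaGL (quadFormOdd m F)) := by
  have h2 : (2 : F) ≠ 0 := by
    intro h
    have h3 : ringChar F = 2 := CharP.ringChar_of_prime_eq_zero Nat.prime_two (by exact_mod_cast h)
    have h4 := FiniteField.even_card_of_char_two h3
    exact (Nat.not_even_iff_odd.mpr hodd) (Nat.even_iff.mpr h4)
  obtain ⟨R, a, hR, ha, hsim⟩ := qodd_exists_standard h2 F₀ P hP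
  have h := Cfsg.Agent.H99.isMaximalIn_map (MulAut.conj (P * R))
    (qodd_subfield_maximal_one hodd hm F₀ r hr hcard)
  have e1 := map_omegaGL_of_sim (quadFormOdd m F) (P * R) a ha hsim
  rw [e1, Subgroup.map_inf_eq _ _ _ (MulAut.conj (P * R)).injective, e1, ← subfield_conj_eq,
    subfield_eq_of_mul F₀ P R hR] at h
  exact h

end

end Cfsg.Agent.H99.OS
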