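import Cfsg.Agent.H99.OSubG

set_option autoImplicit false
set_option linter.unusedSectionVars false

/-! Helper lemmas (helper99): further relations between Siegel elements of an overgroup `M` of
the rational Siegel elements, and rationality of the `M`-lines through a rational point. -/

namespace Cfsg.Agent.H99.OS

open Module Matrix Cfsg.Agent.H49 Cfsg.Agent.H95

section
variable {ι : Type} [Fintype ι] [DecidableEq ι] {F : Type*} [Field F]
variable {F₀ : Subfield F}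
variable {Q : QuadraticForm F (ι → F)} {M : Subgroup ↥(Cfsg.isometryGroup F (⇑Q))}
variable {Q₀ : QuadraticForm F₀ (ι → F₀)}

theorem InM.congr_right {u v v' : ι → F} {c : F} (h : InM Q M u v c) (hv : v = v') :
    InM Q M u v' c := hv ▸ h

theorem InM.congr_left {u u' v : ι → F} {c : F} (h : InM Q M u v c) (hu : u = u') :
    InM Q M u' v c := hu ▸ h

theorem InM.smul_right {u v : ι → F} {a c : F} (h : InM Q M u (a • v) c) (hv : Q v = 0)
    (huv : QuadraticMap.polar (⇑Q) u v = 0) : InM Q M u v (a * c) := by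
  obtain ⟨hu, hav, huav, h⟩ := h
  refine ⟨hu, hv, huv, ?_⟩
  rw [← siegelG_smul_right Q u v a hu hv hav huv huav c]
  exact h

theorem InM.smul_right_mk {u v : ι → F} {a c : F} (h : InM Q M u v (a * c)) :
    InM Q M u (a • v) c := by
  obtain ⟨hu, hv, huv, h⟩ := h
  have hav : Q (a • v) = 0 := by rw [QuadraticMap.map_smul, hv, smul_zero]
  have huav : QuadraticMap.polar (⇑Q) u (a • v) = 0 := by
    rw [QuadraticMap.polar_smul_right, huv, smul_zero]
  refine ⟨hu, hav, huav, ?_⟩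
  rw [siegelG_smul_right Q u v a hu hv hav huv huav c]
  exact h

theorem InM.smul_left_mk {u v : ι → F} {a c : F} (h : InM Q M u v (a * c)) :
    InM Q M (a • u) v c := by
  obtain ⟨hu, hv, huv, h⟩ := h
  have hau : Q (a • u) = 0 := by rw [QuadraticMap.map_smul, hu, smul_zero]
  have hauv : QuadraticMap.polar (⇑Q) (a • u) v = 0 := by
    rw [QuadraticMap.polar_smul_left, huv, smul_zero]
  refine ⟨hau, hv, hauv, ?_⟩
  rw [siegelG_smul_left Q u v a hu hau hv huv hauv c]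
  exact h

/-- Additivity of Siegel elements in the second vector. -/
theorem InM.add_right {u v w : ι → F} {c : F} (h1 : InM Q M u v c) (h2 : InM Q M u w c)
    (hvw : QuadraticMap.polar (⇑Q) v w = 0) : InM Q M u (v + w) c := by
  obtain ⟨hu, hv, huv, h1⟩ := h1
  obtain ⟨_, hw, huw, h2⟩ := h2
  have hvw' : Q (v + w) = 0 := by rw [Q_add', hv, hw, hvw]; ring
  have huvw : QuadraticMap.polar (⇑Q) u (v + w) = 0 := by
    rw [QuadraticMap.polar_add_right, huv, huw, add_zero]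
  refine ⟨hu, hvw', huvw, ?_⟩
  have e : siegelG Q u (v + w) hu hvw' huvw c
      = siegelG Q u v hu hv huv c * siegelG Q u w hu hw huw c := by
    apply act_ext
    intro x
    rw [act_siegel_pair, act_siegelG, hvw, QuadraticMap.polar_add_left]
    module
  rw [e]
  exact M.mul_mem h1 h2

/-- Conjugating a Siegel element of `M` by another one fixing its first vector. -/
theorem InM.transfer {a b x y : ι → F} {κ β : F} (h1 : InM Q M a b κ) (h2 : InM Q M x y β)
    (hax : QuadraticMap.polar (⇑Q) a x = 0) (hay : QuadraticMap.polar (⇑Q) a y = 0) :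
    InM Q M a (β • (QuadraticMap.polar (⇑Q) x b • y - QuadraticMap.polar (⇑Q) y b • x)) κ := by
  have h1' := h1
  obtain ⟨hx, hy, hxy, h2m⟩ := h2
  have h3 := h1.conj h2m
  rw [act_siegelG, act_siegelG] at h3
  have hxa : QuadraticMap.polar (⇑Q) x a = 0 := by rw [QuadraticMap.polar_comm]; exact hax
  have hya : QuadraticMap.polar (⇑Q) y a = 0 := by rw [QuadraticMap.polar_comm]; exact hay
  rw [hxa, hya] at h3
  simp only [zero_smul, sub_zero, smul_zero, add_zero] at h3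
  obtain ⟨ha, hb, hab, _⟩ := h1
  have h4 : InM Q M a ((-1 : F) • b) κ := InM.smul_right_mk (h1'.neg.congr (by ring))
  have h5 := h3.add_right h4 (by
    simp only [QuadraticMap.polar_add_left, QuadraticMap.polar_smul_left,
      QuadraticMap.polar_smul_right, QuadraticMap.polar_sub_left, polar_self', hb, smul_eq_mul]
    ring)
  exact h5.congr_right (by module)

/-- Splitting off a common vector from a Siegel pair. -/
theorem InM.split {v w e : ι → F} {α β : F} (h : InM Q M (v + α • e) (w + β • e) 1)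
    (h0 : InM Q M v w 1) (he : Q e = 0) (hve : QuadraticMap.polar (⇑Q) v e = 0)
    (hwe : QuadraticMap.polar (⇑Q) w e = 0) : InM Q M e (α • w - β • v) 1 := by
  obtain ⟨hv, hw, hvw, m0⟩ := h0
  obtain ⟨h1, h2, h3, m⟩ := h
  have hwv : QuadraticMap.polar (⇑Q) w v = 0 := by rw [QuadraticMap.polar_comm]; exact hvw
  have hev : QuadraticMap.polar (⇑Q) e v = 0 := by rw [QuadraticMap.polar_comm]; exact hve
  have hew : QuadraticMap.polar (⇑Q) e w = 0 := by rw [QuadraticMap.polar_comm]; exact hwe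
  have hvv : QuadraticMap.polar (⇑Q) v v = 0 := by rw [polar_self', hv, mul_zero]
  have hww : QuadraticMap.polar (⇑Q) w w = 0 := by rw [polar_self', hw, mul_zero]
  have hee : QuadraticMap.polar (⇑Q) e e = 0 := by rw [polar_self', he, mul_zero]
  have hd : Q (α • w - β • v) = 0 := by
    rw [Q_sub', QuadraticMap.map_smul, QuadraticMap.map_smul, hw, hv,
      QuadraticMap.polar_smul_left, QuadraticMap.polar_smul_right, hwv]
    simp
  have hed : QuadraticMap.polar (⇑Q) e (α • w - β • v) = 0 := by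
    rw [QuadraticMap.polar_sub_right, QuadraticMap.polar_smul_right,
      QuadraticMap.polar_smul_right, hew, hev]
    simp
  refine ⟨he, hd, hed, ?_⟩
  have key : siegelG Q (v + α • e) (w + β • e) h1 h2 h3 1
      = siegelG Q v w hv hw hvw 1 * siegelG Q e (α • w - β • v) he hd hed 1 := by
    apply act_ext
    intro x
    rw [act_mul, act_siegelG, act_siegelG, act_siegelG]
    simp only [QuadraticMap.polar_add_left, QuadraticMap.polar_add_right,
      QuadraticMap.polar_sub_left, QuadraticMap.polar_sub_right, QuadraticMap.polar_smul_left,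
      QuadraticMap.polar_smul_right, smul_eq_mul, hvw, hwv, hve, hev, hwe, hew, hvv, hww, hee,
      mul_zero, sub_zero, add_zero, zero_sub, one_smul, mul_one]
    module
  have e2 : siegelG Q e (α • w - β • v) he hd hed 1
      = (siegelG Q v w hv hw hvw 1)⁻¹ * siegelG Q (v + α • e) (w + β • e) h1 h2 h3 1 := by
    rw [key, inv_mul_cancel_left]
  rw [e2]
  exact M.mul_mem (M.inv_mem m0) m

theorem OCtx.val0' (C : OCtx F₀ Q Q₀ M) {x : ι → F₀} (hx : Q (E F₀ x) = 0) : Q₀ x = 0 := by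
  rw [C.val] at hx
  exact_mod_cast hx

theorem OCtx.pol0' (C : OCtx F₀ Q Q₀ M) {x y : ι → F₀}
    (h : QuadraticMap.polar (⇑Q) (E F₀ x) (E F₀ y) = 0) :
    QuadraticMap.polar (⇑Q₀) x y = 0 := by
  rw [C.pol] at h
  exact_mod_cast h

theorem OCtx.self0 (C : OCtx F₀ Q Q₀ M) {x : ι → F₀} (hx : Q₀ x = 0) :
    QuadraticMap.polar (⇑Q) (E F₀ x) (E F₀ x) = 0 := by
  rw [polar_self', C.val0 hx, mul_zero]

/-- The coefficient of a rational Siegel pair of `M` is rational. -/
theorem OCtx.rat_coeff [Finite F] (C : OCtx F₀ Q Q₀ M) (hK : ∀ c, Ks F₀ Q Q₀ M c → c ∈ F₀)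
    {x y : ι → F₀} {c : F} (h : InM Q M (E F₀ x) (E F₀ y) c) (hx : Q₀ x = 0) (hy : Q₀ y = 0)
    (hxy : QuadraticMap.polar (⇑Q₀) x y = 0) (hx0 : x ≠ 0)
    (hind : y ∉ Submodule.span F₀ {x}) : c ∈ F₀ :=
  hK c (C.ks_of_one h hx hy hxy hx0 hind)

/-- The second vector of a Siegel element of `M` with rational first vector pairs rationally
with the rational singular vectors orthogonal to the first vector. -/
theorem OCtx.pair_rat [Finite F] (C : OCtx F₀ Q Q₀ M) (hK : ∀ c, Ks F₀ Q Q₀ M c → c ∈ F₀)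
    {a₀ x' : ι → F₀} {u : ι → F} (h : InM Q M (E F₀ a₀) u 1) (ha : Q₀ a₀ = 0) (ha0 : a₀ ≠ 0)
    (hx : Q₀ x' = 0) (hax : QuadraticMap.polar (⇑Q₀) a₀ x' = 0)
    (hind : x' ∉ Submodule.span F₀ {a₀}) :
    QuadraticMap.polar (⇑Q) (E F₀ x') u ∈ F₀ := by
  have hdim : finrank F₀ (ι → F₀) = Fintype.card ι := Module.finrank_fintype_fun_eq_card F₀
  have hd := C.dim
  obtain ⟨X, hX⟩ : ∃ X : Submodule F₀ (ι → F₀), X = Submodule.span F₀ {a₀, x'} := ⟨_, rfl⟩
  have dX : finrank F₀ X ≤ 2 := by rw [hX]; exact finrank_span_pair_le a₀ x'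
  have ma : a₀ ∈ X := by rw [hX]; exact Submodule.subset_span (by simp)
  have mx : x' ∈ X := by rw [hX]; exact Submodule.subset_span (by simp)
  obtain ⟨y', hy', hy'X, hy'n⟩ := exists_singular_orth_not_mem' Q₀ C.nd₀ X (by
    have := Submodule.finrank_mono (inf_le_left :
      X ⊓ LinearMap.BilinForm.orthogonal (QuadraticMap.polarBilin Q₀) X ≤ X)
    omega)
  obtain ⟨x'', hx'', hx''X, hyx⟩ := exists_partner_orth Q₀ C.nd₀ X y' hy' hy'X hy'n
  have o1 : QuadraticMap.polar (⇑Q₀) a₀ y' = 0 := hy'X a₀ ma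
  have o2 : QuadraticMap.polar (⇑Q₀) x' y' = 0 := hy'X x' mx
  have o3 : QuadraticMap.polar (⇑Q₀) a₀ x'' = 0 := hx''X a₀ ma
  have o4 : QuadraticMap.polar (⇑Q₀) x' x'' = 0 := hx''X x' mx
  have o5 : QuadraticMap.polar (⇑Q₀) x'' x' = 0 := by rw [QuadraticMap.polar_comm]; exact o4
  have o6 : QuadraticMap.polar (⇑Q₀) x'' y' = 1 := by rw [QuadraticMap.polar_comm]; exact hyx
  have g1 := h.transfer (C.rat1 hx hy' o2) (C.pol0 hax) (C.pol0 o1)
  have g2 := g1.transfer (C.rat1 hx'' hx o5) (C.pol0 o3) (C.pol0 hax)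
  have g3 := g2.congr_right (v' := QuadraticMap.polar (⇑Q) (E F₀ x') u • E F₀ x') (by
    simp only [one_smul, QuadraticMap.polar_sub_right, QuadraticMap.polar_smul_right,
      smul_eq_mul, C.pol1 o6, C.pol0 o5, C.pol0 o2, C.self0 hx, mul_zero, mul_one, sub_zero,
      zero_smul])
  have g4 := C.rat_coeff hK (g3.smul_right (C.val0 hx) (C.pol0 hax)) ha hx hax ha0 hind
  rwa [mul_one] at g4

/-- A vector whose pairings with the rational singular vectors orthogonal to a rational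
singular vector `a₀` satisfy an additive `F₀`-stable predicate has, modulo `a₀`, coordinates
satisfying the predicate. -/
theorem OCtx.span_pred [Finite F] (C : OCtx F₀ Q Q₀ M)
    (hdual : ∀ α : ι, ∃ (d : ι → F₀) (k : F₀), k ≠ 0 ∧
      ∀ z : ι → F, QuadraticMap.polar (⇑Q) z (E F₀ d) = (k : F) * z α)
    (P : F → Prop) (P0 : P 0) (Padd : ∀ a b, P a → P b → P (a + b))
    (Pmul : ∀ (c : F₀) (a : F), P a → P ((c : F) * a))
    {a₀ : ι → F₀} (ha : Q₀ a₀ = 0) (ha0 : a₀ ≠ 0) (u : ι → F)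
    (h : ∀ x : ι → F₀, Q₀ x = 0 → QuadraticMap.polar (⇑Q₀) a₀ x = 0 →
      P (QuadraticMap.polar (⇑Q) (E F₀ x) u)) :
    ∃ γ : F, ∀ α : ι, P ((u - γ • E F₀ a₀) α) := by
  obtain ⟨a', ha', -, haa'⟩ := exists_partner_orth Q₀ C.nd₀ ⊥ a₀ ha (by
    intro a hmem
    rw [(Submodule.mem_bot F₀).mp hmem, QuadraticMap.polar_zero_left]) (by
    rw [Submodule.mem_bot]; exact ha0)
  obtain ⟨e, e', he, he', hee', heW, he'W⟩ := exists_hyp_pair_orth_le_one Q₀ C.nd₀ C.ts₀
    (Submodule.span F₀ {a₀}) (finrank_span_singleton_le' a₀)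
  have hae : QuadraticMap.polar (⇑Q₀) a₀ e = 0 := heW a₀ (Submodule.mem_span_singleton_self a₀)
  have hae' : QuadraticMap.polar (⇑Q₀) a₀ e' = 0 :=
    he'W a₀ (Submodule.mem_span_singleton_self a₀)
  obtain ⟨A, hA⟩ : ∃ A : Submodule F₀ (ι → F₀),
      ∀ v, v ∈ A ↔ QuadraticMap.polar (⇑Q₀) a₀ v = 0 :=
    ⟨LinearMap.ker (QuadraticMap.polarBilin Q₀ a₀), fun v => by
      rw [LinearMap.mem_ker, QuadraticMap.polarBilin_apply_apply]⟩
  have hspan : ∀ v ∈ Submodule.span F₀ {s : ι → F₀ | s ∈ A ∧ Q₀ s = 0},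
      P (QuadraticMap.polar (⇑Q) (E F₀ v) u) := by
    intro v hv
    induction hv using Submodule.span_induction with
    | mem s hs => exact h s hs.2 ((hA s).mp hs.1)
    | zero => rw [E_zero, QuadraticMap.polar_zero_left]; exact P0
    | add v₁ v₂ _ _ ih1 ih2 =>
      rw [E_add, QuadraticMap.polar_add_left]; exact Padd _ _ ih1 ih2
    | smul c v₁ _ ih =>
      rw [E_smul, QuadraticMap.polar_smul_left, smul_eq_mul]; exact Pmul c _ ih
  have hA' : ∀ v ∈ A, P (QuadraticMap.polar (⇑Q) (E F₀ v) u) := fun v hv =>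
    hspan v (mem_span_singular Q₀ A e e' ((hA e).mpr hae) ((hA e').mpr hae') he he' hee' v hv)
  have ha'a : QuadraticMap.polar (⇑Q₀) a' a₀ = 1 := by rw [QuadraticMap.polar_comm]; exact haa'
  refine ⟨QuadraticMap.polar (⇑Q) (E F₀ a') u, fun α => ?_⟩
  have hall : ∀ v : ι → F₀, P (QuadraticMap.polar (⇑Q) (E F₀ v)
      (u - QuadraticMap.polar (⇑Q) (E F₀ a') u • E F₀ a₀)) := by
    intro v
    have hv₁ : v - QuadraticMap.polar (⇑Q₀) v a₀ • a' ∈ A := by
      rw [hA, QuadraticMap.polar_sub_right, QuadraticMap.polar_smul_right, haa',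
        QuadraticMap.polar_comm (⇑Q₀) a₀ v]
      simp
    have h1 := hA' _ hv₁
    have e1 : QuadraticMap.polar (⇑Q) (E F₀ v)
        (u - QuadraticMap.polar (⇑Q) (E F₀ a') u • E F₀ a₀)
        = QuadraticMap.polar (⇑Q) (E F₀ (v - QuadraticMap.polar (⇑Q₀) v a₀ • a')) u := by
      rw [E_sub, E_smul, QuadraticMap.polar_sub_left, QuadraticMap.polar_sub_right,
        QuadraticMap.polar_smul_left, QuadraticMap.polar_smul_right, C.pol v a₀]
      simp only [smul_eq_mul]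
      ring
    rw [e1]
    exact h1
  obtain ⟨d, k, hk, hd⟩ := hdual α
  have hk' : (k : F) ≠ 0 := fun h0 => hk (Subtype.ext h0)
  have h2 := Pmul k⁻¹ _ (hall d)
  have e2 : (u - QuadraticMap.polar (⇑Q) (E F₀ a') u • E F₀ a₀) α
      = ((k⁻¹ : F₀) : F) * QuadraticMap.polar (⇑Q) (E F₀ d)
        (u - QuadraticMap.polar (⇑Q) (E F₀ a') u • E F₀ a₀) := by
    rw [QuadraticMap.polar_comm (⇑Q) (E F₀ d) _, hd]
    push_cast
    rw [← mul_assoc, inv_mul_cancel₀ hk', one_mul]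
  rw [e2]
  exact h2

/-- The second vector of a Siegel element of `M` with rational first vector is rational modulo
the first vector. -/
theorem OCtx.mline_rat [Finite F] (C : OCtx F₀ Q Q₀ M) (hK : ∀ c, Ks F₀ Q Q₀ M c → c ∈ F₀)
    (hdual : ∀ α : ι, ∃ (d : ι → F₀) (k : F₀), k ≠ 0 ∧
      ∀ z : ι → F, QuadraticMap.polar (⇑Q) z (E F₀ d) = (k : F) * z α)
    {a₀ : ι → F₀} {u : ι → F} (h : InM Q M (E F₀ a₀) u 1) (ha : Q₀ a₀ = 0) (ha0 : a₀ ≠ 0) :
    ∃ (γ : F) (u₀ : ι → F₀), u = E F₀ u₀ + γ • E F₀ a₀ := by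
  obtain ⟨γ, hγ⟩ := C.span_pred hdual (fun a => a ∈ F₀) F₀.zero_mem
    (fun a b ha hb => F₀.add_mem ha hb) (fun c a ha => F₀.mul_mem c.2 ha) ha ha0 u (by
      intro x hx hax
      by_cases hind : x ∈ Submodule.span F₀ {a₀}
      · obtain ⟨c, rfl⟩ := Submodule.mem_span_singleton.mp hind
        obtain ⟨_, _, hau, _⟩ := h
        rw [E_smul, QuadraticMap.polar_smul_left, hau, smul_zero]
        exact F₀.zero_mem
      · exact C.pair_rat hK h ha ha0 hx hax hind)
  obtain ⟨u₀, hu₀⟩ := exists_E F₀ _ hγ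
  exact ⟨γ, u₀, by rw [hu₀]; module⟩

/-- A vector orthogonal to all rational singular vectors orthogonal to a rational singular
vector `a₀` is a multiple of `a₀`. -/
theorem OCtx.perp_span [Finite F] (C : OCtx F₀ Q Q₀ M)
    (hdual : ∀ α : ι, ∃ (d : ι → F₀) (k : F₀), k ≠ 0 ∧
      ∀ z : ι → F, QuadraticMap.polar (⇑Q) z (E F₀ d) = (k : F) * z α)
    {a₀ : ι → F₀} (ha : Q₀ a₀ = 0) (ha0 : a₀ ≠ 0) (u : ι → F)
    (h : ∀ x : ι → F₀, Q₀ x = 0 → QuadraticMap.polar (⇑Q₀) a₀ x = 0 →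
      QuadraticMap.polar (⇑Q) (E F₀ x) u = 0) :
    ∃ γ : F, u = γ • E F₀ a₀ := by
  obtain ⟨γ, hγ⟩ := C.span_pred hdual (fun a => a = 0) rfl
    (fun a b ha hb => by rw [ha, hb, add_zero]) (fun c a ha => by rw [ha, mul_zero]) ha ha0 u h
  refine ⟨γ, ?_⟩
  funext α
  have h1 := hγ α
  simp only [Pi.sub_apply] at h1
  exact sub_eq_zero.mp h1

/-- The first vector of a Siegel element of `M` which is orthogonal to a rational hyperbolic
configuration not orthogonal to the second vector is rational up to a scalar. -/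
theorem OCtx.b1 [Finite F] (C : OCtx F₀ Q Q₀ M) (hK : ∀ c, Ks F₀ Q Q₀ M c → c ∈ F₀)
    (hdual : ∀ α : ι, ∃ (d : ι → F₀) (k : F₀), k ≠ 0 ∧
      ∀ z : ι → F, QuadraticMap.polar (⇑Q) z (E F₀ d) = (k : F) * z α)
    {w' u' : ι → F} (h : InM Q M w' u' 1) {y y'' x x' : ι → F₀}
    (hy : Q₀ y = 0) (hx : Q₀ x = 0) (hx' : Q₀ x' = 0)
    (hxy : QuadraticMap.polar (⇑Q₀) x y = 0) (hxx' : QuadraticMap.polar (⇑Q₀) x x' = 1)
    (hx'y : QuadraticMap.polar (⇑Q₀) x' y = 0) (hyy'' : QuadraticMap.polar (⇑Q₀) y y'' = 1)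
    (wy : QuadraticMap.polar (⇑Q) (E F₀ y) w' = 0)
    (wx : QuadraticMap.polar (⇑Q) (E F₀ x) w' = 0)
    (wx' : QuadraticMap.polar (⇑Q) (E F₀ x') w' = 0)
    (wy'' : QuadraticMap.polar (⇑Q) (E F₀ y'') w' = 0)
    (hne : QuadraticMap.polar (⇑Q) (E F₀ y) u' ≠ 0) :
    ∃ (c : F) (w₀ : ι → F₀), c ≠ 0 ∧ c • w' = E F₀ w₀ := by
  have wy_ : QuadraticMap.polar (⇑Q) w' (E F₀ y) = 0 := by
    rw [QuadraticMap.polar_comm]; exact wy
  have wx_ : QuadraticMap.polar (⇑Q) w' (E F₀ x) = 0 := by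
    rw [QuadraticMap.polar_comm]; exact wx
  have wx'_ : QuadraticMap.polar (⇑Q) w' (E F₀ x') = 0 := by
    rw [QuadraticMap.polar_comm]; exact wx'
  have q1 : QuadraticMap.polar (⇑Q₀) x' x = 1 := by rw [QuadraticMap.polar_comm]; exact hxx'
  have q2 : QuadraticMap.polar (⇑Q₀) y x = 0 := by rw [QuadraticMap.polar_comm]; exact hxy
  have q3 : QuadraticMap.polar (⇑Q₀) y'' y = 1 := by rw [QuadraticMap.polar_comm]; exact hyy''
  have g1 := h.transfer (C.rat1 hx hy hxy) wx_ wy_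
  have g2 := g1.transfer (C.rat1 hx' hy hx'y) wx'_ wy_
  have g3 := g2.congr_right (v' := (-(QuadraticMap.polar (⇑Q) (E F₀ y) u')) • E F₀ y) (by
    simp only [one_smul, QuadraticMap.polar_sub_right, QuadraticMap.polar_smul_right,
      smul_eq_mul, C.pol1 q1, C.pol0 hx'y, C.pol0 q2, C.self0 hy, mul_zero, mul_one, sub_zero,
      zero_smul, zero_sub])
  have g4 := (g3.smul_right (C.val0 hy) wy_).symm
  have g6 : InM Q M (E F₀ y) (QuadraticMap.polar (⇑Q) (E F₀ y) u' • w') 1 :=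
    InM.smul_right_mk (g4.congr (by ring))
  have y0 : y ≠ 0 := by
    rintro rfl
    rw [QuadraticMap.polar_zero_left] at hyy''
    exact zero_ne_one hyy''
  obtain ⟨γ, u₀, hu₀⟩ := C.mline_rat hK hdual g6 hy y0
  have h7 : QuadraticMap.polar (⇑Q) (E F₀ y'') (QuadraticMap.polar (⇑Q) (E F₀ y) u' • w')
      = QuadraticMap.polar (⇑Q) (E F₀ y'') (E F₀ u₀ + γ • E F₀ y) := by rw [hu₀]
  rw [QuadraticMap.polar_smul_right, wy'', smul_zero, QuadraticMap.polar_add_right,
    QuadraticMap.polar_smul_right, C.pol, C.pol1 q3, smul_eq_mul, mul_one] at h7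
  have hγ : γ = ((-(QuadraticMap.polar (⇑Q₀) y'' u₀) : F₀) : F) := by
    push_cast
    linear_combination -h7
  refine ⟨QuadraticMap.polar (⇑Q) (E F₀ y) u', u₀ + (-(QuadraticMap.polar (⇑Q₀) y'' u₀)) • y,
    hne, ?_⟩
  rw [hu₀, E_add, E_smul, hγ]

end

end Cfsg.Agent.H99.OS
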