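import Cfsg.Agent.H99.OSubI

set_option autoImplicit false
set_option linter.unusedSectionVars false
set_option linter.unusedSimpArgs false

/-! Helper lemmas (helper99): in characteristic two, an element of `M` mapping a rational
singular vector into a small rational subspace is rational. -/

namespace Cfsg.Agent.H99.OS

open Module Matrix Cfsg.Agent.H49 Cfsg.Agent.H95

section
variable {ι : Type} [Fintype ι] [DecidableEq ι] {F : Type*} [Field F]
variable {F₀ : Subfield F}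
variable {Q : QuadraticForm F (ι → F)} {M : Subgroup ↥(Cfsg.isometryGroup F (⇑Q))}
variable {Q₀ : QuadraticForm F₀ (ι → F₀)}

/-- If `g ∈ M` maps a rational singular vector to a multiple of a rational vector, it maps the
rational singular vectors orthogonal to it to rational vectors, modulo the image. -/
theorem OCtx.img_mod [Finite F] (C : OCtx F₀ Q Q₀ M) (hK : ∀ c, Ks F₀ Q Q₀ M c → c ∈ F₀)
    (hdual : ∀ α : ι, ∃ (d : ι → F₀) (k : F₀), k ≠ 0 ∧
      ∀ z : ι → F, QuadraticMap.polar (⇑Q) z (E F₀ d) = (k : F) * z α)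
    {g : ↥(Cfsg.isometryGroup F (⇑Q))} (hg : g ∈ M) {e₀ e₁ : ι → F₀} {lam : F}
    (he₀ : Q₀ e₀ = 0) (he₀0 : e₀ ≠ 0) (hlam : lam ≠ 0)
    (hge : act g (E F₀ e₀) = lam • E F₀ e₁) {v : ι → F₀} (hv : Q₀ v = 0)
    (hev : QuadraticMap.polar (⇑Q₀) e₀ v = 0) :
    Q₀ e₁ = 0 ∧ e₁ ≠ 0 ∧
      ∃ (v' : ι → F₀) (γ : F), lam • act g (E F₀ v) = E F₀ v' + γ • E F₀ e₁ := by
  have he₁0 : e₁ ≠ 0 := by
    rintro rfl
    rw [E_zero, smul_zero] at hge
    have h1 : E F₀ e₀ = 0 := by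
      apply act_injective g
      rw [hge, act_zero]
    apply he₀0
    apply E_injective F₀
    rw [h1, E_zero]
  have hQe₁ : Q (E F₀ e₁) = 0 := by
    have h1 : Q (act g (E F₀ e₀)) = 0 := by rw [Q_act, C.val0 he₀]
    rw [hge, QuadraticMap.map_smul, smul_eq_mul] at h1
    rcases mul_eq_zero.mp h1 with h | h
    · exact absurd (mul_self_eq_zero.mp h) hlam
    · exact h
  have h1 := (C.rat1 he₀ hv hev).conj hg
  rw [hge] at h1
  have hpe : QuadraticMap.polar (⇑Q) (E F₀ e₁) (act g (E F₀ v)) = 0 := by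
    obtain ⟨_, _, h3, _⟩ := h1
    rw [QuadraticMap.polar_smul_left, smul_eq_mul] at h3
    rcases mul_eq_zero.mp h3 with h | h
    · exact absurd h hlam
    · exact h
  have h2 := h1.smul_left hQe₁ hpe
  have h3 : InM Q M (E F₀ e₁) (lam • act g (E F₀ v)) 1 := InM.smul_right_mk h2
  obtain ⟨γ, u₀, hu₀⟩ := C.mline_rat hK hdual h3 (C.val0' hQe₁) he₁0
  exact ⟨C.val0' hQe₁, he₁0, u₀, γ, hu₀⟩

/-- In characteristic two the scalar is rational. -/
theorem OCtx.lam_rat [Fintype F] (C : OCtx F₀ Q Q₀ M) (hK : ∀ c, Ks F₀ Q Q₀ M c → c ∈ F₀)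
    (hdual : ∀ α : ι, ∃ (d : ι → F₀) (k : F₀), k ≠ 0 ∧
      ∀ z : ι → F, QuadraticMap.polar (⇑Q) z (E F₀ d) = (k : F) * z α)
    (h2 : (2 : F) = 0)
    {g : ↥(Cfsg.isometryGroup F (⇑Q))} (hg : g ∈ M) {e₀ e₁ : ι → F₀} {lam : F}
    (he₀ : Q₀ e₀ = 0) (he₀0 : e₀ ≠ 0) (hlam : lam ≠ 0)
    (hge : act g (E F₀ e₀) = lam • E F₀ e₁) : lam ∈ F₀ := by
  obtain ⟨x, y, hx, hy, hxy, hxW, hyW⟩ := exists_hyp_pair_orth_le_one Q₀ C.nd₀ C.ts₀
    (Submodule.span F₀ {e₀}) (finrank_span_singleton_le' e₀)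
  have hex : QuadraticMap.polar (⇑Q₀) e₀ x = 0 := hxW e₀ (Submodule.mem_span_singleton_self e₀)
  have hey : QuadraticMap.polar (⇑Q₀) e₀ y = 0 := hyW e₀ (Submodule.mem_span_singleton_self e₀)
  have hxe : QuadraticMap.polar (⇑Q₀) x e₀ = 0 := by rw [QuadraticMap.polar_comm]; exact hex
  have hye : QuadraticMap.polar (⇑Q₀) y e₀ = 0 := by rw [QuadraticMap.polar_comm]; exact hey
  obtain ⟨he₁, he₁0, x', γx, hx'⟩ := C.img_mod hK hdual hg he₀ he₀0 hlam hge hx hex
  obtain ⟨-, -, y', γy, hy'⟩ := C.img_mod hK hdual hg he₀ he₀0 hlam hge hy hey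
  have hee : QuadraticMap.polar (⇑Q) (E F₀ e₁) (E F₀ e₁) = 0 := C.self0 he₁
  have key : ∀ z : ι → F₀, lam * QuadraticMap.polar (⇑Q) (act g (E F₀ z)) (E F₀ e₁)
      = QuadraticMap.polar (⇑Q) (E F₀ z) (E F₀ e₀) := by
    intro z
    rw [← polar_act Q g (E F₀ z) (E F₀ e₀), hge, QuadraticMap.polar_smul_right, smul_eq_mul]
  have kx : QuadraticMap.polar (⇑Q) (act g (E F₀ x)) (E F₀ e₁) = 0 := by
    have h1 := key x
    rw [C.pol0 hxe] at h1
    exact (mul_eq_zero.mp h1).resolve_left hlam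
  have ky : QuadraticMap.polar (⇑Q) (act g (E F₀ y)) (E F₀ e₁) = 0 := by
    have h1 := key y
    rw [C.pol0 hye] at h1
    exact (mul_eq_zero.mp h1).resolve_left hlam
  have h3 : QuadraticMap.polar (⇑Q) (lam • act g (E F₀ x)) (lam • act g (E F₀ y))
      = lam * lam := by
    rw [QuadraticMap.polar_smul_left, QuadraticMap.polar_smul_right, polar_act, C.pol1 hxy]
    simp only [smul_eq_mul, mul_one]
  have ex : E F₀ x' = lam • act g (E F₀ x) - γx • E F₀ e₁ := by rw [hx']; module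
  have ey : E F₀ y' = lam • act g (E F₀ y) - γy • E F₀ e₁ := by rw [hy']; module
  have px : QuadraticMap.polar (⇑Q) (E F₀ x') (E F₀ e₁) = 0 := by
    rw [ex, QuadraticMap.polar_sub_left, QuadraticMap.polar_smul_left,
      QuadraticMap.polar_smul_left, kx, hee]
    simp
  have py : QuadraticMap.polar (⇑Q) (E F₀ e₁) (E F₀ y') = 0 := by
    rw [QuadraticMap.polar_comm, ey, QuadraticMap.polar_sub_left, QuadraticMap.polar_smul_left,
      QuadraticMap.polar_smul_left, ky, hee]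
    simp
  rw [hx', hy', QuadraticMap.polar_add_left, QuadraticMap.polar_add_right,
    QuadraticMap.polar_add_right, QuadraticMap.polar_smul_left, QuadraticMap.polar_smul_left,
    QuadraticMap.polar_smul_right, QuadraticMap.polar_smul_right, px, py, hee, C.pol] at h3
  simp only [smul_eq_mul, mul_zero, add_zero] at h3
  have : Fintype F₀ := Fintype.ofFinite _
  have h2' : (2 : F₀) = 0 := by
    apply Subtype.ext
    push_cast
    exact h2
  have hchar : ringChar F₀ = 2 :=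
    CharP.ringChar_of_prime_eq_zero Nat.prime_two (by exact_mod_cast h2')
  obtain ⟨d, hd⟩ := FiniteField.isSquare_of_char_two hchar (QuadraticMap.polar (⇑Q₀) x' y')
  have h4 : lam * lam = (d : F) * d := by
    rw [← h3, hd]
    push_cast
    ring
  have h5 : (lam - d) ^ 2 = 0 := by linear_combination h4 + ((d : F) * d - lam * d) * h2
  have h6 : lam = d := sub_eq_zero.mp (pow_eq_zero_iff (two_ne_zero)|>.mp h5)
  rw [h6]
  exact d.2

/-- If `g ∈ M` maps a rational singular vector to a rational vector, it maps the rational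
singular vectors orthogonal to it to rational vectors. -/
theorem OCtx.img_rat_perp [Finite F] (C : OCtx F₀ Q Q₀ M)
    (hK : ∀ c, Ks F₀ Q Q₀ M c → c ∈ F₀)
    (hdual : ∀ α : ι, ∃ (d : ι → F₀) (k : F₀), k ≠ 0 ∧
      ∀ z : ι → F, QuadraticMap.polar (⇑Q) z (E F₀ d) = (k : F) * z α)
    {g : ↥(Cfsg.isometryGroup F (⇑Q))} (hg : g ∈ M) {e₀ e₁ : ι → F₀}
    (he₀ : Q₀ e₀ = 0) (he₀0 : e₀ ≠ 0) (hge : act g (E F₀ e₀) = E F₀ e₁) {v : ι → F₀}
    (hv : Q₀ v = 0) (hev : QuadraticMap.polar (⇑Q₀) e₀ v = 0) :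
    ∃ v' : ι → F₀, act g (E F₀ v) = E F₀ v' := by
  have hge' : act g (E F₀ e₀) = (1 : F) • E F₀ e₁ := by rw [hge, one_smul]
  obtain ⟨w, p, hw, hp, hwp, hwW, hpW⟩ := exists_hyp_pair_orth_ts Q₀ C.nd₀ C.ts₀
    (Submodule.span F₀ {e₀, v}) (isTS_span_pair Q₀ e₀ v he₀ hv hev) (finrank_span_pair_le e₀ v)
  have hew : QuadraticMap.polar (⇑Q₀) e₀ w = 0 := hwW e₀ (Submodule.subset_span (by simp))
  have hvw : QuadraticMap.polar (⇑Q₀) v w = 0 := hwW v (Submodule.subset_span (by simp))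
  have hep : QuadraticMap.polar (⇑Q₀) e₀ p = 0 := hpW e₀ (Submodule.subset_span (by simp))
  have hvp : QuadraticMap.polar (⇑Q₀) v p = 0 := hpW v (Submodule.subset_span (by simp))
  have hve : QuadraticMap.polar (⇑Q₀) v e₀ = 0 := by rw [QuadraticMap.polar_comm]; exact hev
  have hwe : QuadraticMap.polar (⇑Q₀) w e₀ = 0 := by rw [QuadraticMap.polar_comm]; exact hew
  have hpe : QuadraticMap.polar (⇑Q₀) p e₀ = 0 := by rw [QuadraticMap.polar_comm]; exact hep
  have hpw : QuadraticMap.polar (⇑Q₀) p w = 1 := by rw [QuadraticMap.polar_comm]; exact hwp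
  have hpv : QuadraticMap.polar (⇑Q₀) p v = 0 := by rw [QuadraticMap.polar_comm]; exact hvp
  obtain ⟨he₁, he₁0, v', γv, gv⟩ := C.img_mod hK hdual hg he₀ he₀0 one_ne_zero hge' hv hev
  obtain ⟨-, -, w', γw, gw⟩ := C.img_mod hK hdual hg he₀ he₀0 one_ne_zero hge' hw hew
  obtain ⟨-, -, p', γp, gp⟩ := C.img_mod hK hdual hg he₀ he₀0 one_ne_zero hge' hp hep
  rw [one_smul] at gv gw gp
  have hee : QuadraticMap.polar (⇑Q) (E F₀ e₁) (E F₀ e₁) = 0 := C.self0 he₁
  have key : ∀ z : ι → F₀, QuadraticMap.polar (⇑Q) (act g (E F₀ z)) (E F₀ e₁)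
      = QuadraticMap.polar (⇑Q) (E F₀ z) (E F₀ e₀) := by
    intro z
    rw [← hge, polar_act]
  have kv : QuadraticMap.polar (⇑Q) (act g (E F₀ v)) (E F₀ e₁) = 0 := by rw [key, C.pol0 hve]
  have kw : QuadraticMap.polar (⇑Q) (act g (E F₀ w)) (E F₀ e₁) = 0 := by rw [key, C.pol0 hwe]
  have kp : QuadraticMap.polar (⇑Q) (act g (E F₀ p)) (E F₀ e₁) = 0 := by rw [key, C.pol0 hpe]
  have kv' : QuadraticMap.polar (⇑Q) (E F₀ e₁) (act g (E F₀ v)) = 0 := by
    rw [QuadraticMap.polar_comm]; exact kv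
  have kw' : QuadraticMap.polar (⇑Q) (E F₀ e₁) (act g (E F₀ w)) = 0 := by
    rw [QuadraticMap.polar_comm]; exact kw
  have kp' : QuadraticMap.polar (⇑Q) (E F₀ e₁) (act g (E F₀ p)) = 0 := by
    rw [QuadraticMap.polar_comm]; exact kp
  have ev : E F₀ v' = act g (E F₀ v) - γv • E F₀ e₁ := by rw [gv]; module
  have ew : E F₀ w' = act g (E F₀ w) - γw • E F₀ e₁ := by rw [gw]; module
  have ep : E F₀ p' = act g (E F₀ p) - γp • E F₀ e₁ := by rw [gp]; module
  have pv : QuadraticMap.polar (⇑Q) (E F₀ v') (E F₀ e₁) = 0 := by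
    rw [ev, QuadraticMap.polar_sub_left, QuadraticMap.polar_smul_left, kv, hee]
    simp
  have pw : QuadraticMap.polar (⇑Q) (E F₀ w') (E F₀ e₁) = 0 := by
    rw [ew, QuadraticMap.polar_sub_left, QuadraticMap.polar_smul_left, kw, hee]
    simp
  have pp : QuadraticMap.polar (⇑Q) (E F₀ p') (E F₀ e₁) = 0 := by
    rw [ep, QuadraticMap.polar_sub_left, QuadraticMap.polar_smul_left, kp, hee]
    simp
  have Qv : Q (E F₀ v') = 0 := by
    rw [ev, Q_sub_smul, Q_act, C.val0 hv, C.val0 he₁, kv']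
    ring
  have Qw : Q (E F₀ w') = 0 := by
    rw [ew, Q_sub_smul, Q_act, C.val0 hw, C.val0 he₁, kw']
    ring
  have pvw : QuadraticMap.polar (⇑Q) (E F₀ v') (E F₀ w') = 0 := by
    rw [ev, ew]
    simp only [QuadraticMap.polar_sub_left, QuadraticMap.polar_sub_right,
      QuadraticMap.polar_smul_left, QuadraticMap.polar_smul_right, smul_eq_mul, polar_act, kv,
      kw', hee, C.pol0 hvw, mul_zero, sub_zero]
  have ppw : QuadraticMap.polar (⇑Q) (E F₀ p') (E F₀ w') = 1 := by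
    rw [ep, ew]
    simp only [QuadraticMap.polar_sub_left, QuadraticMap.polar_sub_right,
      QuadraticMap.polar_smul_left, QuadraticMap.polar_smul_right, smul_eq_mul, polar_act, kp,
      kw', hee, C.pol1 hpw, mul_zero, sub_zero]
  have ppv : QuadraticMap.polar (⇑Q) (E F₀ p') (E F₀ v') = 0 := by
    rw [ep, ev]
    simp only [QuadraticMap.polar_sub_left, QuadraticMap.polar_sub_right,
      QuadraticMap.polar_smul_left, QuadraticMap.polar_smul_right, smul_eq_mul, polar_act, kp,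
      kv', hee, C.pol0 hpv, mul_zero, sub_zero]
  have m1 := (C.rat1 hv hw hvw).conj hg
  rw [gv, gw] at m1
  have m0 := C.rat1 (C.val0' Qv) (C.val0' Qw) (C.pol0' pvw)
  have m2 := m1.split m0 (C.val0 he₁) pv pw
  obtain ⟨δ, r, hr⟩ := C.mline_rat hK hdual m2 he₁ he₁0
  have h7 : QuadraticMap.polar (⇑Q) (E F₀ p') (γv • E F₀ w' - γw • E F₀ v')
      = QuadraticMap.polar (⇑Q) (E F₀ p') (E F₀ r + δ • E F₀ e₁) := by rw [hr]
  rw [QuadraticMap.polar_sub_right, QuadraticMap.polar_smul_right,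
    QuadraticMap.polar_smul_right, ppw, ppv, QuadraticMap.polar_add_right,
    QuadraticMap.polar_smul_right, pp, C.pol] at h7
  simp only [smul_eq_mul, mul_one, mul_zero, sub_zero, add_zero] at h7
  refine ⟨v' + QuadraticMap.polar (⇑Q₀) p' r • e₁, ?_⟩
  rw [gv, E_add, E_smul, h7]

/-- In characteristic two, an element of `M` mapping a rational singular vector to a multiple
of a rational vector maps all rational vectors to rational vectors. -/
theorem OCtx.img_rat [Fintype F] (C : OCtx F₀ Q Q₀ M) (hK : ∀ c, Ks F₀ Q Q₀ M c → c ∈ F₀)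
    (hdual : ∀ α : ι, ∃ (d : ι → F₀) (k : F₀), k ≠ 0 ∧
      ∀ z : ι → F, QuadraticMap.polar (⇑Q) z (E F₀ d) = (k : F) * z α)
    (h2 : (2 : F) = 0)
    {g : ↥(Cfsg.isometryGroup F (⇑Q))} (hg : g ∈ M) {e₀ e₁ : ι → F₀} {lam : F}
    (he₀ : Q₀ e₀ = 0) (he₀0 : e₀ ≠ 0) (hge : act g (E F₀ e₀) = lam • E F₀ e₁) :
    ∀ v : ι → F₀, ∃ v' : ι → F₀, act g (E F₀ v) = E F₀ v' := by
  have hlam : lam ≠ 0 := by
    rintro rfl
    rw [zero_smul] at hge
    apply he₀0
    apply E_injective F₀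
    rw [E_zero]
    apply act_injective g
    rw [hge, act_zero]
  have hl := C.lam_rat hK hdual h2 hg he₀ he₀0 hlam hge
  obtain ⟨e₂, he₂⟩ : ∃ e₂ : ι → F₀, act g (E F₀ e₀) = E F₀ e₂ :=
    ⟨(⟨lam, hl⟩ : F₀) • e₁, by rw [hge, E_smul]⟩
  have hdim : finrank F₀ (ι → F₀) = Fintype.card ι := Module.finrank_fintype_fun_eq_card F₀
  have hd := C.dim
  have hsing : ∀ v : ι → F₀, Q₀ v = 0 → ∃ v' : ι → F₀, act g (E F₀ v) = E F₀ v' := by
    intro v hv
    obtain ⟨e₃, he₃0, he₃, he₃W⟩ := exists_singular_orth_ne_zero Q₀ C.nd₀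
      (Submodule.span F₀ {e₀, v}) (by
        have := finrank_span_pair_le e₀ v
        omega)
    have h03 : QuadraticMap.polar (⇑Q₀) e₀ e₃ = 0 := he₃W e₀ (Submodule.subset_span (by simp))
    have hv3 : QuadraticMap.polar (⇑Q₀) v e₃ = 0 := he₃W v (Submodule.subset_span (by simp))
    obtain ⟨e₃', he₃'⟩ := C.img_rat_perp hK hdual hg he₀ he₀0 he₂ he₃ h03
    exact C.img_rat_perp hK hdual hg he₃ he₃0 he₃' hv (by
      rw [QuadraticMap.polar_comm]; exact hv3)
  obtain ⟨e, e', he, he', hee', -, -⟩ := exists_hyp_pair_orth_le_one Q₀ C.nd₀ C.ts₀ ⊥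
    (by rw [finrank_bot]; omega)
  intro v
  have hspan := mem_span_singular Q₀ ⊤ e e' Submodule.mem_top Submodule.mem_top he he' hee' v
    Submodule.mem_top
  induction hspan using Submodule.span_induction with
  | mem s hs => exact hsing s hs.2
  | zero => exact ⟨0, by rw [E_zero, act_zero]⟩
  | add v₁ v₂ _ _ ih1 ih2 =>
    obtain ⟨a, ha⟩ := ih1
    obtain ⟨b, hb⟩ := ih2
    exact ⟨a + b, by rw [E_add, act_add, ha, hb, E_add]⟩
  | smul c v₁ _ ih =>
    obtain ⟨a, ha⟩ := ih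
    exact ⟨c • a, by rw [E_smul, act_smul, ha, E_smul]⟩

/-- An isometry mapping rational vectors to rational vectors lies in the subfield group. -/
theorem mem_subfield_of_img (F₀ : Subfield F) (g : ↥(Cfsg.isometryGroup F (⇑Q)))
    (h : ∀ v : ι → F₀, ∃ v' : ι → F₀, act g (E F₀ v) = E F₀ v') :
    (g : GL ι F) ∈ Cfsg.Geo.subfieldSubgroup F₀ 1 := by
  rw [Cfsg.Agent.H99.SS.mem_subfield_iff]
  refine ⟨1, one_ne_zero, fun i j => ?_⟩
  obtain ⟨v', hv'⟩ := h (Pi.single j 1)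
  have h1 := congrFun hv' i
  rw [E_single] at h1
  unfold act at h1
  rw [Matrix.mulVec_single_one] at h1
  rw [one_mul]
  have h3 : ((g : GL ι F) : Matrix ι ι F) i j = E F₀ v' i := h1
  rw [h3]
  exact E_rat F₀ v' i

/-- In characteristic two, an element of `M` mapping a rational singular vector into (the span
of) a rational subspace of dimension at most four is rational. -/
theorem OCtx.mem_of_small [Fintype F] (C : OCtx F₀ Q Q₀ M)
    (hK : ∀ c, Ks F₀ Q Q₀ M c → c ∈ F₀)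
    (hdual : ∀ α : ι, ∃ (d : ι → F₀) (k : F₀), k ≠ 0 ∧
      ∀ z : ι → F, QuadraticMap.polar (⇑Q) z (E F₀ d) = (k : F) * z α)
    (h2 : (2 : F) = 0)
    {g : ↥(Cfsg.isometryGroup F (⇑Q))} (hg : g ∈ M) {e : ι → F₀} (he : Q₀ e = 0)
    (he0 : e ≠ 0) (R : Submodule F₀ (ι → F₀)) (dR : finrank F₀ R ≤ 4)
    (hR : ∀ x : ι → F₀, (∀ ρ ∈ R, QuadraticMap.polar (⇑Q₀) ρ x = 0) →
      QuadraticMap.polar (⇑Q) (E F₀ x) (act g (E F₀ e)) = 0) :
    ∀ v : ι → F₀, ∃ v' : ι → F₀, act g (E F₀ v) = E F₀ v' := by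
  have hdim : finrank F₀ (ι → F₀) = Fintype.card ι := Module.finrank_fintype_fun_eq_card F₀
  have hd := C.dim
  obtain ⟨y, hy, hyR, hyn⟩ := exists_singular_orth_not_mem' Q₀ C.nd₀ R (by
    have := Submodule.finrank_mono (inf_le_left :
      R ⊓ LinearMap.BilinForm.orthogonal (QuadraticMap.polarBilin Q₀) R ≤ R)
    omega)
  obtain ⟨y'', hy'', hy''R, hyy''⟩ := exists_partner_orth Q₀ C.nd₀ R y hy hyR hyn
  have hy''y : QuadraticMap.polar (⇑Q₀) y'' y = 1 := by rw [QuadraticMap.polar_comm]; exact hyy''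
  obtain ⟨X, hX⟩ : ∃ X : Submodule F₀ (ι → F₀), X = R ⊔ Submodule.span F₀ {y, y''} := ⟨_, rfl⟩
  have dX : finrank F₀ X ≤ 6 := by
    rw [hX]
    have h1 := Submodule.finrank_add_le_finrank_add_finrank R (Submodule.span F₀ {y, y''})
    have h3 := finrank_span_pair_le y y''
    omega
  have mR : ∀ ρ ∈ R, ρ ∈ X := fun ρ hρ => by rw [hX]; exact Submodule.mem_sup_left hρ
  have my : y ∈ X := by
    rw [hX]; exact Submodule.mem_sup_right (Submodule.subset_span (by simp))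
  have my'' : y'' ∈ X := by
    rw [hX]; exact Submodule.mem_sup_right (Submodule.subset_span (by simp))
  have hrad : X ⊓ LinearMap.BilinForm.orthogonal (QuadraticMap.polarBilin Q₀) X ≤ R := by
    intro z hz
    obtain ⟨hzX, hzo⟩ := hz
    rw [SetLike.mem_coe, hX] at hzX
    obtain ⟨ρ, hρ, s, hs, rfl⟩ := Submodule.mem_sup.mp hzX
    obtain ⟨α, β, rfl⟩ := Submodule.mem_span_pair.mp hs
    rw [SetLike.mem_coe, LinearMap.BilinForm.mem_orthogonal_iff] at hzo
    have h1 : QuadraticMap.polar (⇑Q₀) y (ρ + (α • y + β • y'')) = 0 := hzo y my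
    have h3 : QuadraticMap.polar (⇑Q₀) y'' (ρ + (α • y + β • y'')) = 0 := hzo y'' my''
    have hyρ : QuadraticMap.polar (⇑Q₀) y ρ = 0 := by
      rw [QuadraticMap.polar_comm]; exact hyR ρ hρ
    have hy''ρ : QuadraticMap.polar (⇑Q₀) y'' ρ = 0 := by
      rw [QuadraticMap.polar_comm]; exact hy''R ρ hρ
    rw [QuadraticMap.polar_add_right, QuadraticMap.polar_add_right,
      QuadraticMap.polar_smul_right, QuadraticMap.polar_smul_right, hyρ, polar_self', hy, hyy'']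
      at h1
    rw [QuadraticMap.polar_add_right, QuadraticMap.polar_add_right,
      QuadraticMap.polar_smul_right, QuadraticMap.polar_smul_right, hy''ρ, polar_self', hy'',
      hy''y] at h3
    simp only [smul_eq_mul, mul_zero, mul_one, zero_add, add_zero] at h1 h3
    rw [h1, h3, zero_smul, zero_smul, add_zero, add_zero]
    exact hρ
  obtain ⟨x, hx, hxX, hxn⟩ := exists_singular_orth_not_mem' Q₀ C.nd₀ X (by
    have := Submodule.finrank_mono hrad
    omega)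
  obtain ⟨x', hx', hx'X, hxx'⟩ := exists_partner_orth Q₀ C.nd₀ X x hx hxX hxn
  have xy : QuadraticMap.polar (⇑Q₀) x y = 0 := by
    rw [QuadraticMap.polar_comm]; exact hxX y my
  have xy'' : QuadraticMap.polar (⇑Q₀) x y'' = 0 := by
    rw [QuadraticMap.polar_comm]; exact hxX y'' my''
  have x'y : QuadraticMap.polar (⇑Q₀) x' y = 0 := by
    rw [QuadraticMap.polar_comm]; exact hx'X y my
  have x'y'' : QuadraticMap.polar (⇑Q₀) x' y'' = 0 := by
    rw [QuadraticMap.polar_comm]; exact hx'X y'' my''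
  have wy := hR y hyR
  have wy'' := hR y'' hy''R
  have wx := hR x (fun ρ hρ => hxX ρ (mR ρ hρ))
  have wx' := hR x' (fun ρ hρ => hx'X ρ (mR ρ hρ))
  have hex : ∃ v : ι → F₀, Q₀ v = 0 ∧ QuadraticMap.polar (⇑Q₀) e v = 0 ∧
      (QuadraticMap.polar (⇑Q) (E F₀ y) (act g (E F₀ v)) ≠ 0 ∨
        QuadraticMap.polar (⇑Q) (E F₀ y'') (act g (E F₀ v)) ≠ 0) := by
    by_contra hcon
    push Not at hcon
    obtain ⟨γ₁, h1⟩ := C.perp_span hdual he he0 (act g⁻¹ (E F₀ y)) (by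
      intro v hv hev
      rw [polar_act_right, inv_inv, QuadraticMap.polar_comm]
      exact (hcon v hv hev).1)
    obtain ⟨γ₂, h3⟩ := C.perp_span hdual he he0 (act g⁻¹ (E F₀ y'')) (by
      intro v hv hev
      rw [polar_act_right, inv_inv, QuadraticMap.polar_comm]
      exact (hcon v hv hev).2)
    have h4 : QuadraticMap.polar (⇑Q) (act g⁻¹ (E F₀ y)) (act g⁻¹ (E F₀ y'')) = 1 := by
      rw [polar_act, C.pol1 hyy'']
    rw [h1, h3, QuadraticMap.polar_smul_left, QuadraticMap.polar_smul_right, C.self0 he] at h4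
    simp at h4
  obtain ⟨v, hv, hev, hor⟩ := hex
  have hm : InM Q M (act g (E F₀ e)) (act g (E F₀ v)) 1 := (C.rat1 he hv hev).conj hg
  have fin : ∀ (c : F) (w₀ : ι → F₀), c ≠ 0 → c • act g (E F₀ e) = E F₀ w₀ →
      ∀ v : ι → F₀, ∃ v' : ι → F₀, act g (E F₀ v) = E F₀ v' := by
    intro c w₀ hc hcw
    have h5 : act g (E F₀ e) = c⁻¹ • E F₀ w₀ := by
      rw [← hcw, smul_smul, inv_mul_cancel₀ hc, one_smul]
    exact C.img_rat hK hdual h2 hg he he0 h5
  rcases hor with h | h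
  · obtain ⟨c, w₀, hc, hcw⟩ := C.b1 hK hdual hm hy hx hx' xy hxx' x'y hyy'' wy wx wx' wy'' h
    exact fin c w₀ hc hcw
  · obtain ⟨c, w₀, hc, hcw⟩ := C.b1 hK hdual hm hy'' hx hx' xy'' hxx' x'y'' hy''y wy'' wx wx'
      wy h
    exact fin c w₀ hc hcw

end

end Cfsg.Agent.H99.OS
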