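import Cfsg.Agent.H99.OSubJ

set_option autoImplicit false
set_option linter.unusedSectionVars false
set_option linter.unusedSimpArgs false

/-! Helper lemmas (helper99): involutions of the orthogonal group in characteristic two, for the
dihedral group argument. -/

namespace Cfsg.Agent.H99.OS

open Module Matrix Cfsg.Agent.H49 Cfsg.Agent.H95

/-- Two involutions of a finite group are conjugate under a power of their product, or some
power of the product is an involution commuting with both. -/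
theorem dihedral_invol {G : Type*} [Group G] [Finite G] (t u : G) (ht : t * t = 1)
    (hu : u * u = 1) :
    ∃ k : ℕ, (u = (t * u) ^ k * t * ((t * u) ^ k)⁻¹) ∨
      ((t * u) ^ k * (t * u) ^ k = 1 ∧ (t * u) ^ k ≠ 1 ∧ (t * u) ^ k * t = t * (t * u) ^ k ∧
        (t * u) ^ k * u = u * (t * u) ^ k) := by
  obtain ⟨d, hd⟩ : ∃ d : G, d = t * u := ⟨_, rfl⟩
  rw [← hd]
  have htd : t * d = u := by rw [hd, ← mul_assoc, ht, one_mul]
  have ht' : t⁻¹ = t := inv_eq_of_mul_eq_one_left ht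
  have hu' : u⁻¹ = u := inv_eq_of_mul_eq_one_left hu
  have hdt : d⁻¹ * t = u := by
    rw [hd, _root_.mul_inv_rev, ht', hu', mul_assoc, ht, mul_one]
  have hsc : SemiconjBy t d d⁻¹ := by
    show t * d = d⁻¹ * t
    rw [htd, hdt]
  have hpow : ∀ j : ℕ, t * d ^ j = (d⁻¹) ^ j * t := fun j => (hsc.pow_right j)
  have hn := orderOf_pos d
  rcases Nat.even_or_odd' (orderOf d) with ⟨k, hk | hk⟩
  · have hzz : d ^ k * d ^ k = 1 := by
      rw [← pow_add, ← two_mul, ← hk, pow_orderOf_eq_one]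
    have hinv : (d⁻¹) ^ k = d ^ k := by
      rw [inv_pow]
      exact inv_eq_of_mul_eq_one_left hzz
    have hct : d ^ k * t = t * d ^ k := by rw [hpow k, hinv]
    refine ⟨k, Or.inr ⟨hzz, ?_, hct, ?_⟩⟩
    · exact pow_ne_one_of_lt_orderOf (by omega) (by omega)
    · rw [← htd, ← mul_assoc, hct, mul_assoc, mul_assoc, ← pow_succ, ← pow_succ']
  · refine ⟨k, Or.inl ?_⟩
    rw [eq_mul_inv_iff_mul_eq]
    have h1 : d ^ k * d ^ (k + 1) = 1 := by
      rw [← pow_add, show k + (k + 1) = 2 * k + 1 by ring, ← hk, pow_orderOf_eq_one]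
    have h2 : (d⁻¹) ^ (k + 1) = d ^ k := by
      rw [inv_pow]
      exact inv_eq_of_mul_eq_one_left h1
    rw [← hdt, mul_assoc, hpow k, ← mul_assoc, ← pow_succ', h2]

section
variable {ι : Type} [Fintype ι] [DecidableEq ι] {F : Type*} [Field F]
variable {F₀ : Subfield F}
variable {Q : QuadraticForm F (ι → F)} {M : Subgroup ↥(Cfsg.isometryGroup F (⇑Q))}
variable {Q₀ : QuadraticForm F₀ (ι → F₀)}

/-- Membership in the span of four vectors. -/
def InY (e u a b y : ι → F) : Prop := ∃ α β γ δ : F, y = α • e + β • u + γ • a + δ • b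

theorem InY.add {e u a b y y' : ι → F} (h : InY e u a b y) (h' : InY e u a b y') :
    InY e u a b (y + y') := by
  obtain ⟨α, β, γ, δ, rfl⟩ := h
  obtain ⟨α', β', γ', δ', rfl⟩ := h'
  exact ⟨α + α', β + β', γ + γ', δ + δ', by module⟩

theorem pow_sub_inY {t s : ↥(Cfsg.isometryGroup F (⇑Q))} {e u a b : ι → F}
    (ht : ∀ x, InY e u a b (act t x - x)) (hs : ∀ x, InY e u a b (act s x - x)) (k : ℕ)
    (y : ι → F) : InY e u a b (act ((t * s) ^ k) y - y) := by
  induction k generalizing y with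
  | zero =>
    rw [pow_zero, act_one, sub_self]
    exact ⟨0, 0, 0, 0, by simp⟩
  | succ k ih =>
    rw [pow_succ, act_mul, act_mul]
    have h1 := ih (act t (act s y))
    have h2 := ht (act s y)
    have h3 := hs y
    have e1 : act ((t * s) ^ k) (act t (act s y)) - y
        = (act ((t * s) ^ k) (act t (act s y)) - act t (act s y))
          + ((act t (act s y) - act s y) + (act s y - y)) := by abel
    rw [e1]
    exact h1.add (h2.add h3)

theorem act_sum_smul {Qf : (ι → F) → F} (g : ↥(Cfsg.isometryGroup F Qf)) {κ : Type*}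
    (s : Finset κ) (c : κ → F) (v : κ → ι → F) :
    act g (∑ j ∈ s, c j • v j) = ∑ j ∈ s, c j • act g (v j) := by
  unfold act
  rw [Matrix.mulVec_sum]
  apply Finset.sum_congr rfl
  intro j _
  rw [Matrix.mulVec_smul]

theorem vec_eq_sum (F₀ : Subfield F) (x : ι → F) :
    x = ∑ j, x j • E F₀ (Pi.single j (1 : F₀)) := by
  funext k
  simp [Finset.sum_apply, E_single, Pi.single_apply]

/-- The product of two rational Siegel elements with the same first vector and hyperbolic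
second vectors. -/
theorem OCtx.tel (C : OCtx F₀ Q Q₀ M) {e u₁ u₂ : ι → F₀} (he : Q₀ e = 0) (hu₁ : Q₀ u₁ = 0)
    (hu₂ : Q₀ u₂ = 0) (heu₁ : QuadraticMap.polar (⇑Q₀) e u₁ = 0)
    (heu₂ : QuadraticMap.polar (⇑Q₀) e u₂ = 0) (hu : QuadraticMap.polar (⇑Q₀) u₁ u₂ = 1) :
    ∃ t ∈ M, ∀ x : ι → F, act t x = x + QuadraticMap.polar (⇑Q) (E F₀ e) x • (E F₀ u₁ + E F₀ u₂)
        - (QuadraticMap.polar (⇑Q) (E F₀ u₁ + E F₀ u₂) x + QuadraticMap.polar (⇑Q) (E F₀ e) x)
          • E F₀ e := by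
  obtain ⟨h1, h3, h4, m1⟩ := C.rat1 he hu₁ heu₁
  obtain ⟨_, h5, h6, m2⟩ := C.rat1 he hu₂ heu₂
  refine ⟨siegelG Q (E F₀ e) (E F₀ u₁) h1 h3 h4 1 * siegelG Q (E F₀ e) (E F₀ u₂) h1 h5 h6 1,
    M.mul_mem m1 m2, fun x => ?_⟩
  rw [act_siegel_pair, C.pol1 hu, QuadraticMap.polar_add_left]
  module

theorem invol_t (h2 : (2 : F) = 0) {t : ↥(Cfsg.isometryGroup F (⇑Q))} {e u : ι → F}
    (he : Q e = 0) (hu : Q u = 1) (heu : QuadraticMap.polar (⇑Q) e u = 0)
    (ht : ∀ x : ι → F, act t x = x + QuadraticMap.polar (⇑Q) e x • u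
      - (QuadraticMap.polar (⇑Q) u x + QuadraticMap.polar (⇑Q) e x) • e) : t * t = 1 := by
  have hee : QuadraticMap.polar (⇑Q) e e = 0 := by rw [polar_self', he, mul_zero]
  have huu : QuadraticMap.polar (⇑Q) u u = 0 := by rw [polar_self', hu, mul_one]; exact h2
  have hue : QuadraticMap.polar (⇑Q) u e = 0 := by rw [QuadraticMap.polar_comm]; exact heu
  apply act_ext
  intro x
  rw [act_mul, act_one, ht (act t x), ht x]
  simp only [QuadraticMap.polar_add_right, QuadraticMap.polar_sub_right,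
    QuadraticMap.polar_smul_right, smul_eq_mul, hee, huu, heu, hue, mul_zero, add_zero, sub_zero]
  funext i
  simp only [Pi.add_apply, Pi.sub_apply, Pi.smul_apply, smul_eq_mul]
  linear_combination (QuadraticMap.polar (⇑Q) e x * u i
    - (QuadraticMap.polar (⇑Q) u x + QuadraticMap.polar (⇑Q) e x) * e i) * h2

theorem invol_s (h2 : (2 : F) = 0) {a b : ι → F} (ha : Q a = 0) (hb : Q b = 0)
    (hab : QuadraticMap.polar (⇑Q) a b = 0) :
    siegelG Q a b ha hb hab 1 * siegelG Q a b ha hb hab 1 = 1 := by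
  rw [siegelG_mul, one_add_one_eq_two,
    siegelG_congr Q a b a b ha hb hab ha hb hab 2 0 rfl rfl h2, siegelG_zero_eq]

/-- A root element is not conjugate to the involution `t`. -/
theorem not_conj {t d : ↥(Cfsg.isometryGroup F (⇑Q))} {e u a b : ι → F}
    (he : Q e = 0) (hu : Q u = 1) (heu : QuadraticMap.polar (⇑Q) e u = 0)
    (ht : ∀ x : ι → F, act t x = x + QuadraticMap.polar (⇑Q) e x • u
      - (QuadraticMap.polar (⇑Q) u x + QuadraticMap.polar (⇑Q) e x) • e)
    (ha : Q a = 0) (hb : Q b = 0) (hab : QuadraticMap.polar (⇑Q) a b = 0)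
    (x₀ : ι → F) (hx₀ : QuadraticMap.polar (⇑Q) e x₀ ≠ 0)
    (hconj : siegelG Q a b ha hb hab 1 = d * t * d⁻¹) : False := by
  have h1 : act (siegelG Q a b ha hb hab 1) (act d x₀) = act d (act t x₀) := by
    rw [hconj, act_mul, act_mul, act_inv_act]
  have h3 : Q (act (siegelG Q a b ha hb hab 1) (act d x₀) - act d x₀) = 0 := by
    rw [act_siegelG, add_sub_cancel_left, one_smul, Q_sub', QuadraticMap.map_smul,
      QuadraticMap.map_smul, ha, hb, QuadraticMap.polar_smul_left, QuadraticMap.polar_smul_right,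
      QuadraticMap.polar_comm (⇑Q) b a, hab]
    simp
  have e1 : act t x₀ - x₀ = QuadraticMap.polar (⇑Q) e x₀ • u
      - (QuadraticMap.polar (⇑Q) u x₀ + QuadraticMap.polar (⇑Q) e x₀) • e := by
    rw [ht]
    abel
  rw [h1, ← act_sub, Q_act, e1, Q_sub_smul, QuadraticMap.map_smul, hu, he,
    QuadraticMap.polar_smul_right, heu] at h3
  simp only [smul_eq_mul, mul_one, mul_zero, add_zero, sub_zero] at h3
  exact hx₀ (mul_self_eq_zero.mp h3)

/-- An isometry commuting with `t` fixes its singular centre. -/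
theorem z_fix {t z : ↥(Cfsg.isometryGroup F (⇑Q))} {e u u₁ : ι → F}
    (he : Q e = 0) (hu : Q u = 1) (heu : QuadraticMap.polar (⇑Q) e u = 0)
    (ht : ∀ x : ι → F, act t x = x + QuadraticMap.polar (⇑Q) e x • u
      - (QuadraticMap.polar (⇑Q) u x + QuadraticMap.polar (⇑Q) e x) • e)
    (hu₁ : act t u₁ = u₁ - e) (hzt : z * t = t * z) :
    ∃ lam : F, act z e = lam • e := by
  obtain ⟨w, hw⟩ : ∃ w, w = act z u₁ := ⟨_, rfl⟩
  have hue : QuadraticMap.polar (⇑Q) u e = 0 := by rw [QuadraticMap.polar_comm]; exact heu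
  have h1 : act z e = w - act t w := by
    have e1 : e = u₁ - act t u₁ := by rw [hu₁]; abel
    have e2 : act z (act t u₁) = act t (act z u₁) := by rw [← act_mul, ← act_mul, hzt]
    conv_lhs => rw [e1]
    rw [act_sub, e2, hw]
  rw [ht w] at h1
  have h3 : act z e = (QuadraticMap.polar (⇑Q) u w + QuadraticMap.polar (⇑Q) e w) • e
      - QuadraticMap.polar (⇑Q) e w • u := by
    rw [h1]
    module
  have h4 : Q (act z e) = 0 := by rw [Q_act, he]
  rw [h3, Q_sub_smul, QuadraticMap.map_smul, he, hu, QuadraticMap.polar_smul_right, hue] at h4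
  simp only [smul_eq_mul, mul_one, mul_zero, zero_add, sub_zero] at h4
  have h5 : QuadraticMap.polar (⇑Q) e w = 0 := mul_self_eq_zero.mp h4
  refine ⟨QuadraticMap.polar (⇑Q) u w + QuadraticMap.polar (⇑Q) e w, ?_⟩
  rw [h3, h5, zero_smul, sub_zero]

/-- An isometry commuting with a rational root element maps a vector of its centre into the
centre. -/
theorem OCtx.comm_s0 (C : OCtx F₀ Q Q₀ M) {e₀ e₁ p₁ : ι → F₀}
    (h0p : QuadraticMap.polar (⇑Q₀) e₀ p₁ = 0) (h1p : QuadraticMap.polar (⇑Q₀) e₁ p₁ = 1)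
    {z' s₀ : ↥(Cfsg.isometryGroup F (⇑Q))}
    (hs₀ : ∀ x : ι → F, act s₀ x = x + (1 : F) • (QuadraticMap.polar (⇑Q) (E F₀ e₀) x • E F₀ e₁
      - QuadraticMap.polar (⇑Q) (E F₀ e₁) x • E F₀ e₀))
    (hcomm : z' * s₀ = s₀ * z') (x : ι → F₀)
    (hx : ∀ ρ ∈ Submodule.span F₀ {e₀, e₁}, QuadraticMap.polar (⇑Q₀) ρ x = 0) :
    QuadraticMap.polar (⇑Q) (E F₀ x) (act z' (E F₀ e₀)) = 0 := by
  obtain ⟨w, hw⟩ : ∃ w, w = act z' (E F₀ p₁) := ⟨_, rfl⟩
  have hs : act s₀ (E F₀ p₁) = E F₀ p₁ - E F₀ e₀ := by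
    rw [hs₀, C.pol0 h0p, C.pol1 h1p]
    module
  have h1 : act z' (E F₀ e₀) = w - act s₀ w := by
    have e1 : E F₀ e₀ = E F₀ p₁ - act s₀ (E F₀ p₁) := by rw [hs]; abel
    have e2 : act z' (act s₀ (E F₀ p₁)) = act s₀ (act z' (E F₀ p₁)) := by
      rw [← act_mul, ← act_mul, hcomm]
    conv_lhs => rw [e1]
    rw [act_sub, e2, hw]
  have hx0 : QuadraticMap.polar (⇑Q) (E F₀ x) (E F₀ e₀) = 0 := by
    rw [QuadraticMap.polar_comm]
    exact C.pol0 (hx e₀ (Submodule.subset_span (by simp)))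
  have hx1 : QuadraticMap.polar (⇑Q) (E F₀ x) (E F₀ e₁) = 0 := by
    rw [QuadraticMap.polar_comm]
    exact C.pol0 (hx e₁ (Submodule.subset_span (by simp)))
  rw [h1, hs₀]
  simp only [QuadraticMap.polar_sub_right, QuadraticMap.polar_add_right,
    QuadraticMap.polar_smul_right, hx0, hx1, smul_eq_mul, mul_zero, sub_zero, add_zero, sub_self]

/-- A rational involution either moves a rational vector by a singular rational vector, or is
a reflection. -/
theorem OCtx.inv_dich [Fintype F] (C : OCtx F₀ Q Q₀ M) (h2 : (2 : F) = 0)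
    {z : ↥(Cfsg.isometryGroup F (⇑Q))} (hzz : z * z = 1) (hz1 : z ≠ 1)
    (hrat : ∀ v : ι → F₀, ∃ v' : ι → F₀, act z (E F₀ v) = E F₀ v') :
    (∃ e' x' : ι → F₀, e' ≠ 0 ∧ Q₀ e' = 0 ∧ act z (E F₀ x') - E F₀ x' = E F₀ e') ∨
    (∃ r₁ x₀ : ι → F₀, Q₀ r₁ ≠ 0 ∧ act z (E F₀ x₀) - E F₀ x₀ = E F₀ r₁ ∧
      ∀ v : ι → F₀, ∃ c : F₀, act z (E F₀ v) - E F₀ v = (c : F) • E F₀ r₁) := by
  have hn : ∀ v : ι → F₀, ∃ n : ι → F₀, act z (E F₀ v) - E F₀ v = E F₀ n := by
    intro v
    obtain ⟨v', hv'⟩ := hrat v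
    exact ⟨v' - v, by rw [hv', E_sub]⟩
  obtain ⟨x₀, hx₀⟩ : ∃ x₀ : ι → F₀, act z (E F₀ x₀) ≠ E F₀ x₀ := by
    by_contra hcon
    push Not at hcon
    apply hz1
    apply act_ext
    intro x
    rw [act_one]
    have hx := vec_eq_sum F₀ x
    have h1 : act z (∑ j, x j • E F₀ (Pi.single j (1 : F₀)))
        = ∑ j, x j • E F₀ (Pi.single j (1 : F₀)) := by
      rw [act_sum_smul]
      apply Finset.sum_congr rfl
      intro j _
      rw [hcon]
    rw [← hx] at h1
    exact h1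
  obtain ⟨r₁, hr₁⟩ := hn x₀
  have hr₁0 : r₁ ≠ 0 := by
    rintro rfl
    rw [E_zero] at hr₁
    exact hx₀ (sub_eq_zero.mp hr₁)
  have hzz' : ∀ y : ι → F, act z (act z y) = y := by
    intro y
    rw [← act_mul, hzz, act_one]
  have hti : ∀ x y : ι → F, QuadraticMap.polar (⇑Q) (act z x - x) (act z y - y) = 0 := by
    intro x y
    have e1 : QuadraticMap.polar (⇑Q) x (act z y) = QuadraticMap.polar (⇑Q) (act z x) y := by
      rw [← polar_act Q z x (act z y), hzz']
    rw [QuadraticMap.polar_sub_left, QuadraticMap.polar_sub_right, QuadraticMap.polar_sub_right,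
      polar_act, e1]
    linear_combination (QuadraticMap.polar (⇑Q) x y - QuadraticMap.polar (⇑Q) (act z x) y) * h2
  by_cases hQ : Q₀ r₁ = 0
  · exact Or.inl ⟨r₁, x₀, hr₁0, hQ, hr₁⟩
  by_cases hall : ∀ v : ι → F₀, ∃ c : F₀, act z (E F₀ v) - E F₀ v = (c : F) • E F₀ r₁
  · exact Or.inr ⟨r₁, x₀, hQ, hr₁, hall⟩
  · push Not at hall
    obtain ⟨v, hv⟩ := hall
    obtain ⟨nv, hnv⟩ := hn v
    have : Fintype F₀ := Fintype.ofFinite _
    have h2' : (2 : F₀) = 0 := by
      apply Subtype.ext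
      push_cast
      exact h2
    have hchar : ringChar F₀ = 2 :=
      CharP.ringChar_of_prime_eq_zero Nat.prime_two (by exact_mod_cast h2')
    obtain ⟨d, hd⟩ := FiniteField.isSquare_of_char_two hchar (Q₀ nv / Q₀ r₁)
    have hp : QuadraticMap.polar (⇑Q₀) r₁ nv = 0 := by
      apply C.pol0'
      rw [← hr₁, ← hnv]
      exact hti (E F₀ x₀) (E F₀ v)
    left
    refine ⟨nv - d • r₁, v - d • x₀, ?_, ?_, ?_⟩
    · intro h0
      apply hv d
      rw [hnv, ← E_smul]
      congr 1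
      exact sub_eq_zero.mp h0
    · rw [Q_sub_smul, hp, ← hd, div_mul_cancel₀ _ hQ]
      linear_combination Q₀ nv * h2'
    · rw [E_sub, E_sub, E_smul, E_smul, act_sub, act_smul, ← hnv, ← hr₁]
      module

theorem refl_all (F₀ : Subfield F) {z : ↥(Cfsg.isometryGroup F (⇑Q))} {r₁ : ι → F₀}
    (h : ∀ v : ι → F₀, ∃ c : F₀, act z (E F₀ v) - E F₀ v = (c : F) • E F₀ r₁) (x : ι → F) :
    ∃ c : F, act z x - x = c • E F₀ r₁ := by
  choose cf hcf using fun j : ι => h (Pi.single j 1)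
  refine ⟨∑ j, x j * (cf j : F), ?_⟩
  have hx := vec_eq_sum F₀ x
  have h1 : act z x - x = ∑ j, x j • (act z (E F₀ (Pi.single j (1 : F₀)))
      - E F₀ (Pi.single j (1 : F₀))) := by
    have h3 : act z (∑ j, x j • E F₀ (Pi.single j (1 : F₀)))
        - ∑ j, x j • E F₀ (Pi.single j (1 : F₀))
        = ∑ j, x j • (act z (E F₀ (Pi.single j (1 : F₀))) - E F₀ (Pi.single j (1 : F₀))) := by
      rw [act_sum_smul, ← Finset.sum_sub_distrib]
      apply Finset.sum_congr rfl
      intro j _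
      rw [smul_sub]
    rw [← hx] at h3
    exact h3
  rw [h1, Finset.sum_smul]
  apply Finset.sum_congr rfl
  intro j _
  rw [hcf j, smul_smul]

end

end Cfsg.Agent.H99.OS
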