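import Cfsg.Agent.H99.OSubK

set_option autoImplicit false
set_option linter.unusedSectionVars false
set_option linter.unusedSimpArgs false

/-! Helper lemmas (helper99): in characteristic two, if the root coefficients of `M` are
rational then `M` lies in the subfield group (dihedral group argument). -/

namespace Cfsg.Agent.H99.OS

open Module Matrix Cfsg.Agent.H49 Cfsg.Agent.H95

section
variable {ι : Type} [Fintype ι] [DecidableEq ι] {F : Type*} [Field F]
variable {F₀ : Subfield F}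
variable {Q : QuadraticForm F (ι → F)} {M : Subgroup ↥(Cfsg.isometryGroup F (⇑Q))}
variable {Q₀ : QuadraticForm F₀ (ι → F₀)}

/-- The central involution of the dihedral group is not a reflection. -/
theorem no_refl (h2 : (2 : F) = 0) {t s z : ↥(Cfsg.isometryGroup F (⇑Q))} {e u a b : ι → F}
    (he : Q e = 0) (hu : Q u = 1) (heu : QuadraticMap.polar (⇑Q) e u = 0)
    (ha : Q a = 0) (hb : Q b = 0) (hab : QuadraticMap.polar (⇑Q) a b = 0)
    (ht : ∀ x : ι → F, act t x = x + QuadraticMap.polar (⇑Q) e x • u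
      - (QuadraticMap.polar (⇑Q) u x + QuadraticMap.polar (⇑Q) e x) • e)
    (hs : ∀ x : ι → F, act s x = x + (1 : F) • (QuadraticMap.polar (⇑Q) a x • b
      - QuadraticMap.polar (⇑Q) b x • a))
    (k : ℕ) (hz : z = (t * s) ^ k) (hzt : z * t = t * z) (hzs : z * s = s * z)
    (hdet : QuadraticMap.polar (⇑Q) e a * QuadraticMap.polar (⇑Q) u b
      - QuadraticMap.polar (⇑Q) e b * QuadraticMap.polar (⇑Q) u a ≠ 0)
    (u₁ : ι → F) (hu₁e : QuadraticMap.polar (⇑Q) e u₁ = 0)
    (hu₁u : QuadraticMap.polar (⇑Q) u u₁ = 1)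
    (p : ι → F) (hpa : QuadraticMap.polar (⇑Q) a p = 0) (hpb : QuadraticMap.polar (⇑Q) b p = 1)
    (he0 : e ≠ 0) (ha0 : a ≠ 0)
    (v : ι → F) (hQv : Q v ≠ 0) (y₀ : ι → F) (hv : act z y₀ - y₀ = v)
    (hall : ∀ y : ι → F, ∃ c : F, act z y - y = c • v) : False := by
  have hee : QuadraticMap.polar (⇑Q) e e = 0 := by rw [polar_self', he, mul_zero]
  have huu : QuadraticMap.polar (⇑Q) u u = 0 := by rw [polar_self', hu, mul_one]; exact h2
  have hue : QuadraticMap.polar (⇑Q) u e = 0 := by rw [QuadraticMap.polar_comm]; exact heu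
  have haa : QuadraticMap.polar (⇑Q) a a = 0 := by rw [polar_self', ha, mul_zero]
  have hbb : QuadraticMap.polar (⇑Q) b b = 0 := by rw [polar_self', hb, mul_zero]
  have hba : QuadraticMap.polar (⇑Q) b a = 0 := by rw [QuadraticMap.polar_comm]; exact hab
  have hY : InY e u a b v := by
    rw [← hv, hz]
    refine pow_sub_inY (fun x => ?_) (fun x => ?_) k y₀
    · exact ⟨-(QuadraticMap.polar (⇑Q) u x + QuadraticMap.polar (⇑Q) e x),
        QuadraticMap.polar (⇑Q) e x, 0, 0, by rw [ht]; module⟩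
    · exact ⟨0, 0, -QuadraticMap.polar (⇑Q) b x, QuadraticMap.polar (⇑Q) a x, by
        rw [hs]; module⟩
  have hone : ∀ c : F, c * c * Q v = Q v → c = 1 := by
    intro c h3
    have h4 : (c * c - 1) * Q v = 0 := by linear_combination h3
    have h5 : c * c - 1 = 0 := (mul_eq_zero.mp h4).resolve_right hQv
    have h6 : (c - 1) ^ 2 = 0 := by linear_combination h5 + (1 - c) * h2
    exact sub_eq_zero.mp (pow_eq_zero_iff two_ne_zero |>.mp h6)
  -- `t` fixes `v`
  have e1 : act t v = act z (act t y₀) - act t y₀ := by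
    rw [← hv, act_sub, ← act_mul, ← hzt, act_mul]
  obtain ⟨c, hc⟩ := hall (act t y₀)
  rw [hc] at e1
  have h3 : Q (act t v) = Q v := Q_act Q t v
  rw [e1, QuadraticMap.map_smul, smul_eq_mul] at h3
  rw [hone c h3, one_smul, ht v, add_sub_assoc, add_eq_left] at e1
  have fe : QuadraticMap.polar (⇑Q) e v = 0 := by
    have h7 := congrArg (fun w => QuadraticMap.polar (⇑Q) w u₁) e1
    simp only [QuadraticMap.polar_sub_left, QuadraticMap.polar_smul_left, hu₁u, hu₁e,
      QuadraticMap.polar_zero_left, smul_eq_mul, mul_one, mul_zero, sub_zero] at h7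
    exact h7
  have fu : QuadraticMap.polar (⇑Q) u v = 0 := by
    rw [fe, zero_smul, zero_sub, add_zero, neg_eq_zero, smul_eq_zero] at e1
    exact e1.resolve_right he0
  -- `s` fixes `v`
  have e2 : act s v = act z (act s y₀) - act s y₀ := by
    rw [← hv, act_sub, ← act_mul, ← hzs, act_mul]
  obtain ⟨c', hc'⟩ := hall (act s y₀)
  rw [hc'] at e2
  have h3' : Q (act s v) = Q v := Q_act Q s v
  rw [e2, QuadraticMap.map_smul, smul_eq_mul] at h3'
  rw [hone c' h3', one_smul, hs v, add_eq_left, one_smul] at e2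
  have fa : QuadraticMap.polar (⇑Q) a v = 0 := by
    have h7 := congrArg (fun w => QuadraticMap.polar (⇑Q) w p) e2
    simp only [QuadraticMap.polar_sub_left, QuadraticMap.polar_smul_left, hpa, hpb,
      QuadraticMap.polar_zero_left, smul_eq_mul, mul_one, mul_zero, sub_zero] at h7
    exact h7
  have fb : QuadraticMap.polar (⇑Q) b v = 0 := by
    rw [fa, zero_smul, zero_sub, neg_eq_zero, smul_eq_zero] at e2
    exact e2.resolve_right ha0
  obtain ⟨α, β, γ, δ, hv4⟩ := hY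
  have hea : QuadraticMap.polar (⇑Q) a e = QuadraticMap.polar (⇑Q) e a :=
    QuadraticMap.polar_comm _ _ _
  have hua : QuadraticMap.polar (⇑Q) a u = QuadraticMap.polar (⇑Q) u a :=
    QuadraticMap.polar_comm _ _ _
  have heb : QuadraticMap.polar (⇑Q) b e = QuadraticMap.polar (⇑Q) e b :=
    QuadraticMap.polar_comm _ _ _
  have hub : QuadraticMap.polar (⇑Q) b u = QuadraticMap.polar (⇑Q) u b :=
    QuadraticMap.polar_comm _ _ _
  rw [hv4] at fe fu fa fb
  simp only [QuadraticMap.polar_add_right, QuadraticMap.polar_smul_right, smul_eq_mul, hee, huu,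
    heu, hue, haa, hbb, hab, hba, hea, hua, heb, hub, mul_zero, add_zero, zero_add] at fe fu fa fb
  have hγ : γ = 0 := by
    have h8 : γ * (QuadraticMap.polar (⇑Q) e a * QuadraticMap.polar (⇑Q) u b
        - QuadraticMap.polar (⇑Q) e b * QuadraticMap.polar (⇑Q) u a) = 0 := by
      linear_combination QuadraticMap.polar (⇑Q) u b * fe - QuadraticMap.polar (⇑Q) e b * fu
    exact (mul_eq_zero.mp h8).resolve_right hdet
  have hδ : δ = 0 := by
    have h8 : δ * (QuadraticMap.polar (⇑Q) e a * QuadraticMap.polar (⇑Q) u b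
        - QuadraticMap.polar (⇑Q) e b * QuadraticMap.polar (⇑Q) u a) = 0 := by
      linear_combination QuadraticMap.polar (⇑Q) e a * fu - QuadraticMap.polar (⇑Q) u a * fe
    exact (mul_eq_zero.mp h8).resolve_right hdet
  have hα : α = 0 := by
    have h8 : α * (QuadraticMap.polar (⇑Q) e a * QuadraticMap.polar (⇑Q) u b
        - QuadraticMap.polar (⇑Q) e b * QuadraticMap.polar (⇑Q) u a) = 0 := by
      linear_combination QuadraticMap.polar (⇑Q) u b * fa - QuadraticMap.polar (⇑Q) u a * fb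
    exact (mul_eq_zero.mp h8).resolve_right hdet
  have hβ : β = 0 := by
    have h8 : β * (QuadraticMap.polar (⇑Q) e a * QuadraticMap.polar (⇑Q) u b
        - QuadraticMap.polar (⇑Q) e b * QuadraticMap.polar (⇑Q) u a) = 0 := by
      linear_combination QuadraticMap.polar (⇑Q) e a * fb - QuadraticMap.polar (⇑Q) e b * fa
    exact (mul_eq_zero.mp h8).resolve_right hdet
  apply hQv
  rw [hv4, hα, hβ, hγ, hδ]
  simp

/-- A rational involution whose displacements lie in the span of four vectors fixes the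
rational vectors orthogonal to a rational subspace of dimension at most four. -/
theorem OCtx.exists_small [Fintype F] (C : OCtx F₀ Q Q₀ M)
    {z : ↥(Cfsg.isometryGroup F (⇑Q))} (hzz : z * z = 1)
    (hrat : ∀ v : ι → F₀, ∃ v' : ι → F₀, act z (E F₀ v) = E F₀ v')
    {e u a b : ι → F} (hY : ∀ y : ι → F, InY e u a b (act z y - y)) :
    ∃ R : Submodule F₀ (ι → F₀), finrank F₀ R ≤ 4 ∧
      ∀ x : ι → F₀, (∀ ρ ∈ R, QuadraticMap.polar (⇑Q₀) ρ x = 0) →
        act z (E F₀ x) = E F₀ x := by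
  classical
  have hn' : ∀ v : ι → F₀, ∃ n : ι → F₀, act z (E F₀ v) - E F₀ v = E F₀ n := by
    intro v
    obtain ⟨v', hv'⟩ := hrat v
    exact ⟨v' - v, by rw [hv', E_sub]⟩
  choose n hn using hn'
  obtain ⟨S, hS⟩ : ∃ S : Set (ι → F), S = Set.range (fun w : ι → F₀ => E F₀ (n w)) := ⟨_, rfl⟩
  obtain ⟨B, hBS, hspan, hli⟩ := exists_linearIndependent F S
  obtain ⟨Ysub, hYsub⟩ : ∃ Ysub : Submodule F (ι → F),
      Ysub = Submodule.span F (Set.range ![e, u, a, b]) := ⟨_, rfl⟩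
  have dY : finrank F Ysub ≤ 4 := by
    rw [hYsub]
    have h1 : finrank F (Submodule.span F (Set.range ![e, u, a, b])) ≤ Fintype.card (Fin 4) :=
      finrank_range_le_card (R := F) ![e, u, a, b]
    rw [Fintype.card_fin] at h1
    exact h1
  have hSY : ∀ y ∈ S, y ∈ Ysub := by
    intro y hy
    rw [hS] at hy
    obtain ⟨w, rfl⟩ := hy
    obtain ⟨α, β, γ, δ, h4⟩ := hY (E F₀ w)
    show E F₀ (n w) ∈ Ysub
    rw [← hn w, h4, hYsub]
    exact add_mem (add_mem (add_mem
      (Submodule.smul_mem _ _ (Submodule.subset_span ⟨0, rfl⟩))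
      (Submodule.smul_mem _ _ (Submodule.subset_span ⟨1, rfl⟩)))
      (Submodule.smul_mem _ _ (Submodule.subset_span ⟨2, rfl⟩)))
      (Submodule.smul_mem _ _ (Submodule.subset_span ⟨3, rfl⟩))
  have hfin : B.Finite := hli.setFinite
  have : Fintype ↥B := hfin.fintype
  have hcard : Fintype.card ↥B ≤ 4 := by
    have h1 := finrank_span_eq_card hli
    rw [Subtype.range_coe] at h1
    have h3 : Submodule.span F B ≤ Ysub := Submodule.span_le.mpr (fun y hy => hSY y (hBS hy))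
    have h4 := Submodule.finrank_mono h3
    have h5 : Fintype.card ↥B = finrank F (Submodule.span F B) := by
      rw [← h1]
    rw [h5]
    exact le_trans h4 dY
  have hpre : ∀ y : ↥B, ∃ ρ : ι → F₀, E F₀ ρ = (y : ι → F) := by
    intro y
    have h1 := hBS y.2
    rw [hS] at h1
    obtain ⟨w, hw⟩ := h1
    exact ⟨n w, hw⟩
  choose ρf hρf using hpre
  refine ⟨Submodule.span F₀ (Set.range ρf), le_trans (finrank_range_le_card ρf) hcard, ?_⟩
  intro x hx
  have hB : ∀ y ∈ Submodule.span F B, QuadraticMap.polar (⇑Q) y (E F₀ x) = 0 := by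
    intro y hy
    induction hy using Submodule.span_induction with
    | mem y hy =>
      have h1 := hx (ρf ⟨y, hy⟩) (Submodule.subset_span ⟨_, rfl⟩)
      have h3 : QuadraticMap.polar (⇑Q) (E F₀ (ρf ⟨y, hy⟩)) (E F₀ x) = 0 := C.pol0 h1
      rw [hρf ⟨y, hy⟩] at h3
      exact h3
    | zero => exact QuadraticMap.polar_zero_left _ _
    | add y₁ y₂ _ _ ih1 ih2 => rw [QuadraticMap.polar_add_left, ih1, ih2, add_zero]
    | smul c y₁ _ ih => rw [QuadraticMap.polar_smul_left, ih, smul_zero]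
  have hS' : ∀ w : ι → F₀,
      QuadraticMap.polar (⇑Q) (act z (E F₀ w) - E F₀ w) (E F₀ x) = 0 := by
    intro w
    rw [hn w]
    apply hB
    rw [hspan]
    exact Submodule.subset_span (by rw [hS]; exact ⟨w, rfl⟩)
  have hzz' : ∀ y : ι → F, act z (act z y) = y := by
    intro y
    rw [← act_mul, hzz, act_one]
  have hsa : ∀ x₁ y₁ : ι → F, QuadraticMap.polar (⇑Q) (act z x₁ - x₁) y₁
      = QuadraticMap.polar (⇑Q) x₁ (act z y₁ - y₁) := by
    intro x₁ y₁
    have e1 : QuadraticMap.polar (⇑Q) (act z x₁) y₁ = QuadraticMap.polar (⇑Q) x₁ (act z y₁) := by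
      rw [← polar_act Q z x₁ (act z y₁), hzz']
    rw [QuadraticMap.polar_sub_left, QuadraticMap.polar_sub_right, e1]
  have h5 : n x = 0 := by
    refine C.nd₀.1 _ (fun w => ?_)
    rw [QuadraticMap.polarBilin_apply_apply]
    apply C.pol0'
    rw [← hn x, hsa, QuadraticMap.polar_comm]
    exact hS' w
  have h6 := hn x
  rw [h5, E_zero] at h6
  exact sub_eq_zero.mp h6

/-- The choice of the rational involution `t` in general position with respect to a line. -/
theorem OCtx.tdata [Finite F] (C : OCtx F₀ Q Q₀ M)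
    (hdual : ∀ α : ι, ∃ (d : ι → F₀) (k : F₀), k ≠ 0 ∧
      ∀ z : ι → F, QuadraticMap.polar (⇑Q) z (E F₀ d) = (k : F) * z α)
    {e₀ : ι → F₀} (he₀ : Q₀ e₀ = 0) (he₀0 : e₀ ≠ 0) (a b : ι → F) (ha0 : a ≠ 0)
    (hind : ∀ c₁ c₂ : F, c₁ • b - c₂ • a = 0 → c₁ = 0) :
    (∃ (e : ι → F₀) (γ : F), Q₀ e = 0 ∧ e ≠ 0 ∧
      E F₀ e = γ • (QuadraticMap.polar (⇑Q) (E F₀ e) a • b
        - QuadraticMap.polar (⇑Q) (E F₀ e) b • a)) ∨
    (∃ e u₁ u₂ : ι → F₀, Q₀ e = 0 ∧ e ≠ 0 ∧ Q₀ u₁ = 0 ∧ Q₀ u₂ = 0 ∧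
      QuadraticMap.polar (⇑Q₀) e u₁ = 0 ∧ QuadraticMap.polar (⇑Q₀) e u₂ = 0 ∧
      QuadraticMap.polar (⇑Q₀) u₁ u₂ = 1 ∧
      QuadraticMap.polar (⇑Q) (E F₀ e) a * QuadraticMap.polar (⇑Q) (E F₀ u₁ + E F₀ u₂) b
        - QuadraticMap.polar (⇑Q) (E F₀ e) b * QuadraticMap.polar (⇑Q) (E F₀ u₁ + E F₀ u₂) a
          ≠ 0) := by
  obtain ⟨e, he, hea⟩ : ∃ e : ι → F₀, Q₀ e = 0 ∧ QuadraticMap.polar (⇑Q) (E F₀ e) a ≠ 0 := by
    by_contra hcon
    push Not at hcon
    obtain ⟨γ, hγ⟩ := C.perp_span hdual he₀ he₀0 a (fun x hx _ => hcon x hx)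
    obtain ⟨p₀, hp₀, -, h00⟩ := exists_partner_orth Q₀ C.nd₀ ⊥ e₀ he₀ (by
      intro a hmem
      rw [(Submodule.mem_bot F₀).mp hmem, QuadraticMap.polar_zero_left]) (by
      rw [Submodule.mem_bot]; exact he₀0)
    have h1 := hcon p₀ hp₀
    have h00' : QuadraticMap.polar (⇑Q₀) p₀ e₀ = 1 := by rw [QuadraticMap.polar_comm]; exact h00
    rw [hγ, QuadraticMap.polar_smul_right, C.pol1 h00', smul_eq_mul, mul_one] at h1
    apply ha0
    rw [hγ, h1, zero_smul]
  have he0 : e ≠ 0 := by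
    rintro rfl
    rw [E_zero, QuadraticMap.polar_zero_left] at hea
    exact hea rfl
  obtain ⟨q, hq⟩ : ∃ q : ι → F, q = QuadraticMap.polar (⇑Q) (E F₀ e) a • b
      - QuadraticMap.polar (⇑Q) (E F₀ e) b • a := ⟨_, rfl⟩
  by_cases hqe : ∃ γ : F, q = γ • E F₀ e
  · left
    obtain ⟨γ, hγ⟩ := hqe
    have hγ0 : γ ≠ 0 := by
      rintro rfl
      rw [zero_smul, hq] at hγ
      exact hea (hind _ _ hγ)
    refine ⟨e, γ⁻¹, he, he0, ?_⟩
    rw [← hq, hγ, smul_smul, inv_mul_cancel₀ hγ0, one_smul]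
  · right
    have h1 : ¬ ∀ x : ι → F₀, Q₀ x = 0 → QuadraticMap.polar (⇑Q₀) e x = 0 →
        QuadraticMap.polar (⇑Q) (E F₀ x) q = 0 := fun h => hqe (C.perp_span hdual he he0 q h)
    push Not at h1
    obtain ⟨w, hw, hew, hwq⟩ := h1
    obtain ⟨h₁, h₂, hh₁, hh₂, hh, hW₁, hW₂⟩ := exists_hyp_pair_orth_ts Q₀ C.nd₀ C.ts₀
      (Submodule.span F₀ {e, w}) (isTS_span_pair Q₀ e w he hw hew) (finrank_span_pair_le e w)
    have o1 : QuadraticMap.polar (⇑Q₀) e h₁ = 0 := hW₁ e (Submodule.subset_span (by simp))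
    have o2 : QuadraticMap.polar (⇑Q₀) w h₁ = 0 := hW₁ w (Submodule.subset_span (by simp))
    have o3 : QuadraticMap.polar (⇑Q₀) e h₂ = 0 := hW₂ e (Submodule.subset_span (by simp))
    have o4 : QuadraticMap.polar (⇑Q₀) w h₂ = 0 := hW₂ w (Submodule.subset_span (by simp))
    have key : ∀ u : ι → F, QuadraticMap.polar (⇑Q) (E F₀ e) a * QuadraticMap.polar (⇑Q) u b
        - QuadraticMap.polar (⇑Q) (E F₀ e) b * QuadraticMap.polar (⇑Q) u a
        = QuadraticMap.polar (⇑Q) u q := by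
      intro u
      rw [hq, QuadraticMap.polar_sub_right, QuadraticMap.polar_smul_right,
        QuadraticMap.polar_smul_right]
      simp only [smul_eq_mul]
    by_cases h5 : QuadraticMap.polar (⇑Q) (E F₀ h₁ + E F₀ h₂) q ≠ 0
    · refine ⟨e, h₁, h₂, he, he0, hh₁, hh₂, o1, o3, hh, ?_⟩
      rw [key]
      exact h5
    · push Not at h5
      refine ⟨e, h₁ + w, h₂, he, he0, ?_, hh₂, ?_, o3, ?_, ?_⟩
      · rw [Q_add', hh₁, hw, QuadraticMap.polar_comm, o2]
        ring
      · rw [QuadraticMap.polar_add_right, o1, hew, add_zero]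
      · rw [QuadraticMap.polar_add_left, hh, o4, add_zero]
      · rw [key, E_add]
        have e5 : E F₀ h₁ + E F₀ w + E F₀ h₂ = (E F₀ h₁ + E F₀ h₂) + E F₀ w := by abel
        rw [e5, QuadraticMap.polar_add_left, h5, zero_add]
        exact hwq

/-- In characteristic two, if the root coefficients of `M` are rational, every element of `M`
lies in the subfield group. -/
theorem OCtx.le_subfield_two [Fintype F] (C : OCtx F₀ Q Q₀ M) (h2 : (2 : F) = 0)
    (hK : ∀ c, Ks F₀ Q Q₀ M c → c ∈ F₀)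
    (hdual : ∀ α : ι, ∃ (d : ι → F₀) (k : F₀), k ≠ 0 ∧
      ∀ z : ι → F, QuadraticMap.polar (⇑Q) z (E F₀ d) = (k : F) * z α)
    {g : ↥(Cfsg.isometryGroup F (⇑Q))} (hg : g ∈ M) :
    (g : GL ι F) ∈ Cfsg.Geo.subfieldSubgroup F₀ 1 := by
  have hdim : finrank F₀ (ι → F₀) = Fintype.card ι := Module.finrank_fintype_fun_eq_card F₀
  have hd := C.dim
  obtain ⟨e₀, p₀, he₀, hp₀, h00, -, -⟩ := exists_hyp_pair_orth_le_one Q₀ C.nd₀ C.ts₀ ⊥
    (by rw [finrank_bot]; omega)
  obtain ⟨e₁, p₁, he₁, hp₁, h11, h01, -, h0p₁, -⟩ := exists_hyp_pair_orth_hyp Q₀ C.nd₀ C.ts₀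
    e₀ p₀ he₀ hp₀ (by rw [h00]; exact one_ne_zero)
  have he₀0 : e₀ ≠ 0 := by
    rintro rfl
    rw [QuadraticMap.polar_zero_left] at h00
    exact zero_ne_one h00
  obtain ⟨a, ha_def⟩ : ∃ a, a = act g (E F₀ e₀) := ⟨_, rfl⟩
  obtain ⟨b, hb_def⟩ : ∃ b, b = act g (E F₀ e₁) := ⟨_, rfl⟩
  obtain ⟨p, hp_def⟩ : ∃ p, p = act g (E F₀ p₁) := ⟨_, rfl⟩
  have ha : Q a = 0 := by rw [ha_def, Q_act, C.val0 he₀]
  have hb : Q b = 0 := by rw [hb_def, Q_act, C.val0 he₁]
  have hab : QuadraticMap.polar (⇑Q) a b = 0 := by rw [ha_def, hb_def, polar_act, C.pol0 h01]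
  have ha0 : a ≠ 0 := by
    rw [ha_def]
    exact act_ne_zero g (fun h => he₀0 (E_injective F₀ (by rw [h, E_zero])))
  have hpa : QuadraticMap.polar (⇑Q) a p = 0 := by rw [ha_def, hp_def, polar_act, C.pol0 h0p₁]
  have hpb : QuadraticMap.polar (⇑Q) b p = 1 := by rw [hb_def, hp_def, polar_act, C.pol1 h11]
  have hind : ∀ c₁ c₂ : F, c₁ • b - c₂ • a = 0 → c₁ = 0 := by
    intro c₁ c₂ h
    have h1 := congrArg (fun w => QuadraticMap.polar (⇑Q) w p) h
    simp only [QuadraticMap.polar_sub_left, QuadraticMap.polar_smul_left, hpa, hpb,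
      QuadraticMap.polar_zero_left, smul_eq_mul, mul_one, mul_zero, sub_zero] at h1
    exact h1
  obtain ⟨q1, q2, q3, hs0m⟩ := C.rat1 he₀ he₁ h01
  obtain ⟨s₀, hs₀_def⟩ : ∃ s₀, s₀ = siegelG Q (E F₀ e₀) (E F₀ e₁) q1 q2 q3 1 := ⟨_, rfl⟩
  obtain ⟨s, hs_def⟩ : ∃ s, s = g * s₀ * g⁻¹ := ⟨_, rfl⟩
  have hsM : s ∈ M := by
    rw [hs_def, hs₀_def]
    exact M.mul_mem (M.mul_mem hg hs0m) (M.inv_mem hg)
  have hs_eq : s = siegelG Q a b ha hb hab 1 := by
    rw [hs_def, hs₀_def, conj_siegelG]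
    exact siegelG_congr Q _ _ _ _ _ _ _ _ _ _ 1 1 ha_def.symm hb_def.symm rfl
  have hs : ∀ x : ι → F, act s x = x + (1 : F) • (QuadraticMap.polar (⇑Q) a x • b
      - QuadraticMap.polar (⇑Q) b x • a) := by
    intro x
    rw [hs_eq, act_siegelG]
  have hs₀ : ∀ x : ι → F, act s₀ x = x + (1 : F) • (QuadraticMap.polar (⇑Q) (E F₀ e₀) x
      • E F₀ e₁ - QuadraticMap.polar (⇑Q) (E F₀ e₁) x • E F₀ e₀) := by
    intro x
    rw [hs₀_def, act_siegelG]
  have hss : s * s = 1 := by rw [hs_eq]; exact invol_s h2 ha hb hab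
  have dspan : finrank F₀ (Submodule.span F₀ {e₀, e₁}) ≤ 4 :=
    le_trans (finrank_span_pair_le e₀ e₁) (by norm_num)
  rcases C.tdata hdual he₀ he₀0 a b ha0 hind with ⟨e, γ, he, he0, hEe⟩ |
    ⟨e, u₁, u₂, he, he0, hu₁, hu₂, heu₁, heu₂, hu₁₂, hdet⟩
  · have hginv : act g⁻¹ (E F₀ e) = γ • (QuadraticMap.polar (⇑Q) (E F₀ e) a • E F₀ e₁
        - QuadraticMap.polar (⇑Q) (E F₀ e) b • E F₀ e₀) := by
      conv_lhs => rw [hEe]
      rw [act_smul, act_sub, act_smul, act_smul, hb_def, ha_def, act_inv_act, act_inv_act]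
    have h5 := C.mem_of_small hK hdual h2 (M.inv_mem hg) he he0 (Submodule.span F₀ {e₀, e₁})
      dspan (by
        intro x hx
        have hx0 : QuadraticMap.polar (⇑Q) (E F₀ x) (E F₀ e₀) = 0 := by
          rw [QuadraticMap.polar_comm]
          exact C.pol0 (hx e₀ (Submodule.subset_span (by simp)))
        have hx1 : QuadraticMap.polar (⇑Q) (E F₀ x) (E F₀ e₁) = 0 := by
          rw [QuadraticMap.polar_comm]
          exact C.pol0 (hx e₁ (Submodule.subset_span (by simp)))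
        rw [hginv, QuadraticMap.polar_smul_right, QuadraticMap.polar_sub_right,
          QuadraticMap.polar_smul_right, QuadraticMap.polar_smul_right, hx0, hx1]
        simp)
    have h6 := mem_subfield_of_img F₀ g⁻¹ h5
    have h7 := (Cfsg.Geo.subfieldSubgroup F₀ 1).inv_mem h6
    simpa using h7
  · obtain ⟨t, htM, ht⟩ := C.tel he hu₁ hu₂ heu₁ heu₂ hu₁₂
    obtain ⟨u, hu_def⟩ : ∃ u, u = E F₀ u₁ + E F₀ u₂ := ⟨_, rfl⟩
    rw [← hu_def] at ht hdet
    have hQe : Q (E F₀ e) = 0 := C.val0 he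
    have hQu : Q u = 1 := by
      rw [hu_def, Q_add', C.val0 hu₁, C.val0 hu₂, C.pol1 hu₁₂]
      ring
    have hpeu : QuadraticMap.polar (⇑Q) (E F₀ e) u = 0 := by
      rw [hu_def, QuadraticMap.polar_add_right, C.pol0 heu₁, C.pol0 heu₂, add_zero]
    have hu₂₁ : QuadraticMap.polar (⇑Q₀) u₂ u₁ = 1 := by
      rw [QuadraticMap.polar_comm]; exact hu₁₂
    have huu₁ : QuadraticMap.polar (⇑Q) u (E F₀ u₁) = 1 := by
      rw [hu_def, QuadraticMap.polar_add_left, C.self0 hu₁, C.pol1 hu₂₁, zero_add]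
    have htt : t * t = 1 := invol_t h2 hQe hQu hpeu ht
    obtain ⟨k, hk⟩ := dihedral_invol t s htt hss
    obtain ⟨pe, -, -, hepe⟩ := exists_partner_orth Q₀ C.nd₀ ⊥ e he (by
      intro a hmem
      rw [(Submodule.mem_bot F₀).mp hmem, QuadraticMap.polar_zero_left]) (by
      rw [Submodule.mem_bot]; exact he0)
    rcases hk with hk | ⟨hz2, hz1, hzt, hzs⟩
    · exfalso
      rw [hs_eq] at hk
      exact not_conj hQe hQu hpeu ht ha hb hab (E F₀ pe)
        (by rw [C.pol1 hepe]; exact one_ne_zero) hk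
    · obtain ⟨z, hz_def⟩ : ∃ z, z = (t * s) ^ k := ⟨_, rfl⟩
      rw [← hz_def] at hz2 hz1 hzt hzs
      have hzM : z ∈ M := by
        rw [hz_def]
        exact M.pow_mem (M.mul_mem htM hsM) k
      have hu₁t : act t (E F₀ u₁) = E F₀ u₁ - E F₀ e := by
        rw [ht, huu₁, C.pol0 heu₁]
        module
      obtain ⟨lam, hlam⟩ := z_fix hQe hQu hpeu ht hu₁t hzt
      have hzrat := C.img_rat hK hdual h2 hzM he he0 hlam
      obtain ⟨z', hz'_def⟩ : ∃ z', z' = g⁻¹ * z * g := ⟨_, rfl⟩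
      have hz'M : z' ∈ M := by
        rw [hz'_def]
        exact M.mul_mem (M.mul_mem (M.inv_mem hg) hzM) hg
      have hz'z' : z' * z' = 1 := by
        rw [hz'_def]
        calc g⁻¹ * z * g * (g⁻¹ * z * g) = g⁻¹ * (z * z) * g := by group
          _ = 1 := by rw [hz2]; group
      have hz'1 : z' ≠ 1 := by
        intro h
        apply hz1
        have h1 : z = g * z' * g⁻¹ := by rw [hz'_def]; group
        rw [h1, h]
        group
      have hgz : g * z' = z * g := by rw [hz'_def]; group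
      have hcomm : z' * s₀ = s₀ * z' := by
        have h1 : z * (g * s₀ * g⁻¹) = (g * s₀ * g⁻¹) * z := by rw [← hs_def]; exact hzs
        calc z' * s₀ = g⁻¹ * (z * (g * s₀ * g⁻¹)) * g := by rw [hz'_def]; group
          _ = g⁻¹ * ((g * s₀ * g⁻¹) * z) * g := by rw [h1]
          _ = s₀ * z' := by rw [hz'_def]; group
      have hz'rat := C.mem_of_small hK hdual h2 hz'M he₀ he₀0 (Submodule.span F₀ {e₀, e₁})
        dspan (fun x hx => C.comm_s0 h0p₁ h11 hs₀ hcomm x hx)
      rcases C.inv_dich h2 hz'z' hz'1 hz'rat with ⟨e', x', he'0, he', hx'⟩ |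
        ⟨r₁, x₀, hr₁, hx₀, hall⟩
      · have hY : ∀ y : ι → F, InY (E F₀ e) u a b (act z y - y) := by
          intro y
          rw [hz_def]
          refine pow_sub_inY (fun x => ?_) (fun x => ?_) k y
          · exact ⟨-(QuadraticMap.polar (⇑Q) u x + QuadraticMap.polar (⇑Q) (E F₀ e) x),
              QuadraticMap.polar (⇑Q) (E F₀ e) x, 0, 0, by rw [ht]; module⟩
          · exact ⟨0, 0, -QuadraticMap.polar (⇑Q) b x, QuadraticMap.polar (⇑Q) a x, by
              rw [hs]; module⟩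
        obtain ⟨R, dR, hRfix⟩ := C.exists_small hz2 hzrat hY
        have hge' : act g (E F₀ e') = act z (act g (E F₀ x')) - act g (E F₀ x') := by
          rw [← hx', act_sub, ← act_mul, hgz, act_mul]
        have h5 := C.mem_of_small hK hdual h2 hg he' he'0 R dR (by
          intro x hx
          have hfix := hRfix x hx
          rw [hge', QuadraticMap.polar_sub_right]
          have e1 : QuadraticMap.polar (⇑Q) (E F₀ x) (act z (act g (E F₀ x')))
              = QuadraticMap.polar (⇑Q) (E F₀ x) (act g (E F₀ x')) := by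
            conv_lhs => rw [← hfix]
            rw [polar_act]
          rw [e1, sub_self])
        exact mem_subfield_of_img F₀ g h5
      · exfalso
        have hall' : ∀ x : ι → F, ∃ c : F, act z' x - x = c • E F₀ r₁ := refl_all F₀ hall
        obtain ⟨v, hv_def⟩ : ∃ v, v = act g (E F₀ r₁) := ⟨_, rfl⟩
        have hQv : Q v ≠ 0 := by
          rw [hv_def, Q_act, C.val]
          exact fun h => hr₁ (by exact_mod_cast h)
        have hzy : ∀ y : ι → F, act z y = act g (act z' (act g⁻¹ y)) := by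
          intro y
          rw [← act_mul, hgz, act_mul, act_act_inv]
        have hallz : ∀ y : ι → F, ∃ c : F, act z y - y = c • v := by
          intro y
          obtain ⟨c, hc⟩ := hall' (act g⁻¹ y)
          refine ⟨c, ?_⟩
          rw [hzy, hv_def, ← act_smul, ← hc, act_sub, act_act_inv]
        have hvy : act z (act g (E F₀ x₀)) - act g (E F₀ x₀) = v := by
          rw [hv_def, ← hx₀, act_sub, ← act_mul, ← act_mul, hgz]
        have hEe0 : E F₀ e ≠ 0 := fun h => he0 (E_injective F₀ (by rw [h, E_zero]))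
        exact no_refl h2 hQe hQu hpeu ha hb hab ht hs k hz_def hzt hzs hdet (E F₀ u₁)
          (C.pol0 heu₁) huu₁ p hpa hpb hEe0 ha0 v hQv (act g (E F₀ x₀)) hvy hallz

end

end Cfsg.Agent.H99.OS
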