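import Cfsg.Agent.H99.OSubL

set_option autoImplicit false
set_option linter.unusedSectionVars false

/-! Helper lemmas (helper99): the orthogonal subfield group in standard position is maximal in
`Ω`, in every characteristic. -/

namespace Cfsg.Agent.H99.OS

open Module Matrix Cfsg.Agent.H49 Cfsg.Agent.H95
open scoped MatrixGroups

section
variable {ι : Type} [Fintype ι] [DecidableEq ι] {F : Type*} [Field F]

/-- The orthogonal subfield group in standard position is maximal in `Ω` (any
characteristic). -/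
theorem subfield_maximal_gen [Fintype F] (F₀ : Subfield F) (Q : QuadraticForm F (ι → F))
    (Q₀ : QuadraticForm F₀ (ι → F₀)) (r : ℕ) (hr : r.Prime)
    (hcard : Fintype.card F = Nat.card F₀ ^ r)
    (val : ∀ x : ι → F₀, Q (E F₀ x) = ((Q₀ x : F₀) : F))
    (nd : (QuadraticMap.polarBilin Q).Nondegenerate)
    (nd₀ : (QuadraticMap.polarBilin Q₀).Nondegenerate)
    (ts : HasTS3 Q) (ts₀ : HasTS3 Q₀) (dim : 13 ≤ Fintype.card ι)
    (hdual : ∀ α : ι, ∃ (d : ι → F₀) (k : F₀), k ≠ 0 ∧
      ∀ z : ι → F, QuadraticMap.polar (⇑Q) z (E F₀ d) = (k : F) * z α)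
    (hstrict : ∃ g ∈ Cfsg.Geo.omegaGL (⇑Q), g ∉ Cfsg.Geo.subfieldSubgroup F₀ 1) :
    Cfsg.Geo.IsMaximalIn (Cfsg.Geo.omegaGL (⇑Q))
      (Cfsg.Geo.subfieldSubgroup F₀ 1 ⊓ Cfsg.Geo.omegaGL (⇑Q)) := by
  constructor
  · refine lt_of_le_of_ne inf_le_right ?_
    intro heq
    obtain ⟨g, hg, hgn⟩ := hstrict
    rw [← heq] at hg
    exact hgn hg.1
  · intro M hHM hMΩ
    have C : OCtx F₀ Q Q₀ (M.comap (Cfsg.isometryGroup F (⇑Q)).subtype) :=
      { val := val
        nd := nd
        nd₀ := nd₀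
        ts := ts
        ts₀ := ts₀
        dim := dim
        rat := by
          intro x y hx hy hxy a
          have hx' : Q (E F₀ x) = 0 := by rw [val, hx]; rfl
          have hy' : Q (E F₀ y) = 0 := by rw [val, hy]; rfl
          have hxy' : QuadraticMap.polar (⇑Q) (E F₀ x) (E F₀ y) = 0 := by
            rw [pol_of_val val, hxy]; rfl
          refine ⟨hx', hy', hxy', ?_⟩
          show ((siegelG Q (E F₀ x) (E F₀ y) hx' hy' hxy' (a : F) :
            ↥(Cfsg.isometryGroup F (⇑Q))) : GL ι F) ∈ M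
          apply hHM
          exact ⟨rat_siegel_mem_subfield val x y hx' hy' hxy' a,
            ⟨_, siegelG_mem_commutator Q nd ts _ _ hx' hy' hxy' _, rfl⟩⟩ }
    rcases C.ks_dichotomy r hr hcard with hK | hall
    · left
      apply le_antisymm _ hHM
      intro g hg
      obtain ⟨g', hg', rfl⟩ := hMΩ hg
      refine ⟨?_, ⟨g', hg', rfl⟩⟩
      by_cases h2 : (2 : F) = 0
      · exact C.le_subfield_two h2 hK hdual (show g' ∈ M.comap _ from hg)
      · exact C.le_subfield h2 hK hdual (show g' ∈ M.comap _ from hg)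
    · right
      apply le_antisymm hMΩ
      rintro g ⟨g', hg', rfl⟩
      exact C.comm_le_of_all hall hg'

end

end Cfsg.Agent.H99.OS
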