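import Cfsg.Agent.H99.OSubM
import Cfsg.Agent.H99.OSubH
import Cfsg.Agent.H95.TSMax
import Cfsg.Agent.H95.QF

set_option autoImplicit false
set_option linter.unusedSectionVars false

/-! Helper lemmas (helper99): the orthogonal subfield group of a rational structure of a
non-degenerate quadratic form (up to a scalar) is maximal in `Ω`. -/

namespace Cfsg.Agent.H99.OS

open Module Matrix Cfsg Cfsg.Geo Cfsg.Agent.H49 Cfsg.Agent.H95 Cfsg.Agent.H99.SS
open scoped MatrixGroups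

section
variable {ι : Type} [Fintype ι] [DecidableEq ι] {F : Type*} [Field F]

/-- Conjugation maps `Ω` of one form into `Ω` of another when it maps isometries to
isometries. -/
theorem conj_mem_omegaGL (Qa Qb : (ι → F) → F) (N : GL ι F)
    (h : ∀ x : GL ι F, x ∈ isometryGroup F Qa → N * x * N⁻¹ ∈ isometryGroup F Qb)
    {g : GL ι F} (hg : g ∈ omegaGL Qa) : N * g * N⁻¹ ∈ omegaGL Qb := by
  obtain ⟨f, hf⟩ : ∃ f : ↥(isometryGroup F Qa) →* ↥(isometryGroup F Qb),
      ∀ x, ((f x : ↥(isometryGroup F Qb)) : GL ι F) = N * (x : GL ι F) * N⁻¹ :=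
    ⟨{ toFun := fun x => ⟨N * (x : GL ι F) * N⁻¹, h x x.2⟩
       map_one' := by
         apply Subtype.ext
         show N * ((1 : ↥(isometryGroup F Qa)) : GL ι F) * N⁻¹ = 1
         rw [Subgroup.coe_one, mul_one, mul_inv_cancel]
       map_mul' := fun x y => by
         apply Subtype.ext
         show N * ((x * y : ↥(isometryGroup F Qa)) : GL ι F) * N⁻¹
           = (N * (x : GL ι F) * N⁻¹) * (N * (y : GL ι F) * N⁻¹)
         rw [Subgroup.coe_mul]
         group }, fun x => rfl⟩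
  obtain ⟨g', hg', rfl⟩ := hg
  exact ⟨f g', Cfsg.Agent.H49.map_mem_commutator f hg', hf g'⟩

/-- Conjugation by `P` carries `Ω` of the form `a • Q ∘ P` to `Ω` of `Q`. -/
theorem map_omegaGL_of_sim2 (Q Q' : (ι → F) → F) (P : GL ι F) (a : F) (ha : a ≠ 0)
    (h : ∀ z, Q' z = a * Q (ac P z)) :
    (omegaGL Q').map (MulAut.conj P).toMonoidHom = omegaGL Q := by
  have h' : ∀ z, Q (ac P z) = a⁻¹ * Q' z := by
    intro z
    rw [h, ← mul_assoc, inv_mul_cancel₀ ha, one_mul]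
  have k1 : ∀ x : GL ι F, x ∈ isometryGroup F Q' → P * x * P⁻¹ ∈ isometryGroup F Q := by
    intro x hx
    rw [Cfsg.Agent.H49.mem_isometryGroup_iff] at hx ⊢
    intro u
    show Q (ac (P * x * P⁻¹) u) = Q u
    rw [ac_mul, ac_mul, h']
    show a⁻¹ * Q' ((x : Matrix ι ι F) *ᵥ ac P⁻¹ u) = Q u
    rw [hx, h, ac_ac_inv, ← mul_assoc, inv_mul_cancel₀ ha, one_mul]
  have k2 : ∀ y : GL ι F, y ∈ isometryGroup F Q → P⁻¹ * y * P⁻¹⁻¹ ∈ isometryGroup F Q' := by
    intro y hy
    rw [Cfsg.Agent.H49.mem_isometryGroup_iff] at hy ⊢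
    intro u
    show Q' (ac (P⁻¹ * y * P⁻¹⁻¹) u) = Q' u
    rw [inv_inv, h, h, ac_mul, ac_mul, ac_ac_inv]
    show a * Q ((y : Matrix ι ι F) *ᵥ ac P u) = a * Q (ac P u)
    rw [hy]
  ext g
  rw [Subgroup.mem_map]
  constructor
  · rintro ⟨x, hx, rfl⟩
    exact conj_mem_omegaGL Q' Q P k1 hx
  · intro hg
    refine ⟨P⁻¹ * g * P, ?_, ?_⟩
    · have h1 := conj_mem_omegaGL Q Q' P⁻¹ k2 hg
      rwa [inv_inv] at h1
    · show P * (P⁻¹ * g * P) * P⁻¹ = g
      group

variable {F₀ : Subfield F}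

/-- The rational form of a non-degenerate form is non-degenerate. -/
theorem nd₀_of_val (Q : QuadraticForm F (ι → F)) (Q₀ : QuadraticForm F₀ (ι → F₀))
    (val : ∀ x : ι → F₀, Q (E F₀ x) = ((Q₀ x : F₀) : F))
    (nd : (QuadraticMap.polarBilin Q).Nondegenerate) :
    (QuadraticMap.polarBilin Q₀).Nondegenerate := by
  have key : ∀ x : ι → F₀, (∀ y, QuadraticMap.polar (⇑Q₀) x y = 0) → x = 0 := by
    intro x hx
    have h1 : ∀ y : ι → F₀, QuadraticMap.polar (⇑Q) (E F₀ x) (E F₀ y) = 0 := by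
      intro y
      rw [pol_of_val val, hx y]
      rfl
    have h3 : ∀ z : ι → F, QuadraticMap.polarBilin Q (E F₀ x) z = 0 := by
      intro z
      have h4 : QuadraticMap.polarBilin Q (E F₀ x) (∑ j, z j • E F₀ (Pi.single j (1 : F₀)))
          = 0 := by
        rw [map_sum]
        apply Finset.sum_eq_zero
        intro i _
        rw [map_smul, QuadraticMap.polarBilin_apply_apply, h1, smul_zero]
      rw [← vec_eq_sum F₀ z] at h4
      exact h4
    have h5 : E F₀ x = 0 := nd.1 _ h3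
    apply E_injective F₀
    rw [h5, E_zero]
  constructor
  · intro x hx
    exact key x hx
  · intro y hy
    apply key y
    intro x
    rw [QuadraticMap.polar_comm]
    exact hy x

/-- Coordinates are represented by rational vectors. -/
theorem hdual_of_nd (Q : QuadraticForm F (ι → F)) (Q₀ : QuadraticForm F₀ (ι → F₀))
    (val : ∀ x : ι → F₀, Q (E F₀ x) = ((Q₀ x : F₀) : F))
    (nd₀ : (QuadraticMap.polarBilin Q₀).Nondegenerate) (α : ι) :
    ∃ (d : ι → F₀) (k : F₀), k ≠ 0 ∧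
      ∀ z : ι → F, QuadraticMap.polar (⇑Q) z (E F₀ d) = (k : F) * z α := by
  obtain ⟨d, hd⟩ : ∃ d : ι → F₀, ∀ y : ι → F₀, QuadraticMap.polar (⇑Q₀) d y = y α := by
    refine ⟨(LinearMap.BilinForm.toDual (QuadraticMap.polarBilin Q₀) nd₀).symm
      (LinearMap.proj α), fun y => ?_⟩
    have h0 := LinearMap.BilinForm.apply_toDual_symm_apply (B := QuadraticMap.polarBilin Q₀)
      (hB := nd₀) (LinearMap.proj α) y
    rw [QuadraticMap.polarBilin_apply_apply] at h0
    exact h0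
  refine ⟨d, 1, one_ne_zero, fun z => ?_⟩
  have h1 : ∀ j : ι, QuadraticMap.polar (⇑Q) (E F₀ (Pi.single j (1 : F₀))) (E F₀ d)
      = (((Pi.single j (1 : F₀) : ι → F₀) α : F₀) : F) := by
    intro j
    rw [pol_of_val val, QuadraticMap.polar_comm, hd]
  have h3 : QuadraticMap.polar (⇑Q) z (E F₀ d)
      = ∑ j, z j * (((Pi.single j (1 : F₀) : ι → F₀) α : F₀) : F) := by
    have h4 : QuadraticMap.polarBilin Q (∑ j, z j • E F₀ (Pi.single j (1 : F₀))) (E F₀ d)
        = ∑ j, z j * (((Pi.single j (1 : F₀) : ι → F₀) α : F₀) : F) := by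
      rw [map_sum, LinearMap.sum_apply]
      apply Finset.sum_congr rfl
      intro j _
      rw [map_smul, LinearMap.smul_apply, QuadraticMap.polarBilin_apply_apply, h1, smul_eq_mul]
    rw [← vec_eq_sum F₀ z] at h4
    exact h4
  rw [h3, Finset.sum_eq_single α]
  · rw [Pi.single_eq_same]
    push_cast
    ring
  · intro j _ hj
    rw [Pi.single_eq_of_ne (Ne.symm hj)]
    push_cast
    ring
  · intro h
    exact absurd (Finset.mem_univ α) h

/-- A Siegel element with an irrational coefficient lies outside the subfield group. -/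
theorem strict_of_irr [Fintype F] (Q : QuadraticForm F (ι → F))
    (Q₀ : QuadraticForm F₀ (ι → F₀))
    (val : ∀ x : ι → F₀, Q (E F₀ x) = ((Q₀ x : F₀) : F))
    (nd : (QuadraticMap.polarBilin Q).Nondegenerate)
    (nd₀ : (QuadraticMap.polarBilin Q₀).Nondegenerate)
    (ts : HasTS3 Q) (ts₀ : HasTS3 Q₀) (dim : 13 ≤ Fintype.card ι) (θ : F) (hθ : θ ∉ F₀) :
    ∃ g ∈ omegaGL (⇑Q), g ∉ subfieldSubgroup F₀ 1 := by
  have hdim : finrank F₀ (ι → F₀) = Fintype.card ι := Module.finrank_fintype_fun_eq_card F₀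
  obtain ⟨x, p, hx, hp, hxp, -, -⟩ := exists_hyp_pair_orth_le_one Q₀ nd₀ ts₀ ⊥
    (by rw [finrank_bot]; omega)
  obtain ⟨y, y', hy, hy', hyy', hxy, hpy, -, -⟩ := exists_hyp_pair_orth_hyp Q₀ nd₀ ts₀ x p hx hp
    (by rw [hxp]; exact one_ne_zero)
  have hxF : Q (E F₀ x) = 0 := by rw [val, hx]; rfl
  have hyF : Q (E F₀ y) = 0 := by rw [val, hy]; rfl
  have hxyF : QuadraticMap.polar (⇑Q) (E F₀ x) (E F₀ y) = 0 := by
    rw [pol_of_val val, hxy]; rfl
  have hxpF : QuadraticMap.polar (⇑Q) (E F₀ x) (E F₀ p) = 1 := by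
    rw [pol_of_val val, hxp]; rfl
  have hypF : QuadraticMap.polar (⇑Q) (E F₀ y) (E F₀ p) = 0 := by
    rw [pol_of_val val, QuadraticMap.polar_comm, hpy]; rfl
  have hyyF : QuadraticMap.polar (⇑Q) (E F₀ y) (E F₀ y) = 0 := by
    rw [polar_self', hyF, mul_zero]
  refine ⟨((siegelG Q (E F₀ x) (E F₀ y) hxF hyF hxyF θ : ↥(isometryGroup F (⇑Q))) : GL ι F),
    ⟨_, siegelG_mem_commutator Q nd ts _ _ hxF hyF hxyF θ, rfl⟩, ?_⟩
  intro hmem
  rw [Cfsg.Agent.H99.SS.mem_subfield_iff] at hmem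
  obtain ⟨c, hc, hrat⟩ := hmem
  obtain ⟨G, hG⟩ : ∃ G : Matrix ι ι F, G = (((siegelG Q (E F₀ x) (E F₀ y) hxF hyF hxyF θ :
      ↥(isometryGroup F (⇑Q))) : GL ι F) : Matrix ι ι F) := ⟨_, rfl⟩
  rw [← hG] at hrat
  have hratv : ∀ (v : ι → F₀) (i : ι), c * (G *ᵥ E F₀ v) i ∈ F₀ := by
    intro v i
    have e : c * (G *ᵥ E F₀ v) i = ∑ j, (c * G i j) * ((v j : F₀) : F) := by
      simp only [Matrix.mulVec, dotProduct, Finset.mul_sum]
      apply Finset.sum_congr rfl
      intro j _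
      rw [mul_assoc]
      rfl
    rw [e]
    exact F₀.sum_mem (fun j _ => F₀.mul_mem (hrat i j) (v j).2)
  have hGy : G *ᵥ E F₀ y = E F₀ y := by
    rw [hG, siegelG_mulVec, hxyF, hyyF]
    simp
  have hGp : G *ᵥ E F₀ p = E F₀ p + θ • E F₀ y := by
    rw [hG, siegelG_mulVec, hxpF, hypF]
    simp
  have hy0 : y ≠ 0 := by
    rintro rfl
    rw [QuadraticMap.polar_zero_left] at hyy'
    exact zero_ne_one hyy'
  obtain ⟨i, hi⟩ : ∃ i, y i ≠ 0 := by
    by_contra hcon
    push Not at hcon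
    exact hy0 (funext hcon)
  have hi' : ((y i : F₀) : F) ≠ 0 := fun h => hi (Subtype.ext h)
  have h1 := hratv y i
  rw [hGy] at h1
  have hcm : c ∈ F₀ := by
    have h3 := F₀.mul_mem h1 (F₀.inv_mem (y i).2)
    have e : c * E F₀ y i * ((y i : F₀) : F)⁻¹ = c := by
      show c * ((y i : F₀) : F) * ((y i : F₀) : F)⁻¹ = c
      rw [mul_assoc, mul_inv_cancel₀ hi', mul_one]
    rwa [e] at h3
  have h4 := hratv p i
  rw [hGp] at h4
  apply hθ
  have h5 : (E F₀ p + θ • E F₀ y) i ∈ F₀ := by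
    have h6 := F₀.mul_mem (F₀.inv_mem hcm) h4
    rwa [← mul_assoc, inv_mul_cancel₀ hc, one_mul] at h6
  have h7 : θ * ((y i : F₀) : F) ∈ F₀ := by
    have h8 := F₀.sub_mem h5 (p i).2
    have e : (E F₀ p + θ • E F₀ y) i - ((p i : F₀) : F) = θ * ((y i : F₀) : F) := by
      show ((p i : F₀) : F) + θ * ((y i : F₀) : F) - ((p i : F₀) : F) = _
      ring
    rwa [e] at h8
  have h9 := F₀.mul_mem h7 (F₀.inv_mem (y i).2)
  rwa [mul_assoc, mul_inv_cancel₀ hi', mul_one] at h9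

end

/-- The subfield group of a rational structure (up to a scalar) of a non-degenerate quadratic
form in dimension at least `13` is maximal in `Ω`. -/
theorem qform_subfield_maximal {F : Type*} [Field F] [Fintype F] {n : ℕ} (hn : 13 ≤ n)
    (Q : (Fin n → F) → F) (hQ : IsNondegenerateQuadraticForm Q) (F₀ : Subfield F) (r : ℕ)
    (hr : r.Prime) (hcard : Fintype.card F = Nat.card F₀ ^ r) (P : GL (Fin n) F) (ζ : F)
    (hζ : ζ ≠ 0) (hP : IsQuadFormRationalStructure (fun v : Fin n → F => ζ * Q v) F₀ P) :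
    IsMaximalIn (omegaGL Q) (subfieldSubgroup F₀ P ⊓ omegaGL Q) := by
  classical
  obtain ⟨Q', hQ'⟩ : ∃ Q' : QuadraticForm F (Fin n → F), ∀ z, Q' z = ζ * Q (ac P z) :=
    ⟨ζ • (toQF Q hQ).comp (Matrix.mulVecLin (P : Matrix (Fin n) (Fin n) F)), fun z => rfl⟩
  obtain ⟨Q₁, hQ₁⟩ := exists_rat_form F₀ Q' (fun x => by
    rw [hQ']
    exact hP (E F₀ x) (E_rat F₀ x))
  have hpol : ∀ x y, QuadraticMap.polar (⇑Q') x y
      = ζ * QuadraticMap.polar (⇑(toQF Q hQ)) (ac P x) (ac P y) := by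
    intro x y
    unfold QuadraticMap.polar
    rw [hQ', hQ', hQ', ac_add, toQF_apply, toQF_apply, toQF_apply]
    ring
  have nd : (QuadraticMap.polarBilin Q').Nondegenerate := by
    have hnd := toQF_nondeg hQ
    have key : ∀ x : Fin n → F, (∀ y, QuadraticMap.polar (⇑Q') x y = 0) → x = 0 := by
      intro x hx
      have h1 : ∀ z, QuadraticMap.polarBilin (toQF Q hQ) (ac P x) z = 0 := by
        intro z
        have h3 := hx (ac P⁻¹ z)
        rw [hpol, ac_ac_inv] at h3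
        rw [QuadraticMap.polarBilin_apply_apply]
        exact (mul_eq_zero.mp h3).resolve_left hζ
      have h5 : ac P x = 0 := hnd.1 _ h1
      apply ac_injective P
      rw [h5, ac_zero]
    constructor
    · intro x hx
      exact key x hx
    · intro y hy
      apply key y
      intro x
      rw [QuadraticMap.polar_comm]
      exact hy x
  have nd₀ := nd₀_of_val Q' Q₁ hQ₁ nd
  have hV : finrank F (Fin n → F) = n := Module.finrank_fin_fun F
  have hV₀ : finrank F₀ (Fin n → F₀) = n := Module.finrank_fin_fun F₀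
  have ts := hasTS3_of_finrank Q' nd (by rw [hV]; omega)
  have ts₀ := hasTS3_of_finrank Q₁ nd₀ (by rw [hV₀]; omega)
  have dim : 13 ≤ Fintype.card (Fin n) := by rw [Fintype.card_fin]; exact hn
  have : Fintype F₀ := Fintype.ofFinite _
  obtain ⟨θ, hθ⟩ : ∃ c : F, c ∉ F₀ := by
    by_contra hcon
    push Not at hcon
    have e : Fintype.card F₀ = Fintype.card F := Fintype.card_congr (Equiv.subtypeUnivEquiv hcon)
    rw [Nat.card_eq_fintype_card, e] at hcard
    have h3 : 1 < Fintype.card F := Fintype.one_lt_card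
    have h4 : Fintype.card F ^ 1 < Fintype.card F ^ r := Nat.pow_lt_pow_right h3 hr.one_lt
    rw [pow_one] at h4
    omega
  have hmax := subfield_maximal_gen F₀ Q' Q₁ r hr hcard hQ₁ nd nd₀ ts ts₀ dim
    (hdual_of_nd Q' Q₁ hQ₁ nd₀) (strict_of_irr Q' Q₁ hQ₁ nd nd₀ ts ts₀ dim θ hθ)
  have h := Cfsg.Agent.H99.isMaximalIn_map (MulAut.conj P) hmax
  have e1 := map_omegaGL_of_sim2 Q (⇑Q') P ζ hζ hQ'
  rw [e1, Subgroup.map_inf_eq _ _ _ (MulAut.conj P).injective, e1, ← subfield_conj_eq] at h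
  exact h

end Cfsg.Agent.H99.OS
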