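import Cfsg.Agent.H99.Mat2

set_option autoImplicit false

namespace Cfsg.Agent.H99

open Matrix

section
variable {A : Type*} [Ring A]

/-- Multiplication table of the quaternion units. -/
theorem quat_table (I J : A) (hI : I * I = -1) (hJ : J * J = -1) (hIJ : I * J = -(J * I)) :
    (I * J) * (I * J) = -1 ∧ I * (I * J) = -J ∧ (I * J) * I = J ∧ J * (I * J) = I ∧
    (I * J) * J = -I ∧ J * I = -(I * J) := by
  have hJI : J * I = -(I * J) := by rw [hIJ, neg_neg]
  have h1 : I * (I * J) = -J := by rw [← mul_assoc, hI, neg_one_mul]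
  have h2 : (I * J) * I = J := by
    rw [mul_assoc, hJI, mul_neg, h1, neg_neg]
  have h3 : J * (I * J) = I := by
    rw [← mul_assoc, hJI, neg_mul, mul_assoc, hJ, mul_neg, mul_one, neg_neg]
  have h4 : (I * J) * J = -I := by rw [mul_assoc, hJ, mul_neg, mul_one]
  have h5 : (I * J) * (I * J) = -1 := by rw [mul_assoc, h3, hI]
  exact ⟨h5, h1, h2, h3, h4, hJI⟩

theorem quat_T (I J K : A) (hI : I * I = -1) (hJ : J * J = -1) (hK : K * K = -1)
    (hIJ : I * J = K) (hJI : J * I = -K) (hIK : I * K = -J) (hKI : K * I = J)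
    (hJK : J * K = I) (hKJ : K * J = -I) :
    (-1 + I + J + K) * (-1 - I - J - K) = 1 + 1 + 1 + 1 ∧
    (-1 - I - J - K) * (-1 + I + J + K) = 1 + 1 + 1 + 1 ∧
    (-1 + I + J + K) * I = K * (-1 + I + J + K) ∧
    (-1 + I + J + K) * J = I * (-1 + I + J + K) ∧
    (-1 + I + J + K) * K = J * (-1 + I + J + K) ∧
    (-1 + I + J + K) * (-1 + I + J + K) =
      -((-1 + I + J + K) + (-1 + I + J + K)) - (1 + 1 + 1 + 1) := by
  refine ⟨?_, ?_, ?_, ?_, ?_, ?_⟩ <;>
  · simp only [mul_add, add_mul, mul_sub, sub_mul, mul_neg, neg_mul, mul_one, one_mul, hI, hJ, hK,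
      hIJ, hJI, hIK, hKI, hJK, hKJ, neg_neg]
    abel

end

theorem mem_normalizer_of_closure {G : Type*} [Group G] (s : Set G) (w : G)
    (h1 : ∀ g ∈ s, w * g * w⁻¹ ∈ Subgroup.closure s)
    (h2 : ∀ g ∈ s, w⁻¹ * g * w ∈ Subgroup.closure s) :
    w ∈ Subgroup.normalizer ((Subgroup.closure s : Subgroup G) : Set G) := by
  have key : ∀ u : G, (∀ g ∈ s, u * g * u⁻¹ ∈ Subgroup.closure s) →
      ∀ n ∈ Subgroup.closure s, u * n * u⁻¹ ∈ Subgroup.closure s := by
    intro u hu n hn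
    have h3 : Subgroup.closure s ≤ (Subgroup.closure s).comap (MulAut.conj u).toMonoidHom := by
      rw [Subgroup.closure_le]
      intro g hg
      exact hu g hg
    exact h3 hn
  rw [Subgroup.mem_set_normalizer_iff]
  intro n
  constructor
  · exact key w h1 n
  · intro hn
    have h4 := key w⁻¹ (by simpa using h2) (w * n * w⁻¹) hn
    simpa [mul_assoc] using h4

end Cfsg.Agent.H99

namespace Cfsg.Agent.H99

open Matrix QuaternionGroup

theorem quat_gen : ∀ q : QuaternionGroup 2,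
    ∃ k : ℕ, q = (a 1 : QuaternionGroup 2) ^ k ∨ q = xa 0 * (a 1 : QuaternionGroup 2) ^ k := by
  have : NeZero (2 * 2) := ⟨by norm_num⟩
  rintro (i | i)
  · exact ⟨i.val, Or.inl (by rw [QuaternionGroup.a_one_pow, ZMod.natCast_zmod_val])⟩
  · exact ⟨i.val, Or.inr (by
      rw [QuaternionGroup.a_one_pow, QuaternionGroup.xa_mul_a, zero_add, ZMod.natCast_zmod_val])⟩

/-- A subgroup of `GL₂(F)` isomorphic to the quaternion group of order 8 is generated by two
matrices `I`, `J` with `I² = J² = -1` and `IJ = -JI`. -/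
theorem quat_matrices {F : Type*} [Field F] (R : Subgroup (GL (Fin 2) F))
    (e : ↥R ≃* QuaternionGroup 2) :
    ∃ gI gJ : GL (Fin 2) F, gI ∈ R ∧ gJ ∈ R ∧ R = Subgroup.closure {gI, gJ} ∧
      (gI : Matrix (Fin 2) (Fin 2) F) * (gI : Matrix (Fin 2) (Fin 2) F) = -1 ∧
      (gJ : Matrix (Fin 2) (Fin 2) F) * (gJ : Matrix (Fin 2) (Fin 2) F) = -1 ∧
      (gI : Matrix (Fin 2) (Fin 2) F) * (gJ : Matrix (Fin 2) (Fin 2) F) =
        -((gJ : Matrix (Fin 2) (Fin 2) F) * (gI : Matrix (Fin 2) (Fin 2) F)) := by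
  classical
  obtain ⟨qI, hqI⟩ : ∃ qI : ↥R, qI = e.symm (a 1) := ⟨_, rfl⟩
  obtain ⟨qJ, hqJ⟩ : ∃ qJ : ↥R, qJ = e.symm (xa 0) := ⟨_, rfl⟩
  obtain ⟨qC, hqC⟩ : ∃ qC : ↥R, qC = e.symm (a 2) := ⟨_, rfl⟩
  have r1 : qI * qI = qC := by
    rw [hqI, hqC, ← map_mul]
    congr 1
  have r2 : qJ * qJ = qC := by
    rw [hqJ, hqC, ← map_mul]
    congr 1
  have r3 : qC * qC = 1 := by
    rw [hqC, ← map_mul, ← map_one e.symm]
    congr 1
  have r4 : qC ≠ 1 := by
    rw [hqC]
    intro h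
    rw [← map_one e.symm] at h
    exact absurd (e.symm.injective h) (by decide)
  have r5 : qI * qJ = qJ * qI * qC := by
    rw [hqI, hqJ, hqC, ← map_mul, ← map_mul, ← map_mul]
    congr 1
  have r6 : qC * qI = qI * qC := by
    rw [hqI, hqC, ← map_mul, ← map_mul]
    congr 1
  have r7 : qC * qJ = qJ * qC := by
    rw [hqJ, hqC, ← map_mul, ← map_mul]
    congr 1
  -- to GL
  have g1 : (qI : GL (Fin 2) F) * qI = qC := by rw [← Subgroup.coe_mul, r1]
  have g2 : (qJ : GL (Fin 2) F) * qJ = qC := by rw [← Subgroup.coe_mul, r2]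
  have g3 : (qC : GL (Fin 2) F) * qC = 1 := by rw [← Subgroup.coe_mul, r3, Subgroup.coe_one]
  have g4 : (qC : GL (Fin 2) F) ≠ 1 := by
    intro h
    exact r4 (Subtype.ext h)
  have g5 : (qI : GL (Fin 2) F) * qJ = qJ * qI * qC := by
    rw [← Subgroup.coe_mul, r5, Subgroup.coe_mul, Subgroup.coe_mul]
  have g6 : (qC : GL (Fin 2) F) * qI = qI * qC := by
    rw [← Subgroup.coe_mul, r6, Subgroup.coe_mul]
  have g7 : (qC : GL (Fin 2) F) * qJ = qJ * qC := by
    rw [← Subgroup.coe_mul, r7, Subgroup.coe_mul]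
  -- to matrices
  obtain ⟨I, hI⟩ : ∃ I : Matrix (Fin 2) (Fin 2) F, I = ((qI : GL (Fin 2) F) : Matrix _ _ F) :=
    ⟨_, rfl⟩
  obtain ⟨J, hJ⟩ : ∃ J : Matrix (Fin 2) (Fin 2) F, J = ((qJ : GL (Fin 2) F) : Matrix _ _ F) :=
    ⟨_, rfl⟩
  obtain ⟨C, hC⟩ : ∃ C : Matrix (Fin 2) (Fin 2) F, C = ((qC : GL (Fin 2) F) : Matrix _ _ F) :=
    ⟨_, rfl⟩
  have m1 : I * I = C := by rw [hI, hC, ← Units.val_mul, g1]
  have m2 : J * J = C := by rw [hJ, hC, ← Units.val_mul, g2]
  have m3 : C * C = 1 := by rw [hC, ← Units.val_mul, g3, Units.val_one]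
  have m5 : I * J = J * I * C := by
    rw [hI, hJ, hC, ← Units.val_mul, g5, Units.val_mul, Units.val_mul]
  have m6 : C * I = I * C := by rw [hI, hC, ← Units.val_mul, g6, Units.val_mul]
  have m7 : C * J = J * C := by rw [hJ, hC, ← Units.val_mul, g7, Units.val_mul]
  have hCneg : C = -1 := by
    by_cases hsc : ∃ z : F, C = z • (1 : Matrix (Fin 2) (Fin 2) F)
    · obtain ⟨z, hz⟩ := hsc
      have hzz : z * z = 1 := by
        have h1 := congrFun (congrFun m3 0) 0
        rw [hz] at h1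
        simpa using h1
      rcases mul_self_eq_one_iff.mp hzz with h | h
      · exfalso
        apply g4
        apply Units.ext
        rw [← hC, hz, h, one_smul, Units.val_one]
      · rw [hz, h]
        simp
    · push Not at hsc
      exfalso
      have hcomm := mat2_centralizer_comm C hsc I J m6.symm m7.symm
      have h1 : (qI : GL (Fin 2) F) * qJ = qJ * qI := by
        apply Units.ext
        rw [Units.val_mul, Units.val_mul, ← hI, ← hJ]
        exact hcomm
      rw [h1] at g5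
      exact g4 (mul_left_cancel (a := (qJ : GL (Fin 2) F) * qI) (by rw [mul_one]; exact g5.symm))
  refine ⟨qI, qJ, qI.2, qJ.2, ?_, ?_, ?_, ?_⟩
  · apply le_antisymm
    · intro h hh
      obtain ⟨k, hk | hk⟩ := quat_gen (e ⟨h, hh⟩)
      · have h1 : (⟨h, hh⟩ : ↥R) = qI ^ k := by
          rw [← e.symm_apply_apply ⟨h, hh⟩, hk, map_pow, hqI]
        have h2 : h = (qI : GL (Fin 2) F) ^ k := by
          rw [← Subgroup.coe_pow, ← h1]
        rw [h2]
        exact Subgroup.pow_mem _ (Subgroup.subset_closure (by simp)) k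
      · have h1 : (⟨h, hh⟩ : ↥R) = qJ * qI ^ k := by
          rw [← e.symm_apply_apply ⟨h, hh⟩, hk, map_mul, map_pow, hqI, hqJ]
        have h2 : h = (qJ : GL (Fin 2) F) * (qI : GL (Fin 2) F) ^ k := by
          rw [← Subgroup.coe_pow, ← Subgroup.coe_mul, ← h1]
        rw [h2]
        exact Subgroup.mul_mem _ (Subgroup.subset_closure (by simp))
          (Subgroup.pow_mem _ (Subgroup.subset_closure (by simp)) k)
    · rw [Subgroup.closure_le]
      rintro g (rfl | rfl)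
      · exact qI.2
      · exact qJ.2
  · rw [← hI, m1, hCneg]
  · rw [← hJ, m2, hCneg]
  · rw [← hI, ← hJ, m5, hCneg]
    simp

end Cfsg.Agent.H99
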