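import Cfsg.Prelude.Def_GeometricClasses
import Cfsg.Agent.H99.Quat

set_option autoImplicit false

namespace Cfsg.Agent.H99

open Matrix
open scoped MatrixGroups

section
variable {F : Type*} [Field F]

theorem mem_specialLinear_iff (g : GL (Fin 2) F) :
    g ∈ Cfsg.Geo.specialLinear (Fin 2) F ↔ (g : Matrix (Fin 2) (Fin 2) F).det = 1 := by
  unfold Cfsg.Geo.specialLinear
  rw [MonoidHom.mem_ker]
  constructor
  · intro h
    have := congrArg Units.val h
    simpa using this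
  · intro h
    apply Units.ext
    simpa using h

theorem sl2_conj_eq [Fintype F] (hodd : Fintype.card F % 2 = 1) (x y : GL (Fin 2) F) (t : F)
    (htr : (x : Matrix (Fin 2) (Fin 2) F).trace = t) (hdet : (x : Matrix (Fin 2) (Fin 2) F).det = 1)
    (htr' : (y : Matrix (Fin 2) (Fin 2) F).trace = t)
    (hdet' : (y : Matrix (Fin 2) (Fin 2) F).det = 1) (ht : t ^ 2 - 4 ≠ 0) :
    ∃ g ∈ Cfsg.Geo.specialLinear (Fin 2) F, g⁻¹ * x * g = y := by
  obtain ⟨P, hP, hMP⟩ := mat2_sl_conj hodd _ _ t htr hdet htr' hdet' ht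
  obtain ⟨g, hg⟩ : ∃ g : GL (Fin 2) F, (g : Matrix (Fin 2) (Fin 2) F) = P :=
    ⟨Matrix.GeneralLinearGroup.mkOfDetNeZero P (by rw [hP]; exact one_ne_zero), rfl⟩
  refine ⟨g, ?_, ?_⟩
  · rw [mem_specialLinear_iff, hg, hP]
  · have h1 : x * g = g * y := by
      apply Units.ext
      rw [Units.val_mul, Units.val_mul, hg]
      exact hMP
    rw [mul_assoc, h1, ← mul_assoc, inv_mul_cancel, one_mul]

end

theorem card_arith (r m : ℕ) (hrp : r.Prime) (hr : 5 ≤ r) (hdvd : m ∣ 8) (hne1 : m ≠ 1)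
    (hmod : 8 ≡ m [MOD r]) : m = 8 := by
  have hle : m ≤ 8 := Nat.le_of_dvd (by norm_num) hdvd
  have hd : r ∣ 8 - m := (Nat.modEq_iff_dvd' hle).mp hmod.symm
  have h2 : m = 2 ∨ m = 4 ∨ m = 8 := by
    interval_cases m <;> simp_all
  rcases h2 with h | h | h
  · exfalso
    subst h
    have h5 := Nat.le_of_dvd (by norm_num) hd
    have h6 : r ∣ 6 := hd
    interval_cases r
    · exact absurd h6 (by decide)
    · exact absurd hrp (by decide)
  · exfalso
    subst h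
    have h5 := Nat.le_of_dvd (by norm_num) hd
    omega
  · exact h

theorem centralizes_of_normalizes {G : Type*} [Group G] (R : Subgroup G) (y : G)
    (hy : y ∈ Subgroup.normalizer (R : Set G)) (r : ℕ) [Fact r.Prime] (hyr : y ^ r = 1)
    (c : G) (hcR : c ∈ R) (hc1 : c ≠ 1) (hcy : c * y = y * c) (hcard : Nat.card R = 8)
    (hr : 5 ≤ r) : ∀ h ∈ R, h * y = y * h := by
  classical
  have hfin : Finite R := Nat.finite_of_card_ne_zero (by rw [hcard]; norm_num)
  have : Fintype R := Fintype.ofFinite R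
  have hnorm : ∀ h : G, h ∈ R → y * h * y⁻¹ ∈ R := fun h hh =>
    (Subgroup.mem_set_normalizer_iff.mp hy h).mp hh
  let f : Function.End ↥R := fun h => ⟨y * h * y⁻¹, hnorm h h.2⟩
  have hfpow : ∀ (k : ℕ) (h : ↥R), (((f ^ k) h : ↥R) : G) = y ^ k * h * (y ^ k)⁻¹ := by
    intro k
    induction k with
    | zero =>
      intro h
      rw [pow_zero, pow_zero, one_mul, inv_one, mul_one]
      rfl
    | succ k ih =>
      intro h
      rw [pow_succ]
      change (((f ^ k) (f h) : ↥R) : G) = _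
      rw [ih]
      simp [f, pow_succ, mul_assoc]
  have hf : f ^ r ^ 1 = 1 := by
    rw [pow_one]
    funext h
    apply Subtype.ext
    rw [hfpow, hyr]
    simp
    rfl
  have hmod := Equiv.Perm.card_fixedPoints_modEq (p := r) (n := 1) hf
  let C : Subgroup ↥R := (Subgroup.centralizer {y}).subgroupOf R
  have hfix : Function.fixedPoints f = (C : Set ↥R) := by
    ext h
    rw [Function.mem_fixedPoints, Function.IsFixedPt]
    simp only [C, SetLike.mem_coe, Subgroup.mem_subgroupOf, Subgroup.mem_centralizer_iff,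
      Set.mem_singleton_iff, forall_eq]
    constructor
    · intro hh
      have h1 : y * (h : G) * y⁻¹ = h := congrArg Subtype.val hh
      rw [mul_inv_eq_iff_eq_mul] at h1
      exact h1
    · intro hh
      apply Subtype.ext
      show y * (h : G) * y⁻¹ = h
      rw [mul_inv_eq_iff_eq_mul]
      exact hh
  have hcardfix : Fintype.card (Function.fixedPoints f) = Nat.card C := by
    rw [← Nat.card_eq_fintype_card]
    exact Nat.card_congr (Equiv.setCongr hfix)
  have hdvd : Nat.card C ∣ 8 := by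
    rw [← hcard]
    exact Subgroup.card_subgroup_dvd_card C
  have hne1 : Nat.card C ≠ 1 := by
    intro h1
    have hsub : Subsingleton C := (Nat.card_eq_one_iff_unique.mp h1).1
    have hcC : (⟨c, hcR⟩ : ↥R) ∈ C := by
      simp only [C, Subgroup.mem_subgroupOf, Subgroup.mem_centralizer_iff,
        Set.mem_singleton_iff, forall_eq]
      exact hcy.symm
    have h2 : (⟨⟨c, hcR⟩, hcC⟩ : ↥C) = 1 := Subsingleton.elim _ _
    apply hc1
    have h3 := congrArg (fun u : ↥C => ((u : ↥R) : G)) h2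
    simpa using h3
  have hC8 : Nat.card C = 8 := by
    rw [Nat.card_eq_fintype_card (α := ↥R)] at hcard
    rw [hcard, hcardfix] at hmod
    exact card_arith r (Nat.card C) Fact.out hr hdvd hne1 hmod
  have hCtop : C = ⊤ := by
    apply Subgroup.eq_top_of_card_eq
    rw [hC8, hcard]
  intro h hh
  have h1 : (⟨h, hh⟩ : ↥R) ∈ C := by rw [hCtop]; exact Subgroup.mem_top _
  simp only [C, Subgroup.mem_subgroupOf, Subgroup.mem_centralizer_iff,
    Set.mem_singleton_iff, forall_eq] at h1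
  exact h1.symm

end Cfsg.Agent.H99

namespace Cfsg.Agent.H99

open Matrix
open scoped MatrixGroups

section
variable {F : Type*} [Field F]

theorem quat_nonscalar (h2 : (2 : F) ≠ 0) (I J : Matrix (Fin 2) (Fin 2) F)
    (hI : I * I = -1) (hJ : J * J = -1) (hIJ : I * J = -(J * I)) :
    ∀ z : F, I ≠ z • (1 : Matrix (Fin 2) (Fin 2) F) := by
  intro z hz
  rw [hz] at hIJ hI
  simp only [Matrix.smul_mul, Matrix.mul_smul, Matrix.one_mul, Matrix.mul_one] at hIJ hI
  have h00 := congrFun (congrFun hIJ 0) 0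
  have h01 := congrFun (congrFun hIJ 0) 1
  have h10 := congrFun (congrFun hIJ 1) 0
  have h11 := congrFun (congrFun hIJ 1) 1
  have hz0 : z ≠ 0 := by
    intro h0
    have := congrFun (congrFun hI 0) 0
    simp [h0] at this
  simp only [Matrix.smul_apply, Matrix.neg_apply, smul_eq_mul] at h00 h01 h10 h11
  have k : ∀ a : F, z * a = -(z * a) → a = 0 := by
    intro a ha
    have h3 : (2 * z) * a = 0 := by linear_combination ha
    rcases mul_eq_zero.mp h3 with h | h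
    · exact absurd h (mul_ne_zero h2 hz0)
    · exact h
  have hJ0 : J = 0 := by
    ext i j
    fin_cases i <;> fin_cases j
    · exact k _ h00
    · exact k _ h01
    · exact k _ h10
    · exact k _ h11
  rw [hJ0] at hJ
  have := congrFun (congrFun hJ 0) 0
  simp at this

/-- An element of `SL₂(F)` whose square is scalar is conjugate into a quaternion subgroup. -/
theorem quat_fix_two [Fintype F] (hodd : Fintype.card F % 2 = 1) (h2 : (2 : F) ≠ 0)
    (R : Subgroup (GL (Fin 2) F)) (gI gJ : GL (Fin 2) F) (hgI : gI ∈ R)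
    (hI : (gI : Matrix (Fin 2) (Fin 2) F) * (gI : Matrix (Fin 2) (Fin 2) F) = -1)
    (hJ : (gJ : Matrix (Fin 2) (Fin 2) F) * (gJ : Matrix (Fin 2) (Fin 2) F) = -1)
    (hIJ : (gI : Matrix (Fin 2) (Fin 2) F) * (gJ : Matrix (Fin 2) (Fin 2) F) =
        -((gJ : Matrix (Fin 2) (Fin 2) F) * (gI : Matrix (Fin 2) (Fin 2) F)))
    (x : GL (Fin 2) F) (hx : x ∈ Cfsg.Geo.specialLinear (Fin 2) F) (z : F)
    (hxz : (x : Matrix (Fin 2) (Fin 2) F) * (x : Matrix (Fin 2) (Fin 2) F) = z • 1)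
    (hns : ∀ z : F, (x : Matrix (Fin 2) (Fin 2) F) ≠ z • (1 : Matrix (Fin 2) (Fin 2) F)) :
    ∃ g ∈ Cfsg.Geo.specialLinear (Fin 2) F, g⁻¹ * x * g ∈ R := by
  rw [mem_specialLinear_iff] at hx
  obtain ⟨htr, -⟩ := mat2_trace_det_of_sq _ hns 0 z (by rw [hxz, zero_smul, zero_add])
  obtain ⟨htrI, hdetI⟩ := mat2_trace_det_of_sq _ (quat_nonscalar h2 _ _ hI hJ hIJ) 0 (-1)
    (by rw [hI, zero_smul, zero_add, neg_smul, one_smul])
  rw [neg_neg] at hdetI
  have h4 : (0 : F) ^ 2 - 4 ≠ 0 := by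
    have : (0 : F) ^ 2 - 4 = -(2 * 2) := by ring
    rw [this]
    exact neg_ne_zero.mpr (mul_ne_zero h2 h2)
  obtain ⟨g, hg, hgx⟩ := sl2_conj_eq hodd x gI 0 htr hx htrI hdetI h4
  exact ⟨g, hg, by rw [hgx]; exact hgI⟩

/-- An element of `SL₂(F)` whose cube is scalar is conjugate into the normalizer of a quaternion
subgroup. -/
theorem quat_fix_three [Fintype F] (hodd : Fintype.card F % 2 = 1) (h2 : (2 : F) ≠ 0)
    (h3 : (3 : F) ≠ 0)
    (gI gJ : GL (Fin 2) F)
    (hI : (gI : Matrix (Fin 2) (Fin 2) F) * (gI : Matrix (Fin 2) (Fin 2) F) = -1)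
    (hJ : (gJ : Matrix (Fin 2) (Fin 2) F) * (gJ : Matrix (Fin 2) (Fin 2) F) = -1)
    (hIJ : (gI : Matrix (Fin 2) (Fin 2) F) * (gJ : Matrix (Fin 2) (Fin 2) F) =
        -((gJ : Matrix (Fin 2) (Fin 2) F) * (gI : Matrix (Fin 2) (Fin 2) F)))
    (x : GL (Fin 2) F) (hx : x ∈ Cfsg.Geo.specialLinear (Fin 2) F) (z : F)
    (hxz : (x : Matrix (Fin 2) (Fin 2) F) * (x : Matrix (Fin 2) (Fin 2) F) *
      (x : Matrix (Fin 2) (Fin 2) F) = z • 1)
    (hns : ∀ z : F, (x : Matrix (Fin 2) (Fin 2) F) ≠ z • (1 : Matrix (Fin 2) (Fin 2) F)) :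
    ∃ g ∈ Cfsg.Geo.specialLinear (Fin 2) F,
      g⁻¹ * x * g ∈ Subgroup.normalizer ((Subgroup.closure {gI, gJ} : Subgroup (GL (Fin 2) F)) :
        Set (GL (Fin 2) F)) := by
  rw [mem_specialLinear_iff] at hx
  obtain ⟨M, hM⟩ : ∃ M : Matrix (Fin 2) (Fin 2) F, M = (x : Matrix (Fin 2) (Fin 2) F) := ⟨_, rfl⟩
  obtain ⟨I, hIdef⟩ : ∃ I : Matrix (Fin 2) (Fin 2) F, I = (gI : Matrix (Fin 2) (Fin 2) F) :=
    ⟨_, rfl⟩
  obtain ⟨J, hJdef⟩ : ∃ J : Matrix (Fin 2) (Fin 2) F, J = (gJ : Matrix (Fin 2) (Fin 2) F) :=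
    ⟨_, rfl⟩
  rw [← hM] at hx hxz hns
  rw [← hIdef] at hI hIJ
  rw [← hJdef] at hJ hIJ
  obtain ⟨t, ht⟩ : ∃ t : F, t = M.trace := ⟨_, rfl⟩
  -- the trace is ±1
  have hcay := mat2_cayley M
  rw [hx, one_smul, ← ht] at hcay
  have hcube : (t ^ 2 - 1) • M = (z + t) • (1 : Matrix (Fin 2) (Fin 2) F) := by
    have h5 : M * M * M = (t ^ 2 - 1) • M - t • (1 : Matrix (Fin 2) (Fin 2) F) := by
      rw [hcay, sub_mul, Matrix.smul_mul, hcay, Matrix.one_mul, smul_sub, smul_smul, sub_smul,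
        one_smul, pow_two]
      abel
    rw [hxz] at h5
    rw [add_smul, h5]
    abel
  have ht1 : t ^ 2 - 1 = 0 := by
    by_contra hne
    apply hns ((t ^ 2 - 1)⁻¹ * (z + t))
    calc M = (t ^ 2 - 1)⁻¹ • ((t ^ 2 - 1) • M) := by
          rw [smul_smul, inv_mul_cancel₀ hne, one_smul]
      _ = ((t ^ 2 - 1)⁻¹ * (z + t)) • (1 : Matrix (Fin 2) (Fin 2) F) := by
          rw [hcube, smul_smul]
  have ht4 : t ^ 2 - 4 ≠ 0 := by
    have : t ^ 2 - 4 = -3 := by linear_combination ht1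
    rw [this]
    exact neg_ne_zero.mpr h3
  -- the quaternion relations
  obtain ⟨q1, q2, q3, q4, q5, q6⟩ := quat_table I J hI hJ hIJ
  obtain ⟨T1, T2, T3, T4, T5, T6⟩ := quat_T I J (I * J) hI hJ q1 rfl q6 q2 q3 q4 q5
  obtain ⟨T, hT⟩ : ∃ T : Matrix (Fin 2) (Fin 2) F, T = -1 + I + J + I * J := ⟨_, rfl⟩
  obtain ⟨T', hT'⟩ : ∃ T' : Matrix (Fin 2) (Fin 2) F, T' = -1 - I - J - I * J := ⟨_, rfl⟩
  rw [← hT] at T1 T2 T3 T4 T5 T6
  rw [← hT'] at T1 T2
  have h4 : (1 + 1 + 1 + 1 : Matrix (Fin 2) (Fin 2) F) = (4 : F) • 1 := by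
    have : (4 : F) = 1 + 1 + 1 + 1 := by norm_num
    rw [this, add_smul, add_smul, add_smul, one_smul]
  rw [h4] at T1 T2 T6
  obtain ⟨s, hs⟩ : ∃ s : F, s = -t := ⟨_, rfl⟩
  have hss : s * s = 1 := by
    rw [hs]
    linear_combination ht1
  have h44 : (4 : F) ≠ 0 := by
    have : (4 : F) = 2 * 2 := by norm_num
    rw [this]
    exact mul_ne_zero h2 h2
  have hc : (s * 2⁻¹) * (s * 2⁻¹) * 4 = 1 := by
    field_simp
    linear_combination 4 * hss
  have hWW' : ((s * 2⁻¹) • T) * ((s * 2⁻¹) • T') = 1 := by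
    rw [Matrix.smul_mul, Matrix.mul_smul, T1, smul_smul, smul_smul, hc, one_smul]
  have hW'W : ((s * 2⁻¹) • T') * ((s * 2⁻¹) • T) = 1 := by
    rw [Matrix.smul_mul, Matrix.mul_smul, T2, smul_smul, smul_smul, hc, one_smul]
  obtain ⟨w, hw⟩ : ∃ w : GL (Fin 2) F, (w : Matrix (Fin 2) (Fin 2) F) = (s * 2⁻¹) • T :=
    ⟨⟨(s * 2⁻¹) • T, (s * 2⁻¹) • T', hWW', hW'W⟩, rfl⟩
  have hsq : ((s * 2⁻¹) • T) * ((s * 2⁻¹) • T) =
      (-s) • ((s * 2⁻¹) • T) + (-1 : F) • (1 : Matrix (Fin 2) (Fin 2) F) := by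
    rw [Matrix.smul_mul, Matrix.mul_smul, T6, smul_smul, smul_smul, smul_sub, smul_neg, smul_smul,
      ← two_smul F T, smul_smul]
    have e1 : s * 2⁻¹ * (s * 2⁻¹) * 2 = s * s * 2⁻¹ := by
      field_simp
    have e2 : -s * (s * 2⁻¹) = -(s * s * 2⁻¹) := by ring
    rw [e1, e2, hc, hss, neg_smul, neg_smul, one_smul]
    abel
  have hWns : ∀ c : F, (s * 2⁻¹) • T ≠ c • (1 : Matrix (Fin 2) (Fin 2) F) := by
    intro c hcW
    have hc0 : c ≠ 0 := by
      intro h0
      rw [hcW, h0, zero_smul, Matrix.zero_mul] at hWW'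
      have := congrFun (congrFun hWW' 0) 0
      simp at this
    have h5 : ((s * 2⁻¹) • T) * I = (I * J) * ((s * 2⁻¹) • T) := by
      rw [Matrix.smul_mul, Matrix.mul_smul, T3]
    rw [hcW, Matrix.smul_mul, Matrix.mul_smul, Matrix.one_mul, Matrix.mul_one] at h5
    have h6 : I = I * J := by
      have := congrArg (fun A : Matrix (Fin 2) (Fin 2) F => c⁻¹ • A) h5
      simpa [smul_smul, inv_mul_cancel₀ hc0] using this
    have h7 : J = 1 := by
      have h8 : I * I = I * (I * J) := by rw [← h6]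
      rw [hI, q2] at h8
      exact (neg_inj.mp h8).symm
    rw [h7, Matrix.one_mul] at hJ
    have := congrFun (congrFun hJ 0) 0
    simp at this
    apply h2
    linear_combination this
  obtain ⟨htrW, hdetW⟩ := mat2_trace_det_of_sq _ hWns (-s) (-1) hsq
  rw [neg_neg] at hdetW
  have hst : -s = t := by rw [hs, neg_neg]
  rw [hst] at htrW
  rw [← hw] at htrW hdetW
  have hxtr : (x : Matrix (Fin 2) (Fin 2) F).trace = t := by rw [← hM, ht]
  have hxdet : (x : Matrix (Fin 2) (Fin 2) F).det = 1 := by rw [← hM, hx]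
  obtain ⟨g, hg, hgx⟩ := sl2_conj_eq hodd x w t hxtr hxdet htrW hdetW ht4
  refine ⟨g, hg, ?_⟩
  rw [hgx]
  -- w normalizes
  have c1 : w * gI = gI * gJ * w := by
    apply Units.ext
    rw [Units.val_mul, Units.val_mul, Units.val_mul, hw, ← hIdef, ← hJdef, Matrix.smul_mul,
      Matrix.mul_smul, T3]
  have c2 : w * gJ = gI * w := by
    apply Units.ext
    rw [Units.val_mul, Units.val_mul, hw, ← hIdef, ← hJdef, Matrix.smul_mul,
      Matrix.mul_smul, T4]
  have c3 : w * (gI * gJ) = gJ * w := by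
    apply Units.ext
    rw [Units.val_mul, Units.val_mul, Units.val_mul, hw, ← hIdef, ← hJdef, Matrix.smul_mul,
      Matrix.mul_smul, T5]
  have mI : gI ∈ Subgroup.closure ({gI, gJ} : Set (GL (Fin 2) F)) :=
    Subgroup.subset_closure (by simp)
  have mJ : gJ ∈ Subgroup.closure ({gI, gJ} : Set (GL (Fin 2) F)) :=
    Subgroup.subset_closure (by simp)
  apply mem_normalizer_of_closure
  · rintro g (rfl | rfl)
    · rw [c1, mul_inv_cancel_right]
      exact Subgroup.mul_mem _ mI mJ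
    · rw [c2, mul_inv_cancel_right]
      exact mI
  · rintro g (rfl | rfl)
    · rw [mul_assoc, ← c2, inv_mul_cancel_left]
      exact mJ
    · rw [mul_assoc, ← c3, inv_mul_cancel_left]
      exact Subgroup.mul_mem _ mI mJ

end

end Cfsg.Agent.H99
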