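import Mathlib

set_option autoImplicit false

namespace Cfsg.Agent.H99

open Module

section
variable {F V : Type*} [Field F] [AddCommGroup V] [Module F V]

/-- `x` acts on the pair `(e, f)` either diagonally, with product of the two eigenvalues `c`, or by
interchanging the two lines, with product of the two scalars `-c`. -/
def PairRel (x : V →ₗ[F] V) (c : F) (e f : V) : Prop :=
  (∃ α β : F, α * β = c ∧ x e = α • e ∧ x f = β • f) ∨
  (∃ α β : F, α * β = -c ∧ x e = α • f ∧ x f = β • e)

theorem PairRel.smul_left {x : V →ₗ[F] V} {c : F} {e f : V} (h : PairRel x c e f) (μ : F)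
    (hμ : μ ≠ 0) : PairRel x c (μ • e) f := by
  rcases h with ⟨α, β, hαβ, he, hf⟩ | ⟨α, β, hαβ, he, hf⟩
  · exact Or.inl ⟨α, β, hαβ, by rw [map_smul, he, smul_comm], hf⟩
  · refine Or.inr ⟨μ * α, β * μ⁻¹, ?_, ?_, ?_⟩
    · rw [← hαβ]
      field_simp
    · rw [map_smul, he, smul_smul]
    · rw [hf, smul_smul, mul_assoc, inv_mul_cancel₀ hμ, mul_one]

theorem PairRel.pullback {x y P : V →ₗ[F] V} (hP : Function.Injective P)
    (hPy : ∀ v, P (y v) = x (P v)) {c : F} {e f : V} (h : PairRel x c (P e) (P f)) :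
    PairRel y c e f := by
  rcases h with ⟨α, β, hαβ, he, hf⟩ | ⟨α, β, hαβ, he, hf⟩
  · refine Or.inl ⟨α, β, hαβ, hP ?_, hP ?_⟩
    · rw [hPy, he, map_smul]
    · rw [hPy, hf, map_smul]
  · refine Or.inr ⟨α, β, hαβ, hP ?_, hP ?_⟩
    · rw [hPy, he, map_smul]
    · rw [hPy, hf, map_smul]

/-- A map acting on every pair of a hyperbolic basis as in `PairRel` is a similarity of the
form, with multiplier `c`. -/
theorem similarity_of_pairs (B : LinearMap.BilinForm F V) (hB : B.IsAlt) {I : Type*} [Fintype I]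
    [DecidableEq I] (e f : I → V) (hee : ∀ i j, B (e i) (e j) = 0)
    (hff : ∀ i j, B (f i) (f j) = 0) (hef : ∀ i j, B (e i) (f j) = if i = j then 1 else 0)
    (hexp : ∀ s : V, s = ∑ i, (B s (f i) • e i - B s (e i) • f i))
    (y : V →ₗ[F] V) (c : F) (hy : ∀ i, PairRel y c (e i) (f i)) :
    ∀ u v, B (y u) (y v) = c * B u v := by
  have hfe : ∀ i j, B (f i) (e j) = if i = j then -1 else 0 := by
    intro i j
    rw [← hB.neg_eq, hef]
    by_cases h : i = j
    · subst h; simp
    · have h' : ¬ j = i := fun h' => h h'.symm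
      simp [h, h']
  have key : ∀ i j, B (y (e i)) (y (e j)) = c * B (e i) (e j) ∧
      B (y (e i)) (y (f j)) = c * B (e i) (f j) ∧
      B (y (f i)) (y (e j)) = c * B (f i) (e j) ∧
      B (y (f i)) (y (f j)) = c * B (f i) (f j) := by
    intro i j
    by_cases hij : i = j
    · subst hij
      rcases hy i with ⟨α, β, hαβ, he, hf⟩ | ⟨α, β, hαβ, he, hf⟩
      · refine ⟨?_, ?_, ?_, ?_⟩ <;>
        simp only [he, hf, map_smul, LinearMap.smul_apply, smul_eq_mul, hee, hff, hef, hfe,
          if_true] <;>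
        first | linear_combination hαβ | linear_combination -hαβ | ring
      · refine ⟨?_, ?_, ?_, ?_⟩ <;>
        simp only [he, hf, map_smul, LinearMap.smul_apply, smul_eq_mul, hee, hff, hef, hfe,
          if_true] <;>
        first | linear_combination hαβ | linear_combination -hαβ | ring
    · rcases hy i with ⟨α, β, hαβ, he, hf⟩ | ⟨α, β, hαβ, he, hf⟩ <;>
      rcases hy j with ⟨α', β', hαβ', he', hf'⟩ | ⟨α', β', hαβ', he', hf'⟩ <;>
      simp [he, hf, he', hf', hee, hff, hef, hfe, hij]
  have hb : ∀ u j, B (y u) (y (e j)) = c * B u (e j) ∧ B (y u) (y (f j)) = c * B u (f j) := by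
    intro u j
    have h1 : ∀ w : V, B (y u) w = ∑ i, (B u (f i) * B (y (e i)) w - B u (e i) * B (y (f i)) w) := by
      intro w
      conv_lhs => rw [hexp u]
      rw [map_sum, map_sum, LinearMap.sum_apply]
      refine Finset.sum_congr rfl fun i _ => ?_
      rw [map_sub, map_smul, map_smul, map_sub, map_smul, map_smul, LinearMap.sub_apply,
        LinearMap.smul_apply, LinearMap.smul_apply, smul_eq_mul, smul_eq_mul]
    have h2 : ∀ w : V, B u w = ∑ i, (B u (f i) * B (e i) w - B u (e i) * B (f i) w) := by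
      intro w
      conv_lhs => rw [hexp u]
      rw [map_sum, LinearMap.sum_apply]
      refine Finset.sum_congr rfl fun i _ => ?_
      rw [map_sub, map_smul, map_smul, LinearMap.sub_apply,
        LinearMap.smul_apply, LinearMap.smul_apply, smul_eq_mul, smul_eq_mul]
    constructor
    · rw [h1, h2, Finset.mul_sum]
      refine Finset.sum_congr rfl fun i _ => ?_
      rw [(key i j).1, (key i j).2.2.1]
      ring
    · rw [h1, h2, Finset.mul_sum]
      refine Finset.sum_congr rfl fun i _ => ?_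
      rw [(key i j).2.1, (key i j).2.2.2]
      ring
  intro u v
  have h3 : y v = ∑ i, (B v (f i) • y (e i) - B v (e i) • y (f i)) := by
    conv_lhs => rw [hexp v]
    rw [map_sum]
    refine Finset.sum_congr rfl fun i _ => ?_
    rw [map_sub, map_smul, map_smul]
  have h4 : B u v = ∑ i, (B v (f i) * B u (e i) - B v (e i) * B u (f i)) := by
    conv_lhs => rw [hexp v]
    rw [map_sum]
    refine Finset.sum_congr rfl fun i _ => ?_
    rw [map_sub, map_smul, map_smul, smul_eq_mul, smul_eq_mul]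
  rw [h3, h4, map_sum, Finset.mul_sum]
  refine Finset.sum_congr rfl fun i _ => ?_
  rw [map_sub, map_smul, map_smul, (hb u i).1, (hb u i).2, smul_eq_mul, smul_eq_mul]
  ring

/-- A family of pairs `(e i, f i)` forming a basis of `U`, each pair satisfying `PairRel x c`. -/
def PairFamily (x : V →ₗ[F] V) (c : F) (U : Submodule F V) (I : Type) (e f : I → V) : Prop :=
  LinearIndependent F (Sum.elim e f) ∧ Submodule.span F (Set.range (Sum.elim e f)) = U ∧
  ∀ i, PairRel x c (e i) (f i)

theorem PairFamily.sup {x : V →ₗ[F] V} {c : F} {U₁ U₂ : Submodule F V} {I₁ I₂ : Type}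
    {e₁ f₁ : I₁ → V} {e₂ f₂ : I₂ → V} (h₁ : PairFamily x c U₁ I₁ e₁ f₁)
    (h₂ : PairFamily x c U₂ I₂ e₂ f₂) (hd : Disjoint U₁ U₂) :
    PairFamily x c (U₁ ⊔ U₂) (I₁ ⊕ I₂) (Sum.elim e₁ e₂) (Sum.elim f₁ f₂) := by
  obtain ⟨hli₁, hsp₁, hr₁⟩ := h₁
  obtain ⟨hli₂, hsp₂, hr₂⟩ := h₂
  have hg : LinearIndependent F (Sum.elim (Sum.elim e₁ f₁) (Sum.elim e₂ f₂)) := by
    refine LinearIndependent.sum_type hli₁ hli₂ ?_
    rw [hsp₁, hsp₂]
    exact hd
  have hcomp : Sum.elim (Sum.elim e₁ e₂) (Sum.elim f₁ f₂) =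
      Sum.elim (Sum.elim e₁ f₁) (Sum.elim e₂ f₂) ∘ (Equiv.sumSumSumComm I₁ I₂ I₁ I₂) := by
    funext k
    rcases k with (i | i) | (i | i) <;> rfl
  refine ⟨?_, ?_, ?_⟩
  · rw [hcomp]
    exact (linearIndependent_equiv (Equiv.sumSumSumComm I₁ I₂ I₁ I₂)).mpr hg
  · rw [hcomp, (Equiv.sumSumSumComm I₁ I₂ I₁ I₂).surjective.range_comp, Set.Sum.elim_range,
      Submodule.span_union, hsp₁, hsp₂]
  · rintro (i | i)
    · exact hr₁ i
    · exact hr₂ i

/-- A subspace of even dimension consisting of eigenvectors has a basis of pairs. -/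
theorem exists_pairs_of_eigen [FiniteDimensional F V] (x : V →ₗ[F] V) (c : F) (U : Submodule F V)
    (m : ℕ) (hm : finrank F U = m + m) (hU : ∀ u ∈ U, ∃ μ : F, x u = μ • u)
    (hc : ∀ u ∈ U, ∀ u' ∈ U, u ≠ 0 → u' ≠ 0 → ∀ μ μ' : F, x u = μ • u → x u' = μ' • u' →
      μ * μ' = c) :
    ∃ (e f : Fin m → V), PairFamily x c U (Fin m) e f := by
  let b₀ : Basis (Fin (m + m)) F U := Module.finBasisOfFinrankEq F U hm
  let b : Basis (Fin m ⊕ Fin m) F U := b₀.reindex finSumFinEquiv.symm
  have hbli : LinearIndependent F (fun k => (b k : V)) :=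
    b.linearIndependent.map' U.subtype (Submodule.ker_subtype U)
  have hbsp : Submodule.span F (Set.range (fun k => (b k : V))) = U := by
    have h1 : Set.range (fun k => (b k : V)) = U.subtype '' Set.range b := by
      rw [← Set.range_comp]; rfl
    rw [h1, Submodule.span_image, b.span_eq, Submodule.map_subtype_top]
  have hfun : Sum.elim (fun i => (b (Sum.inl i) : V)) (fun i => (b (Sum.inr i) : V)) =
      fun k => (b k : V) := by
    funext k
    rcases k with i | i <;> rfl
  refine ⟨fun i => (b (Sum.inl i) : V), fun i => (b (Sum.inr i) : V), ?_, ?_, ?_⟩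
  · rw [hfun]; exact hbli
  · rw [hfun]; exact hbsp
  · intro i
    obtain ⟨μ, hμ⟩ := hU _ (b (Sum.inl i)).2
    obtain ⟨μ', hμ'⟩ := hU _ (b (Sum.inr i)).2
    have h0 : ∀ k, (b k : V) ≠ 0 := fun k h => b.ne_zero k (Subtype.ext h)
    exact Or.inl ⟨μ, μ', hc _ (b (Sum.inl i)).2 _ (b (Sum.inr i)).2 (h0 _) (h0 _) μ μ' hμ hμ',
      hμ, hμ'⟩

/-- An invariant complement, inside the invariant subspace `U`, to the plane spanned by a vector
`v` of `U` that is not an eigenvector and its image. -/
theorem exists_invariant_compl [FiniteDimensional F V] (x : V →ₗ[F] V) (z : F)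
    (hx : ∀ v, x (x v) = z • v) (U : Submodule F V) (hxU : ∀ u ∈ U, x u ∈ U) (v : V) (hvU : v ∈ U)
    (hv : ∀ μ : F, x v ≠ μ • v) :
    ∃ U' : Submodule F V, U' ≤ U ∧ (∀ u ∈ U', x u ∈ U') ∧
      LinearIndependent F (Sum.elim (fun _ : Unit => v) (fun _ : Unit => x v)) ∧
      Disjoint (Submodule.span F (Set.range (Sum.elim (fun _ : Unit => v) (fun _ : Unit => x v))))
        U' ∧
      Submodule.span F (Set.range (Sum.elim (fun _ : Unit => v) (fun _ : Unit => x v))) ⊔ U' =
        U := by
  have hfv : x v ∉ Submodule.span F {v} := by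
    rw [Submodule.mem_span_singleton]
    rintro ⟨c, hc⟩
    exact hv c hc.symm
  obtain ⟨φ, hφ1, hφ2⟩ := Submodule.exists_dual_map_eq_bot_of_notMem hfv inferInstance
  have hφv : φ v = 0 := by
    have h1 : φ v ∈ Submodule.map φ (Submodule.span F {v}) :=
      Submodule.mem_map_of_mem (Submodule.mem_span_singleton_self v)
    rw [hφ2] at h1
    simpa using h1
  have key : ∀ s t : F, s • v + t • x v ∈ LinearMap.ker φ ⊓ LinearMap.ker (φ.comp x) →
      s = 0 ∧ t = 0 := by
    intro s t hst
    rw [Submodule.mem_inf, LinearMap.mem_ker, LinearMap.mem_ker] at hst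
    obtain ⟨h1, h2⟩ := hst
    rw [map_add, map_smul, map_smul, hφv, smul_zero, zero_add, smul_eq_mul] at h1
    have ht : t = 0 := by
      rcases mul_eq_zero.mp h1 with h | h
      · exact h
      · exact absurd h hφ1
    rw [LinearMap.comp_apply, map_add, map_smul, map_smul, hx v, map_add, map_smul, map_smul,
      map_smul, hφv, ht] at h2
    simp only [smul_eq_mul, mul_zero, add_zero] at h2
    rcases mul_eq_zero.mp h2 with h | h
    · exact ⟨h, ht⟩
    · exact absurd h hφ1
  have hrange : Set.range (Sum.elim (fun _ : Unit => v) (fun _ : Unit => x v)) = {v, x v} := by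
    rw [Set.Sum.elim_range]
    simp [Set.pair_comm]
  have hpair : ∀ w, w ∈ Submodule.span F
      (Set.range (Sum.elim (fun _ : Unit => v) (fun _ : Unit => x v))) ↔
      ∃ s t : F, s • v + t • x v = w := by
    intro w
    rw [hrange, Submodule.mem_span_pair]
  refine ⟨U ⊓ (LinearMap.ker φ ⊓ LinearMap.ker (φ.comp x)), inf_le_left, ?_, ?_, ?_, ?_⟩
  · intro u hu
    rw [Submodule.mem_inf, Submodule.mem_inf, LinearMap.mem_ker, LinearMap.mem_ker] at hu
    obtain ⟨hu1, hu2, hu3⟩ := hu
    rw [Submodule.mem_inf, Submodule.mem_inf, LinearMap.mem_ker, LinearMap.mem_ker]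
    refine ⟨hxU u hu1, ?_, ?_⟩
    · exact hu3
    · rw [LinearMap.comp_apply, hx u, map_smul, hu2, smul_zero]
  · rw [Fintype.linearIndependent_iff]
    intro g hg
    rw [Fintype.sum_sum_type] at hg
    simp only [Sum.elim_inl, Sum.elim_inr, Finset.univ_unique, Finset.sum_singleton] at hg
    have h1 := key (g (Sum.inl ())) (g (Sum.inr ())) (by rw [hg]; exact Submodule.zero_mem _)
    rintro (⟨⟩ | ⟨⟩)
    · exact h1.1
    · exact h1.2
  · rw [Submodule.disjoint_def]
    intro w hw hw'
    rw [hpair] at hw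
    obtain ⟨s, t, rfl⟩ := hw
    obtain ⟨rfl, rfl⟩ := key s t hw'.2
    simp
  · apply le_antisymm
    · refine sup_le ?_ inf_le_left
      rw [hrange, Submodule.span_le]
      intro w hw
      rcases hw with rfl | rfl
      · exact hvU
      · exact hxU _ hvU
    · intro u hu
      rw [Submodule.mem_sup]
      set α : F := φ (x u) / φ (x v) with hα
      set β : F := φ u / φ (x v) with hβ
      refine ⟨α • v + β • x v, ?_, u - (α • v + β • x v), ?_, by abel⟩
      · rw [hpair]
        exact ⟨α, β, rfl⟩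
      · rw [Submodule.mem_inf, Submodule.mem_inf, LinearMap.mem_ker, LinearMap.mem_ker]
        refine ⟨?_, ?_, ?_⟩
        · exact U.sub_mem hu (U.add_mem (U.smul_mem _ hvU) (U.smul_mem _ (hxU _ hvU)))
        · rw [map_sub, map_add, map_smul, map_smul, hφv, hβ]
          simp only [smul_eq_mul, mul_zero, zero_add]
          rw [div_mul_cancel₀ _ hφ1, sub_self]
        · rw [LinearMap.comp_apply, map_sub, map_add, map_smul, map_smul,
            hx v, map_sub, map_add, map_smul, map_smul, map_smul, hφv, hα]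
          simp only [smul_eq_mul, mul_zero, add_zero]
          rw [div_mul_cancel₀ _ hφ1, sub_self]

theorem eigen_sq {x : V →ₗ[F] V} {z : F} (hx : ∀ v, x (x v) = z • v) {u : V} (hu : u ≠ 0)
    {μ : F} (hμ : x u = μ • u) : μ * μ = z := by
  have h1 := hx u
  rw [hμ, map_smul, hμ, smul_smul] at h1
  have h2 : (μ * μ - z) • u = 0 := by rw [sub_smul, h1, sub_self]
  rcases smul_eq_zero.mp h2 with h | h
  · exact sub_eq_zero.mp h
  · exact absurd h hu

/-- Pairs for an operator with `x ∘ x = z` all of whose eigenvectors force characteristic two: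
every invariant subspace of even dimension has a basis of pairs with multiplier `-z`. -/
theorem exists_pairs_swap [FiniteDimensional F V] (x : V →ₗ[F] V) (z : F)
    (hx : ∀ v, x (x v) = z • v)
    (hev : ∀ v, v ≠ 0 → ∀ μ : F, x v = μ • v → (2 : F) = 0) :
    ∀ (m : ℕ) (U : Submodule F V), finrank F U = m + m → (∀ u ∈ U, x u ∈ U) →
      ∃ (I : Type) (_ : Fintype I) (_ : DecidableEq I) (e f : I → V),
        PairFamily x (-z) U I e f := by
  intro m
  induction m using Nat.strong_induction_on with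
  | _ m ih =>
  intro U hU hxU
  by_cases hcase : ∀ u ∈ U, ∃ μ : F, x u = μ • u
  · obtain ⟨e, f, h⟩ := exists_pairs_of_eigen x (-z) U m hU hcase (by
      intro u _ u' _ hu0 hu'0 μ μ' hμ hμ'
      have h2 : (2 : F) = 0 := hev u hu0 μ hμ
      have h3 := eigen_sq hx hu0 hμ
      have h4 := eigen_sq hx hu'0 hμ'
      have h5 : (μ - μ') * (μ - μ') = 0 := by
        linear_combination h3 + h4 + (z - μ * μ') * h2
      have h6 : μ = μ' := sub_eq_zero.mp (mul_self_eq_zero.mp h5)
      rw [← h6]
      linear_combination h3 + z * h2)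
    exact ⟨Fin m, inferInstance, inferInstance, e, f, h⟩
  · push Not at hcase
    obtain ⟨v, hvU, hv⟩ := hcase
    obtain ⟨U', hU'le, hxU', hli, hdisj, hsup⟩ := exists_invariant_compl x z hx U hxU v hvU hv
    have h1 := Submodule.finrank_sup_add_finrank_inf_eq
      (Submodule.span F (Set.range (Sum.elim (fun _ : Unit => v) (fun _ : Unit => x v)))) U'
    rw [hsup, disjoint_iff.mp hdisj, finrank_bot, add_zero, finrank_span_eq_card hli, hU] at h1
    simp only [Fintype.card_sum, Fintype.card_unit] at h1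
    obtain ⟨I', _, _, e', f', h'⟩ := ih (m - 1) (by omega) U' (by omega) hxU'
    have hpl : PairFamily x (-z)
        (Submodule.span F (Set.range (Sum.elim (fun _ : Unit => v) (fun _ : Unit => x v)))) Unit
        (fun _ => v) (fun _ => x v) :=
      ⟨hli, rfl, fun _ => Or.inr ⟨1, z, by ring, by rw [one_smul], hx v⟩⟩
    have h2 := hpl.sup h' hdisj
    rw [hsup] at h2
    exact ⟨Unit ⊕ I', inferInstance, inferInstance, _, _, h2⟩

end

end Cfsg.Agent.H99
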