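import Mathlib
import Cfsg.Agent.H99.S4Defs

/-! Piece `S6000-C3NF` (helper99): normal forms of matrices of order dividing three. -/

set_option autoImplicit false
open scoped MatrixGroups

namespace Cfsg.Agent.H99.S4P

open Cfsg.Agent.H99.S4
open Matrix

universe u

theorem three_ne_zero_of_card {F : Type u} [Field F] [Fintype F]
    (hq : Fintype.card F % 3 = 2) : (3 : F) ≠ 0 := by
  intro h
  obtain ⟨p, hp⟩ := CharP.exists F
  have := hp
  have : Fact p.Prime := ⟨CharP.char_is_prime F p⟩
  have h3' : ((3 : ℕ) : F) = 0 := by exact_mod_cast h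
  have hdvd := (CharP.cast_eq_zero_iff F p 3).mp h3'
  have hp3 : p = 3 := (Nat.prime_dvd_prime_iff_eq Fact.out Nat.prime_three).mp hdvd
  obtain ⟨n, -, hcard⟩ := FiniteField.card F p
  rw [hcard, hp3] at hq
  have h1 : 3 ∣ 3 ^ (n : ℕ) := dvd_pow_self 3 n.pos.ne'
  omega

theorem zmod3_two : ((2 : ℕ) : ZMod 3) = -1 := by decide

theorem zmod3_neg_one_ne : (-1 : ZMod 3) ≠ 1 := by decide

/-- Orbit counting: an invariant subspace without fixed vectors has even dimension. -/
theorem even_finrank3 {F : Type u} [Field F] [Fintype F]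
    (hq : Fintype.card F % 3 = 2) (y : M4 F) (hy3 : y ^ 3 = 1)
    (U : Submodule F (Fin 4 → F)) (hinv : ∀ u ∈ U, y *ᵥ u ∈ U)
    (hfix : ∀ u ∈ U, y *ᵥ u = u → u = 0) : Even (Module.finrank F U) := by
  classical
  have : Fact (Nat.Prime 3) := ⟨Nat.prime_three⟩
  obtain ⟨f, hf⟩ : ∃ f : Function.End U, ∀ u : U, ((f u : U) : Fin 4 → F) = y *ᵥ (u : Fin 4 → F) :=
    ⟨fun u => ⟨y *ᵥ (u : Fin 4 → F), hinv u u.2⟩, fun u => rfl⟩
  have hpow : ∀ k : ℕ, ∀ u : U, (((f ^ k) u : U) : Fin 4 → F) = (y ^ k) *ᵥ (u : Fin 4 → F) := by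
    intro k
    induction k with
    | zero => intro u; rw [pow_zero, pow_zero, Matrix.one_mulVec]; rfl
    | succ k ih =>
      intro u
      have h1 : (f ^ (k + 1)) u = f ((f ^ k) u) := by rw [pow_succ']; rfl
      rw [h1, hf, ih, Matrix.mulVec_mulVec, ← pow_succ']
  have hf3 : f ^ 3 ^ 1 = 1 := by
    funext u
    apply Subtype.ext
    rw [pow_one, hpow, hy3, Matrix.one_mulVec]
    rfl
  have hcard := Equiv.Perm.card_fixedPoints_modEq (f := f) (p := 3) (n := 1) hf3
  simp only [← Nat.card_eq_fintype_card] at hcard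
  have hfixcard : Nat.card (Function.fixedPoints f) = 1 := by
    rw [Nat.card_eq_one_iff_exists]
    refine ⟨⟨0, ?_⟩, ?_⟩
    · show f 0 = 0
      apply Subtype.ext
      rw [hf]
      simp
    · rintro ⟨u, hu⟩
      apply Subtype.ext
      have h1 : y *ᵥ (u : Fin 4 → F) = u := by
        rw [← hf]
        exact congrArg Subtype.val hu
      apply Subtype.ext
      exact hfix u u.2 h1
  rw [hfixcard, Module.natCard_eq_pow_finrank (K := F) (V := U), Nat.card_eq_fintype_card] at hcard
  have h2 : ((Fintype.card F : ℕ) : ZMod 3) ^ Module.finrank F U = 1 := by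
    have h3 := (ZMod.natCast_eq_natCast_iff _ _ 3).mpr hcard
    push_cast at h3
    exact h3
  have h5 : ((Fintype.card F : ℕ) : ZMod 3) = -1 := by
    have h6 : ((Fintype.card F : ℕ) : ZMod 3) = ((2 : ℕ) : ZMod 3) := by
      rw [ZMod.natCast_eq_natCast_iff]
      exact hq
    rw [h6]
    exact zmod3_two
  rw [h5] at h2
  exact (neg_one_pow_eq_one_iff_even zmod3_neg_one_ne).mp h2

/-- The same for a span. -/
theorem even_finrank_span3 {F : Type u} [Field F] [Fintype F]
    (hq : Fintype.card F % 3 = 2) (y : M4 F) (hy3 : y ^ 3 = 1) (S : Set (Fin 4 → F))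
    (hS : ∀ s ∈ S, y *ᵥ s ∈ Submodule.span F S) (hN : ∀ s ∈ S, (1 + y + y ^ 2) *ᵥ s = 0) :
    Even (Module.finrank F (Submodule.span F S)) := by
  have h3 := three_ne_zero_of_card hq
  have hNall : ∀ u ∈ Submodule.span F S, (1 + y + y ^ 2) *ᵥ u = 0 := by
    intro u hu
    induction hu using Submodule.span_induction with
    | mem x hx => exact hN x hx
    | zero => rw [Matrix.mulVec_zero]
    | add x z _ _ hx hz => rw [Matrix.mulVec_add, hx, hz, add_zero]
    | smul a x _ hx => rw [Matrix.mulVec_smul, hx, smul_zero]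
  apply even_finrank3 hq y hy3
  · intro u hu
    induction hu using Submodule.span_induction with
    | mem x hx => exact hS x hx
    | zero => rw [Matrix.mulVec_zero]; exact Submodule.zero_mem _
    | add x z _ _ hx hz => rw [Matrix.mulVec_add]; exact Submodule.add_mem _ hx hz
    | smul a x _ hx => rw [Matrix.mulVec_smul]; exact Submodule.smul_mem _ a hx
  · intro u hu hfu
    have hNu := hNall u hu
    have h1 : (1 + y + y ^ 2) *ᵥ u = (3 : F) • u := by
      have hk : (y ^ 2) *ᵥ u = u := by rw [pow_two, ← Matrix.mulVec_mulVec, hfu, hfu]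
      simp only [Matrix.add_mulVec, Matrix.one_mulVec, hk, hfu]
      rw [show (3 : F) = 1 + 1 + 1 by norm_num]
      simp only [add_smul, one_smul]
    rw [hNu] at h1
    exact (smul_eq_zero.mp h1.symm).resolve_left h3

theorem c3NF : StC3NF.{u} := by
  intro F _ _ hq y hy3
  classical
  have h3 : (3 : F) ≠ 0 := three_ne_zero_of_card hq
  obtain ⟨N, hN⟩ : ∃ N : M4 F, N = 1 + y + y ^ 2 := ⟨_, rfl⟩
  have hyN : y * N = N := by
    have h1 : (y - 1) * N = y ^ 3 - 1 := by rw [hN]; noncomm_ring
    rw [hy3, sub_self, sub_mul, one_mul, sub_eq_zero] at h1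
    exact h1
  have hNy : N * y = N := by
    have h1 : N * (y - 1) = y ^ 3 - 1 := by rw [hN]; noncomm_ring
    rw [hy3, sub_self, mul_sub, mul_one, sub_eq_zero] at h1
    exact h1
  have hNN : N * N = (3 : F) • N := by
    have h2 : N * y ^ 2 = N := by rw [pow_two, ← mul_assoc, hNy, hNy]
    have h4 : N * N = N * (1 + y + y ^ 2) := by rw [← hN]
    rw [h4, mul_add, mul_add, mul_one, hNy, h2]
    rw [show (3 : F) = 1 + 1 + 1 by norm_num]
    simp only [add_smul, one_smul]
  have hfix0 : ∀ u : Fin 4 → F, N *ᵥ u = 0 → y *ᵥ u = u → u = 0 := by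
    intro u hNu hfu
    have h1 : N *ᵥ u = (3 : F) • u := by
      have hk : (y ^ 2) *ᵥ u = u := by rw [pow_two, ← Matrix.mulVec_mulVec, hfu, hfu]
      rw [hN]
      simp only [Matrix.add_mulVec, Matrix.one_mulVec, hk, hfu]
      rw [show (3 : F) = 1 + 1 + 1 by norm_num]
      simp only [add_smul, one_smul]
    rw [hNu] at h1
    exact (smul_eq_zero.mp h1.symm).resolve_left h3
  have hNfix : ∀ u : Fin 4 → F, y *ᵥ (N *ᵥ u) = N *ᵥ u := by
    intro u
    rw [Matrix.mulVec_mulVec, hyN]
  have hNker : ∀ u : Fin 4 → F, N *ᵥ ((3 : F) • u - N *ᵥ u) = 0 := by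
    intro u
    rw [Matrix.mulVec_sub, Matrix.mulVec_smul, Matrix.mulVec_mulVec, hNN, Matrix.smul_mulVec,
      sub_self]
  have hdec : ∀ u : Fin 4 → F,
      u = (3 : F)⁻¹ • (N *ᵥ u) + (3 : F)⁻¹ • ((3 : F) • u - N *ᵥ u) := by
    intro u
    rw [← smul_add, add_sub_cancel, smul_smul, inv_mul_cancel₀ h3, one_smul]
  have hyy : ∀ u : Fin 4 → F, N *ᵥ u = 0 → y *ᵥ (y *ᵥ u) = -(u + y *ᵥ u) := by
    intro u hNu
    have h1 := hNu
    rw [hN] at h1
    simp only [Matrix.add_mulVec, Matrix.one_mulVec] at h1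
    rw [pow_two, ← Matrix.mulVec_mulVec] at h1
    rw [eq_neg_iff_add_eq_zero, ← h1]
    abel
  obtain ⟨K, hK⟩ : ∃ K : Submodule F (Fin 4 → F), K = LinearMap.ker (Matrix.mulVecLin N) :=
    ⟨_, rfl⟩
  obtain ⟨E, hE⟩ : ∃ E : Submodule F (Fin 4 → F),
      E = LinearMap.ker (Matrix.mulVecLin (y - 1)) := ⟨_, rfl⟩
  have hmemK : ∀ u : Fin 4 → F, u ∈ K ↔ N *ᵥ u = 0 := by
    intro u
    rw [hK, LinearMap.mem_ker, Matrix.mulVecLin_apply]
  have hmemE : ∀ u : Fin 4 → F, u ∈ E ↔ y *ᵥ u = u := by
    intro u
    rw [hE, LinearMap.mem_ker, Matrix.mulVecLin_apply, Matrix.sub_mulVec, Matrix.one_mulVec,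
      sub_eq_zero]
  have hKinv : ∀ u ∈ K, y *ᵥ u ∈ K := by
    intro u hu
    rw [hmemK] at hu ⊢
    rw [Matrix.mulVec_mulVec, hNy, hu]
  have hKeven : Even (Module.finrank F K) :=
    even_finrank3 hq y hy3 K hKinv (fun u hu hfu => hfix0 u ((hmemK u).mp hu) hfu)
  have hKle : Module.finrank F K ≤ 4 := by
    have := Submodule.finrank_le K
    rw [Module.finrank_fin_fun] at this
    exact this
  have hinf : E ⊓ K = ⊥ := by
    rw [eq_bot_iff]
    intro u hu
    rw [Submodule.mem_inf, hmemE, hmemK] at hu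
    rw [Submodule.mem_bot]
    exact hfix0 u hu.2 hu.1
  have hsup : E ⊔ K = ⊤ := by
    rw [eq_top_iff]
    intro u _
    rw [hdec u]
    apply Submodule.add_mem
    · apply Submodule.smul_mem
      apply Submodule.mem_sup_left
      rw [hmemE]
      exact hNfix u
    · apply Submodule.smul_mem
      apply Submodule.mem_sup_right
      rw [hmemK]
      exact hNker u
  have hdim : Module.finrank F E + Module.finrank F K = 4 := by
    have h1 := Submodule.finrank_sup_add_finrank_inf_eq E K
    rw [hsup, hinf, finrank_top, Module.finrank_fin_fun, finrank_bot] at h1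
    omega
  have hpair : ∀ v : Fin 4 → F, v ≠ 0 → N *ᵥ v = 0 →
      Module.finrank F (Submodule.span F {v, y *ᵥ v}) = 2 := by
    intro v hv hNv
    have heven : Even (Module.finrank F (Submodule.span F {v, y *ᵥ v})) := by
      apply even_finrank_span3 hq y hy3
      · intro s hs
        rcases hs with rfl | hs
        · exact Submodule.subset_span (by simp)
        · rw [Set.mem_singleton_iff] at hs
          rw [hs, hyy v hNv]
          exact Submodule.neg_mem _ (Submodule.add_mem _ (Submodule.subset_span (by simp))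
            (Submodule.subset_span (by simp)))
      · intro s hs
        rcases hs with rfl | hs
        · rw [← hN]
          exact hNv
        · rw [Set.mem_singleton_iff] at hs
          rw [hs, ← hN, Matrix.mulVec_mulVec, hNy, hNv]
    have hle : Module.finrank F (Submodule.span F {v, y *ᵥ v}) ≤ 2 := by
      have h1 := finrank_span_finset_le_card (R := F) ({v, y *ᵥ v} : Finset (Fin 4 → F))
      have h2 : (({v, y *ᵥ v} : Finset (Fin 4 → F)) : Set (Fin 4 → F)) = {v, y *ᵥ v} := by simp
      rw [h2] at h1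
      exact h1.trans Finset.card_le_two
    have hne : Module.finrank F (Submodule.span F {v, y *ᵥ v}) ≠ 0 := by
      intro h0
      have hbot := Submodule.finrank_eq_zero.mp h0
      have hmem : v ∈ Submodule.span F {v, y *ᵥ v} := Submodule.subset_span (by simp)
      rw [hbot, Submodule.mem_bot] at hmem
      exact hv hmem
    obtain ⟨k, hk⟩ := heven
    omega
  have hcol : ∀ (b : Fin 4 → Fin 4 → F) (j : Fin 4) (i : Fin 4),
      (y * Matrix.of (fun i j => b j i)) i j = (y *ᵥ b j) i := by
    intro b j i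
    rw [Matrix.mul_apply]
    rfl
  have hunit : ∀ b : Fin 4 → Fin 4 → F, LinearIndependent F b →
      IsUnit (Matrix.of (fun i j => b j i)).det := by
    intro b hli
    rw [← Matrix.isUnit_iff_isUnit_det, ← Matrix.linearIndependent_cols_iff_isUnit]
    have h2 : (Matrix.of (fun i j => b j i)).col = b := by
      ext j i; rfl
    rw [h2]
    exact hli
  obtain ⟨k, hk⟩ := hKeven
  have hk012 : k = 0 ∨ k = 1 ∨ k = 2 := by omega
  rcases hk012 with rfl | rfl | rfl
  · -- `K = ⊥`, so `y = 1`
    have hbot : K = ⊥ := Submodule.finrank_eq_zero.mp hk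
    have hy1 : y = 1 := by
      have h1 : y - 1 = 0 := by
        apply Matrix.toLin'.injective
        apply LinearMap.ext
        intro u
        have h2 : (3 : F) • u - N *ᵥ u = 0 := by
          have : (3 : F) • u - N *ᵥ u ∈ K := (hmemK _).mpr (hNker u)
          rw [hbot, Submodule.mem_bot] at this
          exact this
        have h4 : y *ᵥ u = u := by
          have h5 : u = (3 : F)⁻¹ • (N *ᵥ u) := by
            have := hdec u
            rw [h2, smul_zero, add_zero] at this
            exact this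
          rw [h5, Matrix.mulVec_smul, hNfix]
        rw [Matrix.toLin'_apply, Matrix.sub_mulVec, Matrix.one_mulVec, h4, sub_self]
        simp
      exact sub_eq_zero.mp h1
    refine ⟨1, by simp, Or.inl ?_⟩
    rw [mul_one]
    exact hy1
  · -- `dim K = 2`
    have hKne : K ≠ ⊥ := by
      intro hbot
      rw [hbot, finrank_bot] at hk
      omega
    obtain ⟨v, hvK, hv0⟩ := Submodule.exists_mem_ne_zero_of_ne_bot hKne
    have hNv : N *ᵥ v = 0 := (hmemK v).mp hvK
    have hU2 := hpair v hv0 hNv
    have hUK : Submodule.span F {v, y *ᵥ v} = K := by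
      apply Submodule.eq_of_le_of_finrank_eq
      · rw [Submodule.span_le]
        intro s hs
        rcases hs with rfl | hs
        · exact hvK
        · rw [Set.mem_singleton_iff] at hs
          rw [hs]
          exact hKinv v hvK
      · rw [hU2, hk]
    have hE2 : Module.finrank F E = 2 := by omega
    obtain ⟨f⟩ : Nonempty (Module.Basis (Fin 2) F E) := ⟨Module.finBasisOfFinrankEq F E hE2⟩
    obtain ⟨f0, hf0⟩ : ∃ f0 : Fin 4 → F, f0 = (f 0 : Fin 4 → F) := ⟨_, rfl⟩
    obtain ⟨f1, hf1⟩ : ∃ f1 : Fin 4 → F, f1 = (f 1 : Fin 4 → F) := ⟨_, rfl⟩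
    have hyf0 : y *ᵥ f0 = f0 := by rw [hf0]; exact (hmemE _).mp (f 0).2
    have hyf1 : y *ᵥ f1 = f1 := by rw [hf1]; exact (hmemE _).mp (f 1).2
    obtain ⟨b, hb⟩ : ∃ b : Fin 4 → Fin 4 → F, b = ![v, y *ᵥ v, f0, f1] := ⟨_, rfl⟩
    have hmem : ∀ j : Fin 4, b j ∈ Submodule.span F (Set.range b) :=
      fun j => Submodule.subset_span ⟨j, rfl⟩
    have hb0 : b 0 = v := by rw [hb]; rfl
    have hb1 : b 1 = y *ᵥ v := by rw [hb]; rfl
    have hb2 : b 2 = f0 := by rw [hb]; rfl
    have hb3 : b 3 = f1 := by rw [hb]; rfl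
    have hKle' : K ≤ Submodule.span F (Set.range b) := by
      rw [← hUK, Submodule.span_le]
      intro s hs
      rcases hs with rfl | hs
      · rw [← hb0]
        exact hmem 0
      · rw [Set.mem_singleton_iff] at hs
        rw [hs, ← hb1]
        exact hmem 1
    have hEle' : E ≤ Submodule.span F (Set.range b) := by
      intro e he
      have h1 := f.sum_repr ⟨e, he⟩
      rw [Fin.sum_univ_two] at h1
      have h2 := congrArg Subtype.val h1
      simp only [Submodule.coe_add, Submodule.coe_smul] at h2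
      rw [← h2]
      apply Submodule.add_mem
      · apply Submodule.smul_mem
        rw [← hf0, ← hb2]
        exact hmem 2
      · apply Submodule.smul_mem
        rw [← hf1, ← hb3]
        exact hmem 3
    have htop : ⊤ ≤ Submodule.span F (Set.range b) := by
      rw [← hsup]
      exact sup_le hEle' hKle'
    have hli : LinearIndependent F b :=
      linearIndependent_of_top_le_span_of_card_eq_finrank htop
        (by rw [Fintype.card_fin, Module.finrank_fin_fun])
    refine ⟨Matrix.of (fun i j => b j i), hunit b hli, Or.inr (Or.inl ?_)⟩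
    ext i j
    rw [hcol]
    fin_cases j
    · show (y *ᵥ b 0) i = _
      rw [hb0, ← hb1]
      simp [Matrix.mul_apply, Fin.sum_univ_four, n3a]
    · show (y *ᵥ b 1) i = _
      rw [hb1, hyy v hNv, ← hb1, ← hb0]
      simp [Matrix.mul_apply, Fin.sum_univ_four, n3a]
      ring
    · show (y *ᵥ b 2) i = _
      rw [hb2, hyf0, ← hb2]
      simp [Matrix.mul_apply, Fin.sum_univ_four, n3a]
    · show (y *ᵥ b 3) i = _
      rw [hb3, hyf1, ← hb3]
      simp [Matrix.mul_apply, Fin.sum_univ_four, n3a]
  · -- `K = ⊤`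
    have hKtop : K = ⊤ := by
      apply Submodule.eq_top_of_finrank_eq
      rw [hk, Module.finrank_fin_fun]
    have hNzero : ∀ u : Fin 4 → F, N *ᵥ u = 0 := by
      intro u
      have : u ∈ K := by rw [hKtop]; exact Submodule.mem_top
      exact (hmemK u).mp this
    obtain ⟨v, hv0⟩ : ∃ v : Fin 4 → F, v ≠ 0 := ⟨Pi.single 0 1, by
      intro h
      have := congrFun h 0
      simp at this⟩
    have hU2 := hpair v hv0 (hNzero v)
    obtain ⟨w, hw⟩ : ∃ w : Fin 4 → F, w ∉ Submodule.span F {v, y *ᵥ v} := by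
      by_contra hcon
      simp only [not_exists, not_not] at hcon
      have htop : Submodule.span F {v, y *ᵥ v} = ⊤ := by
        rw [eq_top_iff]
        intro u _
        exact hcon u
      rw [htop, finrank_top, Module.finrank_fin_fun] at hU2
      omega
    obtain ⟨b, hb⟩ : ∃ b : Fin 4 → Fin 4 → F, b = ![v, y *ᵥ v, w, y *ᵥ w] := ⟨_, rfl⟩
    have hmem : ∀ j : Fin 4, b j ∈ Submodule.span F (Set.range b) :=
      fun j => Submodule.subset_span ⟨j, rfl⟩
    have hb0 : b 0 = v := by rw [hb]; rfl
    have hb1 : b 1 = y *ᵥ v := by rw [hb]; rfl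
    have hb2 : b 2 = w := by rw [hb]; rfl
    have hb3 : b 3 = y *ᵥ w := by rw [hb]; rfl
    have hWeven : Even (Module.finrank F (Submodule.span F (Set.range b))) := by
      apply even_finrank_span3 hq y hy3
      · rintro s ⟨j, rfl⟩
        fin_cases j
        · show y *ᵥ b 0 ∈ _
          rw [hb0, ← hb1]
          exact hmem 1
        · show y *ᵥ b 1 ∈ _
          rw [hb1, hyy v (hNzero v), ← hb1, ← hb0]
          exact Submodule.neg_mem _ (Submodule.add_mem _ (hmem 0) (hmem 1))
        · show y *ᵥ b 2 ∈ _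
          rw [hb2, ← hb3]
          exact hmem 3
        · show y *ᵥ b 3 ∈ _
          rw [hb3, hyy w (hNzero w), ← hb3, ← hb2]
          exact Submodule.neg_mem _ (Submodule.add_mem _ (hmem 2) (hmem 3))
      · intro s _
        rw [← hN]
        exact hNzero s
    have hUW : Submodule.span F {v, y *ᵥ v} < Submodule.span F (Set.range b) := by
      rw [SetLike.lt_iff_le_and_exists]
      refine ⟨?_, w, ?_, hw⟩
      · rw [Submodule.span_le]
        intro s hs
        rcases hs with rfl | hs
        · rw [← hb0]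
          exact hmem 0
        · rw [Set.mem_singleton_iff] at hs
          rw [hs, ← hb1]
          exact hmem 1
      · rw [← hb2]
        exact hmem 2
    have hlt := Submodule.finrank_lt_finrank_of_lt hUW
    have hWle : Module.finrank F (Submodule.span F (Set.range b)) ≤ 4 := by
      have := Submodule.finrank_le (Submodule.span F (Set.range b))
      rw [Module.finrank_fin_fun] at this
      exact this
    have hWtop : Submodule.span F (Set.range b) = ⊤ := by
      apply Submodule.eq_top_of_finrank_eq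
      rw [Module.finrank_fin_fun]
      obtain ⟨m, hm⟩ := hWeven
      omega
    have hli : LinearIndependent F b :=
      linearIndependent_of_top_le_span_of_card_eq_finrank (le_of_eq hWtop.symm)
        (by rw [Fintype.card_fin, Module.finrank_fin_fun])
    refine ⟨Matrix.of (fun i j => b j i), hunit b hli, Or.inr (Or.inr ?_)⟩
    ext i j
    rw [hcol]
    fin_cases j
    · show (y *ᵥ b 0) i = _
      rw [hb0, ← hb1]
      simp [Matrix.mul_apply, Fin.sum_univ_four, n3b]
    · show (y *ᵥ b 1) i = _
      rw [hb1, hyy v (hNzero v), ← hb1, ← hb0]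
      simp [Matrix.mul_apply, Fin.sum_univ_four, n3b]
      ring
    · show (y *ᵥ b 2) i = _
      rw [hb2, ← hb3]
      simp [Matrix.mul_apply, Fin.sum_univ_four, n3b]
    · show (y *ᵥ b 3) i = _
      rw [hb3, hyy w (hNzero w), ← hb3, ← hb2]
      simp [Matrix.mul_apply, Fin.sum_univ_four, n3b]
      ring

example : StC3NF.{u} := c3NF

end Cfsg.Agent.H99.S4P
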