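import Mathlib
import Cfsg.Agent.H99.S4Defs

/-! Piece `S6000-GRPA` (helper99): the central quotient is abelian. -/

set_option autoImplicit false

namespace Cfsg.Agent.H99.S4P

open Cfsg.Agent.H99.S4

universe u

theorem comm_central {G : Type u} [Group G] (ζ ζ' x y : G) (hζ : ∀ g : G, g * ζ = ζ * g)
    (hζ' : ∀ g : G, g * ζ' = ζ' * g) :
    (ζ * x) * (ζ' * y) * (ζ * x)⁻¹ * (ζ' * y)⁻¹ = x * y * x⁻¹ * y⁻¹ := by
  have cζi : ∀ g : G, g * ζ⁻¹ = ζ⁻¹ * g := by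
    intro g
    have := hζ g
    calc g * ζ⁻¹ = ζ⁻¹ * (ζ * g) * ζ⁻¹ := by group
      _ = ζ⁻¹ * (g * ζ) * ζ⁻¹ := by rw [this]
      _ = ζ⁻¹ * g := by group
  have cζ'i : ∀ g : G, g * ζ'⁻¹ = ζ'⁻¹ * g := by
    intro g
    have := hζ' g
    calc g * ζ'⁻¹ = ζ'⁻¹ * (ζ' * g) * ζ'⁻¹ := by group
      _ = ζ'⁻¹ * (g * ζ') * ζ'⁻¹ := by rw [this]
      _ = ζ'⁻¹ * g := by group
  calc (ζ * x) * (ζ' * y) * (ζ * x)⁻¹ * (ζ' * y)⁻¹
      = ζ * (x * ζ') * (y * x⁻¹ * ζ⁻¹) * (y⁻¹ * ζ'⁻¹) := by group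
    _ = ζ * (ζ' * x) * (ζ⁻¹ * (y * x⁻¹)) * (ζ'⁻¹ * y⁻¹) := by
        rw [hζ' x, cζi (y * x⁻¹), cζ'i y⁻¹]
    _ = ζ * ζ' * (x * ζ⁻¹) * (y * x⁻¹ * ζ'⁻¹) * y⁻¹ := by group
    _ = ζ * ζ' * (ζ⁻¹ * x) * (ζ'⁻¹ * (y * x⁻¹)) * y⁻¹ := by rw [cζi x, cζ'i (y * x⁻¹)]
    _ = ζ * (ζ' * ζ⁻¹) * (x * ζ'⁻¹) * (y * x⁻¹) * y⁻¹ := by group
    _ = ζ * (ζ⁻¹ * ζ') * (ζ'⁻¹ * x) * (y * x⁻¹) * y⁻¹ := by rw [cζi ζ', cζ'i x]
    _ = x * y * x⁻¹ * y⁻¹ := by group

theorem grpA : StGrpA.{u} := by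
  intro G _ _ hcard hZ hexp hchar x y
  classical
  obtain ⟨Z2, hZ2⟩ : ∃ Z2 : Subgroup G, Z2 = Subgroup.upperCentralSeries G 2 := ⟨_, rfl⟩
  obtain ⟨C, hC⟩ : ∃ C : Subgroup G, C = Subgroup.centralizer (Z2 : Set G) := ⟨_, rfl⟩
  haveI hZ2char : Z2.Characteristic := by rw [hZ2]; infer_instance
  haveI hCchar : C.Characteristic := by rw [hC]; infer_instance
  haveI hCnormal : C.Normal := inferInstance
  have hmemZ2 : ∀ a : G, a ∈ Z2 ↔ ∀ g : G, a * g * a⁻¹ * g⁻¹ ∈ Subgroup.center G := by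
    intro a
    rw [hZ2, show (2 : ℕ) = 1 + 1 from rfl, Subgroup.mem_upperCentralSeries_succ_iff,
      Subgroup.upperCentralSeries_one]
    rfl
  have hmemC : ∀ a : G, a ∈ C ↔ ∀ h ∈ Z2, h * a = a * h := by
    intro a
    rw [hC, Subgroup.mem_centralizer_iff]
    rfl
  have hZleZ2 : Subgroup.center G ≤ Z2 := by
    rw [hZ2, ← Subgroup.upperCentralSeries_one]
    exact Subgroup.upperCentralSeries_mono G (by norm_num)
  have hZleC : Subgroup.center G ≤ C := by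
    rw [hC]
    exact Subgroup.center_le_centralizer _
  -- (i) Z2 ⊓ C = Z
  have hA : Z2 ⊓ C = Subgroup.center G := by
    have hAchar : (Z2 ⊓ C).Characteristic := inferInstance
    have hAcomm : IsMulCommutative ↥(Z2 ⊓ C) := by
      refine ⟨⟨fun a b => ?_⟩⟩
      apply Subtype.ext
      have ha2 : (a : G) ∈ Z2 := a.2.1
      have hbC : (b : G) ∈ C := b.2.2
      exact (((hmemC b).mp hbC) a ha2)
    have hAcyc : IsCyclic ↥(Z2 ⊓ C) := hchar (Z2 ⊓ C) hAchar hAcomm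
    have hAcard : Nat.card ↥(Z2 ⊓ C) ∣ 4 := by
      rw [← IsCyclic.exponent_eq_card, Monoid.exponent_dvd_iff_forall_pow_eq_one]
      intro g
      apply Subtype.ext
      rw [Subgroup.coe_pow, hexp]
      rfl
    have hle : Subgroup.center G ≤ Z2 ⊓ C := le_inf hZleZ2 hZleC
    have h4 : Nat.card ↥(Z2 ⊓ C) ≤ Nat.card ↥(Subgroup.center G) := by
      rw [hZ]
      exact Nat.le_of_dvd (by norm_num) hAcard
    exact (Subgroup.eq_of_le_of_card_ge hle h4).symm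
  -- (ii) C ≤ Z
  have hind : ∀ n : ℕ, C ⊓ Subgroup.upperCentralSeries G n ≤ Subgroup.center G := by
    intro n
    induction n with
    | zero =>
      intro c hc
      have h1 : c ∈ Subgroup.upperCentralSeries G 0 := hc.2
      rw [Subgroup.upperCentralSeries_zero, Subgroup.mem_bot] at h1
      rw [h1]
      exact Subgroup.one_mem _
    | succ n ih =>
      intro c hc
      have hcC : c ∈ C := hc.1
      have hcn : c ∈ Subgroup.upperCentralSeries G (n + 1) := hc.2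
      rw [Subgroup.mem_upperCentralSeries_succ_iff] at hcn
      have hcZ2 : c ∈ Z2 := by
        rw [hmemZ2]
        intro g
        apply ih
        refine ⟨?_, ?_⟩
        · have h1 : g * c⁻¹ * g⁻¹ ∈ C := hCnormal.conj_mem c⁻¹ (C.inv_mem hcC) g
          have h2 : c * g * c⁻¹ * g⁻¹ = c * (g * c⁻¹ * g⁻¹) := by group
          rw [h2]
          exact C.mul_mem hcC h1
        · exact hcn g
      have : c ∈ Z2 ⊓ C := ⟨hcZ2, hcC⟩
      rw [hA] at this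
      exact this
  have hCZ : C ≤ Subgroup.center G := by
    haveI : Fact (Nat.Prime 2) := ⟨Nat.prime_two⟩
    have hp : IsPGroup 2 G := IsPGroup.of_card (n := 6) (by rw [hcard]; norm_num)
    haveI : Group.IsNilpotent G := hp.isNilpotent
    obtain ⟨n, hn⟩ := Group.IsNilpotent.nilpotent G
    intro c hc
    apply hind n
    refine ⟨hc, ?_⟩
    rw [hn]
    exact Subgroup.mem_top c
  -- (iii)
  apply hCZ
  rw [hmemC]
  intro h hh
  have h1 := (hmemZ2 h).mp hh x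
  have h2 := (hmemZ2 h).mp hh y
  rw [Subgroup.mem_center_iff] at h1 h2
  have e1 : h * x * h⁻¹ = (h * x * h⁻¹ * x⁻¹) * x := by group
  have e2 : h * y * h⁻¹ = (h * y * h⁻¹ * y⁻¹) * y := by group
  have e3 : h * (x * y * x⁻¹ * y⁻¹) * h⁻¹
      = (h * x * h⁻¹) * (h * y * h⁻¹) * (h * x * h⁻¹)⁻¹ * (h * y * h⁻¹)⁻¹ := by group
  rw [e1, e2, comm_central _ _ x y h1 h2] at e3
  exact mul_inv_eq_iff_eq_mul.mp e3

example : StGrpA.{u} := grpA

end Cfsg.Agent.H99.S4P
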