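import Mathlib
import Cfsg.Agent.H99.S4Defs

/-! Piece `S6000-GRPB` (helper99): squares are central. -/

set_option autoImplicit false

namespace Cfsg.Agent.H99.S4P

open Cfsg.Agent.H99.S4

universe u

theorem sq_comm {G : Type u} [Group G] (hexp : ∀ x : G, x ^ 4 = 1)
    (hcomm : ∀ x y : G, x * y * x⁻¹ * y⁻¹ ∈ Subgroup.center G) (x y : G) :
    x * x * (y * y) = y * y * (x * x) := by
  obtain ⟨c, hcdef⟩ : ∃ c : G, c = x * y * x⁻¹ * y⁻¹ := ⟨_, rfl⟩
  have hcc : ∀ g : G, g * c = c * g := by
    have := hcomm x y
    rw [Subgroup.mem_center_iff, ← hcdef] at this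
    exact this
  have hc : x * y = c * (y * x) := by rw [hcdef]; group
  have h1 : x * x * y = c * c * (y * (x * x)) := by
    calc x * x * y = x * (x * y) := by group
      _ = x * (c * (y * x)) := by rw [hc]
      _ = (x * c) * (y * x) := by group
      _ = (c * x) * (y * x) := by rw [hcc x]
      _ = c * (x * y) * x := by group
      _ = c * (c * (y * x)) * x := by rw [hc]
      _ = c * c * (y * (x * x)) := by group
  have h4 : c * c * (c * c) = 1 := by
    rw [← hexp c]
    simp only [pow_succ, pow_zero, one_mul, mul_assoc]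
  calc x * x * (y * y) = (x * x * y) * y := by group
    _ = (c * c * (y * (x * x))) * y := by rw [h1]
    _ = c * c * y * (x * x * y) := by group
    _ = c * c * y * (c * c * (y * (x * x))) := by rw [h1]
    _ = c * c * (y * c) * c * (y * (x * x)) := by group
    _ = c * c * (c * y) * c * (y * (x * x)) := by rw [hcc y]
    _ = c * c * c * (y * c) * (y * (x * x)) := by group
    _ = c * c * c * (c * y) * (y * (x * x)) := by rw [hcc y]
    _ = (c * c * (c * c)) * (y * y * (x * x)) := by group
    _ = y * y * (x * x) := by rw [h4, one_mul]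

theorem grpB : StGrpB.{u} := by
  intro G _ _ hcard hZ hexp hchar hcomm x
  classical
  obtain ⟨T, hT⟩ : ∃ T : Set G, T = {g | (∃ x : G, g = x * x) ∨ g ∈ Subgroup.center G} :=
    ⟨_, rfl⟩
  have hTcomm : ∀ a ∈ T, ∀ b ∈ T, a * b = b * a := by
    intro a ha b hb
    rw [hT] at ha hb
    rcases ha with ⟨u, rfl⟩ | ha
    · rcases hb with ⟨v, rfl⟩ | hb
      · exact sq_comm hexp hcomm u v
      · exact (Subgroup.mem_center_iff.mp hb (u * u))
    · exact (Subgroup.mem_center_iff.mp ha b).symm
  have hSchar : (Subgroup.closure T).Characteristic := by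
    rw [Subgroup.characteristic_iff_le_comap]
    intro φ
    rw [Subgroup.closure_le]
    intro t ht
    apply Subgroup.subset_closure
    rw [hT] at ht ⊢
    rcases ht with ⟨u, rfl⟩ | ht
    · left
      exact ⟨φ u, map_mul φ u u⟩
    · right
      rw [Subgroup.mem_center_iff] at ht ⊢
      intro g
      have h1 := ht (φ.symm g)
      have h2 := congrArg φ h1
      rw [map_mul, map_mul, MulEquiv.apply_symm_apply] at h2
      exact h2
  have hScomm : IsMulCommutative ↥(Subgroup.closure T) :=
    Subgroup.isMulCommutative_closure hTcomm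
  have hScyc : IsCyclic ↥(Subgroup.closure T) := hchar _ hSchar hScomm
  have hScard : Nat.card ↥(Subgroup.closure T) ∣ 4 := by
    rw [← IsCyclic.exponent_eq_card, Monoid.exponent_dvd_iff_forall_pow_eq_one]
    intro g
    apply Subtype.ext
    rw [Subgroup.coe_pow, hexp]
    rfl
  have hle : Subgroup.center G ≤ Subgroup.closure T := by
    intro g hg
    apply Subgroup.subset_closure
    rw [hT]
    exact Or.inr hg
  have h4 : Nat.card ↥(Subgroup.closure T) ≤ Nat.card ↥(Subgroup.center G) := by
    rw [hZ]
    exact Nat.le_of_dvd (by norm_num) hScard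
  have hEq := Subgroup.eq_of_le_of_card_ge hle h4
  rw [hEq]
  apply Subgroup.subset_closure
  rw [hT]
  exact Or.inl ⟨x, rfl⟩

example : StGrpB.{u} := grpB

end Cfsg.Agent.H99.S4P
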