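import Cfsg.Agent.H99.SpBasic

set_option autoImplicit false

namespace Cfsg.Agent.H99

open Matrix
open scoped MatrixGroups

section
variable {F : Type*} [Field F] {n : ℕ}

theorem transvection_mulVec_update {k l : Fin n} (hkl : k ≠ l) (a : F) (x : Fin n → F) :
    ((Matrix.SpecialLinearGroup.transvection hkl a : Matrix.SpecialLinearGroup (Fin n) F) :
      Matrix (Fin n) (Fin n) F) *ᵥ x = Function.update x k (x k + a * x l) := by
  rw [Matrix.SpecialLinearGroup.transvection_coe, Matrix.add_mulVec, Matrix.one_mulVec]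
  ext m
  by_cases hm : m = k
  · subst hm
    simp [Matrix.mulVec, dotProduct, Matrix.single_apply]
  · simp [Matrix.mulVec, dotProduct, hm, Ne.symm hm]

/-- The diagonal matrix with entries `c`, `c⁻¹` in positions `i`, `j` is a product of six
elementary transvections. -/
theorem diag2n_eq_prod {i j : Fin n} (hij : i ≠ j) (c : F) (hc : c ≠ 0) :
    Matrix.SpecialLinearGroup.diag2n hij c hc =
      Matrix.SpecialLinearGroup.transvection hij c *
      Matrix.SpecialLinearGroup.transvection hij.symm (-c⁻¹) *
      Matrix.SpecialLinearGroup.transvection hij c *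
      Matrix.SpecialLinearGroup.transvection hij (-1) *
      Matrix.SpecialLinearGroup.transvection hij.symm 1 *
      Matrix.SpecialLinearGroup.transvection hij (-1) := by
  apply Subtype.ext
  apply mat_ext_mulVec
  intro x
  simp only [Matrix.SpecialLinearGroup.coe_mul, ← Matrix.mulVec_mulVec,
    transvection_mulVec_update]
  rw [Matrix.SpecialLinearGroup.diag2n_coe]
  ext k
  rw [Matrix.mulVec_diagonal]
  by_cases hki : k = i
  · subst hki
    simp [hij, hij.symm]
    field_simp
    ring
  · by_cases hkj : k = j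
    · subst hkj
      simp [hij, hij.symm]
      field_simp
      ring
    · simp [hki, hkj]

/-- A subgroup of `GL_n(F)` containing all transvections contains `SL_n(F)`. -/
theorem sl_le_of_transvections (hn : 2 ≤ n) (M : Subgroup (GL (Fin n) F))
    (hM : ∀ w φ : Fin n → F, φ ⬝ᵥ w = 0 → ∃ g ∈ M, ∀ x, act g x = x + (φ ⬝ᵥ x) • w) :
    Cfsg.Geo.specialLinear (Fin n) F ≤ M := by
  classical
  have : Nontrivial (Fin n) := Fin.nontrivial_iff_two_le.mpr hn
  have htv : ∀ (i j : Fin n) (hij : i ≠ j) (a : F),
      Matrix.SpecialLinearGroup.toGL (Matrix.SpecialLinearGroup.transvection hij a) ∈ M := by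
    intro i j hij a
    obtain ⟨g, hg, hgx⟩ := hM (a • Pi.single i 1) (Pi.single j 1) (by simp [hij.symm])
    have e : Matrix.SpecialLinearGroup.toGL (Matrix.SpecialLinearGroup.transvection hij a) = g := by
      apply gl_ext_act
      intro x
      rw [hgx]
      unfold act
      rw [Matrix.SpecialLinearGroup.coe_GL_coe_matrix, transvection_mulVec_update]
      ext m
      by_cases hm : m = i
      · subst hm
        simp [mul_comm]
      · simp [hm]
    rw [e]
    exact hg
  intro g hg
  have hdet : (g : Matrix (Fin n) (Fin n) F).det = 1 := by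
    unfold Cfsg.Geo.specialLinear at hg
    rw [MonoidHom.mem_ker] at hg
    have h1 := congrArg Units.val hg
    rwa [Matrix.GeneralLinearGroup.val_det_apply, Units.val_one] at h1
  obtain ⟨s, hs⟩ : ∃ s : Matrix.SpecialLinearGroup (Fin n) F,
      (s : Matrix (Fin n) (Fin n) F) = (g : Matrix (Fin n) (Fin n) F) := ⟨⟨_, hdet⟩, rfl⟩
  have hg' : g = Matrix.SpecialLinearGroup.toGL s := by
    apply Units.ext
    rw [Matrix.SpecialLinearGroup.coe_GL_coe_matrix, hs]
  rw [hg']
  refine Matrix.SpecialLinearGroup.diagonal_transvection_induction'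
    (fun s => Matrix.SpecialLinearGroup.toGL s ∈ M) s ?_ ?_ ?_
  · intro i j hij c hc
    show Matrix.SpecialLinearGroup.toGL (Matrix.SpecialLinearGroup.diag2n hij c hc) ∈ M
    rw [diag2n_eq_prod hij c hc]
    simp only [map_mul]
    exact M.mul_mem (M.mul_mem (M.mul_mem (M.mul_mem (M.mul_mem (htv _ _ _ _) (htv _ _ _ _))
      (htv _ _ _ _)) (htv _ _ _ _)) (htv _ _ _ _)) (htv _ _ _ _)
  · exact htv
  · intro A B hA hB
    show Matrix.SpecialLinearGroup.toGL (A * B) ∈ M
    rw [map_mul]
    exact M.mul_mem hA hB

end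

end Cfsg.Agent.H99
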