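import Cfsg.Agent.S0617
import Cfsg.Agent.H14.TFail
import Cfsg.Agent.H90.SgDefs

/-!
# SG-GEN (piece of EXIST-GEN / S2949, parallel take by helper99)

Glauberman's structure theorem S0617 in the holomorph of `V` plus the abstract lemma BOX:
`J(X)` is generated by elements normalizing `JC` and by the subgroups `D ⊇ C` of index 3.
-/

set_option autoImplicit false
open Cfsg
open scoped commutatorElement Pointwise

universe u

namespace Cfsg.Agent.H99.Sg

open Cfsg.Agent.H90.Sg Cfsg.Agent.H14.Holo

theorem gen (hBox : StBox.{u}) : StGen.{u} := by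
  intro X _ _ V _ hV hsep hO' J hJJ hJ2
  suffices main : ∀ R : Subgroup X,
      Subgroup.normalizer ((J ⊔ Subgroup.centralizer (V : Set X) : Subgroup X) : Set X) ≤ R →
      (∀ D : Subgroup X, Subgroup.centralizer (V : Set X) ≤ D →
        (Subgroup.centralizer (V : Set X)).relIndex D = 3 →
        thompsonSubgroup 2 X ≤ Subgroup.normalizer (D : Set X) →
        ¬ ⁅D, J⁆ ≤ Subgroup.centralizer (V : Set X) →
        (∃ W : Subgroup X, Nat.card ↥W = 4 ∧ ∀ k ∈ D, ∀ v ∈ V, k * v * k⁻¹ * v⁻¹ ∈ W) →
        D ≤ R) →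
      thompsonSubgroup 2 X ≤ R from
    main _ le_sup_left (fun D h1 h2 h3 h4 h5 =>
      le_sup_of_le_right (le_iSup_of_le ⟨D, h1, h2, h3, h4, h5⟩ le_rfl))
  intro R hNR hDR
  haveI : Fact (Nat.Prime 2) := ⟨Nat.prime_two⟩
  haveI hJn := thompsonSubgroup_normal 2 X
  have hV' := Vh_elemAb V hV
  have hHV : (thompsonSubgroup 2 X).map (psi V) ≤
      Subgroup.normalizer ((Vh V : Subgroup (Hol V)) : Set (Hol V)) := by
    haveI := Vh_normal V
    rw [Subgroup.normalizer_eq_top]
    exact le_top
  have hHR : (thompsonSubgroup 2 X).map (psi V) ≤ (psi V).range := by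
    rintro _ ⟨j, -, rfl⟩
    exact ⟨j, rfl⟩
  have hf : (thompsonSubgroup 2 X).map (psi V) ⊓
      Subgroup.centralizer ((Vh V : Subgroup (Hol V)) : Set (Hol V)) = ⊥ := by
    rw [eq_bot_iff, ← range_faithful V]
    exact inf_le_inf_right _ hHR
  have hnorm : (psi V).range ≤
      Subgroup.normalizer (((thompsonSubgroup 2 X).map (psi V) : Subgroup (Hol V)) :
        Set (Hol V)) := by
    rintro _ ⟨g, rfl⟩
    rw [Subgroup.mem_normalizer_iff]
    intro h
    constructor
    · rintro ⟨j, hj, rfl⟩
      refine ⟨g * j * g⁻¹, hJn.conj_mem j hj g, ?_⟩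
      simp
    · rintro ⟨j, hj, hjh⟩
      refine ⟨g⁻¹ * j * g, ?_, ?_⟩
      · have := hJn.conj_mem j hj g⁻¹
        simpa using this
      · rw [map_mul, map_mul, hjh, map_inv]
        group
  have hS1 := hS1_of_normal (p := 2) (psi V).range ((thompsonSubgroup 2 X).map (psi V)) hHR hnorm
    (range_isPSolvable V hsep) (range_pCore_eq_bot V hO')
  have hS3 : (thompsonSubgroup 2 X).map (psi V) = ⨆ A : {A : Subgroup (Hol V) //
      A ≤ (thompsonSubgroup 2 X).map (psi V) ∧ IsBestOffenderOn 2 (Vh V) A},
        (A : Subgroup (Hol V)) := by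
    apply le_antisymm
    · conv_lhs => unfold Cfsg.thompsonSubgroup
      rw [Subgroup.map_le_iff_le_comap]
      apply sSup_le
      intro A hA
      rw [← Subgroup.map_le_iff_le_comap]
      exact le_iSup (fun A : {A : Subgroup (Hol V) //
        A ≤ (thompsonSubgroup 2 X).map (psi V) ∧ IsBestOffenderOn 2 (Vh V) A} =>
          (A : Subgroup (Hol V)))
        ⟨A.map (psi V), Subgroup.map_mono (le_sSup hA), bestOffender_map V hV hA⟩
    · exact iSup_le fun A => A.2.1
  have hCR : Subgroup.centralizer (V : Set X) ≤ R :=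
    le_trans (le_trans le_sup_right Subgroup.le_normalizer) hNR
  have key : (thompsonSubgroup 2 X).map (psi V) ≤ R.map (psi V) → thompsonSubgroup 2 X ≤ R := by
    intro h x hx
    obtain ⟨r, hr, hrx⟩ := h (Subgroup.mem_map_of_mem _ hx)
    have h1 : r⁻¹ * x ∈ (psi V).ker := by
      rw [MonoidHom.mem_ker, map_mul, map_inv, hrx, inv_mul_cancel]
    rw [psi_ker] at h1
    have h2 := R.mul_mem hr (hCR h1)
    rwa [mul_inv_cancel_left] at h2
  apply key
  by_cases hH1 : (thompsonSubgroup 2 X).map (psi V) = ⊥
  · rw [hH1]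
    exact bot_le
  obtain ⟨-, hE, hind, hsup, -, -⟩ :=
    Cfsg.Agent.S0617.result (Vh V) ((thompsonSubgroup 2 X).map (psi V)) hV' hHV hf hS1 hS3 hH1
  have hJC : J ⊔ Subgroup.centralizer (V : Set X) = (J.map (psi V)).comap (psi V) := by
    rw [Subgroup.comap_map_eq, psi_ker]
  -- elements of `H` centralizing the image of `J` come from `N(JC)`
  have hN : ∀ e ∈ (thompsonSubgroup 2 X).map (psi V),
      e ∈ Subgroup.centralizer ((J.map (psi V) : Subgroup (Hol V)) : Set (Hol V)) →
      e ∈ R.map (psi V) := by
    rintro _ ⟨g, hg, rfl⟩ hcen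
    refine Subgroup.mem_map_of_mem _ (hNR ?_)
    rw [hJC]
    apply Subgroup.le_normalizer_comap (psi V)
    rw [Subgroup.mem_comap]
    exact (Subgroup.centralizer_le_normalizer _) hcen
  have hJH : J.map (psi V) ≤ (thompsonSubgroup 2 X).map (psi V) := Subgroup.map_mono hJJ
  have hJ2' : IsPGroup 2 ↥(J.map (psi V)) := hJ2.map (psi V)
  refine hsup.ge.trans (iSup_le fun i => ?_)
  have hiH : (i : Subgroup (Hol V)) ≤ (thompsonSubgroup 2 X).map (psi V) :=
    (le_iSup _ i).trans hsup.le
  rcases hBox _ ((thompsonSubgroup 2 X).map (psi V)) (J.map (psi V)) (fun i => (hE i).1)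
    (fun i => (hE i).2.1) hind hsup hJH hJ2' i with hcase | ⟨Db, hDbE, hDb3, hHDb, hDbJ, hEle⟩
  · intro e he
    exact hN e (hiH he) (hcase he)
  · refine hEle.trans (sup_le ?_ ?_)
    · have hDbR : Db ≤ (psi V).range := (hDbE.trans hiH).trans hHR
      have hD : Db.comap (psi V) ≤ R := by
        apply hDR
        · intro c hc
          rw [Subgroup.mem_comap]
          have : c ∈ (psi V).ker := by rw [psi_ker]; exact hc
          rw [MonoidHom.mem_ker.mp this]
          exact Db.one_mem
        · have h1 := Subgroup.relIndex_ker (Db.comap (psi V)) (psi V)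
          rw [psi_ker, Subgroup.map_comap_eq, inf_eq_right.mpr hDbR] at h1
          rw [h1, hDb3]
        · intro j hj
          exact Subgroup.le_normalizer_comap (psi V) (hHDb (Subgroup.mem_map_of_mem _ hj))
        · intro hle
          apply hDbJ
          intro d hd
          rw [Subgroup.mem_centralizer_iff]
          rintro _ ⟨j, hj, rfl⟩
          obtain ⟨x, rfl⟩ := hDbR hd
          have h1 : ⁅x, j⁆ ∈ (psi V).ker := by
            rw [psi_ker]
            exact hle (Subgroup.commutator_mem_commutator (Subgroup.mem_comap.mpr hd) hj)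
          rw [MonoidHom.mem_ker, commutatorElement_def, map_mul, map_mul, map_mul, map_inv,
            map_inv] at h1
          have h2 : psi V x * psi V j = psi V j * psi V x := by
            have h3 : psi V x * psi V j = (psi V x * psi V j * (psi V x)⁻¹ * (psi V j)⁻¹) *
                (psi V j * psi V x) := by group
            rw [h3, h1, one_mul]
          exact h2.symm
        · -- the subgroup `W` of order 4
          have hcomm : ⁅Vh V, (i : Subgroup (Hol V))⁆ ≤
              (SemidirectProduct.inl : ↥V →* Hol V).range := by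
            haveI := Vh_normal V
            exact Subgroup.commutator_le_left (Vh V) _
          refine ⟨((⁅Vh V, (i : Subgroup (Hol V))⁆).comap
            (SemidirectProduct.inl : ↥V →* Hol V)).map V.subtype, ?_, ?_⟩
          · rw [Nat.card_congr (Subgroup.equivMapOfInjective _ V.subtype
              V.subtype_injective).symm.toEquiv]
            have hinj : Function.Injective (SemidirectProduct.inl : ↥V →* Hol V) :=
              SemidirectProduct.inl_injective
            rw [Nat.card_congr (Subgroup.equivMapOfInjective _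
              (SemidirectProduct.inl : ↥V →* Hol V) hinj).toEquiv]
            rw [Subgroup.map_comap_eq, inf_eq_right.mpr hcomm]
            exact (hE i).2.2.trans (by norm_num)
          · intro k hk v hv
            refine ⟨MulAut.conjNormal k ⟨v, hv⟩ * (⟨v, hv⟩ : ↥V)⁻¹, ?_, ?_⟩
            · show SemidirectProduct.inl (MulAut.conjNormal k ⟨v, hv⟩ * (⟨v, hv⟩ : ↥V)⁻¹) ∈
                ⁅Vh V, (i : Subgroup (Hol V))⁆
              have h2 : ⁅psi V k, (SemidirectProduct.inl (⟨v, hv⟩ : ↥V) : Hol V)⁆ ∈
                  ⁅(i : Subgroup (Hol V)), Vh V⁆ :=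
                Subgroup.commutator_mem_commutator (hDbE (Subgroup.mem_comap.mp hk))
                  ⟨⟨v, hv⟩, rfl⟩
              rw [Subgroup.commutator_comm] at h2
              rw [commutatorElement_def, psi_conj] at h2
              rw [map_mul, map_inv]
              exact h2
            · simp [MulAut.conjNormal_apply]
      intro d hd
      obtain ⟨x, rfl⟩ := hDbR hd
      exact Subgroup.mem_map_of_mem _ (hD (Subgroup.mem_comap.mpr hd))
    · intro e he
      exact hN e (hiH he.1) he.2

example (hBox : Cfsg.Agent.H90.Sg.StBox.{u}) : Cfsg.Agent.H90.Sg.StGen.{u} := gen hBox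

end Cfsg.Agent.H99.Sg

#print axioms Cfsg.Agent.H99.Sg.gen
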