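import Mathlib

set_option autoImplicit false

open Matrix

namespace Cfsg.Agent.H99.Singer

/-- Fixed-point congruence: an endomorphism `y` with `y ^ n = 1` (`n` prime) acting without
nonzero fixed vectors on an invariant subspace `W` forces `q ^ dim W ≡ 1 (mod n)`. -/
theorem card_pow_finrank_modEq_one {F : Type*} [Field F] [Fintype F] {V : Type*} [AddCommGroup V]
    [Module F V] [FiniteDimensional F V] (n : ℕ) (hn : n.Prime) (y : V →ₗ[F] V) (hy : y ^ n = 1)
    (W : Submodule F V) (hW : ∀ w ∈ W, y w ∈ W) (hfix : ∀ w ∈ W, y w = w → w = 0) :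
    Fintype.card F ^ Module.finrank F W ≡ 1 [MOD n] := by
  classical
  haveI : Fact n.Prime := ⟨hn⟩
  haveI : Finite W := Module.finite_of_finite F
  haveI : Fintype W := Fintype.ofFinite W
  obtain ⟨yW, hyWdef⟩ : ∃ yW : Module.End F W, yW = y.restrict hW := ⟨_, rfl⟩
  have hyWapp : ∀ w : W, ((yW w : W) : V) = y w := by
    intro w
    rw [hyWdef]
    rfl
  have hpowapp : ∀ (k : ℕ) (w : W), (((yW ^ k) w : W) : V) = (y ^ k) w := by
    intro k
    induction k with
    | zero => intro w; simp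
    | succ k ih =>
      intro w
      rw [pow_succ', pow_succ', Module.End.mul_apply, Module.End.mul_apply, hyWapp, ih]
  have hyW : yW ^ n = 1 := by
    apply LinearMap.ext
    intro w
    apply Subtype.ext
    rw [hpowapp, hy]
    rfl
  have hn1 : n = (n - 1) + 1 := by have := hn.pos; omega
  obtain ⟨u, hu⟩ : ∃ u : (Module.End F W)ˣ, (u : Module.End F W) = yW :=
    ⟨⟨yW, yW ^ (n - 1), by rw [← pow_succ', ← hn1, hyW], by rw [← pow_succ, ← hn1, hyW]⟩, rfl⟩
  have hun : u ^ n = 1 := by
    apply Units.ext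
    rw [Units.val_pow_eq_pow_val, hu, hyW]
    rfl
  have hG : IsPGroup n (Subgroup.zpowers u) := by
    intro g
    refine ⟨1, ?_⟩
    obtain ⟨j, hj⟩ := Subgroup.mem_zpowers_iff.mp g.2
    apply Subtype.ext
    rw [pow_one, Subgroup.coe_pow, ← hj, ← zpow_natCast, ← _root_.zpow_mul, mul_comm, _root_.zpow_mul,
      zpow_natCast, hun, _root_.one_zpow]
    rfl
  have key := hG.card_modEq_card_fixedPoints W
  have hfp : MulAction.fixedPoints (Subgroup.zpowers u) W = {0} := by
    ext w
    rw [MulAction.mem_fixedPoints, Set.mem_singleton_iff]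
    constructor
    · intro h
      have h1 := h ⟨u, Subgroup.mem_zpowers u⟩
      have h2 : yW w = w := by
        rw [← hu]
        exact h1
      apply Subtype.ext
      apply hfix (w : V) w.2
      rw [← hyWapp, h2]
    · rintro rfl m
      obtain ⟨j, hj⟩ := Subgroup.mem_zpowers_iff.mp m.2
      show ((m : (Module.End F W)ˣ) : Module.End F W) 0 = 0
      exact map_zero _
  rw [hfp, Nat.card_eq_fintype_card, Module.card_eq_pow_finrank (K := F)] at key
  simpa using key

/-- An element `y ≠ 1` of `GL_n(F)` with `y ^ n = 1`, where `n` is a prime different from the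
characteristic and `q` has order `n - 1` modulo `n`, has a cyclic vector. -/
theorem exists_cyclic_vector {F : Type*} [Field F] [Fintype F] (n : ℕ) (hn : n.Prime) (hn3 : 3 < n)
    (hnF : (n : F) ≠ 0) (hord : orderOf ((Fintype.card F : ℕ) : ZMod n) = n - 1)
    (y : Matrix (Fin n) (Fin n) F) (hy : y ^ n = 1) (hy1 : y ≠ 1) :
    ∃ u : Fin n → F, LinearIndependent F (fun j : Fin n => (y ^ (j : ℕ)) *ᵥ u) := by
  classical
  obtain ⟨Y, hYdef⟩ : ∃ Y : Module.End F (Fin n → F), Y = Matrix.toLinAlgEquiv' y := ⟨_, rfl⟩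
  have hYn : Y ^ n = 1 := by rw [hYdef, ← map_pow, hy, map_one]
  have hYpow : ∀ (k : ℕ) (v : Fin n → F), (Y ^ k) v = (y ^ k) *ᵥ v := by
    intro k v
    rw [hYdef, ← map_pow, Matrix.toLinAlgEquiv'_apply]
  obtain ⟨Nm, hNm⟩ : ∃ Nm : Module.End F (Fin n → F), Nm = ∑ j ∈ Finset.range n, Y ^ j :=
    ⟨_, rfl⟩
  have hsum : ∑ j ∈ Finset.range n, Y ^ (j + 1) = ∑ j ∈ Finset.range n, Y ^ j := by
    have h1 := Finset.sum_range_succ' (fun j => Y ^ j) n
    have h2 := Finset.sum_range_succ (fun j => Y ^ j) n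
    rw [h1, hYn, pow_zero] at h2
    exact add_right_cancel h2
  have hYNm : Y * Nm = Nm := by
    rw [hNm, Finset.mul_sum]
    rw [← hsum]
    apply Finset.sum_congr rfl
    intro j _
    rw [pow_succ']
  have hNmY : Nm * Y = Nm := by
    rw [hNm, Finset.sum_mul]
    rw [← hsum]
    apply Finset.sum_congr rfl
    intro j _
    rw [pow_succ]
  -- fixed vectors
  have hfixpow : ∀ w : Fin n → F, Y w = w → ∀ k : ℕ, (Y ^ k) w = w := by
    intro w hw k
    induction k with
    | zero => simp
    | succ k ih => rw [pow_succ, Module.End.mul_apply, hw, ih]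
  have hNmfix : ∀ w : Fin n → F, Y w = w → Nm w = (n : F) • w := by
    intro w hw
    rw [hNm, LinearMap.sum_apply]
    rw [Finset.sum_congr rfl (fun j _ => hfixpow w hw j)]
    rw [Finset.sum_const, Finset.card_range, Nat.cast_smul_eq_nsmul]
  have hdisj : ∀ w : Fin n → F, Y w = w → Nm w = 0 → w = 0 := by
    intro w hw hw0
    rw [hNmfix w hw] at hw0
    exact (smul_eq_zero.mp hw0).resolve_left hnF
  -- divisibility
  have hdvd : ∀ W : Submodule F (Fin n → F), (∀ w ∈ W, Y w ∈ W) → (∀ w ∈ W, Y w = w → w = 0) →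
      (n - 1) ∣ Module.finrank F W := by
    intro W hW hfix
    have h1 := card_pow_finrank_modEq_one n hn Y hYn W hW hfix
    have h2 := (ZMod.natCast_eq_natCast_iff _ _ n).mpr h1
    rw [Nat.cast_pow, Nat.cast_one] at h2
    rw [← hord]
    exact orderOf_dvd_of_pow_eq_one h2
  have hn2 : 2 ≤ n - 1 := by omega
  have hge : ∀ W : Submodule F (Fin n → F), (∀ w ∈ W, Y w ∈ W) → (∀ w ∈ W, Y w = w → w = 0) →
      W ≠ ⊥ → n - 1 ≤ Module.finrank F W := by
    intro W hW hfix hne
    have h1 := hdvd W hW hfix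
    have h2 : 1 ≤ Module.finrank F W := Submodule.one_le_finrank_iff.mpr hne
    exact Nat.le_of_dvd h2 h1
  -- the kernel of the norm
  have hW2inv : ∀ w ∈ LinearMap.ker Nm, Y w ∈ LinearMap.ker Nm := by
    intro w hw
    rw [LinearMap.mem_ker] at hw ⊢
    rw [← Module.End.mul_apply, hNmY, hw]
  have hW2fix : ∀ w ∈ LinearMap.ker Nm, Y w = w → w = 0 := by
    intro w hw hw1
    exact hdisj w hw1 (LinearMap.mem_ker.mp hw)
  have hW2ne : LinearMap.ker Nm ≠ ⊥ := by
    intro hbot
    apply hy1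
    have hY1 : Y = 1 := by
      apply LinearMap.ext
      intro v
      have h1 : Y v - v ∈ LinearMap.ker Nm := by
        rw [LinearMap.mem_ker, map_sub, ← Module.End.mul_apply, hNmY, sub_self]
      rw [hbot, Submodule.mem_bot] at h1
      rw [Module.End.one_apply]
      exact sub_eq_zero.mp h1
    apply (Matrix.toLinAlgEquiv' (R := F) (n := Fin n)).injective
    rw [← hYdef, hY1, map_one]
  have hW2ge := hge _ hW2inv hW2fix hW2ne
  -- a nonzero fixed vector
  obtain ⟨v1, hv1, hv10⟩ : ∃ v1 : Fin n → F, Y v1 = v1 ∧ v1 ≠ 0 := by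
    by_contra hcon
    push Not at hcon
    have h1 := hdvd ⊤ (fun w _ => Submodule.mem_top) (fun w _ hw => hcon w hw)
    rw [finrank_top, Module.finrank_fin_fun] at h1
    have h2 : (n - 1) ∣ 1 := by
      have h3 : n = (n - 1) + 1 := by omega
      have h4 : (n - 1) ∣ (n - 1) + 1 := by rw [← h3]; exact h1
      exact (Nat.dvd_add_right (dvd_refl _)).mp h4
    have h5 := Nat.le_of_dvd Nat.one_pos h2
    omega
  obtain ⟨w, hwmem, hw0⟩ := Submodule.exists_mem_ne_zero_of_ne_bot hW2ne
  have hNw : Nm w = 0 := LinearMap.mem_ker.mp hwmem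
  refine ⟨v1 + w, ?_⟩
  obtain ⟨U, hU⟩ : ∃ U : Submodule F (Fin n → F),
      U = Submodule.span F (Set.range (fun j : Fin n => (Y ^ (j : ℕ)) (v1 + w))) := ⟨_, rfl⟩
  have hgen : ∀ k : ℕ, k < n → (Y ^ k) (v1 + w) ∈ U := by
    intro k hk
    rw [hU]
    exact Submodule.subset_span ⟨⟨k, hk⟩, rfl⟩
  have hUinv : ∀ x ∈ U, Y x ∈ U := by
    intro x hx
    rw [hU] at hx
    induction hx using Submodule.span_induction with
    | mem x hx =>
      obtain ⟨j, rfl⟩ := hx
      show Y ((Y ^ (j : ℕ)) (v1 + w)) ∈ U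
      rw [← Module.End.mul_apply, ← pow_succ']
      by_cases hj : (j : ℕ) + 1 < n
      · exact hgen _ hj
      · have hjn : (j : ℕ) + 1 = n := by have := j.2; omega
        rw [hjn, hYn, Module.End.one_apply]
        have h0 := hgen 0 (by omega)
        rwa [pow_zero, Module.End.one_apply] at h0
    | zero => rw [map_zero]; exact U.zero_mem
    | add x z _ _ hx hz => rw [map_add]; exact U.add_mem hx hz
    | smul c x _ hx => rw [map_smul]; exact U.smul_mem c hx
  have hNu : Nm (v1 + w) ∈ U := by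
    rw [hNm, LinearMap.sum_apply]
    exact U.sum_mem (fun j hj => hgen j (Finset.mem_range.mp hj))
  have hv1U : v1 ∈ U := by
    rw [map_add, hNw, add_zero, hNmfix v1 hv1] at hNu
    have h1 := U.smul_mem ((n : F)⁻¹) hNu
    rwa [smul_smul, inv_mul_cancel₀ hnF, one_smul] at h1
  have huU : v1 + w ∈ U := by
    have h0 := hgen 0 (by omega)
    rwa [pow_zero, Module.End.one_apply] at h0
  have hwU : w ∈ U := by
    have h1 := U.sub_mem huU hv1U
    rwa [add_sub_cancel_left] at h1
  have hUW : n - 1 ≤ Module.finrank F ↥(U ⊓ LinearMap.ker Nm) := by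
    apply hge
    · intro x hx
      exact ⟨hUinv x hx.1, hW2inv x hx.2⟩
    · intro x hx hx1
      exact hW2fix x hx.2 hx1
    · intro hbot
      have h1 : w ∈ U ⊓ LinearMap.ker Nm := ⟨hwU, hwmem⟩
      rw [hbot, Submodule.mem_bot] at h1
      exact hw0 h1
  have hlt : U ⊓ LinearMap.ker Nm < U := by
    refine lt_of_le_of_ne inf_le_left ?_
    intro heq
    have h1 : v1 ∈ U ⊓ LinearMap.ker Nm := by rw [heq]; exact hv1U
    exact hv10 (hW2fix v1 h1.2 hv1)
  have hlt2 := Submodule.finrank_lt_finrank_of_lt hlt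
  have hUtop : U = ⊤ := by
    apply Submodule.eq_top_of_finrank_eq
    rw [Module.finrank_fin_fun]
    have h1 : Module.finrank F ↥U ≤ Module.finrank F (Fin n → F) := Submodule.finrank_le U
    rw [Module.finrank_fin_fun] at h1
    omega
  have hli : LinearIndependent F (fun j : Fin n => (Y ^ (j : ℕ)) (v1 + w)) := by
    apply linearIndependent_of_top_le_span_of_card_eq_finrank
    · rw [← hU, hUtop]
    · rw [Fintype.card_fin, Module.finrank_fin_fun]
  have e : (fun j : Fin n => (y ^ (j : ℕ)) *ᵥ (v1 + w))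
      = (fun j : Fin n => (Y ^ (j : ℕ)) (v1 + w)) := by
    funext j
    rw [hYpow]
  rw [e]
  exact hli

end Cfsg.Agent.H99.Singer
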