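import Mathlib
import Cfsg.Prelude.Def_GeometricClasses

set_option autoImplicit false

namespace Cfsg.Agent.H99

open Matrix
open scoped MatrixGroups

section
variable {F : Type*} [Field F] {n : ℕ}

/-- Two matrices with the same action on vectors are equal. -/
theorem mat_ext_mulVec (A B : Matrix (Fin n) (Fin n) F) (h : ∀ v, A *ᵥ v = B *ᵥ v) : A = B :=
  Matrix.toLin'.injective
    (LinearMap.ext fun v => by rw [Matrix.toLin'_apply, Matrix.toLin'_apply, h v])

/-- The action of an invertible matrix on a vector. -/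
def act (g : GL (Fin n) F) (x : Fin n → F) : Fin n → F :=
  (g : Matrix (Fin n) (Fin n) F) *ᵥ x

theorem act_def (g : GL (Fin n) F) (x : Fin n → F) :
    act g x = (g : Matrix (Fin n) (Fin n) F) *ᵥ x := rfl

theorem act_add (g : GL (Fin n) F) (x y : Fin n → F) : act g (x + y) = act g x + act g y :=
  Matrix.mulVec_add _ _ _

theorem act_sub (g : GL (Fin n) F) (x y : Fin n → F) : act g (x - y) = act g x - act g y :=
  Matrix.mulVec_sub _ _ _

theorem act_smul (g : GL (Fin n) F) (c : F) (x : Fin n → F) : act g (c • x) = c • act g x :=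
  Matrix.mulVec_smul _ _ _

theorem act_zero (g : GL (Fin n) F) : act g 0 = 0 := Matrix.mulVec_zero _

theorem act_mul (g h : GL (Fin n) F) (x : Fin n → F) : act (g * h) x = act g (act h x) := by
  unfold act
  rw [Units.val_mul, Matrix.mulVec_mulVec]

theorem act_one (x : Fin n → F) : act (1 : GL (Fin n) F) x = x := by
  unfold act
  rw [Units.val_one, Matrix.one_mulVec]

theorem act_inv_act (g : GL (Fin n) F) (x : Fin n → F) : act g⁻¹ (act g x) = x := by
  rw [← act_mul, inv_mul_cancel, act_one]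

theorem act_act_inv (g : GL (Fin n) F) (x : Fin n → F) : act g (act g⁻¹ x) = x := by
  rw [← act_mul, mul_inv_cancel, act_one]

theorem act_injective (g : GL (Fin n) F) : Function.Injective (act g) := by
  intro x y h
  rw [← act_inv_act g x, h, act_inv_act]

theorem gl_ext_act (g h : GL (Fin n) F) (H : ∀ x, act g x = act h x) : g = h :=
  Units.ext (mat_ext_mulVec _ _ H)

/-- The transvection `x ↦ x + φ(x) w`, for `φ(w) = 0`. -/
theorem exists_transvection (w φ : Fin n → F) (h : φ ⬝ᵥ w = 0) :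
    ∃ g : GL (Fin n) F, g ∈ Cfsg.Geo.specialLinear (Fin n) F ∧
      ∀ x, act g x = x + (φ ⬝ᵥ x) • w := by
  have hA : Matrix.vecMulVec w φ * Matrix.vecMulVec w φ = 0 := by
    rw [Matrix.vecMulVec_mul_vecMulVec, h, zero_smul, Matrix.vecMulVec_zero]
  have h1 : (1 + Matrix.vecMulVec w φ) * (1 - Matrix.vecMulVec w φ) = 1 := by
    rw [Matrix.add_mul, Matrix.mul_sub, Matrix.mul_sub, hA]
    simp only [Matrix.one_mul, Matrix.mul_one, sub_zero]
    abel
  have h2 : (1 - Matrix.vecMulVec w φ) * (1 + Matrix.vecMulVec w φ) = 1 := by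
    rw [Matrix.sub_mul, Matrix.mul_add, Matrix.mul_add, hA]
    simp only [Matrix.one_mul, Matrix.mul_one, add_zero]
    abel
  refine ⟨⟨1 + Matrix.vecMulVec w φ, 1 - Matrix.vecMulVec w φ, h1, h2⟩, ?_, ?_⟩
  · unfold Cfsg.Geo.specialLinear
    rw [MonoidHom.mem_ker]
    apply Units.ext
    rw [Matrix.GeneralLinearGroup.val_det_apply, Units.val_one]
    show (1 + Matrix.vecMulVec w φ).det = 1
    rw [Matrix.vecMulVec_eq (Fin 1), Matrix.det_one_add_replicateCol_mul_replicateRow, h,
      add_zero]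
  · intro x
    show (1 + Matrix.vecMulVec w φ) *ᵥ x = _
    rw [Matrix.add_mulVec, Matrix.one_mulVec, Matrix.vecMulVec_mulVec]
    simp

end

section
variable {F : Type*} [Field F] {n : ℕ} (B : LinearMap.BilinForm F (Fin n → F))

/-- Every linear functional is represented by a unique vector, for a non-degenerate form. -/
theorem riesz (hnd : ∀ v : Fin n → F, v ≠ 0 → ∃ x, B x v ≠ 0)
    (ψ : (Fin n → F) →ₗ[F] F) : ∃ y, ∀ x, B x y = ψ x := by
  have hinj : Function.Injective (B.flip : (Fin n → F) →ₗ[F] (Fin n → F) →ₗ[F] F) := by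
    rw [injective_iff_map_eq_zero]
    intro y hy
    by_contra hy0
    obtain ⟨x, hx⟩ := hnd y hy0
    apply hx
    have := congrArg (fun φ : (Fin n → F) →ₗ[F] F => φ x) hy
    simpa using this
  have hsurj : Function.Surjective (B.flip : (Fin n → F) →ₗ[F] (Fin n → F) →ₗ[F] F) :=
    (LinearMap.injective_iff_surjective_of_finrank_eq_finrank
      (Subspace.dual_finrank_eq (K := F) (V := Fin n → F)).symm).mp hinj
  obtain ⟨y, hy⟩ := hsurj ψ
  refine ⟨y, fun x => ?_⟩
  rw [← hy]
  rfl

/-- Two non-zero vectors are simultaneously non-perpendicular to some vector. -/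
theorem two_fun (hnd : ∀ v : Fin n → F, v ≠ 0 → ∃ x, B x v ≠ 0) (u u' : Fin n → F)
    (hu : u ≠ 0) (hu' : u' ≠ 0) : ∃ z, B z u ≠ 0 ∧ B z u' ≠ 0 := by
  obtain ⟨x₁, h₁⟩ := hnd u hu
  obtain ⟨x₂, h₂⟩ := hnd u' hu'
  by_cases h3 : B x₁ u' = 0
  · by_cases h4 : B x₂ u = 0
    · refine ⟨x₁ + x₂, ?_, ?_⟩
      · rw [map_add, LinearMap.add_apply, h4, add_zero]
        exact h₁
      · rw [map_add, LinearMap.add_apply, h3, zero_add]
        exact h₂
    · exact ⟨x₂, h4, h₂⟩
  · exact ⟨x₁, h₁, h3⟩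

/-- The perpendicular space of the perpendicular space of a vector is the line it spans. -/
theorem perp_perp (hnd : ∀ v : Fin n → F, v ≠ 0 → ∃ x, B x v ≠ 0) (w y : Fin n → F)
    (h : ∀ x, B x w = 0 → B x y = 0) : ∃ c : F, y = c • w := by
  by_cases hw : w = 0
  · refine ⟨0, ?_⟩
    rw [zero_smul]
    by_contra hy
    obtain ⟨x, hx⟩ := hnd y hy
    exact hx (h x (by rw [hw, map_zero]))
  · obtain ⟨e, he⟩ := hnd w hw
    refine ⟨B e y / B e w, ?_⟩
    by_contra hy
    obtain ⟨x, hx⟩ := hnd (y - (B e y / B e w) • w) (sub_ne_zero.mpr hy)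
    apply hx
    have h1 : B (x - (B x w / B e w) • e) w = 0 := by
      rw [map_sub, LinearMap.sub_apply, map_smul, LinearMap.smul_apply, smul_eq_mul,
        div_mul_cancel₀ _ he, sub_self]
    have h2 := h _ h1
    rw [map_sub, LinearMap.sub_apply, map_smul, LinearMap.smul_apply, smul_eq_mul] at h2
    rw [map_sub, map_smul, smul_eq_mul]
    have h3 : B x y = B x w / B e w * B e y := sub_eq_zero.mp h2
    rw [h3]
    field_simp
    ring

/-- Two vectors perpendicular to `w` but not on its line are simultaneously non-perpendicular to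
some vector perpendicular to `w`. -/
theorem two_fun_perp (hnd : ∀ v : Fin n → F, v ≠ 0 → ∃ x, B x v ≠ 0) (w y y' : Fin n → F)
    (hy : ∀ c : F, y ≠ c • w) (hy' : ∀ c : F, y' ≠ c • w) :
    ∃ z, B z w = 0 ∧ B z y ≠ 0 ∧ B z y' ≠ 0 := by
  obtain ⟨x₁, h₁w, h₁⟩ : ∃ x, B x w = 0 ∧ B x y ≠ 0 := by
    by_contra hcon
    push Not at hcon
    obtain ⟨c, hc⟩ := perp_perp B hnd w y hcon
    exact hy c hc
  obtain ⟨x₂, h₂w, h₂⟩ : ∃ x, B x w = 0 ∧ B x y' ≠ 0 := by
    by_contra hcon
    push Not at hcon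
    obtain ⟨c, hc⟩ := perp_perp B hnd w y' hcon
    exact hy' c hc
  by_cases h3 : B x₁ y' = 0
  · by_cases h4 : B x₂ y = 0
    · refine ⟨x₁ + x₂, ?_, ?_, ?_⟩
      · rw [map_add, LinearMap.add_apply, h₁w, h₂w, add_zero]
      · rw [map_add, LinearMap.add_apply, h4, add_zero]
        exact h₁
      · rw [map_add, LinearMap.add_apply, h3, zero_add]
        exact h₂
    · exact ⟨x₂, h₂w, h4, h₂⟩
  · exact ⟨x₁, h₁w, h₁, h3⟩

/-- An invertible matrix preserving perpendicularity is a similarity. -/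
theorem similarity_of_perp (hskew : ∀ v w : Fin n → F, B v w = -B w v)
    (hnd : ∀ v : Fin n → F, v ≠ 0 → ∃ x, B x v ≠ 0) (g : GL (Fin n) F)
    (hg : ∀ u v, B u v = 0 → B (act g u) (act g v) = 0) :
    ∃ c : Fˣ, ∀ u v, B (act g u) (act g v) = (c : F) * B u v := by
  classical
  by_cases hsub : ∀ v : Fin n → F, v = 0
  · refine ⟨1, fun u v => ?_⟩
    rw [hsub v, act_zero, map_zero, map_zero, mul_zero]
  push Not at hsub
  obtain ⟨v₀, hv₀⟩ := hsub
  have hex : ∀ v : Fin n → F, ∃ lam : F, v ≠ 0 → ∀ u, B (act g u) (act g v) = lam * B u v := by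
    intro v
    by_cases hv : v = 0
    · exact ⟨0, fun h => absurd hv h⟩
    · obtain ⟨x, hx⟩ := hnd v hv
      refine ⟨B (act g x) (act g v) / B x v, fun _ u => ?_⟩
      have h1 : B (u - (B u v / B x v) • x) v = 0 := by
        rw [map_sub, LinearMap.sub_apply, map_smul, LinearMap.smul_apply, smul_eq_mul,
          div_mul_cancel₀ _ hx, sub_self]
      have h2 := hg _ _ h1
      rw [act_sub, act_smul, map_sub, LinearMap.sub_apply, map_smul, LinearMap.smul_apply,
        smul_eq_mul] at h2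
      have h3 : B (act g u) (act g v) = B u v / B x v * B (act g x) (act g v) := sub_eq_zero.mp h2
      rw [h3]
      field_simp
  choose lam hlam using hex
  have key2 : ∀ u v : Fin n → F, u ≠ 0 → v ≠ 0 → B u v ≠ 0 → lam u = lam v := by
    intro u v hu hv huv
    have h1 := hlam v hv u
    have h2 := hlam u hu v
    rw [hskew (act g v) (act g u), h1, hskew v u] at h2
    have h3 : (lam v - lam u) * B u v = 0 := by linear_combination -h2
    rcases mul_eq_zero.mp h3 with h | h
    · exact (sub_eq_zero.mp h).symm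
    · exact absurd h huv
  have key3 : ∀ v : Fin n → F, v ≠ 0 → lam v = lam v₀ := by
    intro v hv
    obtain ⟨z, hz1, hz2⟩ := two_fun B hnd v v₀ hv hv₀
    have hz0 : z ≠ 0 := by
      rintro rfl
      rw [map_zero, LinearMap.zero_apply] at hz1
      exact hz1 rfl
    rw [← key2 z v hz0 hv hz1, ← key2 z v₀ hz0 hv₀ hz2]
  have hc0 : lam v₀ ≠ 0 := by
    intro h0
    have hgv : act g v₀ ≠ 0 := by
      intro h
      apply hv₀
      apply act_injective g
      rw [h, act_zero]
    obtain ⟨x, hx⟩ := hnd (act g v₀) hgv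
    apply hx
    have h1 := hlam v₀ hv₀ (act g⁻¹ x)
    rw [act_act_inv, h0, zero_mul] at h1
    exact h1
  refine ⟨Units.mk0 (lam v₀) hc0, fun u v => ?_⟩
  by_cases hv : v = 0
  · rw [hv, act_zero, map_zero, map_zero, mul_zero]
  · rw [hlam v hv u, key3 v hv]
    rfl

end

end Cfsg.Agent.H99
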