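import Cfsg.Agent.H99.SpSubA

set_option autoImplicit false

/-! Helper lemmas (helper99): symplectic transvections and short root elements
`x ↦ x + c f(x,a) b + c f(x,b) a` in `GL (Fin m ⊕ Fin m) F`. -/

namespace Cfsg.Agent.H99.SS

open Matrix Cfsg Cfsg.Geo Cfsg.Agent.H95
open scoped MatrixGroups

section
variable {m : ℕ} {F : Type*} [Field F]

theorem form_neg_left (u v : Fin m ⊕ Fin m → F) :
    sympForm m F (-u) v = -sympForm m F u v := by
  have h := sympForm_smul_left (-1 : F) u v
  rw [neg_one_smul] at h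
  rw [h]
  ring

theorem form_neg_right (u v : Fin m ⊕ Fin m → F) :
    sympForm m F u (-v) = -sympForm m F u v := by
  have h := sympForm_smul_right (-1 : F) u v
  rw [neg_one_smul] at h
  rw [h]
  ring

theorem form_swap_zero {u v : Fin m ⊕ Fin m → F} (h : sympForm m F u v = 0) :
    sympForm m F v u = 0 := by
  rw [sympForm_skew, h, neg_zero]

theorem tv_ac (v : Fin m ⊕ Fin m → F) (c : F) (x : Fin m ⊕ Fin m → F) :
    ac (sympTransv v c) x = x + (c * sympForm m F x v) • v := sympTransv_mulVec v c x

theorem form_ac {g : GL (Fin m ⊕ Fin m) F} (hg : g ∈ spGL m F) (x y : Fin m ⊕ Fin m → F) :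
    sympForm m F (ac g x) (ac g y) = sympForm m F x y := hg x y

theorem tv_zero_param (v : Fin m ⊕ Fin m → F) : sympTransv v (0 : F) = 1 := by
  apply gl_ext
  intro x
  rw [tv_ac, ac_one, zero_mul, zero_smul, add_zero]

theorem tv_zero_vec (c : F) : sympTransv (0 : Fin m ⊕ Fin m → F) c = 1 := by
  apply gl_ext
  intro x
  rw [tv_ac, ac_one, smul_zero, add_zero]

theorem tv_add (v : Fin m ⊕ Fin m → F) (c d : F) :
    sympTransv v (c + d) = sympTransv v c * sympTransv v d := by
  apply gl_ext
  intro x
  rw [ac_mul, tv_ac, tv_ac, tv_ac]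
  simp only [sympForm_add_left, sympForm_smul_left, sympForm_self]
  module

theorem tv_inv (v : Fin m ⊕ Fin m → F) (c : F) :
    (sympTransv v c)⁻¹ = sympTransv v (-c) := by
  apply inv_eq_of_mul_eq_one_right
  rw [← tv_add, add_neg_cancel, tv_zero_param]

theorem tv_smul (v : Fin m ⊕ Fin m → F) (l c : F) :
    sympTransv (l • v) c = sympTransv v (l * l * c) := by
  apply gl_ext
  intro x
  rw [tv_ac, tv_ac]
  simp only [sympForm_smul_right]
  module

theorem tv_conj {g : GL (Fin m ⊕ Fin m) F} (hg : g ∈ spGL m F) (v : Fin m ⊕ Fin m → F) (c : F) :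
    g * sympTransv v c * g⁻¹ = sympTransv (ac g v) c := sympTransv_conj hg v c

/-- The short root element `x ↦ x + c f(x,a) b + c f(x,b) a` (for `f(a,b) = 0`). -/
noncomputable def SR (a b : Fin m ⊕ Fin m → F) (c : F) : GL (Fin m ⊕ Fin m) F :=
  sympTransv (a + b) c * sympTransv a (-c) * sympTransv b (-c)

theorem sr_ac {a b : Fin m ⊕ Fin m → F} (h : sympForm m F a b = 0) (c : F)
    (x : Fin m ⊕ Fin m → F) :
    ac (SR a b c) x = x + (c * sympForm m F x a) • b + (c * sympForm m F x b) • a := by
  have h' := form_swap_zero h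
  unfold SR
  rw [ac_mul, ac_mul, tv_ac, tv_ac, tv_ac]
  simp only [sympForm_add_left, sympForm_add_right, sympForm_smul_left, sympForm_self, h, h']
  module

theorem sr_mem_spGL (a b : Fin m ⊕ Fin m → F) (c : F) : SR a b c ∈ spGL m F :=
  (spGL m F).mul_mem ((spGL m F).mul_mem (sympTransv_mem_spGL _ _) (sympTransv_mem_spGL _ _))
    (sympTransv_mem_spGL _ _)

theorem sr_conj {g : GL (Fin m ⊕ Fin m) F} (hg : g ∈ spGL m F) (a b : Fin m ⊕ Fin m → F)
    (c : F) : g * SR a b c * g⁻¹ = SR (ac g a) (ac g b) c := by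
  unfold SR
  rw [← ac_add, ← tv_conj hg, ← tv_conj hg, ← tv_conj hg]
  group

theorem sr_symm {a b : Fin m ⊕ Fin m → F} (h : sympForm m F a b = 0) (c : F) :
    SR a b c = SR b a c := by
  apply gl_ext
  intro x
  rw [sr_ac h, sr_ac (form_swap_zero h)]
  module

theorem sr_add_param {a b : Fin m ⊕ Fin m → F} (h : sympForm m F a b = 0) (c d : F) :
    SR a b (c + d) = SR a b c * SR a b d := by
  have h' := form_swap_zero h
  apply gl_ext
  intro x
  rw [ac_mul, sr_ac h, sr_ac h, sr_ac h]
  simp only [sympForm_add_left, sympForm_smul_left, sympForm_self, h, h']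
  module

theorem sr_zero_param {a b : Fin m ⊕ Fin m → F} (h : sympForm m F a b = 0) :
    SR a b (0 : F) = 1 := by
  apply gl_ext
  intro x
  rw [sr_ac h, ac_one]
  module

theorem sr_inv {a b : Fin m ⊕ Fin m → F} (h : sympForm m F a b = 0) (c : F) :
    (SR a b c)⁻¹ = SR a b (-c) := by
  apply inv_eq_of_mul_eq_one_right
  rw [← sr_add_param h, add_neg_cancel, sr_zero_param h]

theorem sr_smul_left {a b : Fin m ⊕ Fin m → F} (h : sympForm m F a b = 0) (l c : F) :
    SR (l • a) b c = SR a b (c * l) := by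
  have h1 : sympForm m F (l • a) b = 0 := by rw [sympForm_smul_left, h, mul_zero]
  apply gl_ext
  intro x
  rw [sr_ac h1, sr_ac h]
  simp only [sympForm_smul_right]
  module

theorem sr_add_left {a a' b : Fin m ⊕ Fin m → F} (hab : sympForm m F a b = 0)
    (ha'b : sympForm m F a' b = 0) (haa' : sympForm m F a a' = 0) (c : F) :
    SR (a + a') b c = SR a b c * SR a' b c := by
  have h1 : sympForm m F (a + a') b = 0 := by rw [sympForm_add_left, hab, ha'b, add_zero]
  have hba := form_swap_zero hab
  have hba' := form_swap_zero ha'b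
  have ha'a := form_swap_zero haa'
  apply gl_ext
  intro x
  rw [ac_mul, sr_ac h1, sr_ac hab, sr_ac ha'b]
  simp only [sympForm_add_left, sympForm_add_right, sympForm_smul_left, sympForm_self, hab, ha'b,
    haa', hba, hba', ha'a]
  module

theorem sr_self_two (h2 : (2 : F) = 0) (a : Fin m ⊕ Fin m → F) (c : F) : SR a a c = 1 := by
  apply gl_ext
  intro x
  rw [sr_ac (sympForm_self a), ac_one]
  have h3 : (c * sympForm m F x a) • a + (c * sympForm m F x a) • a
      = ((2 : F) * (c * sympForm m F x a)) • a := by module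
  rw [add_assoc, h3, h2, zero_mul, zero_smul, add_zero]

/-- The mixed second difference of four commuting transvections is a short root element. -/
theorem four_term {w P Q : Fin m ⊕ Fin m → F} (h1 : sympForm m F w P = 0)
    (h2 : sympForm m F w Q = 0) (h3 : sympForm m F P Q = 0) (c : F) :
    sympTransv w c * (sympTransv (w + P) c)⁻¹ * (sympTransv (w + Q) c)⁻¹
      * sympTransv (w + P + Q) c = SR P Q c := by
  have h1' := form_swap_zero h1
  have h2' := form_swap_zero h2
  have h3' := form_swap_zero h3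
  rw [tv_inv, tv_inv]
  apply gl_ext
  intro x
  rw [ac_mul, ac_mul, ac_mul, tv_ac, tv_ac, tv_ac, tv_ac, sr_ac h3]
  simp only [sympForm_add_left, sympForm_add_right, sympForm_smul_left, sympForm_self, h1, h2, h3,
    h1', h2', h3']
  module

/-- A transvection with centre `a + b` for orthogonal `a`, `b`. -/
theorem tv_add_vec (a b : Fin m ⊕ Fin m → F) (c : F) :
    sympTransv (a + b) c = SR a b c * sympTransv b c * sympTransv a c := by
  unfold SR
  rw [← tv_inv b c, ← tv_inv a c]
  group

end

end Cfsg.Agent.H99.SS
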