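import Cfsg.Agent.H99.SpSubB

set_option autoImplicit false

/-! Helper lemmas (helper99): the rational structure `F₀^(2m) ⊆ F^(2m)`, subgroups between the
symplectic subfield group and `Sp_{2m}(F)`, and the coefficient ring of their short root
elements. -/

namespace Cfsg.Agent.H99.SS

open Matrix Cfsg Cfsg.Geo Cfsg.Agent.H95
open scoped MatrixGroups

section
variable {m : ℕ} {F : Type*} [Field F]

/-- A standard basis vector. -/
def bv (α : Fin m ⊕ Fin m) : Fin m ⊕ Fin m → F := Pi.single α 1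

/-- The sign in `f(v, e_α) = ± v_{α'}`. -/
def sg (α : Fin m ⊕ Fin m) : F := Sum.elim (fun _ => (1 : F)) (fun _ => (-1 : F)) α

theorem sg_ne_zero (α : Fin m ⊕ Fin m) : (sg α : F) ≠ 0 := by
  rcases α with i | i
  · exact one_ne_zero
  · exact neg_ne_zero.mpr one_ne_zero

theorem sg_mul_self (α : Fin m ⊕ Fin m) : (sg α : F) * sg α = 1 := by
  rcases α with i | i <;> simp [sg]

theorem bv_apply (α β : Fin m ⊕ Fin m) : (bv α : Fin m ⊕ Fin m → F) β = if β = α then 1 else 0 := by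
  unfold bv
  rw [Pi.single_apply]

theorem form_bv_right (v : Fin m ⊕ Fin m → F) (α : Fin m ⊕ Fin m) :
    sympForm m F v (bv α) = sg α * v (Sum.swap α) := by
  classical
  rw [sympForm_eq]
  rcases α with i | i
  · simp [bv, sg, Pi.single_apply]
  · simp [bv, sg, Pi.single_apply]

theorem form_bv_left (v : Fin m ⊕ Fin m → F) (α : Fin m ⊕ Fin m) :
    sympForm m F (bv α) v = -(sg α * v (Sum.swap α)) := by
  rw [sympForm_skew, form_bv_right]

theorem form_bv_bv (α β : Fin m ⊕ Fin m) (h : α ≠ Sum.swap β) :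
    sympForm m F (bv α : Fin m ⊕ Fin m → F) (bv β) = 0 := by
  rw [form_bv_right, bv_apply, if_neg (fun h' => h h'.symm), mul_zero]

end

section
variable {m : ℕ} {F : Type*} [Field F] (F₀ : Subfield F)

/-- The embedding of rational vectors. -/
def emb (u : Fin m ⊕ Fin m → F₀) : Fin m ⊕ Fin m → F := fun i => (u i : F)

theorem emb_add (u v : Fin m ⊕ Fin m → F₀) : emb F₀ (u + v) = emb F₀ u + emb F₀ v := by
  funext i; simp [emb]

theorem emb_sub (u v : Fin m ⊕ Fin m → F₀) : emb F₀ (u - v) = emb F₀ u - emb F₀ v := by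
  funext i; simp [emb]

theorem emb_neg (u : Fin m ⊕ Fin m → F₀) : emb F₀ (-u) = -emb F₀ u := by
  funext i; simp [emb]

theorem emb_zero : emb F₀ (0 : Fin m ⊕ Fin m → F₀) = 0 := rfl

theorem emb_smul (a : F₀) (u : Fin m ⊕ Fin m → F₀) : emb F₀ (a • u) = (a : F) • emb F₀ u := by
  funext i; simp [emb]

theorem emb_rat (u : Fin m ⊕ Fin m → F₀) (i : Fin m ⊕ Fin m) : emb F₀ u i ∈ F₀ := (u i).2

theorem emb_injective : Function.Injective (emb F₀ (m := m)) := by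
  intro u v h
  funext i
  exact Subtype.ext (congrFun h i)

theorem exists_emb (u : Fin m ⊕ Fin m → F) (hu : ∀ i, u i ∈ F₀) :
    ∃ u₀ : Fin m ⊕ Fin m → F₀, emb F₀ u₀ = u :=
  ⟨fun i => ⟨u i, hu i⟩, rfl⟩

theorem emb_bv (α : Fin m ⊕ Fin m) : emb F₀ (bv α : Fin m ⊕ Fin m → F₀) = bv α := by
  funext β
  simp only [emb, bv_apply]
  split_ifs <;> simp

theorem form_emb (u v : Fin m ⊕ Fin m → F₀) :
    sympForm m F (emb F₀ u) (emb F₀ v) = ((sympForm m F₀ u v : F₀) : F) := by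
  rw [sympForm_eq, sympForm_eq]
  simp [emb]

/-- The rational form as a bilinear map. -/
noncomputable def B₀ (m : ℕ) (F₀ : Subfield F) :
    (Fin m ⊕ Fin m → F₀) →ₗ[F₀] (Fin m ⊕ Fin m → F₀) →ₗ[F₀] F₀ :=
  Cfsg.Agent.H17.sympBilin m F₀

theorem B₀_apply (u v : Fin m ⊕ Fin m → F₀) : B₀ m F₀ u v = sympForm m F₀ u v :=
  Cfsg.Agent.H17.sympBilin_apply m u v

theorem B₀_alt (u : Fin m ⊕ Fin m → F₀) : B₀ m F₀ u u = 0 := by
  rw [B₀_apply, sympForm_self]

theorem B₀_nd (x : Fin m ⊕ Fin m → F₀) (h : ∀ y, B₀ m F₀ x y = 0) : x = 0 := by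
  by_contra hne
  obtain ⟨y, hy⟩ := Cfsg.Agent.H17.sympForm_exists_ne m x hne
  exact hy (by rw [← B₀_apply]; exact h y)

theorem form_emb' (u v : Fin m ⊕ Fin m → F₀) :
    sympForm m F (emb F₀ u) (emb F₀ v) = ((B₀ m F₀ u v : F₀) : F) := by
  rw [form_emb, B₀_apply]

theorem emb_tvMove (u : Fin m ⊕ Fin m → F₀) (a : F₀) (x : Fin m ⊕ Fin m → F₀) :
    emb F₀ (Cfsg.Agent.H17.tvMove (B₀ m F₀) u a x)
      = ac (sympTransv (emb F₀ u) (a : F)) (emb F₀ x) := by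
  unfold Cfsg.Agent.H17.tvMove
  rw [tv_ac, emb_add, emb_smul, form_emb']
  push_cast
  rfl

/-- Rational transvections lie in the symplectic subfield group. -/
theorem rat_tv_mem (u : Fin m ⊕ Fin m → F₀) (a : F₀) :
    sympTransv (emb F₀ u) (a : F) ∈ subfieldSubgroup F₀ 1 ⊓ spGL m F := by
  refine Subgroup.mem_inf.mpr ⟨?_, sympTransv_mem_spGL _ _⟩
  rw [mem_subfield_iff]
  refine ⟨1, one_ne_zero, fun i j => ?_⟩
  rw [one_mul, ← ac_single, tv_ac]
  have h1 : (Pi.single j (1 : F) : Fin m ⊕ Fin m → F) = emb F₀ (bv j) := (emb_bv F₀ j).symm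
  rw [h1, form_emb]
  exact F₀.add_mem (emb_rat F₀ _ i) (F₀.mul_mem (F₀.mul_mem a.2 (sympForm m F₀ (bv j) u).2)
    (emb_rat F₀ u i))

/-- Distinct non-opposite basis vectors form a good pair. -/
theorem good_bv {α β : Fin m ⊕ Fin m} (h1 : α ≠ β) (h2 : α ≠ Sum.swap β) :
    Cfsg.Agent.H17.GoodPair (B₀ m F₀) (bv α) (bv β) := by
  refine ⟨fun a b hab => ?_, ?_⟩
  · have e1 := congrFun hab α
    have e2 := congrFun hab β
    simp only [Pi.add_apply, Pi.smul_apply, smul_eq_mul, bv_apply, Pi.zero_apply, if_true,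
      if_neg h1, if_neg h1.symm, mul_one, mul_zero, add_zero, zero_add] at e1 e2
    exact ⟨e1, e2⟩
  · rw [B₀_apply, form_bv_bv _ _ h2]

/-- The standing hypotheses: `M` lies between the symplectic subfield group (in standard
position) and the symplectic group. -/
structure Ctx (F₀ : Subfield F) (M : Subgroup (GL (Fin m ⊕ Fin m) F)) : Prop where
  sub_le : subfieldSubgroup F₀ 1 ⊓ spGL m F ≤ M
  le_sp : M ≤ spGL m F

variable {F₀} {M : Subgroup (GL (Fin m ⊕ Fin m) F)}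

theorem Ctx.tv_rat (C : Ctx F₀ M) (u : Fin m ⊕ Fin m → F₀) (a : F₀) :
    sympTransv (emb F₀ u) (a : F) ∈ M := C.sub_le (rat_tv_mem F₀ u a)

theorem Ctx.sr_rat (C : Ctx F₀ M) (u v : Fin m ⊕ Fin m → F₀) (a : F₀) :
    SR (emb F₀ u) (emb F₀ v) (a : F) ∈ M := by
  unfold SR
  have h1 := C.tv_rat (u + v) a
  have h2 := C.tv_rat u (-a)
  have h3 := C.tv_rat v (-a)
  rw [emb_add] at h1
  push_cast at h2 h3
  exact M.mul_mem (M.mul_mem h1 h2) h3

/-- Transitivity of the rational transvections on good pairs, for a property invariant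
under `M`. -/
theorem Ctx.pair_trans (C : Ctx F₀ M) (Φ : (Fin m ⊕ Fin m → F) → (Fin m ⊕ Fin m → F) → Prop)
    (hΦ : ∀ g ∈ M, ∀ x y, Φ x y → Φ (ac g x) (ac g y))
    {x₁ x₂ y₁ y₂ : Fin m ⊕ Fin m → F₀} (hx : Cfsg.Agent.H17.GoodPair (B₀ m F₀) x₁ x₂)
    (hy : Cfsg.Agent.H17.GoodPair (B₀ m F₀) y₁ y₂) (h : Φ (emb F₀ x₁) (emb F₀ x₂)) :
    Φ (emb F₀ y₁) (emb F₀ y₂) := by
  have key := Cfsg.Agent.H17.pair_trans (B₀ m F₀) (B₀_alt F₀) (B₀_nd F₀)
    {p | Φ (emb F₀ p.1) (emb F₀ p.2)} (fun p hp u a => by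
      show Φ _ _
      rw [emb_tvMove, emb_tvMove]
      exact hΦ _ (C.tv_rat u a) _ _ hp) hx hy h
  exact key

/-- The coefficients of the short root elements of `M` at rational positions. -/
def Ks (F₀ : Subfield F) (M : Subgroup (GL (Fin m ⊕ Fin m) F)) (c : F) : Prop :=
  ∀ x y : Fin m ⊕ Fin m → F₀, Cfsg.Agent.H17.GoodPair (B₀ m F₀) x y →
    SR (emb F₀ x) (emb F₀ y) c ∈ M

theorem Ctx.ks_of_one (C : Ctx F₀ M) {x y : Fin m ⊕ Fin m → F₀}
    (hxy : Cfsg.Agent.H17.GoodPair (B₀ m F₀) x y) {c : F}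
    (h : SR (emb F₀ x) (emb F₀ y) c ∈ M) : Ks F₀ M c := by
  intro x' y' hxy'
  refine C.pair_trans (fun a b => SR a b c ∈ M) ?_ hxy hxy' h
  intro g hg a b hab
  show SR (ac g a) (ac g b) c ∈ M
  rw [← sr_conj (C.le_sp hg)]
  exact M.mul_mem (M.mul_mem hg hab) (M.inv_mem hg)

theorem Ctx.ks_rat (C : Ctx F₀ M) (a : F₀) : Ks F₀ M (a : F) :=
  fun x y _ => C.sr_rat x y a

theorem ks_add {c d : F} (hc : Ks F₀ M c) (hd : Ks F₀ M d) : Ks F₀ M (c + d) := by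
  intro x y hxy
  have h0 : sympForm m F (emb F₀ x) (emb F₀ y) = 0 := by
    rw [form_emb', hxy.2]
    rfl
  rw [sr_add_param h0]
  exact M.mul_mem (hc x y hxy) (hd x y hxy)

theorem ks_neg {c : F} (hc : Ks F₀ M c) : Ks F₀ M (-c) := by
  intro x y hxy
  have h0 : sympForm m F (emb F₀ x) (emb F₀ y) = 0 := by
    rw [form_emb', hxy.2]
    rfl
  rw [← sr_inv h0]
  exact M.inv_mem (hc x y hxy)

/-- The coefficient set is closed under multiplication. -/
theorem Ctx.ks_mul (C : Ctx F₀ M) {i0 i1 i2 : Fin m} (h01 : i0 ≠ i1) (h02 : i0 ≠ i2)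
    (h12 : i1 ≠ i2) {c d : F} (hc : Ks F₀ M c) (hd : Ks F₀ M d) : Ks F₀ M (c * d) := by
  have g01 : Cfsg.Agent.H17.GoodPair (B₀ m F₀) (bv (Sum.inl i0)) (bv (Sum.inl i1)) :=
    good_bv F₀ (by simpa using h01) (by simp)
  have g02 : Cfsg.Agent.H17.GoodPair (B₀ m F₀) (bv (Sum.inl i0)) (bv (Sum.inl i2)) :=
    good_bv F₀ (by simpa using h02) (by simp)
  have g21 : Cfsg.Agent.H17.GoodPair (B₀ m F₀) (bv (Sum.inr i2)) (bv (Sum.inl i1)) :=
    good_bv F₀ (by simp) (by simpa using h12.symm)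
  have hX := hc _ _ g02
  have hY := hd _ _ g21
  rw [emb_bv, emb_bv] at hX hY
  have hXsp := sr_mem_spGL (bv (Sum.inl i0) : Fin m ⊕ Fin m → F) (bv (Sum.inl i2)) c
  have e1 : ac (SR (bv (Sum.inl i0) : Fin m ⊕ Fin m → F) (bv (Sum.inl i2)) c) (bv (Sum.inr i2))
      = bv (Sum.inr i2) + c • bv (Sum.inl i0) := by
    rw [sr_ac (form_bv_bv _ _ (by simp))]
    rw [form_bv_bv (Sum.inr i2) (Sum.inl i0) (by simpa using h02.symm), mul_zero, zero_smul,
      add_zero, form_bv_right, bv_apply]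
    simp [sg]
  have e2 : ac (SR (bv (Sum.inl i0) : Fin m ⊕ Fin m → F) (bv (Sum.inl i2)) c) (bv (Sum.inl i1))
      = bv (Sum.inl i1) := by
    rw [sr_ac (form_bv_bv _ _ (by simp))]
    rw [form_bv_bv (Sum.inl i1) (Sum.inl i0) (by simp), form_bv_bv (Sum.inl i1) (Sum.inl i2) (by simp)]
    simp
  have h21 : sympForm m F (bv (Sum.inr i2) : Fin m ⊕ Fin m → F) (bv (Sum.inl i1)) = 0 :=
    form_bv_bv _ _ (by simpa using h12.symm)
  have h01' : sympForm m F (bv (Sum.inl i0) : Fin m ⊕ Fin m → F) (bv (Sum.inl i1)) = 0 :=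
    form_bv_bv _ _ (by simp)
  have h20 : sympForm m F (bv (Sum.inr i2) : Fin m ⊕ Fin m → F) (bv (Sum.inl i0)) = 0 :=
    form_bv_bv _ _ (by simpa using h02.symm)
  have key : SR (bv (Sum.inl i0) : Fin m ⊕ Fin m → F) (bv (Sum.inl i2)) c
      * SR (bv (Sum.inr i2)) (bv (Sum.inl i1)) d
      * (SR (bv (Sum.inl i0) : Fin m ⊕ Fin m → F) (bv (Sum.inl i2)) c)⁻¹
      = SR (bv (Sum.inr i2)) (bv (Sum.inl i1)) d * SR (bv (Sum.inl i0)) (bv (Sum.inl i1)) (d * c) := by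
    rw [sr_conj hXsp, e1, e2, sr_add_left h21 (by rw [sympForm_smul_left, h01', mul_zero])
      (by rw [sympForm_smul_right, h20, mul_zero]), sr_smul_left h01']
  have h3 : SR (bv (Sum.inl i0) : Fin m ⊕ Fin m → F) (bv (Sum.inl i1)) (d * c) ∈ M := by
    have h4 : SR (bv (Sum.inl i0) : Fin m ⊕ Fin m → F) (bv (Sum.inl i1)) (d * c)
        = (SR (bv (Sum.inr i2)) (bv (Sum.inl i1)) d)⁻¹
          * (SR (bv (Sum.inl i0) : Fin m ⊕ Fin m → F) (bv (Sum.inl i2)) c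
            * SR (bv (Sum.inr i2)) (bv (Sum.inl i1)) d
            * (SR (bv (Sum.inl i0) : Fin m ⊕ Fin m → F) (bv (Sum.inl i2)) c)⁻¹) := by
      rw [key]
      group
    rw [h4]
    exact M.mul_mem (M.inv_mem hY) (M.mul_mem (M.mul_mem hX hY) (M.inv_mem hX))
  rw [mul_comm c d]
  refine C.ks_of_one g01 ?_
  rw [emb_bv, emb_bv]
  exact h3

end

end Cfsg.Agent.H99.SS
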