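import Cfsg.Agent.H99.SpSubC

set_option autoImplicit false

/-! Helper lemmas (helper99): if every scalar is a short-root coefficient of `M`, then `M`
contains the symplectic group. -/

namespace Cfsg.Agent.H99.SS

open Matrix Cfsg Cfsg.Geo Cfsg.Agent.H95
open scoped MatrixGroups

section
variable {m : ℕ} {F : Type*} [Field F]

/-- A set of transvection centres containing the basis vectors and the sums of two
non-opposite basis vectors is everything. -/
theorem centers_all {M : Subgroup (GL (Fin m ⊕ Fin m) F)}
    (hb : ∀ α : Fin m ⊕ Fin m, (bv α : Fin m ⊕ Fin m → F) ∈ transvCenters M)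
    (hbb : ∀ α β : Fin m ⊕ Fin m, α ≠ β → α ≠ Sum.swap β →
      (bv α + bv β : Fin m ⊕ Fin m → F) ∈ transvCenters M) :
    ∀ w : Fin m ⊕ Fin m → F, w ∈ transvCenters M := by
  classical
  have hzero : (0 : Fin m ⊕ Fin m → F) ∈ transvCenters M := fun c => by
    rw [tv_zero_vec]
    exact M.one_mem
  have hsmul : ∀ (v : Fin m ⊕ Fin m → F) (l : F), v ∈ transvCenters M →
      l • v ∈ transvCenters M := fun v l hv c => by
    rw [tv_smul]
    exact hv _
  have hadd : ∀ (u v : Fin m ⊕ Fin m → F) (μ : F), u ∈ transvCenters M → v ∈ transvCenters M →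
      sympForm m F v u ≠ 0 → v + μ • u ∈ transvCenters M := by
    intro u v μ hu hv hne
    have := transvCenters_transv hu hv (μ / sympForm m F v u)
    rwa [div_mul_cancel₀ _ hne] at this
  have hswne : ∀ α : Fin m ⊕ Fin m, Sum.swap α ≠ α := by
    intro α
    rcases α with i | i <;> simp
  intro w
  induction' hN : (Finset.univ.filter (fun α => w α ≠ 0)).card using Nat.strong_induction_on
    with N ih generalizing w
  by_cases hA : ∃ α, w α ≠ 0 ∧ w (Sum.swap α) ≠ 0
  · obtain ⟨α, h1, h2⟩ := hA
    have hlt : (Finset.univ.filter (fun γ => Function.update w α 0 γ ≠ 0)).card < N := by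
      rw [← hN]
      apply Finset.card_lt_card
      rw [Finset.ssubset_iff_of_subset]
      · exact ⟨α, by simp [h1], by simp⟩
      · intro γ hγ
        simp only [Finset.mem_filter, Finset.mem_univ, true_and] at hγ ⊢
        by_cases hγα : γ = α
        · subst hγα
          simp at hγ
        · rwa [Function.update_of_ne hγα] at hγ
    have hw' := ih _ hlt (Function.update w α 0) rfl
    have hf : sympForm m F (Function.update w α 0) (bv α) ≠ 0 := by
      rw [form_bv_right, Function.update_of_ne (hswne α)]
      exact mul_ne_zero (sg_ne_zero α) h2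
    have h3 := hadd (bv α) _ (w α) (hb α) hw' hf
    have h4 : Function.update w α 0 + w α • bv α = w := by
      funext γ
      by_cases hγα : γ = α
      · subst hγα
        simp [bv_apply]
      · simp [bv_apply, hγα]
    rwa [h4] at h3
  · push Not at hA
    by_cases h0 : ∀ α, w α = 0
    · have : w = 0 := funext h0
      rw [this]
      exact hzero
    · push Not at h0
      obtain ⟨α, hα⟩ := h0
      by_cases h1 : ∃ β, β ≠ α ∧ w β ≠ 0
      · obtain ⟨β, hβα, hβ⟩ := h1
        obtain ⟨α', hα'def⟩ : ∃ α', α' = Sum.swap α := ⟨_, rfl⟩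
        have hα' : w α' = 0 := by rw [hα'def]; exact hA α hα
        have hα'α : α' ≠ α := by rw [hα'def]; exact hswne α
        have hβα' : β ≠ α' := fun h => hβ (by rw [h]; exact hα')
        have hsβ : w (Sum.swap β) = 0 := hA β hβ
        have hswα' : Sum.swap α' = α := by rw [hα'def, Sum.swap_swap]
        have hsβα : Sum.swap β ≠ α := by
          intro h
          apply hβα'
          rw [hα'def, ← h, Sum.swap_swap]
        have hsβα' : Sum.swap β ≠ α' := by
          intro h
          apply hβα
          have := congrArg Sum.swap h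
          rwa [Sum.swap_swap, hswα'] at this
        obtain ⟨w'', hw''def⟩ : ∃ w'' : Fin m ⊕ Fin m → F, w'' = fun γ =>
            if γ = α then 0 else if γ = β then 0 else if γ = α' then -(w β) else w γ := ⟨_, rfl⟩
        have hw''app : ∀ γ, w'' γ =
            if γ = α then 0 else if γ = β then 0 else if γ = α' then -(w β) else w γ := by
          intro γ
          rw [hw''def]
        have hαS : α ∈ Finset.univ.filter (fun γ => w γ ≠ 0) := by simp [hα]
        have hβS : β ∈ Finset.univ.filter (fun γ => w γ ≠ 0) := by simp [hβ]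
        have hN2 : 1 < N := by
          rw [← hN]
          exact Finset.one_lt_card.mpr ⟨α, hαS, β, hβS, fun h => hβα h.symm⟩
        have hlt : (Finset.univ.filter (fun γ => w'' γ ≠ 0)).card < N := by
          have hsub : Finset.univ.filter (fun γ => w'' γ ≠ 0) ⊆
              insert α' (((Finset.univ.filter (fun γ => w γ ≠ 0)).erase α).erase β) := by
            intro γ hγ
            simp only [Finset.mem_filter, Finset.mem_univ, true_and] at hγ
            rw [hw''app] at hγ
            by_cases hγα : γ = α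
            · rw [if_pos hγα] at hγ
              exact absurd rfl hγ
            · rw [if_neg hγα] at hγ
              by_cases hγβ : γ = β
              · rw [if_pos hγβ] at hγ
                exact absurd rfl hγ
              · rw [if_neg hγβ] at hγ
                by_cases hγα' : γ = α'
                · rw [hγα']
                  exact Finset.mem_insert_self _ _
                · rw [if_neg hγα'] at hγ
                  apply Finset.mem_insert_of_mem
                  rw [Finset.mem_erase, Finset.mem_erase]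
                  exact ⟨hγβ, hγα, by simp [hγ]⟩
          have hc1 := Finset.card_le_card hsub
          have hc2 := Finset.card_insert_le α'
            (((Finset.univ.filter (fun γ => w γ ≠ 0)).erase α).erase β)
          have hc3 : (((Finset.univ.filter (fun γ => w γ ≠ 0)).erase α).erase β).card = N - 2 := by
            rw [Finset.card_erase_of_mem (Finset.mem_erase.mpr ⟨hβα, hβS⟩),
              Finset.card_erase_of_mem hαS, hN]
            omega
          omega
        have hw'' := ih _ hlt w'' rfl
        have hf1 : sympForm m F w'' (bv α) ≠ 0 := by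
          rw [form_bv_right, ← hα'def, hw''app, if_neg hα'α, if_neg hβα'.symm, if_pos rfl]
          exact mul_ne_zero (sg_ne_zero α) (neg_ne_zero.mpr hβ)
        have hw' := hadd (bv α) w'' (w α) (hb α) hw'' hf1
        have hu : (bv β + bv α' : Fin m ⊕ Fin m → F) ∈ transvCenters M :=
          hbb β α' hβα' (by rw [hswα']; exact hβα)
        have hf2 : sympForm m F (w'' + w α • bv α) (bv β + bv α') ≠ 0 := by
          rw [sympForm_add_right, form_bv_right, form_bv_right, hswα']
          have e1 : (w'' + w α • bv α : Fin m ⊕ Fin m → F) (Sum.swap β) = 0 := by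
            rw [Pi.add_apply, Pi.smul_apply, smul_eq_mul, bv_apply, if_neg hsβα, mul_zero, add_zero,
              hw''app, if_neg hsβα, if_neg (hswne β), if_neg hsβα', hsβ]
          have e2 : (w'' + w α • bv α : Fin m ⊕ Fin m → F) α = w α := by
            rw [Pi.add_apply, Pi.smul_apply, smul_eq_mul, bv_apply, if_pos rfl, mul_one,
              hw''app, if_pos rfl, zero_add]
          rw [e1, e2, mul_zero, zero_add]
          exact mul_ne_zero (sg_ne_zero α') hα
        have h5 := hadd _ _ (w β) hu hw' hf2
        have h6 : w'' + w α • bv α + w β • (bv β + bv α') = w := by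
          funext γ
          simp only [Pi.add_apply, Pi.smul_apply, smul_eq_mul, bv_apply, hw''app]
          by_cases hγα : γ = α
          · rw [if_pos hγα, if_pos hγα, hγα, if_neg hβα.symm, if_neg hα'α.symm]
            ring
          · rw [if_neg hγα, if_neg hγα]
            by_cases hγβ : γ = β
            · rw [if_pos hγβ, if_pos hγβ, hγβ, if_neg hβα']
              ring
            · rw [if_neg hγβ, if_neg hγβ]
              by_cases hγα' : γ = α'
              · rw [if_pos hγα', if_pos hγα', hγα', hα']
                ring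
              · rw [if_neg hγα', if_neg hγα']
                ring
        rwa [h6] at h5
      · push Not at h1
        have h2 : w = w α • bv α := by
          funext γ
          rw [Pi.smul_apply, smul_eq_mul, bv_apply]
          by_cases hγα : γ = α
          · rw [if_pos hγα, hγα, mul_one]
          · rw [if_neg hγα, mul_zero]
            exact h1 γ hγα
        rw [h2]
        exact hsmul _ _ (hb α)

end

section
variable {m : ℕ} {F : Type*} [Field F] {F₀ : Subfield F} {M : Subgroup (GL (Fin m ⊕ Fin m) F)}

/-- If every scalar is a short-root coefficient, `M` contains the transvections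
`t_{e}(κ²)`. -/
theorem Ctx.tv_sq (C : Ctx F₀ M) (hall : ∀ c, Ks F₀ M c) {i0 i1 : Fin m} (h01 : i0 ≠ i1)
    (κ : F) : sympTransv (bv (Sum.inl i0) : Fin m ⊕ Fin m → F) (κ * κ) ∈ M := by
  have g1 : Cfsg.Agent.H17.GoodPair (B₀ m F₀) (bv (Sum.inl i0)) (bv (Sum.inr i1)) :=
    good_bv F₀ (by simp) (by simpa using h01)
  have g2 : Cfsg.Agent.H17.GoodPair (B₀ m F₀) (bv (Sum.inl i0)) (bv (Sum.inl i1)) :=
    good_bv F₀ (by simpa using h01) (by simp)
  have hs := hall κ _ _ g1
  have hs2 := hall (1 * -κ) _ _ g2
  rw [emb_bv, emb_bv] at hs hs2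
  have ht : sympTransv (bv (Sum.inl i1) : Fin m ⊕ Fin m → F) 1 ∈ M := by
    have h := C.tv_rat (bv (Sum.inl i1)) 1
    rw [emb_bv] at h
    simpa using h
  have e1 : ac (SR (bv (Sum.inl i0) : Fin m ⊕ Fin m → F) (bv (Sum.inr i1)) κ) (bv (Sum.inl i1))
      = (-κ) • bv (Sum.inl i0) + bv (Sum.inl i1) := by
    rw [sr_ac (form_bv_bv _ _ (by simpa using h01))]
    rw [form_bv_bv (Sum.inl i1) (Sum.inl i0) (by simp), mul_zero, zero_smul, add_zero,
      form_bv_right, bv_apply]
    simp only [sg, Sum.swap_inr, Sum.elim_inr, if_true]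
    rw [add_comm]
    congr 1
    ring_nf
  have h1 : sympTransv ((-κ) • bv (Sum.inl i0) + bv (Sum.inl i1) : Fin m ⊕ Fin m → F) 1 ∈ M := by
    rw [← e1, ← tv_conj (sr_mem_spGL _ _ _)]
    exact M.mul_mem (M.mul_mem hs ht) (M.inv_mem hs)
  have h01' : sympForm m F (bv (Sum.inl i0) : Fin m ⊕ Fin m → F) (bv (Sum.inl i1)) = 0 :=
    form_bv_bv _ _ (by simp)
  rw [tv_add_vec, sr_smul_left h01', tv_smul] at h1
  have h2 : sympTransv (bv (Sum.inl i0) : Fin m ⊕ Fin m → F) (-κ * -κ * 1)
      = (sympTransv (bv (Sum.inl i1) : Fin m ⊕ Fin m → F) 1)⁻¹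
        * (SR (bv (Sum.inl i0) : Fin m ⊕ Fin m → F) (bv (Sum.inl i1)) (1 * -κ))⁻¹
        * (SR (bv (Sum.inl i0) : Fin m ⊕ Fin m → F) (bv (Sum.inl i1)) (1 * -κ)
          * sympTransv (bv (Sum.inl i1) : Fin m ⊕ Fin m → F) 1
          * sympTransv (bv (Sum.inl i0) : Fin m ⊕ Fin m → F) (-κ * -κ * 1)) := by
    group
  have h3 : (κ * κ : F) = -κ * -κ * 1 := by ring
  rw [h3, h2]
  exact M.mul_mem (M.mul_mem (M.inv_mem ht) (M.inv_mem hs2)) h1

theorem Ctx.tv_all [Finite F] (C : Ctx F₀ M) (hall : ∀ c, Ks F₀ M c) {i0 i1 : Fin m}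
    (h01 : i0 ≠ i1) (c : F) : sympTransv (bv (Sum.inl i0) : Fin m ⊕ Fin m → F) c ∈ M := by
  by_cases h2 : (2 : F) = 0
  · have hinj : Function.Injective (fun x : F => x * x) := by
      intro x y hxy
      have h3 : (x - y) * (x - y) = 0 := by
        have h4 : x * x = y * y := hxy
        linear_combination h4 + (y * y - x * y) * h2
      rcases mul_eq_zero.mp h3 with h | h <;> exact sub_eq_zero.mp h
    obtain ⟨κ, hκ⟩ := Finite.surjective_of_injective hinj c
    rw [← hκ]
    exact C.tv_sq hall h01 κ
  · have h3 : c = (c + 1) / 2 * ((c + 1) / 2) + -((c - 1) / 2 * ((c - 1) / 2)) := by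
      field_simp
      ring
    rw [h3, tv_add, ← tv_inv]
    exact M.mul_mem (C.tv_sq hall h01 _) (M.inv_mem (C.tv_sq hall h01 _))

/-- If every scalar is a short-root coefficient, `M` is the symplectic group. -/
theorem Ctx.sp_le [Finite F] (C : Ctx F₀ M) (hm : 2 ≤ m) (hall : ∀ c, Ks F₀ M c) :
    spGL m F ≤ M := by
  obtain ⟨i0, i1, h01⟩ : ∃ i0 i1 : Fin m, i0 ≠ i1 :=
    ⟨⟨0, by omega⟩, ⟨1, by omega⟩, by simp [Fin.ext_iff]⟩
  have hinv : ∀ g ∈ M, ∀ x y : Fin m ⊕ Fin m → F, x ∈ transvCenters M →
      ac g x ∈ transvCenters M := fun g hg x _ hx => transvCenters_mulVec hg (C.le_sp hg) hx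
  have hb0 : (bv (Sum.inl i0) : Fin m ⊕ Fin m → F) ∈ transvCenters M :=
    fun c => C.tv_all hall h01 c
  have g01 : Cfsg.Agent.H17.GoodPair (B₀ m F₀) (bv (Sum.inl i0)) (bv (Sum.inl i1)) :=
    good_bv F₀ (by simpa using h01) (by simp)
  have hb : ∀ α : Fin m ⊕ Fin m, (bv α : Fin m ⊕ Fin m → F) ∈ transvCenters M := by
    intro α
    obtain ⟨β, h1, h2⟩ : ∃ β : Fin m ⊕ Fin m, α ≠ β ∧ α ≠ Sum.swap β := by
      rcases α with i | i
      · by_cases hi : i = i0
        · exact ⟨Sum.inl i1, by simpa [hi] using h01, by simp⟩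
        · exact ⟨Sum.inl i0, by simpa using hi, by simp⟩
      · by_cases hi : i = i0
        · exact ⟨Sum.inr i1, by simpa [hi] using h01, by simp⟩
        · exact ⟨Sum.inr i0, by simpa using hi, by simp⟩
    have h3 := C.pair_trans (fun x _ => x ∈ transvCenters M) hinv g01 (good_bv F₀ h1 h2)
      (by rw [emb_bv]; exact hb0)
    rwa [emb_bv] at h3
  have hbb : ∀ α β : Fin m ⊕ Fin m, α ≠ β → α ≠ Sum.swap β →
      (bv α + bv β : Fin m ⊕ Fin m → F) ∈ transvCenters M := by
    intro α β h1 h2 c
    rw [tv_add_vec]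
    have h3 := hall c _ _ (good_bv F₀ h1 h2)
    rw [emb_bv, emb_bv] at h3
    exact M.mul_mem (M.mul_mem h3 (hb β c)) (hb α c)
  exact spGL_le_of_transv M (fun v c => centers_all hb hbb v c)

end

end Cfsg.Agent.H99.SS
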