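import Cfsg.Agent.H99.SpSubD

set_option autoImplicit false

/-! Helper lemmas (helper99): a transvection of `M` with an irrational centre produces a short
root element at a rational position with a prescribed coefficient. -/

namespace Cfsg.Agent.H99.SS

open Matrix Cfsg Cfsg.Geo Cfsg.Agent.H95
open scoped MatrixGroups

section
variable {m : ℕ} {F : Type*} [Field F]

/-- The signs of the diagonal involution negating the `i`-th hyperbolic pair. -/
def dgv (i : Fin m) : Fin m ⊕ Fin m → F :=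
  fun γ => if γ = Sum.inl i ∨ γ = Sum.inr i then -1 else 1

theorem dgv_mul_self (i : Fin m) (γ : Fin m ⊕ Fin m) : (dgv i γ : F) * dgv i γ = 1 := by
  unfold dgv
  split_ifs <;> simp

theorem dgv_inl (i j : Fin m) : (dgv i (Sum.inl j) : F) = if j = i then -1 else 1 := by
  unfold dgv
  simp

theorem dgv_inr (i j : Fin m) : (dgv i (Sum.inr j) : F) = if j = i then -1 else 1 := by
  unfold dgv
  simp

/-- The diagonal involution negating the `i`-th hyperbolic pair. -/
def dg (i : Fin m) : GL (Fin m ⊕ Fin m) F :=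
  ⟨Matrix.diagonal (dgv i), Matrix.diagonal (dgv i),
    by rw [Matrix.diagonal_mul_diagonal]; simp [dgv_mul_self],
    by rw [Matrix.diagonal_mul_diagonal]; simp [dgv_mul_self]⟩

theorem dg_ac (i : Fin m) (x : Fin m ⊕ Fin m → F) (γ : Fin m ⊕ Fin m) :
    ac (dg i) x γ = dgv i γ * x γ := by
  unfold ac dg
  exact Matrix.mulVec_diagonal _ _ _

theorem dg_mem_spGL (i : Fin m) : (dg i : GL (Fin m ⊕ Fin m) F) ∈ spGL m F := by
  rw [mem_spGL_iff]
  intro u v
  rw [sympForm_eq, sympForm_eq]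
  apply Finset.sum_congr rfl
  intro j _
  have h1 : ∀ (x : Fin m ⊕ Fin m → F) (γ : Fin m ⊕ Fin m),
      (((dg i : GL (Fin m ⊕ Fin m) F) : Matrix _ _ F) *ᵥ x) γ = dgv i γ * x γ := dg_ac i
  rw [h1, h1, h1, h1, dgv_inl, dgv_inr]
  split_ifs <;> ring

theorem dg_mem_subfield (F₀ : Subfield F) (i : Fin m) :
    (dg i : GL (Fin m ⊕ Fin m) F) ∈ subfieldSubgroup F₀ 1 := by
  rw [mem_subfield_iff]
  refine ⟨1, one_ne_zero, fun a b => ?_⟩
  rw [one_mul]
  show Matrix.diagonal (dgv i) a b ∈ F₀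
  rw [Matrix.diagonal_apply]
  split_ifs with h
  · unfold dgv
    split_ifs
    · exact F₀.neg_mem F₀.one_mem
    · exact F₀.one_mem
  · exact F₀.zero_mem

theorem form_dg_self (i : Fin m) (w : Fin m ⊕ Fin m → F) :
    sympForm m F w (ac (dg i) w) = 0 := by
  rw [sympForm_eq]
  apply Finset.sum_eq_zero
  intro j _
  rw [dg_ac, dg_ac, dgv_inl, dgv_inr]
  ring

theorem dg_sub_apply (i : Fin m) (w : Fin m ⊕ Fin m → F) (γ : Fin m ⊕ Fin m) :
    (ac (dg i) w - w) γ = (dgv i γ - 1) * w γ := by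
  rw [Pi.sub_apply, dg_ac]
  ring

/-- The form of two vectors supported on different hyperbolic pairs vanishes. -/
theorem form_supp_zero (P Q : Fin m ⊕ Fin m → F)
    (h : ∀ j, (P (Sum.inl j) = 0 ∧ P (Sum.inr j) = 0) ∨ (Q (Sum.inl j) = 0 ∧ Q (Sum.inr j) = 0)) :
    sympForm m F P Q = 0 := by
  rw [sympForm_eq]
  apply Finset.sum_eq_zero
  intro j _
  rcases h j with ⟨h1, h2⟩ | ⟨h1, h2⟩ <;> rw [h1, h2] <;> ring

/-- Conjugating a short root element by an element adding a multiple of `e` to its first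
vector splits off a short root element. -/
theorem split_left {M : Subgroup (GL (Fin m ⊕ Fin m) F)} {h : GL (Fin m ⊕ Fin m) F}
    (hhM : h ∈ M) (hsp : h ∈ spGL m F) {a b e : Fin m ⊕ Fin m → F} {c l : F}
    (hM : SR a b c ∈ M) (ha : ac h a = a + l • e) (hb : ac h b = b)
    (hab : sympForm m F a b = 0) (heb : sympForm m F e b = 0) (hae : sympForm m F a e = 0) :
    SR e b (c * l) ∈ M := by
  have h1 : h * SR a b c * h⁻¹ ∈ M := M.mul_mem (M.mul_mem hhM hM) (M.inv_mem hhM)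
  rw [sr_conj hsp, ha, hb, sr_add_left hab (by rw [sympForm_smul_left, heb, mul_zero])
    (by rw [sympForm_smul_right, hae, mul_zero]), sr_smul_left heb] at h1
  have h2 : SR e b (c * l) = (SR a b c)⁻¹ * (SR a b c * SR e b (c * l)) := by group
  rw [h2]
  exact M.mul_mem (M.inv_mem hM) h1

end

section
variable {m : ℕ} {F : Type*} [Field F] {F₀ : Subfield F} {M : Subgroup (GL (Fin m ⊕ Fin m) F)}

theorem Ctx.sr_bv (C : Ctx F₀ M) (α β : Fin m ⊕ Fin m) :
    SR (bv α : Fin m ⊕ Fin m → F) (bv β) 1 ∈ M := by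
  have h := C.sr_rat (bv α) (bv β) 1
  rw [emb_bv, emb_bv] at h
  simpa using h

/-- Odd characteristic: the coefficient produced by a transvection of `M`. -/
theorem Ctx.core_odd (C : Ctx F₀ M) {i0 i1 i2 i3 : Fin m} (h01 : i0 ≠ i1) (h02 : i0 ≠ i2)
    (h03 : i0 ≠ i3) (h12 : i1 ≠ i2) (h13 : i1 ≠ i3) (h23 : i2 ≠ i3)
    {w : Fin m ⊕ Fin m → F} {c : F} (hw : sympTransv w c ∈ M) :
    Ks F₀ M (c * (-2 * sympForm m F w (bv (Sum.inl i2))) *
      (-2 * sympForm m F w (bv (Sum.inl i3)))) := by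
  have hdM : ∀ i : Fin m, (dg i : GL (Fin m ⊕ Fin m) F) ∈ M :=
    fun i => C.sub_le (Subgroup.mem_inf.mpr ⟨dg_mem_subfield F₀ i, dg_mem_spGL i⟩)
  obtain ⟨P, hP⟩ : ∃ P : Fin m ⊕ Fin m → F, P = ac (dg i2) w - w := ⟨_, rfl⟩
  obtain ⟨Q, hQ⟩ : ∃ Q : Fin m ⊕ Fin m → F, Q = ac (dg i3) w - w := ⟨_, rfl⟩
  have hPl : ∀ j, j ≠ i2 → P (Sum.inl j) = 0 := by
    intro j hj
    rw [hP, dg_sub_apply, dgv_inl, if_neg hj, sub_self, zero_mul]
  have hPr : ∀ j, j ≠ i2 → P (Sum.inr j) = 0 := by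
    intro j hj
    rw [hP, dg_sub_apply, dgv_inr, if_neg hj, sub_self, zero_mul]
  have hQl : ∀ j, j ≠ i3 → Q (Sum.inl j) = 0 := by
    intro j hj
    rw [hQ, dg_sub_apply, dgv_inl, if_neg hj, sub_self, zero_mul]
  have hQr : ∀ j, j ≠ i3 → Q (Sum.inr j) = 0 := by
    intro j hj
    rw [hQ, dg_sub_apply, dgv_inr, if_neg hj, sub_self, zero_mul]
  have hP2 : P (Sum.inr i2) = -2 * sympForm m F w (bv (Sum.inl i2)) := by
    rw [hP, dg_sub_apply, dgv_inr, if_pos rfl, form_bv_right]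
    simp only [sg, Sum.elim_inl, Sum.swap_inl]
    ring
  have hQ3 : Q (Sum.inr i3) = -2 * sympForm m F w (bv (Sum.inl i3)) := by
    rw [hQ, dg_sub_apply, dgv_inr, if_pos rfl, form_bv_right]
    simp only [sg, Sum.elim_inl, Sum.swap_inl]
    ring
  have f1 : sympForm m F w P = 0 := by
    rw [hP, sympForm_sub_right, form_dg_self, sympForm_self, sub_zero]
  have f2 : sympForm m F w Q = 0 := by
    rw [hQ, sympForm_sub_right, form_dg_self, sympForm_self, sub_zero]
  have f3 : sympForm m F P Q = 0 := by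
    apply form_supp_zero
    intro j
    by_cases hj : j = i2
    · right
      exact ⟨hQl j (by rw [hj]; exact h23), hQr j (by rw [hj]; exact h23)⟩
    · left
      exact ⟨hPl j hj, hPr j hj⟩
  have e1 : w + P = ac (dg i2) w := by rw [hP]; abel
  have e2 : w + Q = ac (dg i3) w := by rw [hQ]; abel
  have e3 : w + P + Q = ac (dg i2) (ac (dg i3) w) := by
    funext γ
    rw [Pi.add_apply, Pi.add_apply, hP, hQ, dg_sub_apply, dg_sub_apply, dg_ac, dg_ac]
    rcases γ with j | j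
    · rw [dgv_inl, dgv_inl]
      by_cases hj : j = i2
      · rw [if_pos hj, if_neg (by rw [hj]; exact h23)]
        ring
      · rw [if_neg hj]
        ring
    · rw [dgv_inr, dgv_inr]
      by_cases hj : j = i2
      · rw [if_pos hj, if_neg (by rw [hj]; exact h23)]
        ring
      · rw [if_neg hj]
        ring
  have hconj : ∀ (g : GL (Fin m ⊕ Fin m) F), g ∈ M → ∀ v : Fin m ⊕ Fin m → F,
      sympTransv v c ∈ M → sympTransv (ac g v) c ∈ M := by
    intro g hg v hv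
    rw [← tv_conj (C.le_sp hg)]
    exact M.mul_mem (M.mul_mem hg hv) (M.inv_mem hg)
  have hwP : sympTransv (w + P) c ∈ M := by
    rw [e1]
    exact hconj _ (hdM i2) _ hw
  have hwQ : sympTransv (w + Q) c ∈ M := by
    rw [e2]
    exact hconj _ (hdM i3) _ hw
  have hwPQ : sympTransv (w + P + Q) c ∈ M := by
    rw [e3]
    exact hconj _ (hdM i2) _ (hconj _ (hdM i3) _ hw)
  have hPQ : SR P Q c ∈ M := by
    rw [← four_term f1 f2 f3 c]
    exact M.mul_mem (M.mul_mem (M.mul_mem hw (M.inv_mem hwP)) (M.inv_mem hwQ)) hwPQ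
  -- first purification
  have hh1 := C.sr_bv (Sum.inl i2) (Sum.inl i0)
  have a1 : ac (SR (bv (Sum.inl i2) : Fin m ⊕ Fin m → F) (bv (Sum.inl i0)) 1) P
      = P + P (Sum.inr i2) • bv (Sum.inl i0) := by
    rw [sr_ac (form_bv_bv _ _ (by simp)), form_bv_right, form_bv_right]
    simp only [sg, Sum.elim_inl, Sum.swap_inl, one_mul]
    rw [hPr i0 h02, zero_smul, add_zero]
  have a2 : ac (SR (bv (Sum.inl i2) : Fin m ⊕ Fin m → F) (bv (Sum.inl i0)) 1) Q = Q := by
    rw [sr_ac (form_bv_bv _ _ (by simp)), form_bv_right, form_bv_right]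
    simp only [sg, Sum.elim_inl, Sum.swap_inl, one_mul]
    rw [hQr i0 h03, hQr i2 h23, zero_smul, zero_smul, add_zero, add_zero]
  have b1 : sympForm m F (bv (Sum.inl i0) : Fin m ⊕ Fin m → F) Q = 0 := by
    rw [form_bv_left]
    simp only [sg, Sum.elim_inl, Sum.swap_inl, one_mul]
    rw [hQr i0 h03, neg_zero]
  have b2 : sympForm m F P (bv (Sum.inl i0) : Fin m ⊕ Fin m → F) = 0 := by
    rw [form_bv_right]
    simp only [sg, Sum.elim_inl, Sum.swap_inl, one_mul]
    exact hPr i0 h02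
  have s1 := split_left hh1 (sr_mem_spGL _ _ _) hPQ a1 a2 f3 b1 b2
  -- second purification
  rw [sr_symm b1] at s1
  have hh2 := C.sr_bv (Sum.inl i3) (Sum.inl i1)
  have a3 : ac (SR (bv (Sum.inl i3) : Fin m ⊕ Fin m → F) (bv (Sum.inl i1)) 1) Q
      = Q + Q (Sum.inr i3) • bv (Sum.inl i1) := by
    rw [sr_ac (form_bv_bv _ _ (by simp)), form_bv_right, form_bv_right]
    simp only [sg, Sum.elim_inl, Sum.swap_inl, one_mul]
    rw [hQr i1 h13, zero_smul, add_zero]
  have a4 : ac (SR (bv (Sum.inl i3) : Fin m ⊕ Fin m → F) (bv (Sum.inl i1)) 1) (bv (Sum.inl i0))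
      = bv (Sum.inl i0) := by
    rw [sr_ac (form_bv_bv _ _ (by simp)), form_bv_bv _ _ (by simp), form_bv_bv _ _ (by simp)]
    simp
  have b3 : sympForm m F Q (bv (Sum.inl i0) : Fin m ⊕ Fin m → F) = 0 := form_swap_zero b1
  have b4 : sympForm m F (bv (Sum.inl i1) : Fin m ⊕ Fin m → F) (bv (Sum.inl i0)) = 0 :=
    form_bv_bv _ _ (by simp)
  have b5 : sympForm m F Q (bv (Sum.inl i1) : Fin m ⊕ Fin m → F) = 0 := by
    rw [form_bv_right]
    simp only [sg, Sum.elim_inl, Sum.swap_inl, one_mul]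
    exact hQr i1 h13
  have s2 := split_left hh2 (sr_mem_spGL _ _ _) s1 a3 a4 b3 b4 b5
  rw [sr_symm b4, hP2, hQ3] at s2
  have g01 : Cfsg.Agent.H17.GoodPair (B₀ m F₀) (bv (Sum.inl i0)) (bv (Sum.inl i1)) :=
    good_bv F₀ (by simpa using h01) (by simp)
  refine C.ks_of_one g01 ?_
  rw [emb_bv, emb_bv]
  exact s2

end

end Cfsg.Agent.H99.SS
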