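import Cfsg.Agent.H99.SpSubE

set_option autoImplicit false

/-! Helper lemmas (helper99): characteristic two version of the core computation, and the
rationality relation for the centres of the transvections of `M`. -/

namespace Cfsg.Agent.H99.SS

open Matrix Cfsg Cfsg.Geo Cfsg.Agent.H95
open scoped MatrixGroups

section
variable {m : ℕ} {F : Type*} [Field F]

theorem form_bv_ll (i j : Fin m) :
    sympForm m F (bv (Sum.inl i) : Fin m ⊕ Fin m → F) (bv (Sum.inl j)) = 0 :=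
  form_bv_bv _ _ (by simp)

theorem form_bv_lr (i j : Fin m) :
    sympForm m F (bv (Sum.inl i) : Fin m ⊕ Fin m → F) (bv (Sum.inr j))
      = if j = i then -1 else 0 := by
  rw [form_bv_right, bv_apply]
  simp [sg]

theorem form_bv_rl (i j : Fin m) :
    sympForm m F (bv (Sum.inr i) : Fin m ⊕ Fin m → F) (bv (Sum.inl j))
      = if j = i then 1 else 0 := by
  rw [form_bv_right, bv_apply]
  simp [sg]

end

section
variable {m : ℕ} {F : Type*} [Field F] {F₀ : Subfield F} {M : Subgroup (GL (Fin m ⊕ Fin m) F)}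

/-- Characteristic two: the coefficient produced by a transvection of `M`. -/
theorem Ctx.core_two (C : Ctx F₀ M) (h2 : (2 : F) = 0) {i0 i1 i2 i3 i4 : Fin m}
    (h01 : i0 ≠ i1) (h02 : i0 ≠ i2) (h03 : i0 ≠ i3) (h04 : i0 ≠ i4) (h12 : i1 ≠ i2)
    (h13 : i1 ≠ i3) (h14 : i1 ≠ i4) (h23 : i2 ≠ i3) (h24 : i2 ≠ i4) (h34 : i3 ≠ i4)
    {w : Fin m ⊕ Fin m → F} {c : F} (hw : sympTransv w c ∈ M) :
    Ks F₀ M (c * sympForm m F w (bv (Sum.inl i2)) * sympForm m F w (bv (Sum.inl i3))) := by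
  obtain ⟨A, hA⟩ : ∃ A : F, A = sympForm m F w (bv (Sum.inl i2)) := ⟨_, rfl⟩
  obtain ⟨B, hB⟩ : ∃ B : F, B = sympForm m F w (bv (Sum.inl i3)) := ⟨_, rfl⟩
  obtain ⟨B', hB'⟩ : ∃ B' : F, B' = sympForm m F w (bv (Sum.inl i4)) := ⟨_, rfl⟩
  obtain ⟨P, hP⟩ : ∃ P : Fin m ⊕ Fin m → F,
      P = A • bv (Sum.inl i3) + B • bv (Sum.inl i2) := ⟨_, rfl⟩
  obtain ⟨Q, hQ⟩ : ∃ Q : Fin m ⊕ Fin m → F,
      Q = A • bv (Sum.inl i4) + B' • bv (Sum.inl i2) := ⟨_, rfl⟩
  rw [← hA, ← hB]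
  have hPl : ∀ j, sympForm m F P (bv (Sum.inl j)) = 0 := by
    intro j
    rw [hP, sympForm_add_left, sympForm_smul_left, sympForm_smul_left, form_bv_ll, form_bv_ll]
    ring
  have hQl : ∀ j, sympForm m F Q (bv (Sum.inl j)) = 0 := by
    intro j
    rw [hQ, sympForm_add_left, sympForm_smul_left, sympForm_smul_left, form_bv_ll, form_bv_ll]
    ring
  have hPr : ∀ j, sympForm m F P (bv (Sum.inr j))
      = A * (if j = i3 then -1 else 0) + B * (if j = i2 then -1 else 0) := by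
    intro j
    rw [hP, sympForm_add_left, sympForm_smul_left, sympForm_smul_left, form_bv_lr, form_bv_lr]
  have hQr : ∀ j, sympForm m F Q (bv (Sum.inr j))
      = A * (if j = i4 then -1 else 0) + B' * (if j = i2 then -1 else 0) := by
    intro j
    rw [hQ, sympForm_add_left, sympForm_smul_left, sympForm_smul_left, form_bv_lr, form_bv_lr]
  have f1 : sympForm m F w P = 0 := by
    rw [hP, sympForm_add_right, sympForm_smul_right, sympForm_smul_right, ← hA, ← hB]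
    linear_combination (A * B) * h2
  have f2 : sympForm m F w Q = 0 := by
    rw [hQ, sympForm_add_right, sympForm_smul_right, sympForm_smul_right, ← hA, ← hB']
    linear_combination (A * B') * h2
  have f3 : sympForm m F P Q = 0 := by
    rw [hQ, sympForm_add_right, sympForm_smul_right, sympForm_smul_right, hPl, hPl]
    ring
  have hh1 := C.sr_bv (Sum.inl i2) (Sum.inl i3)
  have hh2 := C.sr_bv (Sum.inl i2) (Sum.inl i4)
  have e1 : ac (SR (bv (Sum.inl i2) : Fin m ⊕ Fin m → F) (bv (Sum.inl i3)) 1) w = w + P := by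
    rw [sr_ac (form_bv_ll _ _), one_mul, one_mul, ← hA, ← hB, hP, add_assoc]
  have e2 : ac (SR (bv (Sum.inl i2) : Fin m ⊕ Fin m → F) (bv (Sum.inl i4)) 1) w = w + Q := by
    rw [sr_ac (form_bv_ll _ _), one_mul, one_mul, ← hA, ← hB', hQ, add_assoc]
  have e3 : ac (SR (bv (Sum.inl i2) : Fin m ⊕ Fin m → F) (bv (Sum.inl i3)) 1) (w + Q)
      = w + P + Q := by
    have e0 : ac (SR (bv (Sum.inl i2) : Fin m ⊕ Fin m → F) (bv (Sum.inl i3)) 1) Q = Q := by
      rw [sr_ac (form_bv_ll _ _), hQl, hQl]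
      simp
    rw [ac_add, e1, e0]
  have hconj : ∀ (g : GL (Fin m ⊕ Fin m) F), g ∈ M → ∀ v : Fin m ⊕ Fin m → F,
      sympTransv v c ∈ M → sympTransv (ac g v) c ∈ M := by
    intro g hg v hv
    rw [← tv_conj (C.le_sp hg)]
    exact M.mul_mem (M.mul_mem hg hv) (M.inv_mem hg)
  have hwP : sympTransv (w + P) c ∈ M := by
    rw [← e1]
    exact hconj _ hh1 _ hw
  have hwQ : sympTransv (w + Q) c ∈ M := by
    rw [← e2]
    exact hconj _ hh2 _ hw
  have hwPQ : sympTransv (w + P + Q) c ∈ M := by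
    rw [← e3]
    exact hconj _ hh1 _ hwQ
  have hPQ : SR P Q c ∈ M := by
    rw [← four_term f1 f2 f3 c]
    exact M.mul_mem (M.mul_mem (M.mul_mem hw (M.inv_mem hwP)) (M.inv_mem hwQ)) hwPQ
  rw [sr_symm f3] at hPQ
  -- first purification
  have hh3 := C.sr_bv (Sum.inr i4) (Sum.inl i0)
  have z40 : sympForm m F (bv (Sum.inr i4) : Fin m ⊕ Fin m → F) (bv (Sum.inl i0)) = 0 := by
    rw [form_bv_rl, if_neg h04]
  have a1 : ac (SR (bv (Sum.inr i4) : Fin m ⊕ Fin m → F) (bv (Sum.inl i0)) 1) Q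
      = Q + (-A) • bv (Sum.inl i0) := by
    rw [sr_ac z40, hQl, hQr, if_pos rfl, if_neg h24.symm]
    simp
  have a2 : ac (SR (bv (Sum.inr i4) : Fin m ⊕ Fin m → F) (bv (Sum.inl i0)) 1) P = P := by
    rw [sr_ac z40, hPl, hPr, if_neg h34.symm, if_neg h24.symm]
    simp
  have b1 : sympForm m F (bv (Sum.inl i0) : Fin m ⊕ Fin m → F) P = 0 := form_swap_zero (hPl i0)
  have s1 := split_left hh3 (sr_mem_spGL _ _ _) hPQ a1 a2 (form_swap_zero f3) b1 (hQl i0)
  rw [sr_symm b1] at s1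
  -- second purification
  have hh4 := C.sr_bv (Sum.inr i2) (Sum.inl i1)
  have z21 : sympForm m F (bv (Sum.inr i2) : Fin m ⊕ Fin m → F) (bv (Sum.inl i1)) = 0 := by
    rw [form_bv_rl, if_neg h12]
  have a3 : ac (SR (bv (Sum.inr i2) : Fin m ⊕ Fin m → F) (bv (Sum.inl i1)) 1) P
      = P + (-B) • bv (Sum.inl i1) := by
    rw [sr_ac z21, hPl, hPr, if_pos rfl, if_neg h23]
    simp
  have a4 : ac (SR (bv (Sum.inr i2) : Fin m ⊕ Fin m → F) (bv (Sum.inl i1)) 1) (bv (Sum.inl i0))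
      = bv (Sum.inl i0) := by
    rw [sr_ac z21, form_bv_ll, form_bv_lr, if_neg h02.symm]
    simp
  have b4 : sympForm m F (bv (Sum.inl i1) : Fin m ⊕ Fin m → F) (bv (Sum.inl i0)) = 0 :=
    form_bv_ll _ _
  have s2 := split_left hh4 (sr_mem_spGL _ _ _) s1 a3 a4 (hPl i0) b4 (hPl i1)
  rw [sr_symm b4] at s2
  have g01 : Cfsg.Agent.H17.GoodPair (B₀ m F₀) (bv (Sum.inl i0)) (bv (Sum.inl i1)) :=
    good_bv F₀ (by simpa using h01) (by simp)
  have e : c * A * B = c * -A * -B := by ring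
  rw [e]
  refine C.ks_of_one g01 ?_
  rw [emb_bv, emb_bv]
  exact s2

/-- The coefficient relation for the standard basis vectors. -/
theorem Ctx.core (C : Ctx F₀ M) (hK : ∀ c, Ks F₀ M c → c ∈ F₀) {i0 i1 i2 i3 i4 : Fin m}
    (h01 : i0 ≠ i1) (h02 : i0 ≠ i2) (h03 : i0 ≠ i3) (h04 : i0 ≠ i4) (h12 : i1 ≠ i2)
    (h13 : i1 ≠ i3) (h14 : i1 ≠ i4) (h23 : i2 ≠ i3) (h24 : i2 ≠ i4) (h34 : i3 ≠ i4)
    {w : Fin m ⊕ Fin m → F} {c : F} (hw : sympTransv w c ∈ M) :
    c * sympForm m F w (bv (Sum.inl i2)) * sympForm m F w (bv (Sum.inl i3)) ∈ F₀ := by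
  by_cases h2 : (2 : F) = 0
  · exact hK _ (C.core_two h2 h01 h02 h03 h04 h12 h13 h14 h23 h24 h34 hw)
  · have h := hK _ (C.core_odd h01 h02 h03 h12 h13 h23 hw)
    have h4 : (4 : F) ∈ F₀ := by
      have := natCast_mem F₀ 4
      simpa using this
    have h40 : (4 : F) ≠ 0 := by
      have : (4 : F) = 2 * 2 := by norm_num
      rw [this]
      exact mul_ne_zero h2 h2
    have e : c * sympForm m F w (bv (Sum.inl i2)) * sympForm m F w (bv (Sum.inl i3))
        = (c * (-2 * sympForm m F w (bv (Sum.inl i2))) *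
            (-2 * sympForm m F w (bv (Sum.inl i3)))) / 4 := by
      field_simp
      ring
    rw [e]
    exact F₀.div_mem h h4

/-- The coefficient relation for arbitrary rational good pairs. -/
theorem Ctx.good_rel (C : Ctx F₀ M) (hm : 5 ≤ m) (hK : ∀ c, Ks F₀ M c → c ∈ F₀)
    {x y : Fin m ⊕ Fin m → F₀} (hxy : Cfsg.Agent.H17.GoodPair (B₀ m F₀) x y)
    {w : Fin m ⊕ Fin m → F} {c : F} (hw : sympTransv w c ∈ M) :
    c * sympForm m F w (emb F₀ x) * sympForm m F w (emb F₀ y) ∈ F₀ := by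
  obtain ⟨i0, i1, i2, i3, i4, h01, h02, h03, h04, h12, h13, h14, h23, h24, h34⟩ :
      ∃ i0 i1 i2 i3 i4 : Fin m, i0 ≠ i1 ∧ i0 ≠ i2 ∧ i0 ≠ i3 ∧ i0 ≠ i4 ∧ i1 ≠ i2 ∧ i1 ≠ i3 ∧
        i1 ≠ i4 ∧ i2 ≠ i3 ∧ i2 ≠ i4 ∧ i3 ≠ i4 :=
    ⟨⟨0, by omega⟩, ⟨1, by omega⟩, ⟨2, by omega⟩, ⟨3, by omega⟩, ⟨4, by omega⟩,
      by simp [Fin.ext_iff]⟩
  have g23 : Cfsg.Agent.H17.GoodPair (B₀ m F₀) (bv (Sum.inl i2)) (bv (Sum.inl i3)) :=
    good_bv F₀ (by simpa using h23) (by simp)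
  have key := C.pair_trans (fun a b => ∀ (w : Fin m ⊕ Fin m → F) (c : F), sympTransv w c ∈ M →
    c * sympForm m F w a * sympForm m F w b ∈ F₀) ?_ g23 hxy ?_
  · exact key w c hw
  · intro g hg a b hab w c hw
    have h1 : sympTransv (ac g⁻¹ w) c ∈ M := by
      rw [← tv_conj (C.le_sp (M.inv_mem hg))]
      exact M.mul_mem (M.mul_mem (M.inv_mem hg) hw) (M.inv_mem (M.inv_mem hg))
    have h2 := hab _ c h1
    have e : ∀ z, sympForm m F (ac g⁻¹ w) z = sympForm m F w (ac g z) := fun z => by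
      rw [← form_ac (C.le_sp hg) (ac g⁻¹ w) z, ac_ac_inv]
    rw [e, e] at h2
    exact h2
  · intro w c hw
    rw [emb_bv, emb_bv]
    exact C.core hK h01 h02 h03 h04 h12 h13 h14 h23 h24 h34 hw

end

end Cfsg.Agent.H99.SS
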