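import Cfsg.Agent.H99.SpSubF
import Cfsg.Agent.H99.SubK

set_option autoImplicit false

/-! Helper lemmas (helper99): the symplectic subfield group in standard position is maximal in
`Sp_{2m}(F)`. -/

namespace Cfsg.Agent.H99.SS

open Matrix Cfsg Cfsg.Geo Cfsg.Agent.H95
open scoped MatrixGroups

section
variable {m : ℕ} {F : Type*} [Field F] {F₀ : Subfield F}

theorem sg_coe (α : Fin m ⊕ Fin m) : (((sg α : F₀)) : F) = sg α := by
  rcases α with i | i <;> simp [sg]

theorem good_add {x y : Fin m ⊕ Fin m → F₀} (h : Cfsg.Agent.H17.GoodPair (B₀ m F₀) x y) :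
    Cfsg.Agent.H17.GoodPair (B₀ m F₀) x (x + y) := by
  refine ⟨fun a b hab => ?_, ?_⟩
  · have h2 := h.1 (a + b) b (by rw [← hab]; module)
    refine ⟨?_, h2.2⟩
    have h3 := h2.1
    rw [h2.2, add_zero] at h3
    exact h3
  · rw [map_add, B₀_alt, h.2, add_zero]

end

section
variable {m : ℕ} {F : Type*} [Field F] {F₀ : Subfield F} {M : Subgroup (GL (Fin m ⊕ Fin m) F)}

/-- If the short-root coefficients of `M` are rational, the centre of every transvection of `M`
is projectively rational. -/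
theorem Ctx.center_rat (C : Ctx F₀ M) (hm : 5 ≤ m) (hK : ∀ c, Ks F₀ M c → c ∈ F₀)
    {w : Fin m ⊕ Fin m → F} {c : F} (hc : c ≠ 0) (hw : sympTransv w c ∈ M) :
    ∃ (θ : F) (a : Fin m ⊕ Fin m → F₀), w = θ • emb F₀ a := by
  classical
  by_cases hw0 : w = 0
  · exact ⟨0, 0, by rw [hw0, zero_smul]⟩
  obtain ⟨γ, hγ⟩ : ∃ γ, w γ ≠ 0 := by
    by_contra hcon
    push Not at hcon
    exact hw0 (funext hcon)
  obtain ⟨L, hL⟩ : ∃ L : (Fin m ⊕ Fin m → F₀) → F, L = fun x => sympForm m F w (emb F₀ x) :=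
    ⟨_, rfl⟩
  have hLapp : ∀ x, L x = sympForm m F w (emb F₀ x) := fun x => by rw [hL]
  have hLadd : ∀ x y, L (x + y) = L x + L y := by
    intro x y
    rw [hLapp, hLapp, hLapp, emb_add, sympForm_add_right]
  have hLsmul : ∀ (a : F₀) x, L (a • x) = (a : F) * L x := by
    intro a x
    rw [hLapp, hLapp, emb_smul, sympForm_smul_right]
  have hLzero : L 0 = 0 := by
    have := hLsmul 0 0
    rw [zero_smul] at this
    rw [this]
    simp
  have hLbv : ∀ α, L (bv α) = sg α * w (Sum.swap α) := by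
    intro α
    rw [hLapp, emb_bv, form_bv_right]
  have hgood : ∀ x y, Cfsg.Agent.H17.GoodPair (B₀ m F₀) x y → c * L x * L y ∈ F₀ := by
    intro x y h
    rw [hLapp, hLapp]
    exact C.good_rel hm hK h hw
  have hsq : ∀ x y, Cfsg.Agent.H17.GoodPair (B₀ m F₀) x y → c * L x * L x ∈ F₀ := by
    intro x y h
    have h3 := hgood x (x + y) (good_add h)
    have h4 := hgood x y h
    rw [hLadd] at h3
    have e : c * L x * L x = c * L x * (L x + L y) - c * L x * L y := by ring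
    rw [e]
    exact F₀.sub_mem h3 h4
  -- the base vector
  obtain ⟨α, hα⟩ : ∃ α, α = Sum.swap γ := ⟨_, rfl⟩
  obtain ⟨θ, hθ⟩ : ∃ θ : F, θ = L (bv α) := ⟨_, rfl⟩
  have hθ0 : θ ≠ 0 := by
    rw [hθ, hLbv, hα, Sum.swap_swap]
    exact mul_ne_zero (sg_ne_zero _) hγ
  obtain ⟨β, hβ1, hβ2⟩ : ∃ β : Fin m ⊕ Fin m, α ≠ β ∧ α ≠ Sum.swap β := by
    haveI : Nontrivial (Fin m) := Fin.nontrivial_iff_two_le.mpr (by omega)
    rcases α with i | i
    · obtain ⟨j, hj⟩ := exists_ne i
      exact ⟨Sum.inl j, by simpa using hj.symm, by simp⟩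
    · obtain ⟨j, hj⟩ := exists_ne i
      exact ⟨Sum.inl j, by simp, by simpa using hj.symm⟩
  have g0 : Cfsg.Agent.H17.GoodPair (B₀ m F₀) (bv α) (bv β) := good_bv F₀ hβ1 hβ2
  have hcθ : c * θ * θ ∈ F₀ := by
    rw [hθ]
    exact hsq _ _ g0
  have hcθ0 : c * θ * θ ≠ 0 := mul_ne_zero (mul_ne_zero hc hθ0) hθ0
  have hS : ∀ t : F, c * θ * t ∈ F₀ → ∃ a : F₀, t = (a : F) * θ := by
    intro t ht
    refine ⟨⟨c * θ * t / (c * θ * θ), F₀.div_mem ht hcθ⟩, ?_⟩
    show t = c * θ * t / (c * θ * θ) * θ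
    field_simp
  have hRadd : ∀ s t : F, (∃ a : F₀, s = (a : F) * θ) → (∃ a : F₀, t = (a : F) * θ) →
      ∃ a : F₀, s + t = (a : F) * θ := by
    rintro s t ⟨a, rfl⟩ ⟨b, rfl⟩
    exact ⟨a + b, by push_cast; ring⟩
  have hRsmul : ∀ (μ : F₀) (t : F), (∃ a : F₀, t = (a : F) * θ) →
      ∃ a : F₀, (μ : F) * t = (a : F) * θ := by
    rintro μ t ⟨a, rfl⟩
    exact ⟨μ * a, by push_cast; ring⟩
  -- vectors orthogonal to the base vector
  have hperp : ∀ y, B₀ m F₀ (bv α) y = 0 → ∃ a : F₀, L y = (a : F) * θ := by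
    intro y hy
    by_cases hind : ∀ a b : F₀, a • (bv α : Fin m ⊕ Fin m → F₀) + b • y = 0 → a = 0 ∧ b = 0
    · apply hS
      rw [hθ]
      exact hgood _ _ ⟨hind, hy⟩
    · push Not at hind
      obtain ⟨a, b, hab, hne⟩ := hind
      have h1 := congrArg L hab
      rw [hLadd, hLsmul, hLsmul, hLzero, ← hθ] at h1
      have hb : b ≠ 0 := by
        intro hb0
        apply hne
        · rw [hb0] at h1
          simp only [ZeroMemClass.coe_zero, zero_mul, add_zero] at h1
          rcases mul_eq_zero.mp h1 with h2 | h2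
          · exact Subtype.ext h2
          · exact absurd h2 hθ0
        · exact hb0
      have hb' : (b : F) ≠ 0 := fun h => hb (Subtype.ext h)
      refine ⟨-a / b, ?_⟩
      push_cast
      field_simp
      linear_combination h1
  -- a vector orthogonal to the base vector on which `L` does not vanish
  obtain ⟨y₁, gy₁, hy₁⟩ : ∃ y₁, Cfsg.Agent.H17.GoodPair (B₀ m F₀) (bv α) y₁ ∧ L y₁ ≠ 0 := by
    by_cases hLβ : L (bv β) = 0
    · refine ⟨bv α + bv β, good_add g0, ?_⟩
      rw [hLadd, hLβ, add_zero, ← hθ]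
      exact hθ0
    · exact ⟨bv β, g0, hLβ⟩
  obtain ⟨a₁, ha₁⟩ := hperp y₁ gy₁.2
  have ha₁0 : (a₁ : F) ≠ 0 := by
    intro h
    apply hy₁
    rw [ha₁, h, zero_mul]
  -- a vector not orthogonal to the base vector
  obtain ⟨b₀, hb₀1, hb₀2⟩ := Cfsg.Agent.H17.exists_perp_ne (B₀ m F₀) (B₀_nd F₀) y₁ (bv α)
    (fun a b h => (gy₁.1 b a (by rw [add_comm]; exact h)).symm)
  have gb₀ : Cfsg.Agent.H17.GoodPair (B₀ m F₀) y₁ b₀ := by
    refine ⟨fun a b hab => ?_, hb₀1⟩
    have h1 := congrArg (B₀ m F₀ (bv α)) hab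
    rw [map_add, map_smul, map_smul, gy₁.2, smul_zero, zero_add, map_zero, smul_eq_mul] at h1
    have hb : b = 0 := by
      rcases mul_eq_zero.mp h1 with h2 | h2
      · exact h2
      · exact absurd h2 hb₀2
    rw [hb, zero_smul, add_zero] at hab
    rcases smul_eq_zero.mp hab with h3 | h3
    · exact ⟨h3, hb⟩
    · exact absurd h3 gy₁.ne_right
  obtain ⟨ab, hab⟩ : ∃ a : F₀, L b₀ = (a : F) * θ := by
    apply hS
    have h1 := hgood _ _ gb₀
    rw [ha₁] at h1
    have e : c * θ * L b₀ = (c * ((a₁ : F) * θ) * L b₀) / (a₁ : F) := by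
      field_simp
    rw [e]
    exact F₀.div_mem h1 a₁.2
  -- all vectors
  have hall : ∀ y, ∃ a : F₀, L y = (a : F) * θ := by
    intro y
    obtain ⟨μ, hμ⟩ : ∃ μ : F₀, μ = B₀ m F₀ (bv α) y / B₀ m F₀ (bv α) b₀ := ⟨_, rfl⟩
    have h1 : B₀ m F₀ (bv α) (y - μ • b₀) = 0 := by
      rw [map_sub, map_smul, smul_eq_mul, hμ, div_mul_cancel₀ _ hb₀2, sub_self]
    have h2 : L y = L (y - μ • b₀) + (μ : F) * L b₀ := by
      rw [← hLsmul, ← hLadd, sub_add_cancel]
    rw [h2]
    exact hRadd _ _ (hperp _ h1) (hRsmul μ _ ⟨ab, hab⟩)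
  choose a ha using fun γ' : Fin m ⊕ Fin m => hall (bv (Sum.swap γ'))
  refine ⟨θ, fun γ' => sg (Sum.swap γ') * a γ', ?_⟩
  funext γ'
  show w γ' = θ * (((sg (Sum.swap γ') * a γ' : F₀)) : F)
  push_cast
  rw [sg_coe]
  have h1 := ha γ'
  rw [hLbv, Sum.swap_swap] at h1
  have hs := sg_mul_self (F := F) (Sum.swap γ')
  linear_combination sg (Sum.swap γ') * h1 - w γ' * hs

/-- If the short-root coefficients of `M` are rational, `M` is the subfield group. -/
theorem Ctx.le_sub (C : Ctx F₀ M) (hm : 5 ≤ m) (hK : ∀ c, Ks F₀ M c → c ∈ F₀) :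
    M ≤ subfieldSubgroup F₀ 1 ⊓ spGL m F := by
  intro g hg
  refine Subgroup.mem_inf.mpr ⟨?_, C.le_sp hg⟩
  apply mem_subfield_of_proj
  intro u hu
  obtain ⟨u₀, rfl⟩ := exists_emb F₀ u hu
  have h1 : sympTransv (ac g (emb F₀ u₀)) 1 ∈ M := by
    rw [← tv_conj (C.le_sp hg)]
    have h2 := C.tv_rat u₀ 1
    rw [OneMemClass.coe_one] at h2
    exact M.mul_mem (M.mul_mem hg h2) (M.inv_mem hg)
  obtain ⟨θ, a, ha⟩ := C.center_rat hm hK one_ne_zero h1
  exact ⟨θ, emb F₀ a, emb_rat F₀ a, ha⟩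

end

section
variable {m : ℕ} {F : Type*} [Field F]

/-- The symplectic subfield group (in standard position) is maximal in `Sp_{2m}(F)`. -/
theorem sp_subfield_maximal_one [Fintype F] (hm : 5 ≤ m) (F₀ : Subfield F) (r : ℕ)
    (hr : r.Prime) (hcard : Fintype.card F = Nat.card F₀ ^ r) :
    IsMaximalIn (spGL m F) (subfieldSubgroup F₀ 1 ⊓ spGL m F) := by
  classical
  obtain ⟨i0, i1, i2, h01, h02, h12⟩ : ∃ i0 i1 i2 : Fin m, i0 ≠ i1 ∧ i0 ≠ i2 ∧ i1 ≠ i2 :=
    ⟨⟨0, by omega⟩, ⟨1, by omega⟩, ⟨2, by omega⟩, by simp [Fin.ext_iff]⟩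
  have : Fintype F₀ := Fintype.ofFinite _
  constructor
  · refine lt_of_le_of_ne inf_le_right ?_
    intro heq
    obtain ⟨θ, hθ⟩ : ∃ c : F, c ∉ F₀ := by
      by_contra hcon
      push Not at hcon
      have e : Fintype.card F₀ = Fintype.card F := Fintype.card_congr (Equiv.subtypeUnivEquiv hcon)
      rw [Nat.card_eq_fintype_card, e] at hcard
      have h2 : 1 < Fintype.card F := Fintype.one_lt_card
      have h3 : Fintype.card F ^ 1 < Fintype.card F ^ r := Nat.pow_lt_pow_right h2 hr.one_lt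
      rw [pow_one] at h3
      omega
    have hg : sympTransv (bv (Sum.inl i0) : Fin m ⊕ Fin m → F) θ ∈ spGL m F :=
      sympTransv_mem_spGL _ _
    rw [← heq] at hg
    have hg1 := (Subgroup.mem_inf.mp hg).1
    rw [mem_subfield_iff] at hg1
    obtain ⟨c', hc', hrat⟩ := hg1
    have e1 : ((sympTransv (bv (Sum.inl i0) : Fin m ⊕ Fin m → F) θ : GL (Fin m ⊕ Fin m) F) :
        Matrix (Fin m ⊕ Fin m) (Fin m ⊕ Fin m) F) (Sum.inl i0) (Sum.inl i0) = 1 := by
      rw [← ac_single]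
      have : (Pi.single (Sum.inl i0) (1 : F) : Fin m ⊕ Fin m → F) = bv (Sum.inl i0) := rfl
      rw [this, tv_ac, sympForm_self]
      simp [bv_apply]
    have e2 : ((sympTransv (bv (Sum.inl i0) : Fin m ⊕ Fin m → F) θ : GL (Fin m ⊕ Fin m) F) :
        Matrix (Fin m ⊕ Fin m) (Fin m ⊕ Fin m) F) (Sum.inl i0) (Sum.inr i0) = θ := by
      rw [← ac_single]
      have : (Pi.single (Sum.inr i0) (1 : F) : Fin m ⊕ Fin m → F) = bv (Sum.inr i0) := rfl
      rw [this, tv_ac, form_bv_rl]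
      simp [bv_apply]
    have h1 := hrat (Sum.inl i0) (Sum.inl i0)
    rw [e1, mul_one] at h1
    have h2 := hrat (Sum.inl i0) (Sum.inr i0)
    rw [e2] at h2
    apply hθ
    have h3 := F₀.mul_mem (F₀.inv_mem h1) h2
    rwa [← mul_assoc, inv_mul_cancel₀ hc', one_mul] at h3
  · intro M hHM hMSp
    have C : Ctx F₀ M := ⟨hHM, hMSp⟩
    obtain ⟨K, hK⟩ : ∃ K : Subalgebra F₀ F, ∀ a, a ∈ K ↔ Ks F₀ M a := by
      refine ⟨{ carrier := {a | Ks F₀ M a}
                mul_mem' := fun {a b} ha hb => C.ks_mul h01 h02 h12 ha hb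
                one_mem' := by
                  have h := C.ks_rat (1 : F₀)
                  rw [OneMemClass.coe_one] at h
                  exact h
                add_mem' := fun {a b} ha hb => ks_add ha hb
                zero_mem' := by
                  have h := C.ks_rat (0 : F₀)
                  rw [ZeroMemClass.coe_zero] at h
                  exact h
                algebraMap_mem' := fun a => by
                  show Ks F₀ M (a : F)
                  exact C.ks_rat a }, fun a => Iff.rfl⟩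
    have hfr : Module.finrank F₀ F = r := by
      have h1 := Module.card_eq_pow_finrank (K := F₀) (V := F)
      rw [hcard, Nat.card_eq_fintype_card] at h1
      exact (Nat.pow_right_injective Fintype.one_lt_card h1).symm
    have hsimple := Subalgebra.isSimpleOrder_of_finrank_prime F₀ F (by rw [hfr]; exact hr)
    rcases hsimple.eq_bot_or_eq_top K with hbot | htop
    · left
      have hK' : ∀ c, Ks F₀ M c → c ∈ F₀ := by
        intro c hc
        have h1 : c ∈ K := (hK c).mpr hc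
        rw [hbot, Algebra.mem_bot] at h1
        obtain ⟨y, hy⟩ := h1
        rw [← hy]
        exact y.2
      exact le_antisymm (C.le_sub hm hK') hHM
    · right
      refine le_antisymm hMSp (C.sp_le (by omega) (fun c => (hK c).mp ?_))
      rw [htop]
      exact Algebra.mem_top

end

end Cfsg.Agent.H99.SS
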