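import Cfsg.Agent.H99.SpSubG
import Cfsg.Agent.H50.GraphAutClass

set_option autoImplicit false

/-! Helper lemmas (helper99): a form-rational structure for the symplectic form can be moved to
standard position, and the symplectic subfield group is maximal in `Sp_{2m}(F)`. -/

namespace Cfsg.Agent.H99.SS

open Matrix Cfsg Cfsg.Geo Cfsg.Agent.H95
open scoped MatrixGroups

section
variable {m : ℕ} {F : Type*} [Field F]

theorem J_map (F₀ : Subfield F) : (J (Fin m) F₀).map F₀.subtype = J (Fin m) F := by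
  ext i j
  rcases i with i | i <;> rcases j with j | j <;>
    simp [J, Matrix.one_apply, apply_ite]

/-- A form-rational structure for the symplectic form can be moved to standard position by a
rational change of basis. -/
theorem exists_standard (F₀ : Subfield F) (P : GL (Fin m ⊕ Fin m) F) (ζ : F) (hζ : ζ ≠ 0)
    (hP : IsFormRationalStructure (sympForm m F) F₀ ζ P) :
    ∃ R : GL (Fin m ⊕ Fin m) F, R ∈ subfieldSubgroup F₀ 1 ∧
      ∀ u v : Fin m ⊕ Fin m → F,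
        ζ * sympForm m F (ac (P * R) u) (ac (P * R) v) = sympForm m F u v := by
  classical
  obtain ⟨Bm, hBm⟩ : ∃ Bm : Matrix (Fin m ⊕ Fin m) (Fin m ⊕ Fin m) F,
      Bm = ζ • ((P : Matrix _ _ F)ᵀ * J (Fin m) F * (P : Matrix _ _ F)) := ⟨_, rfl⟩
  have hform : ∀ u v : Fin m ⊕ Fin m → F,
      ζ * sympForm m F ((P : Matrix _ _ F) *ᵥ u) ((P : Matrix _ _ F) *ᵥ v)
        = u ⬝ᵥ (Bm *ᵥ v) := by
    intro u v
    rw [Cfsg.Agent.H17.sympForm_mulVec, hBm, Matrix.smul_mulVec, dotProduct_smul, smul_eq_mul]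
  have hent : ∀ i j, Bm i j ∈ F₀ := by
    intro i j
    have h1 := hP (Pi.single i 1) (Pi.single j 1) (rat_single F₀ i) (rat_single F₀ j)
    rw [hform, Matrix.mulVec_single_one, single_one_dotProduct] at h1
    exact h1
  obtain ⟨b, hb⟩ : ∃ b : Matrix (Fin m ⊕ Fin m) (Fin m ⊕ Fin m) F₀, b.map F₀.subtype = Bm :=
    ⟨Matrix.of fun i j => ⟨Bm i j, hent i j⟩, by ext i j; rfl⟩
  have hcoe : ∀ u v : Fin m ⊕ Fin m → F₀,
      ((u ⬝ᵥ (b *ᵥ v) : F₀) : F) = emb F₀ u ⬝ᵥ (Bm *ᵥ emb F₀ v) := by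
    intro u v
    have h1 := RingHom.map_dotProduct F₀.subtype u (b *ᵥ v)
    have h2 : (F₀.subtype ∘ (b *ᵥ v)) = b.map F₀.subtype *ᵥ (F₀.subtype ∘ v) :=
      funext fun i => RingHom.map_mulVec F₀.subtype b v i
    rw [h2, hb] at h1
    exact h1
  have halt : Cfsg.Agent.H50.GraphAut.IsAltM b := by
    intro v
    apply Subtype.ext
    rw [hcoe, ← hform, sympForm_self, mul_zero]
    rfl
  have hdet : b.det ≠ 0 := by
    intro h0
    have h1 : Bm.det = 0 := by
      rw [← hb, ← RingHom.mapMatrix_apply, ← RingHom.map_det, h0, map_zero]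
    rw [hBm, Matrix.det_smul, Matrix.det_mul, Matrix.det_mul, Matrix.det_transpose] at h1
    have hPdet : (P : Matrix (Fin m ⊕ Fin m) (Fin m ⊕ Fin m) F).det ≠ 0 :=
      (Matrix.isUnits_det_units P).ne_zero
    have hJ : (J (Fin m) F).det ≠ 0 := (Matrix.isUnit_det_J (Fin m) F).ne_zero
    exact (mul_ne_zero (pow_ne_zero _ hζ) (mul_ne_zero (mul_ne_zero hPdet hJ) hPdet)) h1
  obtain ⟨R, R', h1, h2, h3⟩ := Cfsg.Agent.H50.GraphAut.exists_rect_alt (m := m)
    (by rw [Fintype.card_sum, Fintype.card_fin]; ring) b hdet halt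
  obtain ⟨Rg, hRg⟩ : ∃ Rg : GL (Fin m ⊕ Fin m) F₀,
      (Rg : Matrix (Fin m ⊕ Fin m) (Fin m ⊕ Fin m) F₀) = R := ⟨⟨R, R', h1, h2⟩, rfl⟩
  have hRF : ((Matrix.GeneralLinearGroup.map F₀.subtype Rg : GL (Fin m ⊕ Fin m) F) :
      Matrix (Fin m ⊕ Fin m) (Fin m ⊕ Fin m) F) = R.map F₀.subtype := by
    ext i j
    rw [Matrix.GeneralLinearGroup.map_apply, hRg]
    rfl
  refine ⟨Matrix.GeneralLinearGroup.map F₀.subtype Rg, ?_, ?_⟩
  · rw [mem_subfield_iff]
    refine ⟨1, one_ne_zero, fun i j => ?_⟩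
    rw [one_mul, hRF]
    exact (R i j).2
  · intro u v
    rw [ac_mul, ac_mul]
    have e : (R.map F₀.subtype)ᵀ * Bm * R.map F₀.subtype = J (Fin m) F := by
      rw [← hb, ← Matrix.transpose_map, ← Matrix.map_mul, ← Matrix.map_mul, h3, J_map]
    show ζ * sympForm m F ((P : Matrix (Fin m ⊕ Fin m) (Fin m ⊕ Fin m) F) *ᵥ _)
      ((P : Matrix (Fin m ⊕ Fin m) (Fin m ⊕ Fin m) F) *ᵥ _) = _
    rw [hform]
    unfold ac
    rw [Cfsg.Agent.H50.GraphAut.bilin_conj, hRF, e]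
    rfl

/-- Conjugation by a similitude preserves the symplectic group. -/
theorem map_spGL_of_sim (P' : GL (Fin m ⊕ Fin m) F) (ζ : F) (hζ : ζ ≠ 0)
    (h : ∀ u v, ζ * sympForm m F (ac P' u) (ac P' v) = sympForm m F u v) :
    (spGL m F).map (MulAut.conj P').toMonoidHom = spGL m F := by
  have h' : ∀ u v, sympForm m F (ac P'⁻¹ u) (ac P'⁻¹ v) = ζ * sympForm m F u v := by
    intro u v
    rw [← h (ac P'⁻¹ u) (ac P'⁻¹ v), ac_ac_inv, ac_ac_inv]
  have h'' : ∀ u v, sympForm m F (ac P' u) (ac P' v) = ζ⁻¹ * sympForm m F u v := by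
    intro u v
    rw [← h u v, ← mul_assoc, inv_mul_cancel₀ hζ, one_mul]
  ext g
  rw [Subgroup.mem_map]
  constructor
  · rintro ⟨x, hx, rfl⟩
    show P' * x * P'⁻¹ ∈ spGL m F
    rw [mem_spGL_iff]
    intro u v
    show sympForm m F (ac (P' * x * P'⁻¹) u) (ac (P' * x * P'⁻¹) v) = _
    rw [ac_mul, ac_mul, ac_mul, ac_mul, h'', form_ac hx, h', ← mul_assoc, inv_mul_cancel₀ hζ,
      one_mul]
  · intro hg
    refine ⟨P'⁻¹ * g * P', ?_, ?_⟩
    · rw [mem_spGL_iff]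
      intro u v
      show sympForm m F (ac (P'⁻¹ * g * P') u) (ac (P'⁻¹ * g * P') v) = _
      rw [ac_mul, ac_mul, ac_mul, ac_mul, h', form_ac hg, h'', ← mul_assoc, mul_inv_cancel₀ hζ,
        one_mul]
    · show P' * (P'⁻¹ * g * P') * P'⁻¹ = g
      group

theorem subfield_eq_of_mul (F₀ : Subfield F) (P R : GL (Fin m ⊕ Fin m) F)
    (hR : R ∈ subfieldSubgroup F₀ 1) :
    subfieldSubgroup F₀ (P * R) = subfieldSubgroup F₀ P := by
  ext g
  rw [mem_subfield_conj, mem_subfield_conj F₀ P]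
  have e : (P * R)⁻¹ * g * (P * R) = R⁻¹ * (P⁻¹ * g * P) * R := by group
  rw [e]
  constructor
  · intro h
    have h1 := (subfieldSubgroup F₀ 1).mul_mem ((subfieldSubgroup F₀ 1).mul_mem hR h)
      ((subfieldSubgroup F₀ 1).inv_mem hR)
    have e2 : R * (R⁻¹ * (P⁻¹ * g * P) * R) * R⁻¹ = P⁻¹ * g * P := by group
    rwa [e2] at h1
  · intro h
    exact (subfieldSubgroup F₀ 1).mul_mem ((subfieldSubgroup F₀ 1).mul_mem
      ((subfieldSubgroup F₀ 1).inv_mem hR) h) hR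

/-- The symplectic subfield group is maximal in `Sp_{2m}(F)`. -/
theorem sp_subfield_maximal [Fintype F] (hm : 5 ≤ m) (F₀ : Subfield F) (r : ℕ)
    (hr : r.Prime) (hcard : Fintype.card F = Nat.card F₀ ^ r) (P : GL (Fin m ⊕ Fin m) F)
    (ζ : F) (hζ : ζ ≠ 0) (hP : IsFormRationalStructure (sympForm m F) F₀ ζ P) :
    IsMaximalIn (spGL m F) (subfieldSubgroup F₀ P ⊓ spGL m F) := by
  obtain ⟨R, hR, hsim⟩ := exists_standard F₀ P ζ hζ hP
  have h := Cfsg.Agent.H99.isMaximalIn_map (MulAut.conj (P * R))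
    (sp_subfield_maximal_one hm F₀ r hr hcard)
  have e1 := map_spGL_of_sim (P * R) ζ hζ hsim
  have e2 : subfieldSubgroup F₀ (P * R)
      = (subfieldSubgroup F₀ 1).map (MulAut.conj (P * R)).toMonoidHom := by
    have e3 : subfieldSubgroup F₀ (1 : GL (Fin m ⊕ Fin m) F)
        = (Matrix.GeneralLinearGroup.map (F₀.subtype : F₀ →+* F)).range ⊔
          scalars (Fin m ⊕ Fin m) F := by
      unfold subfieldSubgroup
      ext g
      rw [Subgroup.mem_map]
      constructor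
      · rintro ⟨x, hx, rfl⟩
        simpa using hx
      · intro hg
        exact ⟨g, hg, by simp⟩
    rw [e3]
    rfl
  rw [e1, Subgroup.map_inf_eq _ _ _ (MulAut.conj (P * R)).injective, e1, ← e2,
    subfield_eq_of_mul F₀ P R hR] at h
  exact h

end

end Cfsg.Agent.H99.SS
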