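import Mathlib
import Cfsg.Prelude.Def_GeometricClasses

/-!
helper99: glue for S5965 (subfield subgroups): membership in the subfield subgroup in matrix terms.
-/

set_option autoImplicit false
open scoped MatrixGroups

namespace Cfsg.Agent.H99.Sub

variable {F : Type*} [Field F]

theorem conj_one_apply {G : Type*} [Group G] (y : G) :
    (MulAut.conj (1 : G)).toMonoidHom y = y := by
  show (MulAut.conj (1 : G)) y = y
  rw [MulAut.conj_apply, one_mul, inv_one, mul_one]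

/-- Membership in the subfield subgroup, forward direction. -/
theorem subfield_of_mem (F₀ : Subfield F) {n : ℕ} (x P : Matrix.SpecialLinearGroup (Fin n) F)
    (h : P⁻¹ * x * P ∈ (Cfsg.Geo.subfieldSubgroup F₀ 1).comap
      (Matrix.SpecialLinearGroup.toGL :
        Matrix.SpecialLinearGroup (Fin n) F →* GL (Fin n) F)) :
    ∃ (Y₀ : Matrix (Fin n) (Fin n) ↥F₀) (l : F), l ≠ 0 ∧
      (x : Matrix (Fin n) (Fin n) F) * (P : Matrix (Fin n) (Fin n) F)
        = (P : Matrix (Fin n) (Fin n) F) * (l • Y₀.map F₀.subtype) := by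
  rw [Subgroup.mem_comap] at h
  unfold Cfsg.Geo.subfieldSubgroup at h
  obtain ⟨y, hy, hyx⟩ := Subgroup.mem_map.mp h
  rw [conj_one_apply] at hyx
  obtain ⟨a, ha, s, hs, has⟩ := Subgroup.mem_sup_of_normal_right.mp hy
  obtain ⟨g₀, rfl⟩ := ha
  obtain ⟨c, hc⟩ := (Cfsg.Geo.mem_scalars_iff s).mp hs
  refine ⟨(g₀ : Matrix (Fin n) (Fin n) ↥F₀), (c : F), c.ne_zero, ?_⟩
  have h1 : P * (P⁻¹ * x * P) = x * P := by group
  have h2 := congrArg (fun u : Matrix.SpecialLinearGroup (Fin n) F =>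
    (u : Matrix (Fin n) (Fin n) F)) h1
  simp only [Matrix.SpecialLinearGroup.coe_mul] at h2
  have h3 : ((Matrix.SpecialLinearGroup.toGL (P⁻¹ * x * P) : GL (Fin n) F) :
      Matrix (Fin n) (Fin n) F) = (c : F) • (g₀ : Matrix (Fin n) (Fin n) ↥F₀).map F₀.subtype := by
    rw [← hyx, ← has, Units.val_mul, hc, Matrix.mul_smul, Matrix.mul_one]
    rfl
  rw [Matrix.SpecialLinearGroup.coe_GL_coe_matrix, Matrix.SpecialLinearGroup.coe_mul,
    Matrix.SpecialLinearGroup.coe_mul] at h3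
  rw [← h2, h3]

/-- Membership in the subfield subgroup, backward direction. -/
theorem mem_of_subfield (F₀ : Subfield F) {n : ℕ} (x P : Matrix.SpecialLinearGroup (Fin n) F)
    (Y₀ : Matrix (Fin n) (Fin n) ↥F₀) (l : F) (hl : l ≠ 0)
    (h : (x : Matrix (Fin n) (Fin n) F) * (P : Matrix (Fin n) (Fin n) F)
        = (P : Matrix (Fin n) (Fin n) F) * (l • Y₀.map F₀.subtype)) :
    P⁻¹ * x * P ∈ (Cfsg.Geo.subfieldSubgroup F₀ 1).comap
      (Matrix.SpecialLinearGroup.toGL :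
        Matrix.SpecialLinearGroup (Fin n) F →* GL (Fin n) F) := by
  -- the matrix of `P⁻¹ * x * P`
  have h1 : ((P⁻¹ * x * P : Matrix.SpecialLinearGroup (Fin n) F) : Matrix (Fin n) (Fin n) F)
      = l • Y₀.map F₀.subtype := by
    have h2 : (P : Matrix (Fin n) (Fin n) F)
        * ((P⁻¹ * x * P : Matrix.SpecialLinearGroup (Fin n) F) : Matrix (Fin n) (Fin n) F)
        = (P : Matrix (Fin n) (Fin n) F) * (l • Y₀.map F₀.subtype) := by
      rw [← h, ← Matrix.SpecialLinearGroup.coe_mul, ← Matrix.SpecialLinearGroup.coe_mul]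
      have h3 : P * (P⁻¹ * x * P) = x * P := by group
      rw [h3]
    have hPu : IsUnit (P : Matrix (Fin n) (Fin n) F) := by
      rw [Matrix.isUnit_iff_isUnit_det, P.det_coe]
      exact isUnit_one
    obtain ⟨u, hu⟩ := hPu
    rw [← hu] at h2
    exact (Units.mul_right_inj u).mp h2
  -- `Y₀` is invertible
  have hdet : (l • Y₀.map F₀.subtype).det = 1 := by
    rw [← h1]
    exact (P⁻¹ * x * P).det_coe
  have hY0 : Y₀.det ≠ 0 := by
    intro h0
    have h3 : (Y₀.map F₀.subtype).det = 0 := by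
      have h4 := RingHom.map_det (F₀.subtype : F₀ →+* F) Y₀
      rw [h0, map_zero] at h4
      exact h4.symm
    rw [Matrix.det_smul, h3, mul_zero] at hdet
    exact zero_ne_one hdet
  obtain ⟨g₀, hg₀⟩ : ∃ g₀ : GL (Fin n) ↥F₀, (g₀ : Matrix (Fin n) (Fin n) ↥F₀) = Y₀ :=
    ⟨Matrix.nonsingInvUnit Y₀ hY0.isUnit, rfl⟩
  obtain ⟨s, hs⟩ : ∃ s : GL (Fin n) F, s ∈ Cfsg.Geo.scalars (Fin n) F ∧
      (s : Matrix (Fin n) (Fin n) F) = l • (1 : Matrix (Fin n) (Fin n) F) := by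
    obtain ⟨s, hs⟩ : ∃ s : GL (Fin n) F,
        (s : Matrix (Fin n) (Fin n) F) = l • (1 : Matrix (Fin n) (Fin n) F) := by
      refine ⟨Matrix.nonsingInvUnit (l • (1 : Matrix (Fin n) (Fin n) F)) ?_, rfl⟩
      rw [Matrix.det_smul, Matrix.det_one, mul_one]
      exact (pow_ne_zero _ hl).isUnit
    exact ⟨s, (Cfsg.Geo.mem_scalars_iff s).mpr ⟨Units.mk0 l hl, hs⟩, hs⟩
  rw [Subgroup.mem_comap]
  unfold Cfsg.Geo.subfieldSubgroup
  refine Subgroup.mem_map.mpr ⟨Matrix.GeneralLinearGroup.map (F₀.subtype : F₀ →+* F) g₀ * s,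
    Subgroup.mul_mem_sup ⟨g₀, rfl⟩ hs.1, ?_⟩
  rw [conj_one_apply]
  apply Units.ext
  rw [Units.val_mul, hs.2, Matrix.mul_smul, Matrix.mul_one,
    Matrix.SpecialLinearGroup.coe_GL_coe_matrix, h1, ← hg₀]
  rfl

end Cfsg.Agent.H99.Sub
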