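import Cfsg.Agent.H99.SubRat

set_option autoImplicit false

namespace Cfsg.Agent.H99

open Matrix
open scoped MatrixGroups

/-- The sum over a finite set on which a finite group acts freely, with all orbit sums zero,
vanishes. -/
theorem free_orbit_sum {A V : Type*} [AddGroup A] [Fintype A] [AddCommGroup V] [DecidableEq V]
    (T : A → V → V) (hadd : ∀ a b w, T (a + b) w = T a (T b w)) (hzero : ∀ w, T 0 w = w)
    (hsum : ∀ w, ∑ a, T a w = 0) :
    ∀ S : Finset V, (∀ a, ∀ w ∈ S, T a w ∈ S) → (∀ w ∈ S, ∀ a, T a w = w → a = 0) →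
      ∑ w ∈ S, w = 0 := by
  intro S
  induction S using Finset.strongInduction with
  | H S ih =>
    intro hinv hfree
    by_cases hS : S = ∅
    · rw [hS, Finset.sum_empty]
    · obtain ⟨w₀, hw₀⟩ := Finset.nonempty_iff_ne_empty.mpr hS
      obtain ⟨O, hO⟩ : ∃ O : Finset V, O = Finset.image (fun a => T a w₀) Finset.univ :=
        ⟨_, rfl⟩
      have hOS : O ⊆ S := by
        intro w hw
        rw [hO, Finset.mem_image] at hw
        obtain ⟨a, -, rfl⟩ := hw
        exact hinv a w₀ hw₀
      have hinj : Function.Injective (fun a => T a w₀) := by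
        intro a b hab
        have h1 : T (-b + a) w₀ = w₀ := by
          rw [hadd]
          show T (-b) ((fun a => T a w₀) a) = w₀
          rw [hab]
          show T (-b) (T b w₀) = w₀
          rw [← hadd, neg_add_cancel, hzero]
        have h2 := hfree w₀ hw₀ _ h1
        exact (neg_add_eq_zero.mp h2).symm
      have hOsum : ∑ w ∈ O, w = 0 := by
        rw [hO, Finset.sum_image (fun a _ b _ h => hinj h)]
        exact hsum w₀
      have hlt : S \ O ⊂ S := by
        refine Finset.sdiff_ssubset hOS ?_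
        rw [hO]
        exact ⟨T 0 w₀, Finset.mem_image_of_mem _ (Finset.mem_univ 0)⟩
      have hinv' : ∀ a, ∀ w ∈ S \ O, T a w ∈ S \ O := by
        intro a w hw
        rw [Finset.mem_sdiff] at hw ⊢
        refine ⟨hinv a w hw.1, fun h => hw.2 ?_⟩
        rw [hO, Finset.mem_image] at h ⊢
        obtain ⟨b, -, hb⟩ := h
        refine ⟨-a + b, Finset.mem_univ _, ?_⟩
        rw [hadd, hb, ← hadd, neg_add_cancel, hzero]
      have hfree' : ∀ w ∈ S \ O, ∀ a, T a w = w → a = 0 :=
        fun w hw => hfree w (Finset.mem_sdiff.mp hw).1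
      have h3 := ih (S \ O) hlt hinv' hfree'
      rw [← Finset.sum_sdiff hOS, h3, hOsum, add_zero]

section
variable {F : Type*} [Field F] {n : ℕ}

/-- The elements of `M` acting trivially modulo the plane spanned by `e_o` and `v`. -/
def lineSub (M : Subgroup (GL (Fin n) F)) (o : Fin n) (v : Fin n → F) :
    Subgroup (GL (Fin n) F) where
  carrier := {m | m ∈ M ∧ ∀ x, ∃ α β : F, act m x - x = α • Pi.single o 1 + β • v}
  mul_mem' := by
    rintro a b ⟨ha, ha'⟩ ⟨hb, hb'⟩
    refine ⟨M.mul_mem ha hb, fun x => ?_⟩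
    obtain ⟨α₁, β₁, h1⟩ := ha' (act b x)
    obtain ⟨α₂, β₂, h2⟩ := hb' x
    refine ⟨α₁ + α₂, β₁ + β₂, ?_⟩
    have e : act (a * b) x - x = (act a (act b x) - act b x) + (act b x - x) := by
      rw [act_mul]
      abel
    rw [e, h1, h2]
    module
  one_mem' := ⟨M.one_mem, fun x => ⟨0, 0, by rw [act_one, sub_self, zero_smul, zero_smul, add_zero]⟩⟩
  inv_mem' := by
    rintro a ⟨ha, ha'⟩
    refine ⟨M.inv_mem ha, fun x => ?_⟩
    obtain ⟨α, β, h1⟩ := ha' (act a⁻¹ x)
    rw [act_act_inv] at h1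
    refine ⟨-α, -β, ?_⟩
    have e : act a⁻¹ x - x = -(x - act a⁻¹ x) := by abel
    rw [e, h1]
    module

theorem mem_lineSub {M : Subgroup (GL (Fin n) F)} {o : Fin n} {v : Fin n → F}
    {m : GL (Fin n) F} : m ∈ lineSub M o v ↔
      m ∈ M ∧ ∀ x, ∃ α β : F, act m x - x = α • Pi.single o 1 + β • v := Iff.rfl

variable {F₀ : Subfield F} {M : Subgroup (GL (Fin n) F)}

/-- An element of the line subgroup fixing the point `e_o` fixes the vector `e_o`. -/
theorem SubCtx.lineSub_fix (C : SubCtx F₀ M) {g : GL (Fin n) F} (hg : g ∈ M)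
    (hgH : g ∉ Cfsg.Geo.subfieldSubgroup F₀ 1) (o : Fin n) {m : GL (Fin n) F}
    (hm : m ∈ lineSub M o (act g (Pi.single o 1))) (κ : F)
    (hmo : act m (Pi.single o 1) = κ • Pi.single o 1) :
    act m (Pi.single o 1) = Pi.single o 1 := by
  obtain ⟨hmM, hmP⟩ := hm
  by_cases hall : ∀ j, ∃ α : F, act m (Pi.single j 1) - Pi.single j 1 = α • Pi.single o 1
  · choose χ hχ using hall
    have hmat : (m : Matrix (Fin n) (Fin n) F) = 1 + Matrix.vecMulVec (Pi.single o 1) χ := by
      ext i j
      rw [← act_single]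
      have h1 := congrFun (hχ j) i
      have h2 : act m (Pi.single j 1) i = (Pi.single j (1 : F) : Fin n → F) i
          + χ j * (Pi.single o (1 : F) : Fin n → F) i := by
        have h3 : act m (Pi.single j 1) i - (Pi.single j (1 : F) : Fin n → F) i
            = χ j * (Pi.single o (1 : F) : Fin n → F) i := h1
        linear_combination h3
      rw [h2, Matrix.add_apply, Matrix.vecMulVec_apply, Matrix.one_apply, Pi.single_apply,
        mul_comm]
    have hdet : (m : Matrix (Fin n) (Fin n) F).det = 1 := by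
      have h1 := C.le_sl hmM
      unfold Cfsg.Geo.specialLinear at h1
      rw [MonoidHom.mem_ker] at h1
      have h2 := congrArg Units.val h1
      rwa [Matrix.GeneralLinearGroup.val_det_apply, Units.val_one] at h2
    rw [hmat, Matrix.vecMulVec_eq (Fin 1), Matrix.det_one_add_replicateCol_mul_replicateRow,
      dotProduct_single_one] at hdet
    have hχo : χ o = 0 := by linear_combination hdet
    have h4 := hχ o
    rw [hχo, zero_smul, sub_eq_zero] at h4
    exact h4
  · exfalso
    push Not at hall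
    obtain ⟨j, hj⟩ := hall
    obtain ⟨α, β, hαβ⟩ := hmP (Pi.single j 1)
    have hβ : β ≠ 0 := by
      rintro rfl
      rw [zero_smul, add_zero] at hαβ
      exact hj α hαβ
    have hjo : j ≠ o := by
      rintro rfl
      apply hj (κ - 1)
      rw [hmo, sub_smul, one_smul]
    have hmH := C.mem_of_fix hmM o κ hmo
    rw [mem_subfield_iff] at hmH
    obtain ⟨c, hc, hcm⟩ := hmH
    obtain ⟨ψ, hψ, hψ0, hψo, hψj, hψy⟩ := exists_rat_perp F₀ C.hn o j
      (fun i => c * (m : Matrix (Fin n) (Fin n) F) i j) (fun i => hcm i j)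
    have hy : act m (Pi.single j 1) = c⁻¹ • (fun i => c * (m : Matrix (Fin n) (Fin n) F) i j) := by
      funext i
      rw [act_single]
      show _ = c⁻¹ * (c * _)
      rw [← mul_assoc, inv_mul_cancel₀ hc, one_mul]
    have hv : ψ ⬝ᵥ act g (Pi.single o 1) = 0 := by
      have h1 : β • act g (Pi.single o 1)
          = act m (Pi.single j 1) - Pi.single j 1 - α • Pi.single o 1 := by
        rw [hαβ]
        abel
      have h2 : ψ ⬝ᵥ (β • act g (Pi.single o 1)) = 0 := by
        rw [h1, dotProduct_sub, dotProduct_sub, hy, dotProduct_smul, hψy, dotProduct_smul,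
          dotProduct_single_one, dotProduct_single_one, hψj, hψo]
        simp
      rw [dotProduct_smul, smul_eq_mul] at h2
      rcases mul_eq_zero.mp h2 with h | h
      · exact absurd h hβ
      · exact h
    exact hgH (C.mem_of_perp hg o ψ hψ hψo hψ0 hv)

/-- The rational transvections with centre `e_o` act freely on the other points of the orbit of
`e_o` under the line subgroup. -/
theorem SubCtx.lineSub_free (C : SubCtx F₀ M) {g : GL (Fin n) F} (hg : g ∈ M)
    (hgH : g ∉ Cfsg.Geo.subfieldSubgroup F₀ 1) (o : Fin n) {m : GL (Fin n) F}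
    (hm : m ∈ lineSub M o (act g (Pi.single o 1)))
    (hmo : act m (Pi.single o 1) ≠ Pi.single o 1) (φ : Fin n → F) (hφ : ∀ i, φ i ∈ F₀)
    (hφo : φ o = 0) (hφ0 : φ ≠ 0) : φ ⬝ᵥ act m (Pi.single o 1) ≠ 0 := by
  intro hperp
  have hmH := C.mem_of_perp hm.1 o φ hφ hφo hφ0 hperp
  rw [mem_subfield_iff] at hmH
  obtain ⟨c, hc, hcm⟩ := hmH
  obtain ⟨α, β, hαβ⟩ := hm.2 (Pi.single o 1)
  by_cases hβ : β = 0
  · apply hmo
    refine C.lineSub_fix hg hgH o hm (1 + α) ?_
    rw [hβ, zero_smul, add_zero] at hαβ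
    rw [add_smul, one_smul, ← hαβ]
    abel
  · obtain ⟨ψ, hψ, hψ0, hψo, -, hψy⟩ := exists_rat_perp F₀ C.hn o o
      (fun i => c * (m : Matrix (Fin n) (Fin n) F) i o) (fun i => hcm i o)
    have hy : act m (Pi.single o 1) = c⁻¹ • (fun i => c * (m : Matrix (Fin n) (Fin n) F) i o) := by
      funext i
      rw [act_single]
      show _ = c⁻¹ * (c * _)
      rw [← mul_assoc, inv_mul_cancel₀ hc, one_mul]
    have hv : ψ ⬝ᵥ act g (Pi.single o 1) = 0 := by
      have h1 : β • act g (Pi.single o 1)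
          = act m (Pi.single o 1) - Pi.single o 1 - α • Pi.single o 1 := by
        rw [hαβ]
        abel
      have h2 : ψ ⬝ᵥ (β • act g (Pi.single o 1)) = 0 := by
        rw [h1, dotProduct_sub, dotProduct_sub, hy, dotProduct_smul, hψy, dotProduct_smul,
          dotProduct_single_one, hψo]
        simp
      rw [dotProduct_smul, smul_eq_mul] at h2
      rcases mul_eq_zero.mp h2 with h | h
      · exact absurd h hβ
      · exact h
    exact hgH (C.mem_of_perp hg o ψ hψ hψo hψ0 hv)

/-- A subgroup between the subfield group and `SL_n(F)` containing no irrational elementary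
transvection is the subfield group. -/
theorem SubCtx.le_subfield [Finite F] (C : SubCtx F₀ M) :
    M ≤ Cfsg.Geo.subfieldSubgroup F₀ 1 := by
  classical
  intro g hg
  by_contra hgH
  have hn3 : 3 ≤ n := le_trans (by norm_num) C.hn
  obtain ⟨o⟩ : Nonempty (Fin n) := ⟨⟨0, lt_of_lt_of_le (by norm_num) C.hn⟩⟩
  obtain ⟨i₁, h1o, -⟩ := exists_ne_ne hn3 o o
  obtain ⟨i₂, h2o, h21⟩ := exists_ne_ne hn3 o i₁
  obtain ⟨v, hv⟩ : ∃ v, v = act g (Pi.single o 1) := ⟨_, rfl⟩
  have hv0 : v ≠ 0 := by
    rw [hv]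
    intro h0
    have h1 := act_injective g (h0.trans (act_zero g).symm)
    have h2 := congrFun h1 o
    rw [Pi.single_eq_same] at h2
    exact one_ne_zero h2
  obtain ⟨Pg, hPg⟩ : ∃ Pg : Subgroup (GL (Fin n) F), Pg = lineSub M o v := ⟨_, rfl⟩
  have : Fintype Pg := Fintype.ofFinite _
  have : Fintype F₀ := Fintype.ofFinite _
  obtain ⟨O, hO⟩ : ∃ O : Finset (Fin n → F),
      O = Finset.image (fun m : Pg => act m.1 (Pi.single o 1)) Finset.univ := ⟨_, rfl⟩
  have hOmem : ∀ w, w ∈ O ↔ ∃ m ∈ Pg, act m (Pi.single o 1) = w := by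
    intro w
    rw [hO, Finset.mem_image]
    constructor
    · rintro ⟨m, -, rfl⟩
      exact ⟨m.1, m.2, rfl⟩
    · rintro ⟨m, hm, rfl⟩
      exact ⟨⟨m, hm⟩, Finset.mem_univ _, rfl⟩
  have hperm : ∀ m ∈ Pg, ∑ w ∈ O, act m w = ∑ w ∈ O, w := by
    intro m hm
    have himg : Finset.image (act m) O = O := by
      apply Finset.eq_of_subset_of_card_le
      · intro w hw
        rw [Finset.mem_image] at hw
        obtain ⟨w', hw', rfl⟩ := hw
        rw [hOmem] at hw' ⊢
        obtain ⟨m', hm', rfl⟩ := hw'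
        exact ⟨m * m', Pg.mul_mem hm hm', act_mul m m' _⟩
      · rw [Finset.card_image_of_injective _ (act_injective m)]
    calc ∑ w ∈ O, act m w = ∑ w ∈ Finset.image (act m) O, w :=
          (Finset.sum_image (f := fun w => w) (g := act m) (s := O)
            (fun a _ b _ h => act_injective m h)).symm
      _ = ∑ w ∈ O, w := by rw [himg]
  have hfix : ∀ m ∈ Pg, act m (∑ w ∈ O, w) = ∑ w ∈ O, w := by
    intro m hm
    have h1 : act m (∑ w ∈ O, w) = ∑ w ∈ O, act m w := by
      show Matrix.mulVecLin (m : Matrix (Fin n) (Fin n) F) (∑ w ∈ O, w)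
        = ∑ w ∈ O, Matrix.mulVecLin (m : Matrix (Fin n) (Fin n) F) w
      exact map_sum _ _ _
    rw [h1, hperm m hm]
  obtain ⟨s, hs⟩ : ∃ s, s = ∑ w ∈ O, w := ⟨_, rfl⟩
  have hs1 : ∀ i, i ≠ o → s i = 0 := by
    intro i hio
    obtain ⟨h, hh, hhx⟩ := rat_tv_mem F₀ (Pi.single o 1) (Pi.single i 1) (rat_single F₀ o)
      (rat_single F₀ i) (by rw [dotProduct_single_one, Pi.single_eq_of_ne hio.symm])
    have hhP : h ∈ Pg := by
      rw [hPg, mem_lineSub]
      refine ⟨C.sub_le hh, fun x => ⟨Pi.single i 1 ⬝ᵥ x, 0, ?_⟩⟩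
      rw [hhx, zero_smul, add_zero, add_sub_cancel_left]
    have h1 := hfix h hhP
    rw [← hs, hhx, single_one_dotProduct] at h1
    have h3 : s o + s i * (Pi.single o (1 : F) : Fin n → F) o = s o := congrFun h1 o
    rw [Pi.single_eq_same, mul_one] at h3
    linear_combination h3
  have hs2 : ∀ i, i ≠ o → act g⁻¹ s i = 0 := by
    intro i hio
    obtain ⟨h, hh, hhx⟩ := rat_tv_mem F₀ (Pi.single o 1) (Pi.single i 1) (rat_single F₀ o)
      (rat_single F₀ i) (by rw [dotProduct_single_one, Pi.single_eq_of_ne hio.symm])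
    have htP : g * h * g⁻¹ ∈ Pg := by
      rw [hPg, mem_lineSub]
      refine ⟨M.mul_mem (M.mul_mem hg (C.sub_le hh)) (M.inv_mem hg),
        fun x => ⟨0, act g⁻¹ x i, ?_⟩⟩
      rw [act_mul, act_mul, hhx, act_add, act_act_inv, act_smul, single_one_dotProduct,
        zero_smul, zero_add, add_sub_cancel_left, hv]
    have h1 := hfix _ htP
    rw [← hs, act_mul, act_mul, hhx, act_add, act_act_inv, act_smul, single_one_dotProduct,
      ← hv] at h1
    have h2 : act g⁻¹ s i • v = 0 := by
      have h3 : s + act g⁻¹ s i • v = s + 0 := by rw [add_zero]; exact h1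
      exact add_left_cancel h3
    rcases smul_eq_zero.mp h2 with h | h
    · exact h
    · exact absurd h hv0
  have hs0 : s = 0 := by
    by_contra hsne
    obtain ⟨c, hc⟩ : ∃ c, c = act g⁻¹ s o := ⟨_, rfl⟩
    have e1 : act g⁻¹ s = c • Pi.single o 1 := by
      funext i
      by_cases hio : i = o
      · subst hio
        show _ = c * (Pi.single i (1 : F) : Fin n → F) i
        rw [Pi.single_eq_same, mul_one, hc]
      · show _ = c * (Pi.single o (1 : F) : Fin n → F) i
        rw [Pi.single_eq_of_ne hio, mul_zero]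
        exact hs2 i hio
    have e2 : s = c • v := by
      rw [hv, ← act_smul, ← e1, act_act_inv]
    have e3 : s = s o • Pi.single o 1 := by
      funext i
      by_cases hio : i = o
      · subst hio
        show _ = s i * (Pi.single i (1 : F) : Fin n → F) i
        rw [Pi.single_eq_same, mul_one]
      · show _ = s o * (Pi.single o (1 : F) : Fin n → F) i
        rw [Pi.single_eq_of_ne hio, mul_zero]
        exact hs1 i hio
    have hc0 : c ≠ 0 := by
      intro h0
      rw [h0, zero_smul] at e2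
      exact hsne e2
    apply hgH
    refine C.mem_of_fix hg o (c⁻¹ * s o) ?_
    rw [← hv, mul_smul, ← e3]
    calc v = (c⁻¹ * c) • v := by rw [inv_mul_cancel₀ hc0, one_smul]
      _ = c⁻¹ • (c • v) := by rw [mul_smul]
      _ = c⁻¹ • s := by rw [← e2]
  obtain ⟨T, hT⟩ : ∃ T : F₀ × F₀ → (Fin n → F) → (Fin n → F),
      T = fun a w => w + ((a.1 : F) * w i₁ + (a.2 : F) * w i₂) • Pi.single o 1 := ⟨_, rfl⟩
  have hTapp : ∀ a w, T a w = w + ((a.1 : F) * w i₁ + (a.2 : F) * w i₂) • Pi.single o 1 := by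
    intro a w
    rw [hT]
  have hTi₁ : ∀ a w, T a w i₁ = w i₁ := by
    intro a w
    rw [hTapp]
    show w i₁ + _ * (Pi.single o (1 : F) : Fin n → F) i₁ = w i₁
    rw [Pi.single_eq_of_ne h1o, mul_zero, add_zero]
  have hTi₂ : ∀ a w, T a w i₂ = w i₂ := by
    intro a w
    rw [hTapp]
    show w i₂ + _ * (Pi.single o (1 : F) : Fin n → F) i₂ = w i₂
    rw [Pi.single_eq_of_ne h2o, mul_zero, add_zero]
  have hTadd : ∀ a b w, T (a + b) w = T a (T b w) := by
    intro a b w
    rw [hTapp a (T b w), hTi₁, hTi₂, hTapp b w, hTapp (a + b) w]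
    simp only [Prod.fst_add, Prod.snd_add, Subfield.coe_add]
    module
  have hTzero : ∀ w, T 0 w = w := by
    intro w
    rw [hTapp]
    simp
  have hq0 : (Fintype.card F₀ : F) = 0 := by
    have h := congrArg (F₀.subtype) (FiniteField.cast_card_eq_zero F₀)
    rwa [map_natCast, map_zero] at h
  have hTsum : ∀ w, ∑ a, T a w = 0 := by
    intro w
    have hA : ∑ x : F₀ × F₀, (x.1 : F) * w i₁ = 0 := by
      simp only [Fintype.sum_prod_type, Finset.sum_const, Finset.card_univ, nsmul_eq_mul, hq0,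
        zero_mul, Finset.sum_const_zero]
    have hB : ∑ x : F₀ × F₀, (x.2 : F) * w i₂ = 0 := by
      simp only [Fintype.sum_prod_type, Finset.sum_const, Finset.card_univ, nsmul_eq_mul, hq0,
        zero_mul]
    have hC : (Fintype.card (F₀ × F₀)) • w = 0 := by
      rw [← Nat.cast_smul_eq_nsmul F, Fintype.card_prod, Nat.cast_mul, hq0, zero_mul, zero_smul]
    simp only [hTapp]
    rw [Finset.sum_add_distrib, ← Finset.sum_smul, Finset.sum_add_distrib, hA, hB,
      Finset.sum_const, Finset.card_univ, hC, add_zero, zero_smul, add_zero]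
  have hTP : ∀ a, ∃ h ∈ Pg, ∀ x, act h x = T a x := by
    intro a
    obtain ⟨h, hh, hhx⟩ := rat_tv_mem F₀ (Pi.single o 1)
      ((a.1 : F) • Pi.single i₁ 1 + (a.2 : F) • Pi.single i₂ 1) (rat_single F₀ o)
      (fun i => F₀.add_mem (F₀.mul_mem a.1.2 (rat_single F₀ i₁ i))
        (F₀.mul_mem a.2.2 (rat_single F₀ i₂ i)))
      (by
        rw [dotProduct_single_one]
        show (a.1 : F) * (Pi.single i₁ (1 : F) : Fin n → F) o
          + (a.2 : F) * (Pi.single i₂ (1 : F) : Fin n → F) o = 0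
        rw [Pi.single_eq_of_ne h1o.symm, Pi.single_eq_of_ne h2o.symm, mul_zero, mul_zero,
          add_zero])
    have hφx : ∀ x : Fin n → F, ((a.1 : F) • Pi.single i₁ 1 + (a.2 : F) • Pi.single i₂ 1) ⬝ᵥ x
        = (a.1 : F) * x i₁ + (a.2 : F) * x i₂ := by
      intro x
      rw [add_dotProduct, smul_dotProduct, smul_dotProduct, single_one_dotProduct,
        single_one_dotProduct]
      rfl
    refine ⟨h, ?_, fun x => by rw [hhx, hφx, hTapp]⟩
    rw [hPg, mem_lineSub]
    exact ⟨C.sub_le hh, fun x => ⟨((a.1 : F) • Pi.single i₁ 1 + (a.2 : F) • Pi.single i₂ 1) ⬝ᵥ x,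
      0, by rw [hhx, zero_smul, add_zero, add_sub_cancel_left]⟩⟩
  have he_mem : Pi.single o 1 ∈ O := (hOmem _).mpr ⟨1, Pg.one_mem, act_one _⟩
  have hTe : ∀ a, T a (Pi.single o 1) = Pi.single o 1 := by
    intro a
    rw [hTapp, Pi.single_eq_of_ne h1o, Pi.single_eq_of_ne h2o, mul_zero, mul_zero, add_zero,
      zero_smul, add_zero]
  have hinvS : ∀ a, ∀ w ∈ O.erase (Pi.single o 1), T a w ∈ O.erase (Pi.single o 1) := by
    intro a w hw
    rw [Finset.mem_erase] at hw ⊢
    obtain ⟨hne, hwO⟩ := hw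
    constructor
    · intro h0
      apply hne
      have h1 := hTadd (-a) a w
      rw [neg_add_cancel, hTzero, h0, hTe] at h1
      exact h1
    · rw [hOmem] at hwO ⊢
      obtain ⟨m, hm, rfl⟩ := hwO
      obtain ⟨h, hh, hhx⟩ := hTP a
      exact ⟨h * m, Pg.mul_mem hh hm, by rw [act_mul, hhx]⟩
  have hfreeS : ∀ w ∈ O.erase (Pi.single o 1), ∀ a, T a w = w → a = 0 := by
    intro w hw a haw
    rw [Finset.mem_erase] at hw
    obtain ⟨hne, hwO⟩ := hw
    rw [hOmem] at hwO
    obtain ⟨m, hm, rfl⟩ := hwO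
    by_contra ha
    have h0 : (a.1 : F) * act m (Pi.single o 1) i₁ + (a.2 : F) * act m (Pi.single o 1) i₂ = 0 := by
      rw [hTapp] at haw
      have h1 : ((a.1 : F) * act m (Pi.single o 1) i₁ + (a.2 : F) * act m (Pi.single o 1) i₂)
          • (Pi.single o (1 : F) : Fin n → F) = 0 := by
        have h3 : act m (Pi.single o 1) + ((a.1 : F) * act m (Pi.single o 1) i₁
            + (a.2 : F) * act m (Pi.single o 1) i₂) • (Pi.single o (1 : F) : Fin n → F)
            = act m (Pi.single o 1) + 0 := by rw [add_zero]; exact haw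
        exact add_left_cancel h3
      have h2 : ((a.1 : F) * act m (Pi.single o 1) i₁ + (a.2 : F) * act m (Pi.single o 1) i₂)
          * (Pi.single o (1 : F) : Fin n → F) o = 0 := congrFun h1 o
      rwa [Pi.single_eq_same, mul_one] at h2
    have hφx : ∀ x : Fin n → F, ((a.1 : F) • Pi.single i₁ 1 + (a.2 : F) • Pi.single i₂ 1) ⬝ᵥ x
        = (a.1 : F) * x i₁ + (a.2 : F) * x i₂ := by
      intro x
      rw [add_dotProduct, smul_dotProduct, smul_dotProduct, single_one_dotProduct,
        single_one_dotProduct]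
      rfl
    have hm' : m ∈ lineSub M o (act g (Pi.single o 1)) := by
      rw [← hv, ← hPg]
      exact hm
    refine C.lineSub_free hg hgH o hm' hne
      ((a.1 : F) • Pi.single i₁ 1 + (a.2 : F) • Pi.single i₂ 1)
      (fun i => F₀.add_mem (F₀.mul_mem a.1.2 (rat_single F₀ i₁ i))
        (F₀.mul_mem a.2.2 (rat_single F₀ i₂ i))) ?_ ?_ ?_
    · show (a.1 : F) * (Pi.single i₁ (1 : F) : Fin n → F) o
        + (a.2 : F) * (Pi.single i₂ (1 : F) : Fin n → F) o = 0
      rw [Pi.single_eq_of_ne h1o.symm, Pi.single_eq_of_ne h2o.symm, mul_zero, mul_zero, add_zero]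
    · intro hφ0
      apply ha
      have e1 : (a.1 : F) * (Pi.single i₁ (1 : F) : Fin n → F) i₁
          + (a.2 : F) * (Pi.single i₂ (1 : F) : Fin n → F) i₁ = 0 := congrFun hφ0 i₁
      have e2 : (a.1 : F) * (Pi.single i₁ (1 : F) : Fin n → F) i₂
          + (a.2 : F) * (Pi.single i₂ (1 : F) : Fin n → F) i₂ = 0 := congrFun hφ0 i₂
      rw [Pi.single_eq_same, Pi.single_eq_of_ne h21.symm, mul_one, mul_zero, add_zero] at e1
      rw [Pi.single_eq_same, Pi.single_eq_of_ne h21, mul_one, mul_zero, zero_add] at e2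
      exact Prod.ext (Subtype.ext e1) (Subtype.ext e2)
    · rw [hφx]
      exact h0
  have hsumS := free_orbit_sum T hTadd hTzero hTsum (O.erase (Pi.single o 1)) hinvS hfreeS
  have h1 : ∑ w ∈ O, w = Pi.single o 1 := by
    rw [← Finset.add_sum_erase O (fun w => w) he_mem, hsumS, add_zero]
  rw [← hs, hs0] at h1
  have h2 := congrFun h1 o
  rw [Pi.single_eq_same] at h2
  exact zero_ne_one h2

end

end Cfsg.Agent.H99
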