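import Cfsg.Agent.H99.SLGen

set_option autoImplicit false

namespace Cfsg.Agent.H99

open Matrix
open scoped MatrixGroups

section
variable {F : Type*} [Field F] {n : ℕ}

theorem exists_ne_ne (hn : 3 ≤ n) (i j : Fin n) : ∃ k : Fin n, k ≠ i ∧ k ≠ j := by
  classical
  by_contra h
  push Not at h
  have h1 : (Finset.univ : Finset (Fin n)) ⊆ {i, j} := by
    intro k _
    by_cases hk : k = i
    · simp [hk]
    · simp [h k hk]
  have h2 := Finset.card_le_card h1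
  rw [Finset.card_univ, Fintype.card_fin] at h2
  have h3 : ({i, j} : Finset (Fin n)).card ≤ 2 := Finset.card_le_two
  omega

theorem exists_ne_ne_ne (hn : 4 ≤ n) (i j k : Fin n) : ∃ l : Fin n, l ≠ i ∧ l ≠ j ∧ l ≠ k := by
  classical
  by_contra h
  push Not at h
  have h1 : (Finset.univ : Finset (Fin n)) ⊆ {i, j, k} := by
    intro l _
    by_cases hl : l = i
    · simp [hl]
    · by_cases hl2 : l = j
      · simp [hl2]
      · simp [h l hl hl2]
  have h2 := Finset.card_le_card h1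
  rw [Finset.card_univ, Fintype.card_fin] at h2
  have h3 : ({i, j, k} : Finset (Fin n)).card ≤ 3 := Finset.card_le_three
  omega

/-- `M` contains the transvection `x ↦ x + φ(x) w`. -/
def Tv (M : Subgroup (GL (Fin n) F)) (w φ : Fin n → F) : Prop :=
  ∃ g ∈ M, ∀ x, act g x = x + (φ ⬝ᵥ x) • w

theorem tv_inv_act {g : GL (Fin n) F} {w φ : Fin n → F}
    (hg : ∀ x, act g x = x + (φ ⬝ᵥ x) • w) (h : φ ⬝ᵥ w = 0) (x : Fin n → F) :
    act g⁻¹ x = x - (φ ⬝ᵥ x) • w := by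
  apply act_injective g
  rw [act_act_inv, hg, dotProduct_sub, dotProduct_smul, h, smul_eq_mul, mul_zero, sub_zero]
  abel

variable {M : Subgroup (GL (Fin n) F)}

theorem Tv.congr {w φ w' φ' : Fin n → F} (h : Tv M w φ)
    (e : ∀ x, (φ ⬝ᵥ x) • w = (φ' ⬝ᵥ x) • w') : Tv M w' φ' := by
  obtain ⟨g, hg, hgx⟩ := h
  exact ⟨g, hg, fun x => by rw [hgx, e]⟩

theorem Tv.neg {w φ : Fin n → F} (h : Tv M w φ) (hφw : φ ⬝ᵥ w = 0) : Tv M (-w) φ := by
  obtain ⟨g, hg, hgx⟩ := h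
  refine ⟨g⁻¹, M.inv_mem hg, fun x => ?_⟩
  rw [tv_inv_act hgx hφw, smul_neg, sub_eq_add_neg]

theorem Tv.smul_swap {w φ : Fin n → F} (c : F) (h : Tv M (c • w) φ) : Tv M w (c • φ) :=
  h.congr fun x => by rw [smul_dotProduct, smul_eq_mul, smul_smul, mul_comm]

theorem Tv.smul_swap' {w φ : Fin n → F} (c : F) (h : Tv M w (c • φ)) : Tv M (c • w) φ :=
  h.congr fun x => by rw [smul_dotProduct, smul_eq_mul, smul_smul, mul_comm]

theorem Tv.add_left {w w' φ : Fin n → F} (h : Tv M w φ) (h' : Tv M w' φ) (hφw : φ ⬝ᵥ w' = 0) :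
    Tv M (w + w') φ := by
  obtain ⟨g, hg, hgx⟩ := h
  obtain ⟨g', hg', hgx'⟩ := h'
  refine ⟨g * g', M.mul_mem hg hg', fun x => ?_⟩
  rw [act_mul, hgx', hgx, dotProduct_add, dotProduct_smul, hφw, smul_eq_mul, mul_zero, add_zero]
  module

theorem Tv.add_right {w φ φ' : Fin n → F} (h : Tv M w φ) (h' : Tv M w φ') (hφw : φ ⬝ᵥ w = 0) :
    Tv M w (φ + φ') := by
  obtain ⟨g, hg, hgx⟩ := h
  obtain ⟨g', hg', hgx'⟩ := h'
  refine ⟨g * g', M.mul_mem hg hg', fun x => ?_⟩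
  rw [act_mul, hgx', hgx, dotProduct_add, dotProduct_smul, hφw, smul_eq_mul, mul_zero, add_zero,
    add_dotProduct]
  module

/-- Conjugating a transvection. -/
theorem Tv.conj {w φ : Fin n → F} (h : Tv M w φ) {g : GL (Fin n) F} (hg : g ∈ M) :
    Tv M (act g w) (φ ᵥ* ((g⁻¹ : GL (Fin n) F) : Matrix (Fin n) (Fin n) F)) := by
  obtain ⟨t, ht, htx⟩ := h
  refine ⟨g * t * g⁻¹, M.mul_mem (M.mul_mem hg ht) (M.inv_mem hg), fun x => ?_⟩
  rw [act_mul, act_mul, htx, act_add, act_act_inv, act_smul, ← dotProduct_mulVec]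
  rfl

/-- First commutator formula. -/
theorem Tv.comm1 {w φ u ψ : Fin n → F} (h1 : Tv M w φ) (h2 : Tv M u ψ)
    (hφw : φ ⬝ᵥ w = 0) (hψu : ψ ⬝ᵥ u = 0) (hψw : ψ ⬝ᵥ w = 0) :
    Tv M ((φ ⬝ᵥ u) • w) ψ := by
  obtain ⟨g, hg, hgx⟩ := h1
  obtain ⟨s, hs, hsx⟩ := h2
  refine ⟨g * s * g⁻¹ * s⁻¹,
    M.mul_mem (M.mul_mem (M.mul_mem hg hs) (M.inv_mem hg)) (M.inv_mem hs), fun x => ?_⟩
  rw [act_mul, act_mul, act_mul, tv_inv_act hsx hψu, tv_inv_act hgx hφw, hsx, hgx]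
  simp only [dotProduct_add, dotProduct_sub, dotProduct_smul, smul_eq_mul, hφw, hψu, hψw,
    mul_zero, sub_zero, add_zero]
  module

/-- Second commutator formula. -/
theorem Tv.comm2 {w φ u ψ : Fin n → F} (h1 : Tv M w φ) (h2 : Tv M u ψ)
    (hφw : φ ⬝ᵥ w = 0) (hψu : ψ ⬝ᵥ u = 0) (hφu : φ ⬝ᵥ u = 0) :
    Tv M (-(ψ ⬝ᵥ w) • u) φ := by
  obtain ⟨g, hg, hgx⟩ := h1
  obtain ⟨s, hs, hsx⟩ := h2
  refine ⟨g * s * g⁻¹ * s⁻¹,
    M.mul_mem (M.mul_mem (M.mul_mem hg hs) (M.inv_mem hg)) (M.inv_mem hs), fun x => ?_⟩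
  rw [act_mul, act_mul, act_mul, tv_inv_act hsx hψu, tv_inv_act hgx hφw, hsx, hgx]
  simp only [dotProduct_add, dotProduct_sub, dotProduct_smul, smul_eq_mul, hφw, hψu, hφu,
    mul_zero, sub_zero, add_zero]
  module

/-- A subgroup of `GL_n(F)` containing all elementary transvections contains `SL_n(F)`. -/
theorem sl_le_of_elementary (hn : 2 ≤ n) (M : Subgroup (GL (Fin n) F))
    (hM : ∀ (i j : Fin n), i ≠ j → ∀ a : F, Tv M (a • Pi.single i 1) (Pi.single j 1)) :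
    Cfsg.Geo.specialLinear (Fin n) F ≤ M := by
  classical
  have : Nontrivial (Fin n) := Fin.nontrivial_iff_two_le.mpr hn
  have htv : ∀ (i j : Fin n) (hij : i ≠ j) (a : F),
      Matrix.SpecialLinearGroup.toGL (Matrix.SpecialLinearGroup.transvection hij a) ∈ M := by
    intro i j hij a
    obtain ⟨g, hg, hgx⟩ := hM i j hij a
    have e : Matrix.SpecialLinearGroup.toGL (Matrix.SpecialLinearGroup.transvection hij a) = g := by
      apply gl_ext_act
      intro x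
      rw [hgx]
      unfold act
      rw [Matrix.SpecialLinearGroup.coe_GL_coe_matrix, transvection_mulVec_update]
      ext m
      by_cases hm : m = i
      · subst hm
        simp [mul_comm]
      · simp [hm]
    rw [e]
    exact hg
  intro g hg
  have hdet : (g : Matrix (Fin n) (Fin n) F).det = 1 := by
    unfold Cfsg.Geo.specialLinear at hg
    rw [MonoidHom.mem_ker] at hg
    have h1 := congrArg Units.val hg
    rwa [Matrix.GeneralLinearGroup.val_det_apply, Units.val_one] at h1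
  obtain ⟨s, hs⟩ : ∃ s : Matrix.SpecialLinearGroup (Fin n) F,
      (s : Matrix (Fin n) (Fin n) F) = (g : Matrix (Fin n) (Fin n) F) := ⟨⟨_, hdet⟩, rfl⟩
  have hg' : g = Matrix.SpecialLinearGroup.toGL s := by
    apply Units.ext
    rw [Matrix.SpecialLinearGroup.coe_GL_coe_matrix, hs]
  rw [hg']
  refine Matrix.SpecialLinearGroup.diagonal_transvection_induction'
    (fun s => Matrix.SpecialLinearGroup.toGL s ∈ M) s ?_ ?_ ?_
  · intro i j hij c hc
    show Matrix.SpecialLinearGroup.toGL (Matrix.SpecialLinearGroup.diag2n hij c hc) ∈ M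
    rw [diag2n_eq_prod hij c hc]
    simp only [map_mul]
    exact M.mul_mem (M.mul_mem (M.mul_mem (M.mul_mem (M.mul_mem (htv _ _ _ _) (htv _ _ _ _))
      (htv _ _ _ _)) (htv _ _ _ _)) (htv _ _ _ _)) (htv _ _ _ _)
  · exact htv
  · intro A B hA hB
    show Matrix.SpecialLinearGroup.toGL (A * B) ∈ M
    rw [map_mul]
    exact M.mul_mem hA hB

end

end Cfsg.Agent.H99
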