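import Mathlib
import Cfsg.Prelude.Def_GeometricClasses

/-!
helper99: glue for S5979 (tensor product subgroups): membership, rank transfer, packaging of
matrices of determinant one as elements of the special linear subgroup.
-/

set_option autoImplicit false
open scoped Kronecker

namespace Cfsg.Agent.H99.Ten

variable {F : Type*} [Field F]

theorem glReindex_coe {n a b : ℕ} (e : Fin n ≃ Fin a × Fin b) (k : GL (Fin a × Fin b) F) :
    ((Cfsg.Geo.glReindex (F := F) e.symm k : GL (Fin n) F) : Matrix (Fin n) (Fin n) F)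
      = Matrix.reindex e.symm e.symm (k : Matrix (Fin a × Fin b) (Fin a × Fin b) F) := rfl

/-- Membership in the tensor product subgroup, forward direction. -/
theorem tensor_of_mem {n a b : ℕ} (e : Fin n ≃ Fin a × Fin b) (P x g : GL (Fin n) F)
    (h : g⁻¹ * x * g ∈ Cfsg.Geo.tensorProductSubgroup a b e P) :
    ∃ (A : Matrix (Fin a) (Fin a) F) (B : Matrix (Fin b) (Fin b) F) (Q : Matrix (Fin n) (Fin n) F),
      IsUnit A.det ∧ IsUnit B.det ∧ IsUnit Q.det ∧
      (x : Matrix (Fin n) (Fin n) F) * Q = Q * Matrix.reindex e.symm e.symm (A ⊗ₖ B) := by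
  unfold Cfsg.Geo.tensorProductSubgroup at h
  obtain ⟨y, hy, hyx⟩ := Subgroup.mem_map.mp h
  obtain ⟨k, hk, rfl⟩ := Subgroup.mem_map.mp hy
  obtain ⟨A, B, hAB⟩ := hk
  refine ⟨A, B, ((g * P : GL (Fin n) F) : Matrix (Fin n) (Fin n) F),
    Matrix.isUnits_det_units A, Matrix.isUnits_det_units B, Matrix.isUnits_det_units (g * P), ?_⟩
  have h1 : P * Cfsg.Geo.glReindex (F := F) e.symm k * P⁻¹ = g⁻¹ * x * g := hyx
  have h2 : x * (g * P) = (g * P) * Cfsg.Geo.glReindex (F := F) e.symm k := by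
    have h3 : g * (P * Cfsg.Geo.glReindex (F := F) e.symm k * P⁻¹) * P = g * (g⁻¹ * x * g) * P := by
      rw [h1]
    simp only [mul_assoc, inv_mul_cancel, mul_one, mul_inv_cancel_left] at h3
    rw [mul_assoc]
    exact h3.symm
  have h4 := congrArg (fun u : GL (Fin n) F => (u : Matrix (Fin n) (Fin n) F)) h2
  simp only [Units.val_mul] at h4
  rw [glReindex_coe, hAB] at h4
  rw [Units.val_mul]
  exact h4

/-- Membership in the tensor product subgroup, backward direction. -/
theorem mem_of_tensor {n a b : ℕ} (e : Fin n ≃ Fin a × Fin b) (P x g : GL (Fin n) F)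
    (A : GL (Fin a) F) (B : GL (Fin b) F)
    (h : (x : Matrix (Fin n) (Fin n) F) * ((g * P : GL (Fin n) F) : Matrix (Fin n) (Fin n) F)
      = ((g * P : GL (Fin n) F) : Matrix (Fin n) (Fin n) F)
        * Matrix.reindex e.symm e.symm ((A : Matrix (Fin a) (Fin a) F) ⊗ₖ
          (B : Matrix (Fin b) (Fin b) F))) :
    g⁻¹ * x * g ∈ Cfsg.Geo.tensorProductSubgroup a b e P := by
  obtain ⟨k, hk⟩ : ∃ k : GL (Fin a × Fin b) F, (k : Matrix (Fin a × Fin b) (Fin a × Fin b) F)
      = (A : Matrix (Fin a) (Fin a) F) ⊗ₖ (B : Matrix (Fin b) (Fin b) F) := by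
    refine ⟨⟨(A : Matrix (Fin a) (Fin a) F) ⊗ₖ (B : Matrix (Fin b) (Fin b) F),
      ((A⁻¹ : GL (Fin a) F) : Matrix (Fin a) (Fin a) F) ⊗ₖ
        ((B⁻¹ : GL (Fin b) F) : Matrix (Fin b) (Fin b) F), ?_, ?_⟩, rfl⟩
    · rw [← Matrix.mul_kronecker_mul, ← Units.val_mul, ← Units.val_mul, mul_inv_cancel,
        mul_inv_cancel, Units.val_one, Units.val_one, Matrix.one_kronecker_one]
    · rw [← Matrix.mul_kronecker_mul, ← Units.val_mul, ← Units.val_mul, inv_mul_cancel,
        inv_mul_cancel, Units.val_one, Units.val_one, Matrix.one_kronecker_one]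
  have hkmem : k ∈ Cfsg.Geo.kroneckerSubgroup a b F := ⟨A, B, hk⟩
  have h2 : x * (g * P) = (g * P) * Cfsg.Geo.glReindex (F := F) e.symm k := by
    apply Units.ext
    show (x : Matrix (Fin n) (Fin n) F) * ((g * P : GL (Fin n) F) : Matrix (Fin n) (Fin n) F)
      = ((g * P : GL (Fin n) F) : Matrix (Fin n) (Fin n) F)
        * ((Cfsg.Geo.glReindex (F := F) e.symm k : GL (Fin n) F) : Matrix (Fin n) (Fin n) F)
    rw [glReindex_coe, hk]
    exact h
  unfold Cfsg.Geo.tensorProductSubgroup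
  refine Subgroup.mem_map.mpr ⟨Cfsg.Geo.glReindex (F := F) e.symm k,
    Subgroup.mem_map.mpr ⟨k, hkmem, rfl⟩, ?_⟩
  show P * Cfsg.Geo.glReindex (F := F) e.symm k * P⁻¹ = g⁻¹ * x * g
  have h3 : Cfsg.Geo.glReindex (F := F) e.symm k = (g * P)⁻¹ * x * (g * P) := by
    rw [mul_assoc, h2, inv_mul_cancel_left]
  rw [h3]
  group

/-- Rank transfer along a conjugation and a reindexing. -/
theorem rank_transfer {n a b : ℕ} (e : Fin n ≃ Fin a × Fin b) (x Q : Matrix (Fin n) (Fin n) F)
    (M : Matrix (Fin a × Fin b) (Fin a × Fin b) F) (hQ : IsUnit Q.det)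
    (h : x * Q = Q * Matrix.reindex e.symm e.symm M) (ν : F) :
    (x - ν • (1 : Matrix (Fin n) (Fin n) F)).rank
      = (M - ν • (1 : Matrix (Fin a × Fin b) (Fin a × Fin b) F)).rank := by
  have h1 : Matrix.reindex e.symm e.symm (M - ν • (1 : Matrix (Fin a × Fin b) (Fin a × Fin b) F))
      = Matrix.reindex e.symm e.symm M - ν • (1 : Matrix (Fin n) (Fin n) F) := by
    ext i j
    simp [Matrix.reindex_apply, Matrix.submatrix_apply, Matrix.one_apply]
  have h2 : (x - ν • (1 : Matrix (Fin n) (Fin n) F)) * Q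
      = Q * Matrix.reindex e.symm e.symm
        (M - ν • (1 : Matrix (Fin a × Fin b) (Fin a × Fin b) F)) := by
    rw [h1, Matrix.sub_mul, Matrix.mul_sub, h, Matrix.smul_mul, Matrix.mul_smul, Matrix.one_mul,
      Matrix.mul_one]
  rw [← Matrix.rank_mul_eq_left_of_isUnit_det Q _ hQ, h2,
    Matrix.rank_mul_eq_right_of_isUnit_det Q _ hQ, Matrix.rank_reindex]

/-- Power transfer along a conjugation and a reindexing. -/
theorem pow_transfer {n a b : ℕ} (e : Fin n ≃ Fin a × Fin b) (x Q : Matrix (Fin n) (Fin n) F)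
    (M : Matrix (Fin a × Fin b) (Fin a × Fin b) F) (hQ : IsUnit Q.det)
    (h : x * Q = Q * Matrix.reindex e.symm e.symm M) (k : ℕ) (hx : x ^ k = 1) : M ^ k = 1 := by
  have h1 : ∀ j : ℕ, x ^ j * Q = Q * Matrix.reindex e.symm e.symm (M ^ j) := by
    intro j
    induction j with
    | zero =>
      rw [pow_zero, pow_zero, Matrix.one_mul]
      have : Matrix.reindex e.symm e.symm (1 : Matrix (Fin a × Fin b) (Fin a × Fin b) F) = 1 := by
        ext i j
        simp [Matrix.reindex_apply, Matrix.submatrix_apply, Matrix.one_apply]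
      rw [this, Matrix.mul_one]
    | succ j ih =>
      have h2 : Matrix.reindex e.symm e.symm (M ^ (j + 1))
          = Matrix.reindex e.symm e.symm (M ^ j) * Matrix.reindex e.symm e.symm M := by
        rw [pow_succ]
        simp [Matrix.reindex_apply, Matrix.submatrix_mul_equiv]
      rw [pow_succ, Matrix.mul_assoc, h, ← Matrix.mul_assoc, ih, Matrix.mul_assoc, ← h2]
  have h3 := h1 k
  rw [hx, Matrix.one_mul] at h3
  have h4 : Matrix.reindex e.symm e.symm (M ^ k) = 1 := by
    have hQ' : IsUnit Q := (Matrix.isUnit_iff_isUnit_det Q).mpr hQ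
    obtain ⟨u, rfl⟩ := hQ'
    have h5 : (u : Matrix (Fin n) (Fin n) F) * 1
        = (u : Matrix (Fin n) (Fin n) F) * Matrix.reindex e.symm e.symm (M ^ k) := by
      rw [Matrix.mul_one]
      exact h3
    exact (Units.mul_right_inj u).mp h5.symm
  have h6 : Matrix.reindex e e (Matrix.reindex e.symm e.symm (M ^ k)) = M ^ k := by
    ext i j
    simp [Matrix.reindex_apply, Matrix.submatrix_apply]
  rw [← h6, h4]
  ext i j
  simp [Matrix.reindex_apply, Matrix.submatrix_apply, Matrix.one_apply]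

/-- Packaging a matrix of determinant one. -/
theorem exists_GL_of_det_one {n : ℕ} (M : Matrix (Fin n) (Fin n) F) (h : M.det = 1) :
    ∃ x : GL (Fin n) F, x ∈ Cfsg.Geo.specialLinear (Fin n) F ∧
      (x : Matrix (Fin n) (Fin n) F) = M := by
  have hu : IsUnit M.det := by rw [h]; exact isUnit_one
  refine ⟨Matrix.nonsingInvUnit M hu, ?_, rfl⟩
  unfold Cfsg.Geo.specialLinear
  rw [MonoidHom.mem_ker]
  apply Units.ext
  rw [Matrix.GeneralLinearGroup.val_det_apply]
  exact h

theorem det_of_mem_specialLinear {n : ℕ} (x : GL (Fin n) F)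
    (h : x ∈ Cfsg.Geo.specialLinear (Fin n) F) : (x : Matrix (Fin n) (Fin n) F).det = 1 := by
  unfold Cfsg.Geo.specialLinear at h
  rw [MonoidHom.mem_ker] at h
  have h1 := congrArg (fun u : Fˣ => (u : F)) h
  simp only [Matrix.GeneralLinearGroup.val_det_apply, Units.val_one] at h1
  exact h1

/-- The reindexed Kronecker product of a scalar `2 × 2` matrix and a diagonal matrix. -/
theorem reindex_scalar_kronecker_diagonal {n a b : ℕ} (e : Fin n ≃ Fin a × Fin b) (l : F)
    (D : Fin b → F) :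
    Matrix.reindex e.symm e.symm ((l • (1 : Matrix (Fin a) (Fin a) F)) ⊗ₖ Matrix.diagonal D)
      = Matrix.diagonal (fun k => l * D (e k).2) := by
  ext i j
  simp only [Matrix.reindex_apply, Equiv.symm_symm, Matrix.submatrix_apply,
    Matrix.kroneckerMap_apply, Matrix.smul_apply, Matrix.one_apply, Matrix.diagonal_apply,
    smul_eq_mul]
  by_cases hij : i = j
  · subst hij
    simp
  · have hne : e i ≠ e j := fun h => hij (e.injective h)
    rw [if_neg hij]
    by_cases h1 : (e i).1 = (e j).1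
    · have h2 : (e i).2 ≠ (e j).2 := fun h2 => hne (Prod.ext h1 h2)
      rw [if_neg h2, mul_zero]
    · rw [if_neg h1, mul_zero, zero_mul]

/-- Final step of the backward direction: conjugating into the tensor product subgroup by an
element of determinant one. -/
theorem exists_SL_conj {n a b : ℕ} (e : Fin n ≃ Fin a × Fin b) (P x : GL (Fin n) F)
    (A : GL (Fin a) F) (B : GL (Fin b) F) (Q : Matrix (Fin n) (Fin n) F) (hQ : IsUnit Q.det)
    (h : (x : Matrix (Fin n) (Fin n) F) * Q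
      = Q * Matrix.reindex e.symm e.symm ((A : Matrix (Fin a) (Fin a) F) ⊗ₖ
          (B : Matrix (Fin b) (Fin b) F)))
    (hcen : ∀ d : F, d ≠ 0 → ∃ c : Matrix (Fin n) (Fin n) F, c.det = d ∧
      c * Matrix.reindex e.symm e.symm ((A : Matrix (Fin a) (Fin a) F) ⊗ₖ
          (B : Matrix (Fin b) (Fin b) F))
        = Matrix.reindex e.symm e.symm ((A : Matrix (Fin a) (Fin a) F) ⊗ₖ
          (B : Matrix (Fin b) (Fin b) F)) * c) :
    ∃ g ∈ Cfsg.Geo.specialLinear (Fin n) F,
      g⁻¹ * x * g ∈ Cfsg.Geo.tensorProductSubgroup a b e P := by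
  have hP : IsUnit (P : Matrix (Fin n) (Fin n) F).det := Matrix.isUnits_det_units P
  have hQ0 : Q.det ≠ 0 := hQ.ne_zero
  have hP0 : (P : Matrix (Fin n) (Fin n) F).det ≠ 0 := hP.ne_zero
  obtain ⟨c, hcdet, hcc⟩ := hcen ((P : Matrix (Fin n) (Fin n) F).det / Q.det)
    (div_ne_zero hP0 hQ0)
  have hcu : IsUnit c.det := by
    rw [hcdet]
    exact (div_ne_zero hP0 hQ0).isUnit
  obtain ⟨Qu, hQu⟩ : ∃ Qu : GL (Fin n) F, (Qu : Matrix (Fin n) (Fin n) F) = Q :=
    ⟨Matrix.nonsingInvUnit Q hQ, rfl⟩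
  obtain ⟨cu, hcu'⟩ : ∃ cu : GL (Fin n) F, (cu : Matrix (Fin n) (Fin n) F) = c :=
    ⟨Matrix.nonsingInvUnit c hcu, rfl⟩
  refine ⟨Qu * cu * P⁻¹, ?_, ?_⟩
  · unfold Cfsg.Geo.specialLinear
    rw [MonoidHom.mem_ker]
    apply Units.ext
    rw [Matrix.GeneralLinearGroup.val_det_apply, Units.val_one]
    have h1 : ((Qu * cu * P⁻¹ : GL (Fin n) F) : Matrix (Fin n) (Fin n) F)
        * (P : Matrix (Fin n) (Fin n) F) = Q * c := by
      rw [← Units.val_mul, inv_mul_cancel_right, Units.val_mul, hQu, hcu']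
    have h2 := congrArg Matrix.det h1
    rw [Matrix.det_mul, Matrix.det_mul, hcdet] at h2
    have h3 : Q.det * ((P : Matrix (Fin n) (Fin n) F).det / Q.det)
        = (P : Matrix (Fin n) (Fin n) F).det := by
      field_simp
    rw [h3] at h2
    exact mul_right_cancel₀ hP0 (by rw [h2, one_mul])
  · apply mem_of_tensor e P x (Qu * cu * P⁻¹) A B
    rw [inv_mul_cancel_right, Units.val_mul, hQu, hcu', ← Matrix.mul_assoc, h, Matrix.mul_assoc,
      Matrix.mul_assoc, hcc]

end Cfsg.Agent.H99.Ten
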