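import Cfsg.Agent.H99.SubTv

set_option autoImplicit false

namespace Cfsg.Agent.H99

open Matrix Module
open scoped MatrixGroups

namespace UF

section
variable {F : Type*} [Field F] {n : ℕ} {σ : F ≃+* F} {f : (Fin n → F) → (Fin n → F) → F}

theorem zero_left (hf : Cfsg.Geo.IsUnitaryForm σ f) (v : Fin n → F) : f 0 v = 0 := by
  have h := hf.smul_left 0 0 v
  rwa [zero_smul, zero_mul] at h

theorem neg_left (hf : Cfsg.Geo.IsUnitaryForm σ f) (x v : Fin n → F) : f (-x) v = -f x v := by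
  have h := hf.smul_left (-1) x v
  rwa [neg_one_smul, neg_one_mul] at h

theorem sub_left (hf : Cfsg.Geo.IsUnitaryForm σ f) (x y v : Fin n → F) :
    f (x - y) v = f x v - f y v := by
  rw [sub_eq_add_neg, hf.add_left, neg_left hf, sub_eq_add_neg]

theorem add_right (hf : Cfsg.Geo.IsUnitaryForm σ f) (v x y : Fin n → F) :
    f v (x + y) = f v x + f v y := by
  rw [hf.herm, hf.add_left, map_add, ← hf.herm, ← hf.herm]

theorem smul_right (hf : Cfsg.Geo.IsUnitaryForm σ f) (c : F) (v x : Fin n → F) :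
    f v (c • x) = σ c * f v x := by
  rw [hf.herm, hf.smul_left, map_mul, ← hf.herm]

theorem zero_right (hf : Cfsg.Geo.IsUnitaryForm σ f) (v : Fin n → F) : f v 0 = 0 := by
  rw [hf.herm, zero_left hf, map_zero]

theorem neg_right (hf : Cfsg.Geo.IsUnitaryForm σ f) (v x : Fin n → F) : f v (-x) = -f v x := by
  rw [hf.herm, neg_left hf, map_neg, ← hf.herm]

theorem sub_right (hf : Cfsg.Geo.IsUnitaryForm σ f) (v x y : Fin n → F) :
    f v (x - y) = f v x - f v y := by
  rw [sub_eq_add_neg, add_right hf, neg_right hf, sub_eq_add_neg]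

theorem self_fixed (hf : Cfsg.Geo.IsUnitaryForm σ f) (x : Fin n → F) : σ (f x x) = f x x :=
  (hf.herm x x).symm

theorem perp_symm (hf : Cfsg.Geo.IsUnitaryForm σ f) {x y : Fin n → F} (h : f x y = 0) :
    f y x = 0 := by
  rw [hf.herm, h, map_zero]

theorem ne_symm (hf : Cfsg.Geo.IsUnitaryForm σ f) {x y : Fin n → F} (h : f x y ≠ 0) :
    f y x ≠ 0 := fun h' => h (perp_symm hf h')

theorem eq_zero_of_forall (hf : Cfsg.Geo.IsUnitaryForm σ f) {v : Fin n → F}
    (h : ∀ x, f x v = 0) : v = 0 := by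
  by_contra hv
  obtain ⟨x, hx⟩ := (hf.nondegenerate v hv).1
  exact hx (h x)

theorem eq_of_forall (hf : Cfsg.Geo.IsUnitaryForm σ f) {y z : Fin n → F}
    (h : ∀ x, f x y = f x z) : y = z := by
  have h1 : y - z = 0 := eq_zero_of_forall hf (fun x => by rw [sub_right hf, h x, sub_self])
  exact sub_eq_zero.mp h1

theorem exists_moved (hf : Cfsg.Geo.IsUnitaryForm σ f) : ∃ a : F, σ a ≠ a := by
  by_contra h
  push Not at h
  exact hf.ne_refl (RingEquiv.ext h)

theorem exists_skew (hf : Cfsg.Geo.IsUnitaryForm σ f) : ∃ b : F, b ≠ 0 ∧ σ b = -b := by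
  obtain ⟨a, ha⟩ := exists_moved hf
  refine ⟨a - σ a, fun h => ha (sub_eq_zero.mp h).symm, ?_⟩
  rw [map_sub, hf.involutive]
  ring

theorem exists_tr_one (hf : Cfsg.Geo.IsUnitaryForm σ f) : ∃ k : F, k + σ k = 1 := by
  obtain ⟨a, ha⟩ := exists_moved hf
  have h : a - σ a ≠ 0 := fun h => ha (sub_eq_zero.mp h).symm
  refine ⟨a / (a - σ a), ?_⟩
  rw [map_div₀, map_sub, hf.involutive]
  have h' : σ a - a ≠ 0 := fun h' => ha (sub_eq_zero.mp h')
  field_simp
  ring

/-- The norm of the quadratic extension is onto the fixed field. -/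
theorem norm_surj [Finite F] (hf : Cfsg.Geo.IsUnitaryForm σ f) (t : F) (ht : t ≠ 0)
    (hσ : σ t = t) : ∃ c : F, c * σ c = t := by
  classical
  obtain ⟨ν, hν⟩ : ∃ ν : Fˣ →* Fˣ, ∀ x : Fˣ, ((ν x : Fˣ) : F) = (x : F) * σ (x : F) :=
    ⟨MonoidHom.id Fˣ * Units.map (σ : F →* F), fun x => rfl⟩
  obtain ⟨κ, hκ⟩ : ∃ κ : Fˣ →* Fˣ, ∀ x : Fˣ, ((κ x : Fˣ) : F) = (x : F) * (σ (x : F))⁻¹ :=
    ⟨MonoidHom.id Fˣ * (Units.map (σ : F →* F))⁻¹, fun x => by
      show ((x * (Units.map (σ : F →* F) x)⁻¹ : Fˣ) : F) = _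
      rw [Units.val_mul, Units.val_inv_eq_inv_val]
      rfl⟩
  have h1 : ∀ y, ν (κ y) = 1 := by
    intro y
    apply Units.ext
    rw [hν, hκ, map_mul, map_inv₀, hf.involutive, Units.val_one]
    have hy : (y : F) ≠ 0 := y.ne_zero
    have hy' : σ (y : F) ≠ 0 := (map_ne_zero σ).mpr hy
    field_simp
  have h2 : ∀ x, ν x = 1 → ∃ y, κ y = x := by
    intro x hx
    have hx' : (x : F) * σ (x : F) = 1 := by
      rw [← hν, hx, Units.val_one]
    have hx0 : (x : F) ≠ 0 := x.ne_zero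
    by_cases hm : (x : F) = -1
    · obtain ⟨b, hb, hbσ⟩ := exists_skew hf
      refine ⟨Units.mk0 b hb, ?_⟩
      apply Units.ext
      rw [hκ, Units.val_mk0, hbσ, hm]
      field_simp
    · have h1x : 1 + (x : F) ≠ 0 := fun h => hm (by linear_combination h)
      refine ⟨Units.mk0 (1 + (x : F)) h1x, ?_⟩
      apply Units.ext
      rw [hκ, Units.val_mk0, map_add, map_one]
      have hσx : σ (x : F) = (x : F)⁻¹ := eq_inv_of_mul_eq_one_right hx'
      rw [hσx]
      have h1x' : (x : F) + 1 ≠ 0 := by rwa [add_comm] at h1x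
      field_simp
      ring
  have h3 : ∀ c, κ (ν c) = 1 := by
    intro c
    apply Units.ext
    rw [hκ, hν, map_mul, hf.involutive, Units.val_one]
    have hc : (c : F) ≠ 0 := c.ne_zero
    have hc' : σ (c : F) ≠ 0 := (map_ne_zero σ).mpr hc
    field_simp
  have hk : ν.ker = κ.range := by
    ext x
    rw [MonoidHom.mem_ker, MonoidHom.mem_range]
    exact ⟨h2 x, fun ⟨y, hy⟩ => hy ▸ h1 y⟩
  have hr : ν.range ≤ κ.ker := by
    rintro _ ⟨c, rfl⟩
    exact MonoidHom.mem_ker.mpr (h3 c)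
  have c1 : Nat.card ν.ker * Nat.card ν.range = Nat.card Fˣ := by
    rw [← Subgroup.index_ker, Subgroup.card_mul_index]
  have c2 : Nat.card κ.ker * Nat.card κ.range = Nat.card Fˣ := by
    rw [← Subgroup.index_ker, Subgroup.card_mul_index]
  have hpos : 0 < Nat.card κ.range := Nat.card_pos
  have c3 : Nat.card κ.ker = Nat.card ν.range := by
    rw [hk, ← c2, mul_comm] at c1
    exact (Nat.eq_of_mul_eq_mul_right hpos c1).symm
  have heq : ν.range = κ.ker := Subgroup.eq_of_le_of_card_ge hr c3.le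
  have hmem : Units.mk0 t ht ∈ κ.ker := by
    rw [MonoidHom.mem_ker]
    apply Units.ext
    rw [hκ, Units.val_mk0, hσ, Units.val_one, mul_inv_cancel₀ ht]
  rw [← heq] at hmem
  obtain ⟨c, hc⟩ := hmem
  refine ⟨(c : F), ?_⟩
  rw [← hν, hc, Units.val_mk0]

/-- The covector of `x ↦ f x y`. -/
def cov (f : (Fin n → F) → (Fin n → F) → F) (y : Fin n → F) : Fin n → F :=
  fun i => f (Pi.single i 1) y

theorem exists_lin (hf : Cfsg.Geo.IsUnitaryForm σ f) (y : Fin n → F) :
    ∃ ψ : (Fin n → F) →ₗ[F] F, ∀ x, ψ x = f x y :=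
  ⟨{ toFun := fun x => f x y
     map_add' := fun a b => hf.add_left a b y
     map_smul' := fun c a => by
       show f (c • a) y = c • f a y
       rw [hf.smul_left, smul_eq_mul] }, fun x => rfl⟩

theorem cov_dot (hf : Cfsg.Geo.IsUnitaryForm σ f) (y x : Fin n → F) :
    cov f y ⬝ᵥ x = f x y := by
  classical
  obtain ⟨ψ, hψ⟩ := exists_lin hf y
  rw [← hψ, LinearMap.pi_apply_eq_sum_univ ψ x]
  unfold dotProduct cov
  refine Finset.sum_congr rfl fun i _ => ?_
  have e : (Pi.single i 1 : Fin n → F) = fun j => if i = j then 1 else 0 := by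
    ext j
    simp [Pi.single_apply, eq_comm]
  rw [← hψ, e, smul_eq_mul, mul_comm]

theorem riesz [Finite F] (hf : Cfsg.Geo.IsUnitaryForm σ f) (φ : Fin n → F) :
    ∃ y, ∀ x, f x y = φ ⬝ᵥ x := by
  have hinj : Function.Injective (cov f) := by
    intro y z h
    apply eq_of_forall hf
    intro x
    rw [← cov_dot hf, ← cov_dot hf, h]
  obtain ⟨y, hy⟩ := (Finite.injective_iff_surjective.mp hinj) φ
  exact ⟨y, fun x => by rw [← hy, cov_dot hf]⟩

/-- A vector perpendicular to the whole perp of `y` is a multiple of `y`. -/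
theorem span_of_perp (hf : Cfsg.Geo.IsUnitaryForm σ f) (y z : Fin n → F)
    (h : ∀ x, f x y = 0 → f x z = 0) : ∃ k : F, z = k • y := by
  by_cases hy : y = 0
  · refine ⟨0, ?_⟩
    rw [zero_smul]
    apply eq_zero_of_forall hf
    intro x
    exact h x (by rw [hy, zero_right hf])
  · obtain ⟨x₀, hx₀⟩ := (hf.nondegenerate y hy).1
    refine ⟨σ (f x₀ z / f x₀ y), ?_⟩
    apply eq_of_forall hf
    intro x
    rw [smul_right hf, hf.involutive]
    have h1 := h (x - (f x y / f x₀ y) • x₀)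
      (by rw [sub_left hf, hf.smul_left, div_mul_cancel₀ _ hx₀, sub_self])
    rw [sub_left hf, hf.smul_left] at h1
    have h2 : f x z = f x y / f x₀ y * f x₀ z := by linear_combination h1
    rw [h2]
    ring

/-- Polarization: a subspace of isotropic vectors is totally isotropic. -/
theorem polar (hf : Cfsg.Geo.IsUnitaryForm σ f) (U : Submodule F (Fin n → F))
    (h : ∀ u ∈ U, f u u = 0) (x y : Fin n → F) (hx : x ∈ U) (hy : y ∈ U) : f x y = 0 := by
  by_contra hxy
  obtain ⟨k, hk⟩ := exists_tr_one hf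
  obtain ⟨c, hc⟩ : ∃ c : F, σ c * f x y = k :=
    ⟨σ (k / f x y), by rw [hf.involutive, div_mul_cancel₀ _ hxy]⟩
  have h1 := h (x + c • y) (U.add_mem hx (U.smul_mem c hy))
  simp only [hf.add_left, add_right hf, hf.smul_left, smul_right hf, h x hx, h y hy] at h1
  have h2 : c * f y x = σ k := by
    rw [← hc, map_mul, hf.involutive, ← hf.herm]
  have h3 : k + σ k = 0 := by
    rw [← h2, ← hc]
    linear_combination h1
  rw [hk] at h3
  exact one_ne_zero h3

/-- An anisotropic vector perpendicular to two given vectors. -/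
theorem exists_aniso (hf : Cfsg.Geo.IsUnitaryForm σ f) (hn : 5 ≤ n) (s : Fin 2 → Fin n → F) :
    ∃ x, (∀ j, f x (s j) = 0) ∧ f x x ≠ 0 := by
  by_contra hcon
  push Not at hcon
  choose L hL using fun j => exists_lin hf (s j)
  obtain ⟨U, hU⟩ : ∃ U : Submodule F (Fin n → F), U = ⨅ j, LinearMap.ker (L j) := ⟨_, rfl⟩
  have hUm : ∀ x, x ∈ U ↔ ∀ j, f x (s j) = 0 := by
    intro x
    rw [hU]
    simp only [Submodule.mem_iInf, LinearMap.mem_ker, hL]
  have hpol := polar hf U (fun u hu => hcon u ((hUm u).mp hu))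
  have hsub : U ≤ Submodule.span F (Set.range s) := by
    intro u hu
    obtain ⟨K, hK⟩ := exists_lin hf u
    have hle : ⨅ j, LinearMap.ker (L j) ≤ LinearMap.ker K := by
      intro x hx
      rw [LinearMap.mem_ker, hK]
      rw [← hU] at hx
      exact hpol x u hx hu
    obtain ⟨c, hc⟩ := (Submodule.mem_span_range_iff_exists_fun F).mp
      (mem_span_of_iInf_ker_le_ker hle)
    have hu' : u = ∑ j, σ (c j) • s j := by
      apply eq_of_forall hf
      intro x
      rw [← hK, ← hc, Fin.sum_univ_two, Fin.sum_univ_two, add_right hf, smul_right hf,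
        smul_right hf, hf.involutive, hf.involutive]
      simp [hL]
    rw [hu']
    exact Submodule.sum_mem _
      (fun j _ => Submodule.smul_mem _ _ (Submodule.subset_span ⟨j, rfl⟩))
  have h1 : finrank F U ≤ 2 := by
    calc finrank F U ≤ finrank F (Submodule.span F (Set.range s)) :=
          Submodule.finrank_mono hsub
      _ ≤ Fintype.card (Fin 2) := finrank_range_le_card s
      _ = 2 := by simp
  have h2 : n ≤ finrank F U + 2 := by
    have e : U = LinearMap.ker (LinearMap.pi L) := by rw [hU, LinearMap.ker_pi]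
    have h3 := LinearMap.finrank_range_add_finrank_ker (LinearMap.pi L)
    rw [Module.finrank_fin_fun] at h3
    have h4 : finrank F (LinearMap.range (LinearMap.pi L)) ≤ 2 := by
      calc finrank F (LinearMap.range (LinearMap.pi L)) ≤ finrank F (Fin 2 → F) :=
            Submodule.finrank_le _
        _ = 2 := by simp
    rw [e]
    omega
  omega

theorem exists_aniso2 (hf : Cfsg.Geo.IsUnitaryForm σ f) (hn : 5 ≤ n) (s₁ s₂ : Fin n → F) :
    ∃ x, f x s₁ = 0 ∧ f x s₂ = 0 ∧ f x x ≠ 0 := by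
  obtain ⟨x, hx, hxx⟩ := exists_aniso hf hn ![s₁, s₂]
  exact ⟨x, by simpa using hx 0, by simpa using hx 1, hxx⟩

/-- Every vector perpendicular to `s` is a sum of two isotropic vectors perpendicular to
`s`. -/
theorem iso_split [Finite F] (hf : Cfsg.Geo.IsUnitaryForm σ f) (hn : 5 ≤ n)
    (s x : Fin n → F) (hx : f x s = 0) :
    ∃ u₁ u₂, f u₁ u₁ = 0 ∧ f u₂ u₂ = 0 ∧ f u₁ s = 0 ∧ f u₂ s = 0 ∧ x = u₁ + u₂ := by
  by_cases hxx : f x x = 0
  · exact ⟨x, 0, hxx, zero_left hf 0, hx, zero_left hf s, (add_zero x).symm⟩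
  · obtain ⟨x', hx's, hx'x, hx'x'⟩ := exists_aniso2 hf hn s x
    obtain ⟨c, hc⟩ := norm_surj hf (-f x x / f x' x')
      (div_ne_zero (neg_ne_zero.mpr hxx) hx'x')
      (by rw [map_div₀, map_neg, self_fixed hf, self_fixed hf])
    obtain ⟨k, hk⟩ := exists_tr_one hf
    have hxx' : f x x' = 0 := perp_symm hf hx'x
    have hN : c * σ c * f x' x' = -f x x := by
      rw [hc]
      field_simp
    refine ⟨k • (x + c • x'), x - k • (x + c • x'), ?_, ?_, ?_, ?_, by abel⟩
    · simp only [hf.add_left, add_right hf, hf.smul_left, smul_right hf, hxx', hx'x]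
      linear_combination (k * σ k) * hN
    · simp only [hf.add_left, add_right hf, sub_left hf, sub_right hf, hf.smul_left,
        smul_right hf, hxx', hx'x]
      linear_combination (-f x x) * hk + (k * σ k) * hN
    · simp only [hf.add_left, hf.smul_left, hx, hx's]
      ring
    · simp only [sub_left hf, hf.add_left, hf.smul_left, hx, hx's]
      ring

theorem exists_iso [Finite F] (hf : Cfsg.Geo.IsUnitaryForm σ f) (hn : 5 ≤ n)
    (s z : Fin n → F) (h : ∃ x, f x s = 0 ∧ f x z ≠ 0) :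
    ∃ u, f u u = 0 ∧ f u s = 0 ∧ f u z ≠ 0 := by
  obtain ⟨x, hx, hxz⟩ := h
  obtain ⟨u₁, u₂, h1, h2, h3, h4, e⟩ := iso_split hf hn s x hx
  by_cases hu : f u₁ z = 0
  · refine ⟨u₂, h2, h4, fun h' => hxz ?_⟩
    rw [e, hf.add_left, hu, h', add_zero]
  · exact ⟨u₁, h1, h3, hu⟩

theorem exists_iso' [Finite F] (hf : Cfsg.Geo.IsUnitaryForm σ f) (hn : 5 ≤ n)
    (s z : Fin n → F) (h : ¬ ∃ k : F, z = k • s) :
    ∃ u, f u u = 0 ∧ f u s = 0 ∧ f u z ≠ 0 := by
  apply exists_iso hf hn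
  by_contra hcon
  push Not at hcon
  exact h (span_of_perp hf s z hcon)

theorem exists_iso0 [Finite F] (hf : Cfsg.Geo.IsUnitaryForm σ f) (hn : 5 ≤ n)
    (z : Fin n → F) (hz : z ≠ 0) : ∃ u, f u u = 0 ∧ f u z ≠ 0 := by
  obtain ⟨x, hx⟩ := (hf.nondegenerate z hz).1
  obtain ⟨u, h1, -, h2⟩ := exists_iso hf hn 0 z ⟨x, zero_right hf x, hx⟩
  exact ⟨u, h1, h2⟩

theorem iso_two [Finite F] (hf : Cfsg.Geo.IsUnitaryForm σ f) (hn : 5 ≤ n)
    (v v' : Fin n → F) (hv : v ≠ 0) (hv' : v' ≠ 0) :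
    ∃ r, f r r = 0 ∧ f r v ≠ 0 ∧ f r v' ≠ 0 := by
  obtain ⟨u₁, h11, h12⟩ := exists_iso0 hf hn v hv
  obtain ⟨u₂, h21, h22⟩ := exists_iso0 hf hn v' hv'
  by_cases h1 : f u₁ v' = 0
  swap
  · exact ⟨u₁, h11, h12, h1⟩
  by_cases h2 : f u₂ v = 0
  swap
  · exact ⟨u₂, h21, h2, h22⟩
  obtain ⟨c, hc0, hc⟩ : ∃ c : F, c ≠ 0 ∧ σ c * f u₁ u₂ + c * f u₂ u₁ = 0 := by
    by_cases h3 : f u₂ u₁ = 0
    · exact ⟨1, one_ne_zero, by rw [h3, perp_symm hf h3]; ring⟩
    · obtain ⟨b, hb0, hb⟩ := exists_skew hf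
      refine ⟨b / f u₂ u₁, div_ne_zero hb0 h3, ?_⟩
      rw [map_div₀, hb, ← hf.herm u₁ u₂]
      have h4 : f u₁ u₂ ≠ 0 := ne_symm hf h3
      field_simp
      ring
  refine ⟨u₁ + c • u₂, ?_, ?_, ?_⟩
  · simp only [hf.add_left, add_right hf, hf.smul_left, smul_right hf, h11, h21]
    linear_combination hc
  · rw [hf.add_left, hf.smul_left, h2, mul_zero, add_zero]
    exact h12
  · rw [hf.add_left, hf.smul_left, h1, zero_add]
    exact mul_ne_zero hc0 h22

end

end UF

end Cfsg.Agent.H99
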