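import Cfsg.Agent.H99.UTv

set_option autoImplicit false

namespace Cfsg.Agent.H99

open Matrix Module
open scoped MatrixGroups

namespace UF

section
variable {F : Type*} [Field F] {n : ℕ} {σ : F ≃+* F}
  {f : (Fin n → F) → (Fin n → F) → F} {M : Subgroup (GL (Fin n) F)}

/-- The unitary transvections lie in `M`. -/
theorem ut_unitary (hf : Cfsg.Geo.IsUnitaryForm σ f)
    (hH : Cfsg.Geo.similarityGroup f ⊓ Cfsg.Geo.specialLinear (Fin n) F ≤ M) (v : Fin n → F)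
    (hv : f v v = 0) (b : F) (hb : σ b = -b) : UT M f v (b • v) := by
  obtain ⟨g, hg, -, hgx⟩ := exists_utv hf v hv b hb
  exact (ut_def hf _ _).mpr ⟨g, hH hg, hgx⟩

theorem exists_ne_zero (hn : 5 ≤ n) : ∃ z : Fin n → F, z ≠ 0 :=
  ⟨Pi.single ⟨0, by omega⟩ 1, fun h => by
    have := congrFun h ⟨0, by omega⟩
    simp at this⟩

theorem step_f (hf : Cfsg.Geo.IsUnitaryForm σ f)
    (hH : Cfsg.Geo.similarityGroup f ⊓ Cfsg.Geo.specialLinear (Fin n) F ≤ M)
    (h : ∀ u : Fin n → F, f u u = 0 → ∀ c : F, UT M f u (c • u)) (u₁ u₂ : Fin n → F)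
    (h1 : f u₁ u₁ = 0) (h2 : f u₂ u₂ = 0) (h12 : f u₁ u₂ = 0) : UT M f u₁ u₂ := by
  obtain ⟨k, hk⟩ := exists_tr_one hf
  have h21 : f u₂ u₁ = 0 := perp_symm hf h12
  have hs : f (u₁ + u₂) (u₁ + u₂) = 0 := by
    simp only [hf.add_left, add_right hf, h1, h2, h12, h21]
    ring
  obtain ⟨g₁, hg₁, hx₁⟩ := (ut_def hf _ _).mp (h (u₁ + u₂) hs k)
  obtain ⟨g₂, hg₂, hx₂⟩ := (ut_def hf _ _).mp (h u₁ h1 (-k))
  obtain ⟨g₃, hg₃, hx₃⟩ := (ut_def hf _ _).mp (h u₂ h2 (-k))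
  obtain ⟨g₄, hg₄, -, hx₄⟩ := exists_siegel hf u₁ u₂ h1 h2 h12 k
  refine (ut_def hf _ _).mpr ⟨g₁ * g₂ * g₃ * g₄,
    M.mul_mem (M.mul_mem (M.mul_mem hg₁ hg₂) hg₃) (hH hg₄), fun x => ?_⟩
  have hk' : σ k = 1 - k := by linear_combination hk
  rw [act_mul, act_mul, act_mul, hx₄, hx₃, hx₂, hx₁]
  simp only [hf.add_left, sub_left hf, hf.smul_left, smul_right hf, add_right hf, h1, h2, h12,
    h21, map_neg, hk']
  module

variable [Finite F]

theorem step_a (hf : Cfsg.Geo.IsUnitaryForm σ f) (hn : 5 ≤ n)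
    (hH : Cfsg.Geo.similarityGroup f ⊓ Cfsg.Geo.specialLinear (Fin n) F ≤ M)
    {w y : Fin n → F} (h : UT M f w y) (hwy : f w y = 0) (hw : w ≠ 0)
    (hy : ¬ ∃ k : F, y = k • w) :
    ∃ v y₁, f v v = 0 ∧ v ≠ 0 ∧ f v y₁ = 0 ∧ (¬ ∃ k : F, y₁ = k • v) ∧ UT M f v y₁ := by
  obtain ⟨b, hb0, hb⟩ := exists_skew hf
  have hwy' : ¬ ∃ k : F, w = k • y := by
    rintro ⟨k, hk⟩
    have hk0 : k ≠ 0 := by
      rintro rfl
      rw [zero_smul] at hk
      exact hw hk
    exact hy ⟨k⁻¹, by rw [hk, smul_smul, inv_mul_cancel₀ hk0, one_smul]⟩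
  obtain ⟨v, hv, hvy, hvw⟩ := exists_iso' hf hn y w hwy'
  have hwv : f w v ≠ 0 := ne_symm hf hvw
  have h1 := (h.comm2 hf (ut_unitary hf hH v hv b hb) hwy
    (by rw [smul_right hf, hv, mul_zero]) hvy).smul_swap hf
  have hk1 : σ (-(f w (b • v))) ≠ 0 := by
    rw [smul_right hf, hb]
    exact (map_ne_zero σ).mpr (neg_ne_zero.mpr (mul_ne_zero (neg_ne_zero.mpr hb0) hwv))
  refine ⟨v, _, hv, ?_, ?_, ?_, h1⟩
  · rintro rfl
    exact hvw (zero_left hf w)
  · rw [smul_right hf, hvy, mul_zero]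
  · rintro ⟨k, hk⟩
    have h2 := congrArg (fun t => f t w) hk
    simp only [hf.smul_left, perp_symm hf hwy, mul_zero] at h2
    have hk0 : k = 0 := by
      rcases mul_eq_zero.mp h2.symm with h3 | h3
      · exact h3
      · exact absurd h3 hvw
    rw [hk0, zero_smul] at hk
    have hy0 : y = 0 := by
      rcases smul_eq_zero.mp hk with h3 | h3
      · exact absurd h3 hk1
      · exact h3
    exact hy ⟨0, by rw [hy0, zero_smul]⟩

theorem step_b (hf : Cfsg.Geo.IsUnitaryForm σ f) (hn : 5 ≤ n)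
    (hH : Cfsg.Geo.similarityGroup f ⊓ Cfsg.Geo.specialLinear (Fin n) F ≤ M)
    {w : Fin n → F} {c : F} (h : UT M f w (c • w)) (hww : f w w = 0) (hw : w ≠ 0)
    (hc : c + σ c ≠ 0) :
    ∃ z y, UT M f z y ∧ f z y = 0 ∧ z ≠ 0 ∧ ¬ ∃ k : F, y = k • z := by
  obtain ⟨b, hb0, hb⟩ := exists_skew hf
  obtain ⟨w', hw', hw'w⟩ := exists_iso0 hf hn w hw
  obtain ⟨g, hg, hgx⟩ := (ut_def hf _ _).mp h
  obtain ⟨y', hy', hut⟩ := (ut_unitary hf hH w' hw' b hb).conj hf hg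
  have hgw : act g w = w := by rw [hgx, smul_right hf, hww, mul_zero, zero_smul, add_zero]
  have hgw' : act g w' = w' + (σ c * f w' w) • w := by rw [hgx, smul_right hf]
  have hl : f w w' = σ (f w' w) := hf.herm w w'
  have hσl : σ (f w' w) ≠ 0 := (map_ne_zero σ).mpr hw'w
  refine ⟨act g w', y', hut, ?_, ?_, ?_⟩
  · rw [hy', smul_right hf, hw', mul_zero]
  · intro h0
    have h1 := congrArg (fun t => f t w) h0
    simp only [hgw', hf.add_left, hf.smul_left, hww, zero_left hf] at h1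
    exact hw'w (by linear_combination h1)
  · rintro ⟨k, hk⟩
    have e1 := hy' w
    have e2 := hy' w'
    rw [hk, hgw, hgw'] at e1
    rw [hk, hgw'] at e2
    simp only [hf.add_left, add_right hf, hf.smul_left, smul_right hf, hww, hw', hl, map_mul,
      hf.involutive] at e1 e2
    have hk' : σ k = σ b := mul_right_cancel₀ hσl (by linear_combination e1)
    have e3 : σ b * ((c + σ c) * (f w' w * σ (f w' w))) = 0 := by
      rw [← hk']
      linear_combination e2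
    have hσb : σ b ≠ 0 := (map_ne_zero σ).mpr hb0
    exact (mul_ne_zero hσb (mul_ne_zero hc (mul_ne_zero hw'w hσl))) e3

theorem step_c (hf : Cfsg.Geo.IsUnitaryForm σ f) (hn : 5 ≤ n)
    (hH : Cfsg.Geo.similarityGroup f ⊓ Cfsg.Geo.specialLinear (Fin n) F ≤ M)
    {v y₁ : Fin n → F} (h : UT M f v y₁) (hvy : f v y₁ = 0)
    (hy : ¬ ∃ k : F, y₁ = k • v) :
    ∃ (v' : Fin n → F) (κ : F), f v' v' = 0 ∧ f v' v = 0 ∧ (¬ ∃ k : F, v' = k • v) ∧ κ ≠ 0 ∧
      UT M f v (κ • v') := by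
  obtain ⟨b, hb0, hb⟩ := exists_skew hf
  obtain ⟨v', hv', hv'v, hv'y⟩ := exists_iso' hf hn v y₁ hy
  have hvv' : f v v' = 0 := perp_symm hf hv'v
  have h1 := (h.comm1 hf (ut_unitary hf hH v' hv' b hb) hvy
    (by rw [smul_right hf, hv', mul_zero]) (by rw [smul_right hf, hvv', mul_zero])).smul_swap hf
  rw [smul_smul] at h1
  refine ⟨v', σ (f v' y₁) * b, hv', hv'v, ?_, mul_ne_zero ((map_ne_zero σ).mpr hv'y) hb0, h1⟩
  rintro ⟨k, hk⟩
  apply hv'y
  rw [hk, hf.smul_left, hvy, mul_zero]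

theorem step_d (hf : Cfsg.Geo.IsUnitaryForm σ f) (hn : 5 ≤ n)
    (hH : Cfsg.Geo.similarityGroup f ⊓ Cfsg.Geo.specialLinear (Fin n) F ≤ M)
    {v v' : Fin n → F} {κ : F} (h : UT M f v (κ • v')) (hv : f v v = 0)
    (hv'v : f v' v = 0) (hne : ¬ ∃ k : F, v' = k • v) (hκ : κ ≠ 0) (c : F) :
    UT M f v (c • v) := by
  obtain ⟨a, ha, hav, hav'⟩ := exists_iso' hf hn v v' hne
  have hva : f v a = 0 := perp_symm hf hav
  have hv'a : f v' a ≠ 0 := ne_symm hf hav'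
  have hvv' : f v v' = 0 := perp_symm hf hv'v
  obtain ⟨g, hg, hiso, hgx⟩ := exists_siegel hf v a hv ha hva (c / (κ * f v' a))
  have h1 := h.conj_iso hf (hH hg) hiso
  have e1 : act g v = v := by
    rw [hgx, hva, hv, mul_zero, mul_zero, zero_smul, zero_smul, add_zero, sub_zero]
  have e2 : act g (κ • v') = κ • v' + c • v := by
    rw [hgx, hf.smul_left, hf.smul_left, hv'v, mul_zero, mul_zero, zero_smul, sub_zero,
      div_mul_cancel₀ _ (mul_ne_zero hκ hv'a)]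
  rw [e1, e2] at h1
  have h2 := (h.neg hf (by rw [smul_right hf, hvv', mul_zero])).add_right hf h1
    (by rw [neg_right hf, smul_right hf, hvv', mul_zero, neg_zero])
  rwa [neg_add_cancel_left] at h2

theorem step_e (hf : Cfsg.Geo.IsUnitaryForm σ f) (hn : 5 ≤ n)
    (hH : Cfsg.Geo.similarityGroup f ⊓ Cfsg.Geo.specialLinear (Fin n) F ≤ M)
    {v : Fin n → F} (hv : f v v = 0) (hv0 : v ≠ 0) (h : ∀ c : F, UT M f v (c • v))
    (u : Fin n → F) (hu : f u u = 0) (c : F) : UT M f u (c • u) := by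
  by_cases hu0 : u = 0
  · rw [hu0]
    exact UT.zero hf _
  obtain ⟨g, hg, hiso, l, hl, e⟩ := move_iso' hf hn v u hv hu hv0 hu0
  have hσl : σ l ≠ 0 := (map_ne_zero σ).mpr hl
  have h1 := (h (c / (σ l * l))).conj_iso hf (hH hg) hiso
  rw [act_smul, e] at h1
  have h2 := h1.smul_swap hf
  rw [smul_smul, smul_smul] at h2
  have e2 : σ l * (c / (σ l * l)) * l = c := by
    field_simp
  rwa [e2] at h2

theorem step_g (hf : Cfsg.Geo.IsUnitaryForm σ f) (hn : 5 ≤ n)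
    (h : ∀ u₁ u₂ : Fin n → F, f u₁ u₁ = 0 → f u₂ u₂ = 0 → f u₁ u₂ = 0 → UT M f u₁ u₂)
    (w y : Fin n → F) (hwy : f w y = 0) : UT M f w y := by
  have key : ∀ u y : Fin n → F, f u u = 0 → f u y = 0 → UT M f u y := by
    intro u y hu huy
    obtain ⟨q₁, q₂, hq₁, hq₂, hq₁u, hq₂u, e⟩ := iso_split hf hn u y (perp_symm hf huy)
    rw [e]
    exact (h u q₁ hu hq₁ (perp_symm hf hq₁u)).add_right hf
      (h u q₂ hu hq₂ (perp_symm hf hq₂u)) (perp_symm hf hq₁u)
  obtain ⟨u₁, u₂, hu₁, hu₂, hu₁y, hu₂y, e⟩ := iso_split hf hn y w hwy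
  rw [e]
  exact (key u₁ y hu₁ hu₁y).add_left hf (key u₂ y hu₂ hu₂y) hu₂y

/-- A non-unitary transvection in `M` forces `M` to contain `SL_n`. -/
theorem all_of_bad (hf : Cfsg.Geo.IsUnitaryForm σ f) (hn : 5 ≤ n)
    (hH : Cfsg.Geo.similarityGroup f ⊓ Cfsg.Geo.specialLinear (Fin n) F ≤ M)
    {w y : Fin n → F} (h : UT M f w y) (hwy : f w y = 0) (hw : w ≠ 0) (hy : y ≠ 0)
    (hbad : ∀ b : F, σ b = -b → y ≠ b • w) : Cfsg.Geo.specialLinear (Fin n) F ≤ M := by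
  have hA : ∃ v y₁, f v v = 0 ∧ v ≠ 0 ∧ f v y₁ = 0 ∧ (¬ ∃ k : F, y₁ = k • v) ∧
      UT M f v y₁ := by
    by_cases hyw : ∃ k : F, y = k • w
    · obtain ⟨c, rfl⟩ := hyw
      have hc0 : c ≠ 0 := by
        rintro rfl
        exact hy (zero_smul _ _)
      have hww : f w w = 0 := by
        rw [smul_right hf] at hwy
        rcases mul_eq_zero.mp hwy with h1 | h1
        · exact absurd ((map_eq_zero σ).mp h1) hc0
        · exact h1
      have hc : c + σ c ≠ 0 := by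
        intro h0
        exact hbad c (by linear_combination h0) rfl
      obtain ⟨z, y', hut, hzy, hz, hne⟩ := step_b hf hn hH h hww hw hc
      exact step_a hf hn hH hut hzy hz hne
    · exact step_a hf hn hH h hwy hw hyw
  obtain ⟨v, y₁, hv, hv0, hvy, hne, hut⟩ := hA
  obtain ⟨v', κ, hv', hv'v, hne', hκ, hut'⟩ := step_c hf hn hH hut hvy hne
  have h4 := step_d hf hn hH hut' hv hv'v hne' hκ
  have h5 := step_e hf hn hH hv hv0 h4
  have h6 := step_f hf hH h5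
  have h7 := step_g hf hn h6
  apply sl_le_of_transvections (by omega) M
  intro w φ hφ
  obtain ⟨y, hy⟩ := riesz hf φ
  obtain ⟨g, hg, hgx⟩ := (ut_def hf w y).mp (h7 w y (by rw [hy]; exact hφ))
  exact ⟨g, hg, fun x => by rw [hgx, hy]⟩

/-- If every transvection in `M` is unitary, `M` consists of similarities. -/
theorem sim_of_unitary (hf : Cfsg.Geo.IsUnitaryForm σ f) (hn : 5 ≤ n)
    (hH : Cfsg.Geo.similarityGroup f ⊓ Cfsg.Geo.specialLinear (Fin n) F ≤ M)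
    (hU : ∀ w y : Fin n → F, UT M f w y → f w y = 0 → w ≠ 0 → y ≠ 0 →
      ∃ b : F, σ b = -b ∧ y = b • w)
    (g : GL (Fin n) F) (hg : g ∈ M) : g ∈ Cfsg.Geo.similarityGroup f := by
  obtain ⟨b₀, hb₀0, hb₀⟩ := exists_skew hf
  have hA : ∀ v : Fin n → F, f v v = 0 → v ≠ 0 →
      ∃ c : F, c ≠ 0 ∧ σ c = c ∧ ∀ x, f (act g x) (act g v) = c * f x v := by
    intro v hv hv0
    obtain ⟨y', hy', hut⟩ := (ut_unitary hf hH v hv b₀ hb₀).conj hf hg
    have hgv : act g v ≠ 0 := fun h0 => hv0 (act_injective g (by rw [h0, act_zero]))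
    have hy0 : y' ≠ 0 := by
      rintro rfl
      obtain ⟨x, hx⟩ := (hf.nondegenerate v hv0).1
      have h1 := hy' x
      rw [zero_right hf, smul_right hf, hb₀] at h1
      exact (mul_ne_zero (neg_ne_zero.mpr hb₀0) hx) h1.symm
    obtain ⟨b, hb, rfl⟩ := hU _ _ hut (by rw [hy', smul_right hf, hv, mul_zero]) hgv hy0
    have hb0 : b ≠ 0 := by
      rintro rfl
      exact hy0 (zero_smul _ _)
    refine ⟨b₀ / b, div_ne_zero hb₀0 hb0, by rw [map_div₀, hb₀, hb, neg_div_neg_eq],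
      fun x => ?_⟩
    have h1 := hy' x
    rw [smul_right hf, smul_right hf, hb, hb₀] at h1
    field_simp
    linear_combination -h1
  obtain ⟨z, hz⟩ := exists_ne_zero (F := F) hn
  obtain ⟨v₀, hv₀, hv₀z⟩ := exists_iso0 hf hn z hz
  have hv₀0 : v₀ ≠ 0 := by
    rintro rfl
    exact hv₀z (zero_left hf z)
  obtain ⟨c₀, hc₀0, hc₀σ, hc₀⟩ := hA v₀ hv₀ hv₀0
  have hconst : ∀ v r : Fin n → F, ∀ c cr : F, σ c = c →
      (∀ x, f (act g x) (act g v) = c * f x v) → (∀ x, f (act g x) (act g r) = cr * f x r) →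
      f r v ≠ 0 → c = cr := by
    intro v r c cr hcσ hc hcr hrv
    have a1 := hc r
    have a2 := hcr v
    rw [hf.herm (act g v) (act g r), a1, hf.herm v r, map_mul, hcσ] at a2
    exact mul_right_cancel₀ ((map_ne_zero σ).mpr hrv) a2
  have hB : ∀ v x : Fin n → F, f v v = 0 → f (act g x) (act g v) = c₀ * f x v := by
    intro v x hv
    by_cases hv0 : v = 0
    · rw [hv0, act_zero, zero_right hf, zero_right hf, mul_zero]
    obtain ⟨c, hc0, hcσ, hc⟩ := hA v hv hv0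
    obtain ⟨r, hr, hrv₀, hrv⟩ := iso_two hf hn v₀ v hv₀0 hv0
    have hr0 : r ≠ 0 := by
      rintro rfl
      exact hrv (zero_left hf v)
    obtain ⟨cr, hcr0, hcrσ, hcr⟩ := hA r hr hr0
    have e1 : c₀ = cr := hconst v₀ r c₀ cr hc₀σ hc₀ hcr hrv₀
    have e2 : c = cr := hconst v r c cr hcσ hc hcr hrv
    rw [hc, e2, ← e1]
  refine ⟨Units.mk0 c₀ hc₀0, fun x y => ?_⟩
  obtain ⟨u₁, u₂, hu₁, hu₂, -, -, e⟩ := iso_split hf hn 0 y (zero_right hf y)
  show f (act g x) (act g y) = c₀ * f x y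
  rw [e, act_add, add_right hf, add_right hf, hB u₁ x hu₁, hB u₂ x hu₂]
  ring

/-- Some matrix of determinant one is not a similarity. -/
theorem exists_nonsim (hf : Cfsg.Geo.IsUnitaryForm σ f) (hn : 5 ≤ n) :
    ∃ g : GL (Fin n) F, g ∈ Cfsg.Geo.specialLinear (Fin n) F ∧
      g ∉ Cfsg.Geo.similarityGroup f := by
  obtain ⟨z, hz⟩ := exists_ne_zero (F := F) hn
  obtain ⟨v, hv, hvz⟩ := exists_iso0 hf hn z hz
  have hv0 : v ≠ 0 := by
    rintro rfl
    exact hvz (zero_left hf z)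
  obtain ⟨k, hk⟩ := exists_tr_one hf
  obtain ⟨g, hg, hgx⟩ := exists_transvection v (cov f (k • v))
    (by rw [cov_dot hf, smul_right hf, hv, mul_zero])
  refine ⟨g, hg, ?_⟩
  rintro ⟨κ, hκ⟩
  have hk' : σ k = 1 - k := by linear_combination hk
  have key : ∀ x y, ((κ : F) - 1) * f x y = f x v * f v y := by
    intro x y
    have h1 : f (act g x) (act g y) = (κ : F) * f x y := hκ x y
    rw [hgx, hgx] at h1
    simp only [cov_dot hf, hf.add_left, add_right hf, hf.smul_left, smul_right hf, hv, map_mul,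
      hf.involutive] at h1
    rw [← hf.herm v y, hk'] at h1
    linear_combination -h1
  obtain ⟨x₀, hx₀⟩ := (hf.nondegenerate v hv0).1
  have h1 := key x₀ v
  rw [hv, mul_zero] at h1
  have hκ1 : (κ : F) - 1 = 0 := by
    rcases mul_eq_zero.mp h1 with h | h
    · exact h
    · exact absurd h hx₀
  have h2 := key x₀ x₀
  rw [hκ1, zero_mul] at h2
  rcases mul_eq_zero.mp h2.symm with h | h
  · exact hx₀ h
  · exact ne_symm hf hx₀ h

/-- The similarity group of a unitary form meets `SL_n(F)` in a maximal subgroup. -/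
theorem unitary_maximal (hf : Cfsg.Geo.IsUnitaryForm σ f) (hn : 5 ≤ n) :
    Cfsg.Geo.IsMaximalIn (Cfsg.Geo.specialLinear (Fin n) F)
      (Cfsg.Geo.similarityGroup f ⊓ Cfsg.Geo.specialLinear (Fin n) F) := by
  constructor
  · refine lt_of_le_of_ne inf_le_right ?_
    intro heq
    obtain ⟨g, hgSL, hgns⟩ := exists_nonsim hf hn
    have h1 : g ∈ Cfsg.Geo.similarityGroup f ⊓ Cfsg.Geo.specialLinear (Fin n) F := by
      rw [heq]
      exact hgSL
    exact hgns h1.1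
  · intro M hHM hMK
    by_cases hU : ∀ w y : Fin n → F, UT M f w y → f w y = 0 → w ≠ 0 → y ≠ 0 →
        ∃ b : F, σ b = -b ∧ y = b • w
    · left
      exact le_antisymm
        (fun g hg => Subgroup.mem_inf.mpr ⟨sim_of_unitary hf hn hHM hU g hg, hMK hg⟩) hHM
    · right
      push Not at hU
      obtain ⟨w, y, hut, hwy, hw, hy, hbad⟩ := hU
      exact le_antisymm hMK (all_of_bad hf hn hHM hut hwy hw hy hbad)

end

end UF

end Cfsg.Agent.H99
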