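import Cfsg.Agent.H83.UPDefs
import Cfsg.Agent.H99.S4GrpA
import Cfsg.Agent.H99.S4GrpB

/-! Piece `S6001-STRUCT` of helper83's project, from helper99's pieces `S6000-GRPA`, `S6000-GRPB`. -/

set_option autoImplicit false

namespace Cfsg.Agent.H99.UP

universe u

theorem struct : Cfsg.Agent.H83.UP.StStruct.{u} := by
  intro R _ hcard hZ hexp hchar g h
  haveI : Finite R := Nat.finite_of_card_ne_zero (by rw [hcard]; norm_num)
  have hx4 : ∀ x : R, x ^ 4 = 1 := by
    intro x
    rw [← hexp]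
    exact Monoid.pow_exponent_eq_one x
  have hA := Cfsg.Agent.H99.S4P.grpA R hcard hZ hx4 hchar
  exact ⟨Cfsg.Agent.H99.S4P.grpB R hcard hZ hx4 hchar hA g, hA g h⟩

example : Cfsg.Agent.H83.UP.StStruct.{u} := struct

end Cfsg.Agent.H99.UP
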