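import Cfsg.Agent.H95.SUMax
import Cfsg.Agent.H99.SpSubA
import Cfsg.Agent.H17.HermBasis

set_option autoImplicit false
set_option linter.unusedSectionVars false

/-! Helper lemmas (helper99): the unitary form with its involution, maps of Eichler type and the
predicate "some element of `M` acts as a given map". -/

namespace Cfsg.Agent.H99.US

open Matrix Cfsg Cfsg.Geo Cfsg.Agent.H99.SS
open scoped MatrixGroups

section
variable {F : Type*} [Field F] [Fintype F] {n q : ℕ} [hq : Fact (Fintype.card F = q ^ 2)]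

/-- The involution `x ↦ x ^ q`. -/
def sg (F : Type*) [Field F] [Fintype F] (q : ℕ) [hq : Fact (Fintype.card F = q ^ 2)] : F →+* F :=
  Cfsg.Agent.H17.frobHom hq.out

theorem sg_apply (a : F) : sg F q a = a ^ q := rfl

@[simp] theorem sg_sg (a : F) : sg F q (sg F q a) = a :=
  Cfsg.Agent.H17.frobHom_invol hq.out a

@[simp] theorem hl_add (x y z : Fin n → F) :
    hermForm n F q (x + y) z = hermForm n F q x z + hermForm n F q y z :=
  Cfsg.Agent.H95.hermForm_add_left x y z

@[simp] theorem hl_smul (c : F) (x z : Fin n → F) :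
    hermForm n F q (c • x) z = c * hermForm n F q x z :=
  Cfsg.Agent.H95.hermForm_smul_left c x z

@[simp] theorem hl_zero (z : Fin n → F) : hermForm n F q 0 z = 0 :=
  Cfsg.Agent.H95.hermForm_zero_left z

@[simp] theorem hl_neg (x z : Fin n → F) : hermForm n F q (-x) z = -hermForm n F q x z := by
  have h := hl_smul (q := q) (-1 : F) x z
  rw [neg_one_smul, neg_one_mul] at h
  exact h

@[simp] theorem hl_sub (x y z : Fin n → F) :
    hermForm n F q (x - y) z = hermForm n F q x z - hermForm n F q y z := by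
  rw [sub_eq_add_neg, hl_add, hl_neg, sub_eq_add_neg]

@[simp] theorem hr_add (x y z : Fin n → F) :
    hermForm n F q x (y + z) = hermForm n F q x y + hermForm n F q x z :=
  Cfsg.Agent.H95.hermForm_add_right hq.out x y z

@[simp] theorem hr_smul (c : F) (x z : Fin n → F) :
    hermForm n F q x (c • z) = sg F q c * hermForm n F q x z :=
  Cfsg.Agent.H95.hermForm_smul_right c x z

@[simp] theorem hr_zero (x : Fin n → F) : hermForm n F q x 0 = 0 :=
  Cfsg.Agent.H17.hermForm_zero_right n hq.out x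

@[simp] theorem hr_neg (x z : Fin n → F) : hermForm n F q x (-z) = -hermForm n F q x z := by
  have h := hr_smul (q := q) (-1 : F) x z
  rw [neg_one_smul, map_neg, map_one, neg_one_mul] at h
  exact h

@[simp] theorem hr_sub (x y z : Fin n → F) :
    hermForm n F q x (y - z) = hermForm n F q x y - hermForm n F q x z := by
  rw [sub_eq_add_neg, hr_add, hr_neg, sub_eq_add_neg]

@[simp] theorem sg_h (x y : Fin n → F) : sg F q (hermForm n F q x y) = hermForm n F q y x :=
  (Cfsg.Agent.H95.hermForm_herm hq.out x y).symm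

theorem h_swap {x y : Fin n → F} (h : hermForm n F q x y = 0) : hermForm n F q y x = 0 := by
  rw [← sg_h, h, map_zero]

@[simp] theorem h_single_right (x : Fin n → F) (i : Fin n) :
    hermForm n F q x (Pi.single i 1) = x i :=
  Cfsg.Agent.H17.hermForm_single_right n hq.out i x

@[simp] theorem h_single_left (x : Fin n → F) (i : Fin n) :
    hermForm n F q (Pi.single i 1) x = sg F q (x i) :=
  Cfsg.Agent.H17.hermForm_single_left n i x

/-- Vectors with coordinates in the subfield. -/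
def RV (F₀ : Subfield F) (v : Fin n → F) : Prop := ∀ i, v i ∈ F₀

variable {F₀ : Subfield F}

theorem RV.add {v w : Fin n → F} (hv : RV F₀ v) (hw : RV F₀ w) : RV F₀ (v + w) :=
  fun i => F₀.add_mem (hv i) (hw i)

theorem RV.sub {v w : Fin n → F} (hv : RV F₀ v) (hw : RV F₀ w) : RV F₀ (v - w) :=
  fun i => F₀.sub_mem (hv i) (hw i)

theorem RV.neg {v : Fin n → F} (hv : RV F₀ v) : RV F₀ (-v) :=
  fun i => F₀.neg_mem (hv i)

theorem RV.smul {v : Fin n → F} {c : F} (hc : c ∈ F₀) (hv : RV F₀ v) : RV F₀ (c • v) :=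
  fun i => F₀.mul_mem hc (hv i)

theorem RV.zero : RV F₀ (0 : Fin n → F) := fun _ => F₀.zero_mem

theorem RV.single (i : Fin n) : RV F₀ (Pi.single i (1 : F)) := fun j => rat_single F₀ i j

theorem sg_mem {c : F} (hc : c ∈ F₀) : sg F q c ∈ F₀ := F₀.pow_mem hc q

theorem RV.h {v w : Fin n → F} (hv : RV F₀ v) (hw : RV F₀ w) : hermForm n F q v w ∈ F₀ := by
  unfold hermForm
  exact F₀.sum_mem fun i _ => F₀.mul_mem (hv i) (F₀.pow_mem (hw i) q)

/-- Some element of `M` acts on vectors as the map `φ`. -/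
def Act (M : Subgroup (GL (Fin n) F)) (φ : (Fin n → F) → (Fin n → F)) : Prop :=
  ∃ g ∈ M, ∀ z, ac g z = φ z

variable {M : Subgroup (GL (Fin n) F)}

theorem Act.of_mem {g : GL (Fin n) F} (hg : g ∈ M) : Act M (ac g) := ⟨g, hg, fun _ => rfl⟩

theorem Act.mem {φ : (Fin n → F) → (Fin n → F)} (h : Act M φ) {g : GL (Fin n) F}
    (e : ∀ z, ac g z = φ z) : g ∈ M := by
  obtain ⟨g', hg', hg'φ⟩ := h
  have : g = g' := gl_ext g g' (fun z => by rw [e, hg'φ])
  rw [this]
  exact hg'

theorem Act.congr {φ ψ : (Fin n → F) → (Fin n → F)} (h : Act M φ) (e : ∀ z, φ z = ψ z) :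
    Act M ψ := by
  obtain ⟨g, hg, hgφ⟩ := h
  exact ⟨g, hg, fun z => by rw [hgφ, e]⟩

theorem Act.mono {M' : Subgroup (GL (Fin n) F)} (hle : M ≤ M')
    {φ : (Fin n → F) → (Fin n → F)} (h : Act M φ) : Act M' φ := by
  obtain ⟨g, hg, hgφ⟩ := h
  exact ⟨g, hle hg, hgφ⟩

theorem Act.mul {φ ψ : (Fin n → F) → (Fin n → F)} (h1 : Act M φ) (h2 : Act M ψ) :
    Act M (fun z => φ (ψ z)) := by
  obtain ⟨g, hg, hgφ⟩ := h1
  obtain ⟨g', hg', hgψ⟩ := h2
  exact ⟨g * g', M.mul_mem hg hg', fun z => by rw [ac_mul, hgψ, hgφ]⟩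

theorem Act.inv {φ ψ : (Fin n → F) → (Fin n → F)} (h : Act M φ) (e : ∀ z, φ (ψ z) = z) :
    Act M ψ := by
  obtain ⟨g, hg, hgφ⟩ := h
  refine ⟨g⁻¹, M.inv_mem hg, fun z => ?_⟩
  apply ac_injective g
  rw [ac_ac_inv, hgφ, e]

theorem Act.conj {φ : (Fin n → F) → (Fin n → F)} {g : GL (Fin n) F} (hg : g ∈ M)
    (h : Act M φ) : Act M (fun z => ac g (φ (ac g⁻¹ z))) := by
  obtain ⟨g', hg', hgφ⟩ := h
  exact ⟨g * g' * g⁻¹, M.mul_mem (M.mul_mem hg hg') (M.inv_mem hg),
    fun z => by rw [ac_mul, ac_mul, hgφ]⟩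

theorem Act.comm {φ₁ φ₂ φ₃ : (Fin n → F) → (Fin n → F)} (h1 : Act M φ₁) (h2 : Act M φ₂)
    (e : ∀ z, φ₁ (φ₂ z) = φ₃ (φ₂ (φ₁ z))) : Act M φ₃ := by
  obtain ⟨g₁, hg₁, hφ₁⟩ := h1
  obtain ⟨g₂, hg₂, hφ₂⟩ := h2
  refine ⟨g₁ * g₂ * g₁⁻¹ * g₂⁻¹,
    M.mul_mem (M.mul_mem (M.mul_mem hg₁ hg₂) (M.inv_mem hg₁)) (M.inv_mem hg₂), fun z => ?_⟩
  have hz : z = ac g₂ (ac g₁ (ac g₁⁻¹ (ac g₂⁻¹ z))) := by rw [ac_ac_inv, ac_ac_inv]
  rw [ac_mul, ac_mul, ac_mul]
  conv_rhs => rw [hz]
  rw [hφ₁, hφ₂, hφ₂, hφ₁, e]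

/-- The Eichler map with centre `w`: `z ↦ z + h(z,w) u - h(z,u) w + b h(z,w) w`. -/
def eMap (q : ℕ) (w u : Fin n → F) (b : F) (z : Fin n → F) : Fin n → F :=
  z + hermForm n F q z w • u - hermForm n F q z u • w + (b * hermForm n F q z w) • w

/-- The transvection map with centre `v`: `z ↦ z + c h(z,v) v`. -/
def tMap (q : ℕ) (v : Fin n → F) (c : F) (z : Fin n → F) : Fin n → F :=
  z + (c * hermForm n F q z v) • v

theorem eMap_zero_right (w : Fin n → F) (c : F) (z : Fin n → F) :
    eMap q w 0 c z = tMap q w c z := by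
  unfold eMap tMap
  simp

theorem eMap_zero_zero (w : Fin n → F) (z : Fin n → F) : eMap q w 0 0 z = z := by
  unfold eMap
  simp

theorem tMap_zero (v : Fin n → F) (z : Fin n → F) : tMap q v 0 z = z := by
  unfold tMap
  simp

theorem eMap_comp (w u u' : Fin n → F) (b b' : F) (hww : hermForm n F q w w = 0)
    (hu'w : hermForm n F q u' w = 0) (hwu : hermForm n F q w u = 0) (z : Fin n → F) :
    eMap q w u b (eMap q w u' b' z) = eMap q w (u + u') (b + b' - hermForm n F q u' u) z := by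
  unfold eMap
  simp only [hl_add, hl_sub, hl_smul, hr_add, hww, hu'w, hwu, mul_zero, add_zero, sub_zero]
  module

theorem tMap_eMap (w u : Fin n → F) (b s : F) (hww : hermForm n F q w w = 0)
    (huw : hermForm n F q u w = 0) (z : Fin n → F) :
    tMap q w s (eMap q w u b z) = eMap q w u (b + s) z := by
  unfold eMap tMap
  simp only [hl_add, hl_sub, hl_smul, hww, huw, mul_zero, add_zero, sub_zero]
  module

theorem tMap_tMap (v : Fin n → F) (s s' : F) (hvv : hermForm n F q v v = 0) (z : Fin n → F) :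
    tMap q v s (tMap q v s' z) = tMap q v (s + s') z := by
  unfold tMap
  simp only [hl_add, hl_smul, hvv, mul_zero, add_zero]
  module

theorem eMap_comm_center (w u u' : Fin n → F) (b b' : F) (hww : hermForm n F q w w = 0)
    (huw : hermForm n F q u w = 0) (hu'w : hermForm n F q u' w = 0) (z : Fin n → F) :
    eMap q w u b (eMap q w u' b' z)
      = tMap q w (hermForm n F q u u' - hermForm n F q u' u) (eMap q w u' b' (eMap q w u b z)) := by
  rw [eMap_comp w u u' b b' hww hu'w (h_swap huw), eMap_comp w u' u b' b hww huw (h_swap hu'w),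
    tMap_eMap w (u' + u) _ _ hww (by rw [hl_add, hu'w, huw, add_zero])]
  have e1 : u + u' = u' + u := add_comm _ _
  have e2 : b + b' - hermForm n F q u' u
      = b' + b - hermForm n F q u u' + (hermForm n F q u u' - hermForm n F q u' u) := by ring
  rw [e1, e2]

theorem eMap_smul_center (w u : Fin n → F) (b l : F) (z : Fin n → F) :
    eMap q (l • w) u b z = eMap q w (sg F q l • u) (l * sg F q l * b) z := by
  unfold eMap
  simp only [hr_smul, sg_sg]
  module

theorem eMap_add_center (w u : Fin n → F) (b l : F) (z : Fin n → F) :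
    eMap q w (u + l • w) b z = eMap q w u (b + l - sg F q l) z := by
  unfold eMap
  simp only [hr_add, hr_smul]
  module

theorem tMap_smul_center (v : Fin n → F) (c l : F) (z : Fin n → F) :
    tMap q (l • v) c z = tMap q v (l * sg F q l * c) z := by
  unfold tMap
  simp only [hr_smul]
  module

theorem eMap_conj {g : GL (Fin n) F} (hg : g ∈ GU n F q) (w u : Fin n → F) (b : F)
    (z : Fin n → F) :
    ac g (eMap q w u b (ac g⁻¹ z)) = eMap q (ac g w) (ac g u) b z := by
  have e : ∀ v : Fin n → F, hermForm n F q (ac g⁻¹ z) v = hermForm n F q z (ac g v) :=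
    fun v => Cfsg.Agent.H95.GU_inv_form hg z v
  unfold eMap
  simp only [ac_add, ac_sub, ac_smul, ac_ac_inv, e]

theorem tMap_conj {g : GL (Fin n) F} (hg : g ∈ GU n F q) (v : Fin n → F) (c : F)
    (z : Fin n → F) :
    ac g (tMap q v c (ac g⁻¹ z)) = tMap q (ac g v) c z := by
  have e : ∀ v : Fin n → F, hermForm n F q (ac g⁻¹ z) v = hermForm n F q z (ac g v) :=
    fun v => Cfsg.Agent.H95.GU_inv_form hg z v
  unfold tMap
  simp only [ac_add, ac_smul, ac_ac_inv, e]

theorem gu_h {g : GL (Fin n) F} (hg : g ∈ GU n F q) (x y : Fin n → F) :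
    hermForm n F q (ac g x) (ac g y) = hermForm n F q x y := hg x y

/-- The symmetric description of the Siegel-type map. -/
theorem eMap_symm (x y : Fin n → F) (d : F) (z : Fin n → F) :
    eMap q y (d • x) 0 z = eMap q x ((-sg F q d) • y) 0 z := by
  unfold eMap
  simp only [hr_smul, map_neg, sg_sg, zero_mul, zero_smul, add_zero]
  module

/-- The commutator relation of Siegel-type maps. -/
theorem eMap_comm (x y w w' : Fin n → F) (a b : F)
    (hxw : hermForm n F q x w = 0) (hxy : hermForm n F q x y = 0)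
    (hxw' : hermForm n F q x w' = 0) (hwy : hermForm n F q w y = 0)
    (hw'y : hermForm n F q w' y = 0) (hww' : hermForm n F q w w' = 1)
    (hxx : hermForm n F q x x = 0) (hyy : hermForm n F q y y = 0)
    (hw : hermForm n F q w w = 0) (hw' : hermForm n F q w' w' = 0) (z : Fin n → F) :
    eMap q w (a • x) 0 (eMap q y (b • w') 0 z)
      = eMap q y ((a * b) • x) 0 (eMap q y (b • w') 0 (eMap q w (a • x) 0 z)) := by
  have hwx := h_swap hxw
  have hyx := h_swap hxy
  have hw'x := h_swap hxw'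
  have hyw := h_swap hwy
  have hyw' := h_swap hw'y
  have hw'w : hermForm n F q w' w = 1 := by rw [← sg_h, hww', map_one]
  unfold eMap
  simp only [hl_add, hl_sub, hl_smul, hr_smul, hxw, hxy, hxw', hwy, hw'y, hww', hxx, hyy, hw, hw',
    hwx, hyx, hw'x, hyw, hyw', hw'w, mul_zero, zero_mul, add_zero, sub_zero, zero_smul, mul_one,
    map_mul]
  module

/-- The product of two transvections with centres `v₀` and `v₀ + l e`. -/
theorem tMap_prod (v₀ e : Fin n → F) (s l : F) (hs : sg F q s = -s)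
    (hv : hermForm n F q v₀ v₀ = 0) (he : hermForm n F q e e = 0)
    (hve : hermForm n F q v₀ e = 0) (z : Fin n → F) :
    tMap q v₀ (-s) (tMap q (v₀ + l • e) s z)
      = eMap q e ((s * sg F q l) • v₀) (s * l * sg F q l) z := by
  have hev := h_swap hve
  unfold eMap tMap
  simp only [hl_add, hl_smul, hr_add, hr_smul, hv, he, hve, hev, mul_zero, add_zero, map_mul,
    sg_sg, hs]
  module

end

end Cfsg.Agent.H99.US
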