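import Cfsg.Agent.H99.USubA
import Cfsg.Agent.H17.SubFld
import Cfsg.Agent.H17.SURoot

set_option autoImplicit false
set_option linter.unusedSectionVars false

/-! Helper lemmas (helper99): facts on a subfield of odd prime index of a field with an
involution, and the rational elements of the unitary group. -/

namespace Cfsg.Agent.H99.US

open Matrix Cfsg Cfsg.Geo Cfsg.Agent.H99.SS
open scoped MatrixGroups

section
variable {F : Type*} [Field F] [Fintype F] {n q : ℕ} [hq : Fact (Fintype.card F = q ^ 2)]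
variable {F₀ : Subfield F}

theorem one_lt_card_sub (F₀ : Subfield F) : 1 < Nat.card F₀ := by
  have : Fintype F₀ := Fintype.ofFinite _
  rw [Nat.card_eq_fintype_card]
  exact Fintype.one_lt_card

/-- The involution is not trivial on a subfield of odd index. -/
theorem exists_not_fixed (r : ℕ) (hro : Odd r) (hcard : Fintype.card F = Nat.card F₀ ^ r) :
    ∃ x ∈ F₀, sg F q x ≠ x := by
  classical
  by_contra hcon
  push Not at hcon
  have : Fintype F₀ := Fintype.ofFinite _
  obtain ⟨W, hW⟩ : ∃ W : Submodule F₀ F, ∀ y, y ∈ W ↔ sg F q y = y :=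
    ⟨{ carrier := {y | sg F q y = y}
       add_mem' := fun {a b} ha hb => by
         show sg F q (a + b) = a + b
         rw [map_add, ha, hb]
       zero_mem' := map_zero _
       smul_mem' := fun c y hy => by
         show sg F q (c • y) = c • y
         rw [Subfield.smul_def, smul_eq_mul, map_mul, hcon c c.2, hy] }, fun y => Iff.rfl⟩
  obtain ⟨L, iL, fL, σ', hL, hfix⟩ := Cfsg.Agent.H17.exists_fixed_field hq.out
  have hbij : Function.Bijective (fun y : L => (⟨σ' y, (hW _).mpr ((hfix _).mpr ⟨y, rfl⟩)⟩ : W)) := by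
    constructor
    · intro a b hab
      exact σ'.injective (congrArg Subtype.val hab)
    · rintro ⟨x, hx⟩
      obtain ⟨y, hy⟩ := (hfix x).mp ((hW x).mp hx)
      exact ⟨y, Subtype.ext hy⟩
  have hcW : Nat.card W = q := by
    rw [← Nat.card_eq_of_bijective _ hbij, Nat.card_eq_fintype_card, hL]
  have : Fintype W := Fintype.ofFinite _
  have h1 := Module.card_eq_pow_finrank (K := F₀) (V := W)
  rw [← Nat.card_eq_fintype_card, ← Nat.card_eq_fintype_card, hcW] at h1
  have h2 : Nat.card F₀ ^ (2 * Module.finrank F₀ W) = Nat.card F₀ ^ r := by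
    rw [← hcard, hq.out, h1, ← pow_mul, mul_comm]
  have h3 := Nat.pow_right_injective (one_lt_card_sub F₀) h2
  obtain ⟨k, hk⟩ := hro
  omega

theorem exists_theta {x : F} (hx : x ∈ F₀) (hxs : sg F q x ≠ x) :
    ∃ θ ∈ F₀, θ ≠ 0 ∧ sg F q θ = -θ := by
  refine ⟨x - sg F q x, F₀.sub_mem hx (sg_mem hx), ?_, ?_⟩
  · intro h
    exact hxs (sub_eq_zero.mp h).symm
  · rw [map_sub, sg_sg]
    ring

theorem exists_eps {x : F} (hx : x ∈ F₀) (hxs : sg F q x ≠ x) :
    ∃ ε ∈ F₀, ∃ ε' ∈ F₀, ε * sg F q ε = -1 ∧ ε' * sg F q ε' = -1 ∧ ε ≠ ε' := by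
  classical
  obtain ⟨σ₀, hσ₀⟩ : ∃ σ₀ : F₀ →+* F₀, ∀ a : F₀, ((σ₀ a : F₀) : F) = sg F q (a : F) :=
    ⟨(sg F q).restrict F₀ F₀ (fun a ha => sg_mem ha), fun a => rfl⟩
  have hne : σ₀ ≠ RingHom.id F₀ := by
    intro h
    apply hxs
    have h1 := hσ₀ ⟨x, hx⟩
    rw [h] at h1
    exact h1.symm
  have h2 : ∀ a : F₀, σ₀ (σ₀ a) = a := by
    intro a
    apply Subtype.ext
    rw [hσ₀, hσ₀, sg_sg]
  obtain ⟨t, ht⟩ := Cfsg.Agent.H17.exists_norm_eq σ₀ hne h2 (-1) (neg_ne_zero.mpr one_ne_zero)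
    (by rw [map_neg, map_one])
  have ht' : (t : F) * sg F q (t : F) = -1 := by
    have h3 := congrArg (Subtype.val : F₀ → F) ht
    rw [← hσ₀]
    exact h3
  have hx0 : x ≠ 0 := by
    rintro rfl
    exact hxs (map_zero _)
  have hsx0 : sg F q x ≠ 0 := by
    intro h
    apply hx0
    have h3 := sg_sg (q := q) x
    rw [h, map_zero] at h3
    exact h3.symm
  have ht0 : (t : F) ≠ 0 := by
    intro h
    rw [h, zero_mul] at ht'
    exact one_ne_zero (neg_eq_zero.mp ht'.symm)
  refine ⟨t, t.2, t * (x / sg F q x), F₀.mul_mem t.2 (F₀.div_mem hx (sg_mem hx)), ht', ?_, ?_⟩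
  · rw [map_mul, map_div₀, sg_sg]
    have e : (t : F) * (x / sg F q x) * (sg F q (t : F) * (sg F q x / x))
        = (t : F) * sg F q (t : F) := by
      field_simp
    rw [e, ht']
  · intro h
    have h3 : (t : F) * (x / sg F q x) = (t : F) * 1 := by rw [mul_one]; exact h.symm
    have h4 := mul_left_cancel₀ ht0 h3
    exact hxs ((div_eq_one_iff_eq hsx0).mp h4).symm

/-- A rationality criterion. -/
theorem tr_mem {x : F} (hx : x ∈ F₀) (hxs : sg F q x ≠ x) {z : F}
    (h : ∀ c ∈ F₀, c * z - sg F q (c * z) ∈ F₀) : z ∈ F₀ := by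
  have h1 := h 1 F₀.one_mem
  rw [one_mul] at h1
  have h2 := h x hx
  rw [map_mul] at h2
  have h3 : (x - sg F q x) * sg F q z ∈ F₀ := by
    have h4 := F₀.sub_mem h2 (F₀.mul_mem hx h1)
    have e : x * z - sg F q x * sg F q z - x * (z - sg F q z) = (x - sg F q x) * sg F q z := by
      ring
    rwa [e] at h4
  have hd : x - sg F q x ≠ 0 := fun h' => hxs (sub_eq_zero.mp h').symm
  have h5 : sg F q z ∈ F₀ := by
    have h6 := F₀.mul_mem (F₀.inv_mem (F₀.sub_mem hx (sg_mem (q := q) hx))) h3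
    rwa [← mul_assoc, inv_mul_cancel₀ hd, one_mul] at h6
  have h7 := sg_mem (q := q) h5
  rwa [sg_sg] at h7

/-- Square roots of elements of a subfield of odd index lie in the subfield. -/
theorem sq_mem (r : ℕ) (hro : Odd r) (hcard : Fintype.card F = Nat.card F₀ ^ r) {x : F}
    (hx : x ^ 2 ∈ F₀) : x ∈ F₀ := by
  obtain ⟨Q, hQ⟩ : ∃ Q, Nat.card F₀ = Q := ⟨_, rfl⟩
  have hQ1 : 1 < Q := by rw [← hQ]; exact one_lt_card_sub F₀
  have h1 : (x ^ Q) ^ 2 = x ^ 2 := by
    rw [← pow_mul, mul_comm, pow_mul]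
    exact Cfsg.Agent.H17.sub_pow_eq F₀ hQ hx
  have h2 : (x ^ Q - x) * (x ^ Q + x) = 0 := by linear_combination h1
  have key : x ^ Q = x → x ∈ F₀ := fun h => Cfsg.Agent.H17.mem_of_pow_eq F₀ hQ hQ1 h
  rcases mul_eq_zero.mp h2 with h3 | h3
  · exact key (sub_eq_zero.mp h3)
  · have h4 : x ^ Q = -x := eq_neg_of_add_eq_zero_left h3
    have h5 : ∀ k : ℕ, x ^ (Q ^ k) = (-1) ^ k * x := by
      intro k
      induction k with
      | zero => simp
      | succ k ih =>
        rw [pow_succ, pow_mul, ih, mul_pow, h4,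
          Cfsg.Agent.H17.sub_pow_eq F₀ hQ (F₀.pow_mem (F₀.neg_mem F₀.one_mem) k)]
        ring
    have h6 := h5 r
    rw [← hQ, ← hcard, FiniteField.pow_card, hro.neg_one_pow] at h6
    apply key
    rw [h4]
    linear_combination -h6

/-- Some trace-zero element lies outside a proper subfield. -/
theorem exists_tr0_not_mem (r : ℕ) (hr : 2 ≤ r) (hcard : Fintype.card F = Nat.card F₀ ^ r)
    {x : F} (hx : x ∈ F₀) (hxs : sg F q x ≠ x) :
    ∃ s : F, s + sg F q s = 0 ∧ s ∉ F₀ := by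
  classical
  by_contra hcon
  push Not at hcon
  have hall : ∀ z : F, z ∈ F₀ := by
    intro z
    apply tr_mem hx hxs
    intro c _
    apply hcon
    rw [map_sub, sg_sg]
    ring
  have : Fintype F₀ := Fintype.ofFinite _
  have h1 : Fintype.card F ≤ Fintype.card F₀ :=
    Fintype.card_le_of_injective (fun z : F => (⟨z, hall z⟩ : F₀))
      (fun a b hab => congrArg Subtype.val hab)
  rw [hcard, ← Nat.card_eq_fintype_card] at h1
  have h2 := one_lt_card_sub F₀
  have h3 : Nat.card F₀ ^ 2 ≤ Nat.card F₀ ^ r := Nat.pow_le_pow_right (by omega) hr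
  nlinarith

/-- A multiplicatively and additively closed set of coefficients containing the subfield is the
subfield or everything. -/
theorem dich (r : ℕ) (hr : r.Prime) (hcard : Fintype.card F = Nat.card F₀ ^ r)
    (K : F → Prop) (hrat : ∀ a ∈ F₀, K a) (hadd : ∀ a b, K a → K b → K (a + b))
    (hmul : ∀ a b, K a → K b → K (a * b)) : (∀ c, K c → c ∈ F₀) ∨ (∀ c, K c) := by
  classical
  obtain ⟨A, hA⟩ : ∃ A : Subalgebra F₀ F, ∀ a, a ∈ A ↔ K a := by
    refine ⟨{ carrier := {a | K a}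
              mul_mem' := fun {a b} ha hb => hmul a b ha hb
              one_mem' := hrat 1 F₀.one_mem
              add_mem' := fun {a b} ha hb => hadd a b ha hb
              zero_mem' := hrat 0 F₀.zero_mem
              algebraMap_mem' := fun a => hrat a a.2 }, fun a => Iff.rfl⟩
  have : Fintype F₀ := Fintype.ofFinite _
  have hfr : Module.finrank F₀ F = r := by
    have h1 := Module.card_eq_pow_finrank (K := F₀) (V := F)
    rw [hcard, Nat.card_eq_fintype_card] at h1
    exact (Nat.pow_right_injective Fintype.one_lt_card h1).symm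
  have hsimple := Subalgebra.isSimpleOrder_of_finrank_prime F₀ F (by rw [hfr]; exact hr)
  rcases hsimple.eq_bot_or_eq_top A with hbot | htop
  · left
    intro c hc
    have h1 : c ∈ A := (hA c).mpr hc
    rw [hbot, Algebra.mem_bot] at h1
    obtain ⟨y, hy⟩ := h1
    rw [← hy]
    exact y.2
  · right
    intro c
    exact (hA c).mp (by rw [htop]; exact Algebra.mem_top)

end

section
variable {F : Type*} [Field F] [Fintype F] {n q : ℕ} [hq : Fact (Fintype.card F = q ^ 2)]

/-- The rational elements of the special unitary group. -/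
def ratG (n q : ℕ) (F₀ : Subfield F) : Subgroup (GL (Fin n) F) where
  carrier := {g | g ∈ GU n F q ⊓ specialLinear (Fin n) F ∧ (∀ v, RV F₀ v → RV F₀ (ac g v)) ∧
    ∀ v, RV F₀ v → RV F₀ (ac g⁻¹ v)}
  mul_mem' := by
    rintro a b ⟨ha, ha1, ha2⟩ ⟨hb, hb1, hb2⟩
    refine ⟨Subgroup.mul_mem _ ha hb, fun v hv => ?_, fun v hv => ?_⟩
    · rw [ac_mul]
      exact ha1 _ (hb1 v hv)
    · rw [_root_.mul_inv_rev, ac_mul]
      exact hb2 _ (ha2 v hv)
  one_mem' := by
    refine ⟨Subgroup.one_mem _, fun v hv => ?_, fun v hv => ?_⟩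
    · rw [ac_one]
      exact hv
    · rw [inv_one, ac_one]
      exact hv
  inv_mem' := by
    rintro a ⟨ha, ha1, ha2⟩
    refine ⟨Subgroup.inv_mem _ ha, ha2, fun v hv => ?_⟩
    rw [inv_inv]
    exact ha1 v hv

variable {F₀ : Subfield F}

theorem ratG_le : ratG n q F₀ ≤ subfieldSubgroup F₀ 1 ⊓ (GU n F q ⊓ specialLinear (Fin n) F) := by
  rintro g ⟨hg, hg1, -⟩
  refine Subgroup.mem_inf.mpr ⟨?_, hg⟩
  rw [Cfsg.Agent.H99.SS.mem_subfield_iff]
  refine ⟨1, one_ne_zero, fun i j => ?_⟩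
  rw [one_mul, ← ac_single]
  exact hg1 _ (RV.single j) i

/-- Rational Eichler maps are realised by rational elements. -/
theorem ratG_e {w u : Fin n → F} {b : F} (hw : RV F₀ w) (hu : RV F₀ u) (hb : b ∈ F₀)
    (hww : hermForm n F q w w = 0) (huw : hermForm n F q u w = 0)
    (hbb : b + sg F q b + hermForm n F q u u = 0) :
    ∃ g ∈ ratG n q F₀, ∀ z, ac g z = eMap q w u b z := by
  obtain ⟨E, hE, hEz⟩ := Cfsg.Agent.H95.exists_eichler hq.out w u b hww huw hbb
  have hact : ∀ z, ac E z = eMap q w u b z := by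
    intro z
    show (E : Matrix (Fin n) (Fin n) F) *ᵥ z = _
    rw [hEz]
    unfold eMap
    module
  have hrat : ∀ (u' : Fin n → F) (b' : F), RV F₀ u' → b' ∈ F₀ → ∀ v, RV F₀ v →
      RV F₀ (eMap q w u' b' v) := by
    intro u' b' hu' hb' v hv
    unfold eMap
    exact ((hv.add (RV.smul (hv.h hw) hu')).sub (RV.smul (hv.h hu') hw)).add
      (RV.smul (F₀.mul_mem hb' (hv.h hw)) hw)
  have hinv : ∀ z, ac E⁻¹ z = eMap q w (-u) (sg F q b) z := by
    intro z
    apply ac_injective E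
    rw [ac_ac_inv, hact, eMap_comp w u (-u) b (sg F q b) hww (by rw [hl_neg, huw, neg_zero])
      (h_swap huw)]
    have e1 : u + -u = 0 := add_neg_cancel u
    have e2 : b + sg F q b - hermForm n F q (-u) u = 0 := by
      rw [hl_neg]
      linear_combination hbb
    rw [e1, e2, eMap_zero_zero]
  refine ⟨E, ⟨hE, fun v hv => ?_, fun v hv => ?_⟩, hact⟩
  · rw [hact]
    exact hrat u b hu hb v hv
  · rw [hinv]
    exact hrat (-u) (sg F q b) hu.neg (sg_mem hb) v hv

theorem ratG_gu {g : GL (Fin n) F} (hg : g ∈ ratG n q F₀) : g ∈ GU n F q := hg.1.1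

theorem ratG_rv {g : GL (Fin n) F} (hg : g ∈ ratG n q F₀) {v : Fin n → F} (hv : RV F₀ v) :
    RV F₀ (ac g v) := hg.2.1 v hv

theorem ratG_rv_inv {g : GL (Fin n) F} (hg : g ∈ ratG n q F₀) {v : Fin n → F} (hv : RV F₀ v) :
    RV F₀ (ac g⁻¹ v) := hg.2.2 v hv

end

end Cfsg.Agent.H99.US
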