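import Cfsg.Agent.H99.USubB

set_option autoImplicit false
set_option linter.unusedSectionVars false

/-! Helper lemmas (helper99): a rational hyperbolic frame of three pairs, the context of an
overgroup of the rational unitary group, and the field of its root coefficients. -/

namespace Cfsg.Agent.H99.US

open Matrix Cfsg Cfsg.Geo Cfsg.Agent.H99.SS
open scoped MatrixGroups

section
variable {F : Type*} [Field F] [Fintype F] {n q : ℕ} [hq : Fact (Fintype.card F = q ^ 2)]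

/-- The vector `e_i + e • e_j`. -/
def pv (i j : Fin n) (e : F) : Fin n → F := Pi.single i 1 + e • Pi.single j 1

theorem pv_apply (i j : Fin n) (e : F) (k : Fin n) :
    pv i j e k = (if k = i then 1 else 0) + e * (if k = j then 1 else 0) := by
  unfold pv
  simp [Pi.single_apply]

theorem pv_apply_left {i j : Fin n} (hij : i ≠ j) (e : F) : pv i j e i = 1 := by
  rw [pv_apply, if_pos rfl, if_neg hij, mul_zero, add_zero]

theorem pv_apply_right {i j : Fin n} (hij : i ≠ j) (e : F) : pv i j e j = e := by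
  rw [pv_apply, if_neg (Ne.symm hij), if_pos rfl, mul_one, zero_add]

theorem pv_apply_ne {i j k : Fin n} (hki : k ≠ i) (hkj : k ≠ j) (e : F) : pv i j e k = 0 := by
  rw [pv_apply, if_neg hki, if_neg hkj, mul_zero, add_zero]

@[simp] theorem h_pv_right (x : Fin n → F) (i j : Fin n) (e : F) :
    hermForm n F q x (pv i j e) = x i + sg F q e * x j := by
  unfold pv
  simp

@[simp] theorem h_pv_left (x : Fin n → F) (i j : Fin n) (e : F) :
    hermForm n F q (pv i j e) x = sg F q (x i) + e * sg F q (x j) := by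
  unfold pv
  simp

theorem RV.pv {F₀ : Subfield F} (i j : Fin n) {e : F} (he : e ∈ F₀) : RV F₀ (pv i j e) :=
  (RV.single i).add (RV.smul he (RV.single j))

theorem pv_iso {i j : Fin n} (hij : i ≠ j) {e : F} (he : e * sg F q e = -1) :
    hermForm n F q (pv i j e) (pv i j e) = 0 := by
  rw [h_pv_right, pv_apply_left hij, pv_apply_right hij]
  linear_combination he

theorem pv_ne_zero {i j : Fin n} (hij : i ≠ j) (e : F) : pv i j e ≠ 0 := by
  intro h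
  have h1 := congrFun h i
  rw [pv_apply_left hij] at h1
  exact one_ne_zero h1

/-- The frame vectors `e_k` (second component `true`) and `f_k`. -/
def fr (q : ℕ) [hq : Fact (Fintype.card F = q ^ 2)] (ι : Fin 3 × Bool ↪ Fin n) (ε ε' : F)
    (α : Fin 3 × Bool) : Fin n → F :=
  if α.2 then pv (ι (α.1, true)) (ι (α.1, false)) ε
  else (1 + ε' * sg F q ε)⁻¹ • pv (ι (α.1, true)) (ι (α.1, false)) ε'

theorem fr_true (ι : Fin 3 × Bool ↪ Fin n) (ε ε' : F) (k : Fin 3) :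
    fr q ι ε ε' (k, true) = pv (ι (k, true)) (ι (k, false)) ε := rfl

theorem fr_false (ι : Fin 3 × Bool ↪ Fin n) (ε ε' : F) (k : Fin 3) :
    fr q ι ε ε' (k, false)
      = (1 + ε' * sg F q ε)⁻¹ • pv (ι (k, true)) (ι (k, false)) ε' := rfl

theorem iota_ne (ι : Fin 3 × Bool ↪ Fin n) (k : Fin 3) : ι (k, true) ≠ ι (k, false) := by
  intro h
  have := ι.injective h
  simp at this

theorem iota_ne' (ι : Fin 3 × Bool ↪ Fin n) {a b : Fin 3} (hab : a ≠ b) (s t : Bool) :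
    ι (a, s) ≠ ι (b, t) := by
  intro h
  have := ι.injective h
  exact hab (congrArg Prod.fst this)

theorem eps_aux {ε ε' : F} (hε : ε * sg F q ε = -1) (hε' : ε' * sg F q ε' = -1) (hne : ε ≠ ε') :
    1 + ε' * sg F q ε ≠ 0 := by
  intro h
  have h1 : (ε' - ε) * sg F q ε = 0 := by linear_combination h - hε
  rcases mul_eq_zero.mp h1 with h2 | h2
  · exact hne (sub_eq_zero.mp h2).symm
  · rw [h2, mul_zero] at hε
    exact one_ne_zero (neg_eq_zero.mp hε.symm)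

theorem h_fr (ι : Fin 3 × Bool ↪ Fin n) {ε ε' : F} (hε : ε * sg F q ε = -1)
    (hε' : ε' * sg F q ε' = -1) (hne : ε ≠ ε') (α β : Fin 3 × Bool) :
    hermForm n F q (fr q ι ε ε' α) (fr q ι ε ε' β)
      = if α.1 = β.1 ∧ α.2 ≠ β.2 then 1 else 0 := by
  obtain ⟨a, s⟩ := α
  obtain ⟨b, t⟩ := β
  have hd := eps_aux hε hε' hne
  have hd' : 1 + sg F q ε' * ε ≠ 0 := by
    intro h
    apply hd
    have h1 := congrArg (sg F q) h
    rw [map_add, map_mul, map_one, sg_sg, map_zero] at h1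
    exact h1
  by_cases hab : a = b
  · subst hab
    have h1 := iota_ne ι a
    have hA : ∀ e e' : F, hermForm n F q (pv (ι (a, true)) (ι (a, false)) e)
        (pv (ι (a, true)) (ι (a, false)) e') = 1 + sg F q e' * e := by
      intro e e'
      rw [h_pv_right, pv_apply_left h1, pv_apply_right h1]
    cases s <;> cases t
    · rw [if_neg (by simp)]
      simp only [fr_false, hl_smul, hr_smul, hA]
      have e : 1 + sg F q ε' * ε' = 0 := by linear_combination hε'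
      rw [e, mul_zero, mul_zero]
    · rw [if_pos (by simp)]
      simp only [fr_false, fr_true, hl_smul, hA]
      have e : 1 + sg F q ε * ε' = 1 + ε' * sg F q ε := by ring
      rw [e, inv_mul_cancel₀ hd]
    · rw [if_pos (by simp)]
      simp only [fr_false, fr_true, hr_smul, hA]
      rw [map_inv₀, map_add, map_mul, map_one, sg_sg, inv_mul_cancel₀ hd']
    · rw [if_neg (by simp)]
      simp only [fr_true, hA]
      linear_combination hε
  · have e1 : ∀ (e e' : F), hermForm n F q (pv (ι (a, true)) (ι (a, false)) e)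
        (pv (ι (b, true)) (ι (b, false)) e') = 0 := by
      intro e e'
      rw [h_pv_right, pv_apply_ne (iota_ne' ι (Ne.symm hab) _ _) (iota_ne' ι (Ne.symm hab) _ _),
        pv_apply_ne (iota_ne' ι (Ne.symm hab) _ _) (iota_ne' ι (Ne.symm hab) _ _)]
      ring
    rw [if_neg (fun h => hab h.1)]
    cases s <;> cases t <;> simp only [fr_false, fr_true, hl_smul, hr_smul, e1, mul_zero]

end

section
variable {F : Type*} [Field F] [Fintype F] {n : ℕ}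

/-- The context: an overgroup `M` of the rational unitary group, a frame and field data. -/
structure UC (q : ℕ) [hq : Fact (Fintype.card F = q ^ 2)] (F₀ : Subfield F)
    (M : Subgroup (GL (Fin n) F)) (ι : Fin 3 × Bool ↪ Fin n) (ε ε' θ x₀ : F) (r : ℕ) : Prop where
  hMG : M ≤ GU n F q ⊓ specialLinear (Fin n) F
  hRM : ratG n q F₀ ≤ M
  hε : ε ∈ F₀
  hε' : ε' ∈ F₀
  nε : ε * sg F q ε = -1
  nε' : ε' * sg F q ε' = -1
  hne : ε ≠ ε'
  hθ : θ ∈ F₀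
  hθ0 : θ ≠ 0
  sθ : sg F q θ = -θ
  hx₀ : x₀ ∈ F₀
  sx₀ : sg F q x₀ ≠ x₀
  hr : r.Prime
  hro : Odd r
  hcard : Fintype.card F = Nat.card F₀ ^ r

variable {q : ℕ} [hq : Fact (Fintype.card F = q ^ 2)] {F₀ : Subfield F}
  {M : Subgroup (GL (Fin n) F)} {ι : Fin 3 × Bool ↪ Fin n} {ε ε' θ x₀ : F} {r : ℕ}

theorem UC.hfr (C : UC q F₀ M ι ε ε' θ x₀ r) (α β : Fin 3 × Bool) :
    hermForm n F q (fr q ι ε ε' α) (fr q ι ε ε' β)
      = if α.1 = β.1 ∧ α.2 ≠ β.2 then 1 else 0 :=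
  h_fr ι C.nε C.nε' C.hne α β

theorem UC.hfr0 (C : UC q F₀ M ι ε ε' θ x₀ r) {α β : Fin 3 × Bool} (h : α.1 ≠ β.1) :
    hermForm n F q (fr q ι ε ε' α) (fr q ι ε ε' β) = 0 := by
  rw [C.hfr, if_neg (fun h' => h h'.1)]

theorem UC.hfr_self (C : UC q F₀ M ι ε ε' θ x₀ r) (α : Fin 3 × Bool) :
    hermForm n F q (fr q ι ε ε' α) (fr q ι ε ε' α) = 0 := by
  rw [C.hfr, if_neg (fun h' => h'.2 rfl)]

theorem UC.hfr1 (C : UC q F₀ M ι ε ε' θ x₀ r) (k : Fin 3) (s : Bool) :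
    hermForm n F q (fr q ι ε ε' (k, s)) (fr q ι ε ε' (k, !s)) = 1 := by
  rw [C.hfr, if_pos ⟨rfl, by cases s <;> simp⟩]

theorem UC.hfr1' (C : UC q F₀ M ι ε ε' θ x₀ r) (k : Fin 3) (s : Bool) :
    hermForm n F q (fr q ι ε ε' (k, !s)) (fr q ι ε ε' (k, s)) = 1 := by
  rw [C.hfr, if_pos ⟨rfl, by cases s <;> simp⟩]

theorem UC.rv_fr (C : UC q F₀ M ι ε ε' θ x₀ r) (α : Fin 3 × Bool) :
    RV F₀ (fr q ι ε ε' α) := by
  obtain ⟨a, s⟩ := α
  cases s
  · rw [fr_false]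
    exact RV.smul (F₀.inv_mem (F₀.add_mem F₀.one_mem (F₀.mul_mem C.hε' (sg_mem C.hε))))
      (RV.pv _ _ C.hε')
  · rw [fr_true]
    exact RV.pv _ _ C.hε

theorem UC.rat_e (C : UC q F₀ M ι ε ε' θ x₀ r) {w u : Fin n → F} {b : F} (hw : RV F₀ w)
    (hu : RV F₀ u) (hb : b ∈ F₀) (hww : hermForm n F q w w = 0) (huw : hermForm n F q u w = 0)
    (hbb : b + sg F q b + hermForm n F q u u = 0) : Act M (eMap q w u b) := by
  obtain ⟨g, hg, hgz⟩ := ratG_e hw hu hb hww huw hbb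
  exact ⟨g, C.hRM hg, hgz⟩

theorem UC.rat_t (C : UC q F₀ M ι ε ε' θ x₀ r) {v : Fin n → F} {c : F} (hv : RV F₀ v)
    (hvv : hermForm n F q v v = 0) (hc : c ∈ F₀) (hcc : sg F q c = -c) : Act M (tMap q v c) := by
  have h := C.rat_e hv (RV.zero (F₀ := F₀) (n := n)) hc hvv (hl_zero v)
    (by rw [hcc, hl_zero]; ring)
  exact h.congr (fun z => eMap_zero_right v c z)

theorem UC.act_gu (C : UC q F₀ M ι ε ε' θ x₀ r) {φ : (Fin n → F) → (Fin n → F)}
    (h : Act M φ) : ∃ g ∈ M, g ∈ GU n F q ∧ ∀ z, ac g z = φ z := by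
  obtain ⟨g, hg, hgz⟩ := h
  exact ⟨g, hg, (C.hMG hg).1, hgz⟩

/-- The coefficients of the root elements of `M` along the frame. -/
def Kall (q : ℕ) [hq : Fact (Fintype.card F = q ^ 2)] (M : Subgroup (GL (Fin n) F))
    (ι : Fin 3 × Bool ↪ Fin n) (ε ε' : F) (c : F) : Prop :=
  ∀ α β : Fin 3 × Bool, α.1 ≠ β.1 → Act M (eMap q (fr q ι ε ε' β) (c • fr q ι ε ε' α) 0)

theorem UC.kall_rat (C : UC q F₀ M ι ε ε' θ x₀ r) {a : F} (ha : a ∈ F₀) :
    Kall q M ι ε ε' a := by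
  intro α β hαβ
  refine C.rat_e (C.rv_fr β) (RV.smul ha (C.rv_fr α)) F₀.zero_mem (C.hfr_self β)
    (by rw [hl_smul, C.hfr0 hαβ, mul_zero]) ?_
  rw [hl_smul, hr_smul, C.hfr_self, map_zero]
  ring

theorem UC.kall_add (C : UC q F₀ M ι ε ε' θ x₀ r) {a b : F} (ha : Kall q M ι ε ε' a)
    (hb : Kall q M ι ε ε' b) : Kall q M ι ε ε' (a + b) := by
  intro α β hαβ
  refine ((ha α β hαβ).mul (hb α β hαβ)).congr (fun z => ?_)
  rw [eMap_comp _ _ _ _ _ (C.hfr_self β) (by rw [hl_smul, C.hfr0 hαβ, mul_zero])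
    (by rw [hr_smul, C.hfr0 (Ne.symm hαβ), mul_zero])]
  rw [← add_smul, hl_smul, hr_smul, C.hfr_self]
  simp

theorem fin3_third (a b : Fin 3) : ∃ k : Fin 3, k ≠ a ∧ k ≠ b := by
  revert a b
  decide

theorem UC.kall_mul (C : UC q F₀ M ι ε ε' θ x₀ r) {a b : F} (ha : Kall q M ι ε ε' a)
    (hb : Kall q M ι ε ε' b) : Kall q M ι ε ε' (a * b) := by
  intro α β hαβ
  obtain ⟨k, hkα, hkβ⟩ := fin3_third α.1 β.1
  have h1 := ha α (k, true) (Ne.symm hkα)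
  have h2 := hb (k, false) β hkβ
  exact Act.comm h1 h2 (eMap_comm _ _ _ _ a b (C.hfr0 (Ne.symm hkα)) (C.hfr0 hαβ)
    (C.hfr0 (Ne.symm hkα)) (C.hfr0 hkβ) (C.hfr0 hkβ) (C.hfr1 k true) (C.hfr_self α)
    (C.hfr_self β) (C.hfr_self _) (C.hfr_self _))

theorem UC.step2 (C : UC q F₀ M ι ε ε' θ x₀ r) {c : F} {α β β₂ : Fin 3 × Bool}
    (h : Act M (eMap q (fr q ι ε ε' β) (c • fr q ι ε ε' α) 0)) (hαβ : α.1 ≠ β.1)
    (h1 : β₂.1 ≠ α.1) (h2 : β₂.1 ≠ β.1) :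
    Act M (eMap q (fr q ι ε ε' β₂) (c • fr q ι ε ε' α) 0) := by
  obtain ⟨b, s⟩ := β
  have hr1 := C.kall_rat F₀.one_mem (b, !s) β₂ (Ne.symm h2)
  have h3 := Act.comm h hr1 (eMap_comm _ _ _ _ c 1 (C.hfr0 hαβ) (C.hfr0 (Ne.symm h1))
    (C.hfr0 hαβ) (C.hfr0 (Ne.symm h2)) (C.hfr0 (Ne.symm h2)) (C.hfr1 b s) (C.hfr_self α)
    (C.hfr_self β₂) (C.hfr_self _) (C.hfr_self _))
  rwa [mul_one] at h3

theorem UC.step1 (C : UC q F₀ M ι ε ε' θ x₀ r) {c : F} {α β α₂ : Fin 3 × Bool}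
    (h : Act M (eMap q (fr q ι ε ε' β) (c • fr q ι ε ε' α) 0)) (hαβ : α.1 ≠ β.1)
    (h1 : α₂.1 ≠ α.1) (h2 : α₂.1 ≠ β.1) :
    Act M (eMap q (fr q ι ε ε' β) (c • fr q ι ε ε' α₂) 0) := by
  obtain ⟨a, s⟩ := α
  have hr1 := C.kall_rat F₀.one_mem α₂ (a, !s) h1
  have h3 := Act.comm hr1 h (eMap_comm _ _ _ _ 1 c (C.hfr0 h1) (C.hfr0 h2)
    (C.hfr0 h1) (C.hfr0 hαβ) (C.hfr0 hαβ) (C.hfr1' a s) (C.hfr_self α₂)
    (C.hfr_self β) (C.hfr_self _) (C.hfr_self _))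
  rwa [one_mul] at h3

theorem UC.move2 (C : UC q F₀ M ι ε ε' θ x₀ r) {c : F} {α β β₂ : Fin 3 × Bool}
    (h : Act M (eMap q (fr q ι ε ε' β) (c • fr q ι ε ε' α) 0)) (hαβ : α.1 ≠ β.1)
    (h1 : β₂.1 ≠ α.1) : Act M (eMap q (fr q ι ε ε' β₂) (c • fr q ι ε ε' α) 0) := by
  by_cases h2 : β₂.1 = β.1
  · obtain ⟨k, hkα, hkβ⟩ := fin3_third α.1 β.1
    have h3 := C.step2 (β₂ := (k, true)) h hαβ hkα hkβ
    exact C.step2 h3 (Ne.symm hkα) h1 (by rw [h2]; exact Ne.symm hkβ)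
  · exact C.step2 h hαβ h1 h2

theorem UC.move1 (C : UC q F₀ M ι ε ε' θ x₀ r) {c : F} {α β α₂ : Fin 3 × Bool}
    (h : Act M (eMap q (fr q ι ε ε' β) (c • fr q ι ε ε' α) 0)) (hαβ : α.1 ≠ β.1)
    (h2 : α₂.1 ≠ β.1) : Act M (eMap q (fr q ι ε ε' β) (c • fr q ι ε ε' α₂) 0) := by
  by_cases h1 : α₂.1 = α.1
  · obtain ⟨k, hkα, hkβ⟩ := fin3_third α.1 β.1
    have h3 := C.step1 (α₂ := (k, true)) h hαβ hkα hkβ
    exact C.step1 h3 hkβ (by rw [h1]; exact Ne.symm hkα) h2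
  · exact C.step1 h hαβ h1 h2

/-- One root element with coefficient `c` gives all of them. -/
theorem UC.kall_of_one (C : UC q F₀ M ι ε ε' θ x₀ r) {c : F} {α₀ β₀ : Fin 3 × Bool}
    (h : Act M (eMap q (fr q ι ε ε' β₀) (c • fr q ι ε ε' α₀) 0)) (h₀ : α₀.1 ≠ β₀.1) :
    Kall q M ι ε ε' c := by
  intro α β hαβ
  by_cases h1 : β.1 = α₀.1
  · obtain ⟨k, hkα, hkβ⟩ := fin3_third α₀.1 β₀.1
    have h2 := C.move1 (α₂ := (k, true)) h h₀ hkβ
    have h3 := C.move2 (β₂ := β) h2 hkβ (by rw [h1]; exact Ne.symm hkα)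
    exact C.move1 h3 (by rw [h1]; exact hkα) hαβ
  · have h2 := C.move2 (β₂ := β) h h₀ h1
    exact C.move1 h2 (Ne.symm h1) hαβ

theorem UC.kall_dich (C : UC q F₀ M ι ε ε' θ x₀ r) :
    (∀ c, Kall q M ι ε ε' c → c ∈ F₀) ∨ (∀ c, Kall q M ι ε ε' c) :=
  dich r C.hr C.hcard (Kall q M ι ε ε') (fun _ ha => C.kall_rat ha)
    (fun _ _ ha hb => C.kall_add ha hb) (fun _ _ ha hb => C.kall_mul ha hb)

end

end Cfsg.Agent.H99.US
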