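import Cfsg.Agent.H99.USubC

set_option autoImplicit false
set_option linter.unusedSectionVars false

/-! Helper lemmas (helper99): if all root coefficients occur, the overgroup contains every unitary
transvection, hence the special unitary group. -/

namespace Cfsg.Agent.H99.US

open Matrix Cfsg Cfsg.Geo Cfsg.Agent.H99.SS
open scoped MatrixGroups

section
variable {F : Type*} [Field F] [Fintype F] {n q : ℕ} [hq : Fact (Fintype.card F = q ^ 2)]

theorem act_tMap_iff {M : Subgroup (GL (Fin n) F)} {v : Fin n → F} {c : F}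
    (hv : hermForm n F q v v = 0) :
    Act M (tMap q v c) ↔ Cfsg.Agent.H95.unitTransv q v c hv ∈ M := by
  have e : ∀ z, ac (Cfsg.Agent.H95.unitTransv q v c hv) z = tMap q v c z :=
    fun z => Cfsg.Agent.H95.unitTransv_mulVec v c hv z
  constructor
  · intro h
    exact h.mem e
  · intro h
    exact ⟨_, h, e⟩

theorem fr_apply_ne (ι : Fin 3 × Bool ↪ Fin n) (ε ε' : F) (m : Fin 3) (s : Bool) {k : Fin n}
    (h1 : k ≠ ι (m, true)) (h2 : k ≠ ι (m, false)) : fr q ι ε ε' (m, s) k = 0 := by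
  cases s
  · rw [fr_false, Pi.smul_apply, pv_apply_ne h1 h2, smul_zero]
  · rw [fr_true, pv_apply_ne h1 h2]

theorem h_pv_fr (ι : Fin 3 × Bool ↪ Fin n) (ε ε' : F) (m : Fin 3) (s : Bool) {j k : Fin n}
    (hj1 : j ≠ ι (m, true)) (hj2 : j ≠ ι (m, false)) (hk1 : k ≠ ι (m, true))
    (hk2 : k ≠ ι (m, false)) (e : F) :
    hermForm n F q (pv j k e) (fr q ι ε ε' (m, s)) = 0 := by
  rw [h_pv_left, fr_apply_ne ι ε ε' m s hj1 hj2, fr_apply_ne ι ε ε' m s hk1 hk2, map_zero]
  ring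

theorem exists_pv_ne {ε ε' : F} (hne : ε ≠ ε') {v : Fin n → F} {j : Fin n} (hvj : v j ≠ 0)
    (k : Fin n) : ∃ e : F, (e = ε ∨ e = ε') ∧ hermForm n F q (pv j k e) v ≠ 0 := by
  by_contra hcon
  push Not at hcon
  have h1 := hcon ε (Or.inl rfl)
  have h2 := hcon ε' (Or.inr rfl)
  rw [h_pv_left] at h1 h2
  have h3 : (ε - ε') * sg F q (v k) = 0 := by linear_combination h1 - h2
  rcases mul_eq_zero.mp h3 with h4 | h4
  · exact hne (sub_eq_zero.mp h4)
  · rw [h4, mul_zero, add_zero] at h1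
    apply hvj
    have h5 := sg_sg (q := q) (v j)
    rw [h1, map_zero] at h5
    exact h5.symm

theorem exists_other (ι : Fin 3 × Bool ↪ Fin n) (j : Fin n) :
    ∃ k : Fin n, k ≠ ι (0, true) ∧ k ≠ ι (0, false) ∧ k ≠ j := by
  by_cases h : j = ι (1, true)
  · refine ⟨ι (1, false), iota_ne' ι (by decide) _ _, iota_ne' ι (by decide) _ _, ?_⟩
    rw [h]
    exact (iota_ne ι 1).symm
  · exact ⟨ι (1, true), iota_ne' ι (by decide) _ _, iota_ne' ι (by decide) _ _, Ne.symm h⟩

theorem exists_jm (ι : Fin 3 × Bool ↪ Fin n) (k : Fin n) :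
    ∃ (j : Fin n) (m : Fin 3), m ≠ 0 ∧ j ≠ k ∧ j ≠ ι (0, true) ∧ j ≠ ι (0, false) ∧
      j ≠ ι (m, true) ∧ j ≠ ι (m, false) ∧ k ≠ ι (m, true) ∧ k ≠ ι (m, false) := by
  by_cases h1 : k = ι (1, true)
  · refine ⟨ι (1, false), 2, by decide, ?_, iota_ne' ι (by decide) _ _, iota_ne' ι (by decide) _ _,
      iota_ne' ι (by decide) _ _, iota_ne' ι (by decide) _ _, ?_, ?_⟩
    · rw [h1]; exact (iota_ne ι 1).symm
    · rw [h1]; exact iota_ne' ι (by decide) _ _
    · rw [h1]; exact iota_ne' ι (by decide) _ _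
  by_cases h2 : k = ι (1, false)
  · refine ⟨ι (1, true), 2, by decide, ?_, iota_ne' ι (by decide) _ _, iota_ne' ι (by decide) _ _,
      iota_ne' ι (by decide) _ _, iota_ne' ι (by decide) _ _, ?_, ?_⟩
    · rw [h2]; exact iota_ne ι 1
    · rw [h2]; exact iota_ne' ι (by decide) _ _
    · rw [h2]; exact iota_ne' ι (by decide) _ _
  by_cases h3 : k = ι (2, true)
  · refine ⟨ι (2, false), 1, by decide, ?_, iota_ne' ι (by decide) _ _,
      iota_ne' ι (by decide) _ _, iota_ne' ι (by decide) _ _, iota_ne' ι (by decide) _ _, h1, h2⟩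
    rw [h3]; exact (iota_ne ι 2).symm
  · exact ⟨ι (2, true), 1, by decide, Ne.symm h3, iota_ne' ι (by decide) _ _,
      iota_ne' ι (by decide) _ _, iota_ne' ι (by decide) _ _, iota_ne' ι (by decide) _ _, h1, h2⟩

theorem single_eq_pv {ε ε' : F} (hne : ε ≠ ε') (j k : Fin n) :
    (Pi.single k (1 : F) : Fin n → F) = (ε - ε')⁻¹ • pv j k ε + (-(ε - ε')⁻¹) • pv j k ε' := by
  have hd : ε - ε' ≠ 0 := sub_ne_zero.mpr hne
  unfold pv
  rw [smul_add, smul_add, smul_smul, smul_smul]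
  have e : (ε - ε')⁻¹ * ε + -(ε - ε')⁻¹ * ε' = 1 := by
    field_simp
    ring
  have e2 : (ε - ε')⁻¹ • (Pi.single j (1 : F) : Fin n → F) + ((ε - ε')⁻¹ * ε) • Pi.single k 1
      + (-(ε - ε')⁻¹ • Pi.single j 1 + (-(ε - ε')⁻¹ * ε') • Pi.single k 1)
      = ((ε - ε')⁻¹ * ε + -(ε - ε')⁻¹ * ε') • Pi.single k 1 := by
    module
  rw [e2, e, one_smul]

variable {F₀ : Subfield F} {M : Subgroup (GL (Fin n) F)} {ι : Fin 3 × Bool ↪ Fin n}
  {ε ε' θ x₀ : F} {r : ℕ}

/-- Centres of full transvection groups of `M`. -/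
def Cen (q : ℕ) [hq : Fact (Fintype.card F = q ^ 2)] (M : Subgroup (GL (Fin n) F))
    (v : Fin n → F) : Prop :=
  hermForm n F q v v = 0 ∧ ∀ s : F, sg F q s = -s → Act M (tMap q v s)

theorem UC.cen_conj (C : UC q F₀ M ι ε ε' θ x₀ r) {v : Fin n → F} (hv : Cen q M v)
    {g : GL (Fin n) F} (hg : g ∈ M) : Cen q M (ac g v) := by
  have hgu : g ∈ GU n F q := (C.hMG hg).1
  refine ⟨by rw [gu_h hgu, hv.1], fun s hs => ?_⟩
  exact ((hv.2 s hs).conj hg).congr (fun z => tMap_conj hgu v s z)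

theorem Cen.smul {v : Fin n → F} (hv : Cen q M v) (l : F) : Cen q M (l • v) := by
  refine ⟨by rw [hl_smul, hr_smul, hv.1, mul_zero, mul_zero], fun s hs => ?_⟩
  refine (hv.2 (l * sg F q l * s) ?_).congr (fun z => (tMap_smul_center v s l z).symm)
  rw [map_mul, map_mul, sg_sg, hs]
  ring

theorem UC.cen_fr (C : UC q F₀ M ι ε ε' θ x₀ r) (hK : ∀ c, Kall q M ι ε ε' c)
    (β : Fin 3 × Bool) : Cen q M (fr q ι ε ε' β) := by
  refine ⟨C.hfr_self β, fun s hs => ?_⟩
  obtain ⟨k, hk, -⟩ := fin3_third β.1 β.1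
  obtain ⟨l, hl⟩ := Cfsg.Agent.H17.exists_sub_frob_eq hq.out s hs
  have h1 := hK l (k, false) β hk
  have h2 := hK 1 (k, true) β hk
  have h3 := Act.comm h1 h2 (eMap_comm_center _ _ _ 0 0 (C.hfr_self β)
    (by rw [hl_smul, C.hfr0 hk, mul_zero]) (by rw [hl_smul, C.hfr0 hk, mul_zero]))
  refine h3.congr (fun z => ?_)
  have e : hermForm n F q (l • fr q ι ε ε' (k, false)) ((1 : F) • fr q ι ε ε' (k, true))
      - hermForm n F q ((1 : F) • fr q ι ε ε' (k, true)) (l • fr q ι ε ε' (k, false)) = s := by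
    have hfe : hermForm n F q (fr q ι ε ε' (k, false)) (fr q ι ε ε' (k, true)) = 1 :=
      C.hfr1' k true
    have hef : hermForm n F q (fr q ι ε ε' (k, true)) (fr q ι ε ε' (k, false)) = 1 :=
      C.hfr1 k true
    rw [hl_smul, hr_smul, hl_smul, hr_smul, hfe, hef, map_one, ← hl, sg_apply]
    ring
  rw [e]

/-- The vectors `u` such that some Eichler map with centre `e₀` and vector `u` lies in `M`. -/
def Lam (q : ℕ) [hq : Fact (Fintype.card F = q ^ 2)] (M : Subgroup (GL (Fin n) F))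
    (e₀ u : Fin n → F) : Prop :=
  hermForm n F q u e₀ = 0 ∧
    ∃ b : F, b + sg F q b + hermForm n F q u u = 0 ∧ Act M (eMap q e₀ u b)

theorem Lam.add {e₀ u u' : Fin n → F} (he : hermForm n F q e₀ e₀ = 0) (h1 : Lam q M e₀ u)
    (h2 : Lam q M e₀ u') : Lam q M e₀ (u + u') := by
  obtain ⟨hu, b, hb, hact⟩ := h1
  obtain ⟨hu', b', hb', hact'⟩ := h2
  refine ⟨by rw [hl_add, hu, hu', add_zero], b + b' - hermForm n F q u' u, ?_, ?_⟩
  · simp only [map_add, map_sub, sg_h, hl_add, hr_add]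
    linear_combination hb + hb'
  · exact (hact.mul hact').congr (fun z => eMap_comp e₀ u u' b b' he hu' (h_swap hu) z)

theorem UC.lam_gen (C : UC q F₀ M ι ε ε' θ x₀ r) (hK : ∀ c, Kall q M ι ε ε' c)
    {w : Fin n → F} (hw : RV F₀ w) (hww : hermForm n F q w w = 0)
    (hw0 : hermForm n F q w (fr q ι ε ε' (0, true)) = 0) (m : Fin 3) (hm : m ≠ 0)
    (hwe : hermForm n F q w (fr q ι ε ε' (m, true)) = 0)
    (hwf : hermForm n F q w (fr q ι ε ε' (m, false)) = 0) (d : F) :
    Lam q M (fr q ι ε ε' (0, true)) (d • w) := by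
  refine ⟨by rw [hl_smul, hw0, mul_zero], 0, by rw [hl_smul, hr_smul, hww]; simp, ?_⟩
  have h1 : Act M (eMap q (fr q ι ε ε' (m, false)) ((1 : F) • w) 0) :=
    C.rat_e (C.rv_fr _) (RV.smul F₀.one_mem hw) F₀.zero_mem (C.hfr_self _)
      (by rw [hl_smul, hwf, mul_zero]) (by rw [hl_smul, hr_smul, hww]; simp)
  have h2 := hK d (m, true) (0, true) hm
  have h3 := Act.comm h1 h2 (eMap_comm w (fr q ι ε ε' (0, true)) (fr q ι ε ε' (m, false))
    (fr q ι ε ε' (m, true)) 1 d hwf hw0 hwe (C.hfr0 hm) (C.hfr0 hm) (C.hfr1' m true) hww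
    (C.hfr_self _) (C.hfr_self _) (C.hfr_self _))
  rwa [one_mul] at h3

theorem UC.lam_single (C : UC q F₀ M ι ε ε' θ x₀ r) (hK : ∀ c, Kall q M ι ε ε' c)
    {k : Fin n} (hk0 : k ≠ ι (0, true)) (hk1 : k ≠ ι (0, false)) (c : F) :
    Lam q M (fr q ι ε ε' (0, true)) (c • Pi.single k 1) := by
  obtain ⟨j, m, hm, hjk, hj0, hj1, hjm, hjm', hkm, hkm'⟩ := exists_jm ι k
  have key : ∀ e : F, e ∈ F₀ → e * sg F q e = -1 → ∀ d : F,
      Lam q M (fr q ι ε ε' (0, true)) (d • pv j k e) := by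
    intro e he hee d
    exact C.lam_gen hK (RV.pv j k he) (pv_iso hjk hee) (h_pv_fr ι ε ε' 0 true hj0 hj1 hk0 hk1 e)
      m hm (h_pv_fr ι ε ε' m true hjm hjm' hkm hkm' e)
      (h_pv_fr ι ε ε' m false hjm hjm' hkm hkm' e) d
  have h1 := Lam.add (C.hfr_self _) (key ε C.hε C.nε (c * (ε - ε')⁻¹))
    (key ε' C.hε' C.nε' (c * -(ε - ε')⁻¹))
  have e : c • (Pi.single k (1 : F) : Fin n → F)
      = (c * (ε - ε')⁻¹) • pv j k ε + (c * -(ε - ε')⁻¹) • pv j k ε' := by
    rw [single_eq_pv C.hne j k, smul_add, smul_smul, smul_smul]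
  rw [e]
  exact h1

theorem UC.lam_all (C : UC q F₀ M ι ε ε' θ x₀ r) (hK : ∀ c, Kall q M ι ε ε' c)
    {u : Fin n → F} (hu : hermForm n F q u (fr q ι ε ε' (0, true)) = 0) :
    Lam q M (fr q ι ε ε' (0, true)) u := by
  classical
  have h01 := iota_ne ι 0
  have hzero : Lam q M (fr q ι ε ε' (0, true)) 0 :=
    ⟨hl_zero _, 0, by simp, ⟨1, M.one_mem, fun z => by rw [ac_one, eMap_zero_zero]⟩⟩
  obtain ⟨S, hS⟩ : ∃ S : Finset (Fin n), S = Finset.univ.filter
      (fun k => k ≠ ι (0, true) ∧ k ≠ ι (0, false)) := ⟨_, rfl⟩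
  have hsum : Lam q M (fr q ι ε ε' (0, true)) (∑ k ∈ S, u k • Pi.single k 1) := by
    have : ∀ T : Finset (Fin n), T ⊆ S →
        Lam q M (fr q ι ε ε' (0, true)) (∑ k ∈ T, u k • Pi.single k 1) := by
      intro T
      induction T using Finset.induction_on with
      | empty => intro _; rw [Finset.sum_empty]; exact hzero
      | insert a T ha ih =>
        intro hT
        rw [Finset.sum_insert ha]
        have haS : a ∈ S := hT (Finset.mem_insert_self a T)
        rw [hS, Finset.mem_filter] at haS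
        exact Lam.add (C.hfr_self _) (C.lam_single hK haS.2.1 haS.2.2 (u a))
          (ih (fun x hx => hT (Finset.mem_insert_of_mem hx)))
    exact this S (Finset.Subset.refl S)
  have hl : Lam q M (fr q ι ε ε' (0, true)) (u (ι (0, true)) • fr q ι ε ε' (0, true)) := by
    refine ⟨by rw [hl_smul, C.hfr_self, mul_zero],
      sg F q (u (ι (0, true))) - u (ι (0, true)), ?_, ⟨1, M.one_mem, fun z => ?_⟩⟩
    · rw [hl_smul, hr_smul, C.hfr_self, map_sub, sg_sg]
      ring
    · have h1 := eMap_add_center (q := q) (fr q ι ε ε' (0, true)) 0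
        (sg F q (u (ι (0, true))) - u (ι (0, true))) (u (ι (0, true))) z
      rw [zero_add] at h1
      rw [ac_one, h1]
      have e : sg F q (u (ι (0, true))) - u (ι (0, true)) + u (ι (0, true))
          - sg F q (u (ι (0, true))) = 0 := by ring
      rw [e, eMap_zero_zero]
  have hdec : u = ∑ k ∈ S, u k • Pi.single k 1 + u (ι (0, true)) • fr q ι ε ε' (0, true) := by
    rw [fr_true, h_pv_right] at hu
    funext i
    rw [Pi.add_apply, Finset.sum_apply, Pi.smul_apply, fr_true, smul_eq_mul]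
    have hsum' : ∑ k ∈ S, (u k • (Pi.single k (1 : F) : Fin n → F)) i
        = if i ∈ S then u i else 0 := by
      rw [← Finset.sum_ite_eq' S i (fun k => u k)]
      apply Finset.sum_congr rfl
      intro k _
      rw [Pi.smul_apply, Pi.single_apply, smul_eq_mul]
      by_cases hik : i = k
      · subst hik
        simp
      · rw [if_neg hik, if_neg (fun h => hik h.symm), mul_zero]
    rw [hsum']
    by_cases hi0 : i = ι (0, true)
    · subst hi0
      rw [if_neg (by rw [hS, Finset.mem_filter]; simp), pv_apply_left h01]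
      ring
    by_cases hi1 : i = ι (0, false)
    · subst hi1
      rw [if_neg (by rw [hS, Finset.mem_filter]; simp), pv_apply_right h01]
      linear_combination (-(ε : F)) * hu + u (ι (0, false)) * C.nε
    · rw [if_pos (by rw [hS, Finset.mem_filter]; exact ⟨Finset.mem_univ _, hi0, hi1⟩),
        pv_apply_ne hi0 hi1]
      ring
  rw [hdec]
  exact Lam.add (C.hfr_self _) hsum hl

theorem UC.lam_b (C : UC q F₀ M ι ε ε' θ x₀ r) (hK : ∀ c, Kall q M ι ε ε' c)
    {u : Fin n → F} (hu : hermForm n F q u (fr q ι ε ε' (0, true)) = 0) {b : F}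
    (hb : b + sg F q b + hermForm n F q u u = 0) :
    Act M (eMap q (fr q ι ε ε' (0, true)) u b) := by
  obtain ⟨-, b₁, hb₁, hact⟩ := C.lam_all hK hu
  have hs : sg F q (b - b₁) = -(b - b₁) := by
    rw [map_sub]
    linear_combination hb - hb₁
  refine (((C.cen_fr hK (0, true)).2 (b - b₁) hs).mul hact).congr (fun z => ?_)
  rw [tMap_eMap _ _ _ _ (C.hfr_self _) hu]
  congr 1
  ring

/-- Every isotropic vector not orthogonal to `e₀` is a centre. -/
theorem UC.cen_of_ne (C : UC q F₀ M ι ε ε' θ x₀ r) (hK : ∀ c, Kall q M ι ε ε' c)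
    {v : Fin n → F} (hvv : hermForm n F q v v = 0)
    (hv : hermForm n F q v (fr q ι ε ε' (0, true)) ≠ 0) : Cen q M v := by
  obtain ⟨κ, hκ⟩ : ∃ κ : F, κ = hermForm n F q v (fr q ι ε ε' (0, true)) := ⟨_, rfl⟩
  obtain ⟨v', hv'⟩ : ∃ v' : Fin n → F, v' = κ⁻¹ • v := ⟨_, rfl⟩
  have hκ0 : κ ≠ 0 := by rw [hκ]; exact hv
  have h1 : hermForm n F q v' (fr q ι ε ε' (0, true)) = 1 := by
    rw [hv', hl_smul, ← hκ, inv_mul_cancel₀ hκ0]
  have hv'v' : hermForm n F q v' v' = 0 := by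
    rw [hv', hl_smul, hr_smul, hvv, mul_zero, mul_zero]
  obtain ⟨β, hβ⟩ : ∃ β : F, β = hermForm n F q v' (fr q ι ε ε' (0, false)) := ⟨_, rfl⟩
  obtain ⟨u₀, hu₀⟩ : ∃ u₀ : Fin n → F,
      u₀ = v' - fr q ι ε ε' (0, false) - β • fr q ι ε ε' (0, true) := ⟨_, rfl⟩
  have hfe : hermForm n F q (fr q ι ε ε' (0, false)) (fr q ι ε ε' (0, true)) = 1 :=
    C.hfr1' 0 true
  have hef : hermForm n F q (fr q ι ε ε' (0, true)) (fr q ι ε ε' (0, false)) = 1 :=
    C.hfr1 0 true
  have hu₀e : hermForm n F q u₀ (fr q ι ε ε' (0, true)) = 0 := by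
    rw [hu₀, hl_sub, hl_sub, hl_smul, h1, hfe, C.hfr_self]
    ring
  have hu₀f : hermForm n F q u₀ (fr q ι ε ε' (0, false)) = 0 := by
    rw [hu₀, hl_sub, hl_sub, hl_smul, ← hβ, hef, C.hfr_self]
    ring
  have hv'dec : v' = u₀ + fr q ι ε ε' (0, false) + β • fr q ι ε ε' (0, true) := by
    rw [hu₀]
    module
  have hb : β + sg F q β + hermForm n F q u₀ u₀ = 0 := by
    have h2 := hv'v'
    rw [hv'dec] at h2
    simp only [hl_add, hl_smul, hr_add, hr_smul, hu₀e, hu₀f, h_swap hu₀e, h_swap hu₀f, hfe, hef,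
      C.hfr_self, mul_zero, add_zero, zero_add, mul_one] at h2
    linear_combination h2
  obtain ⟨g, hg, hgz⟩ := C.lam_b hK hu₀e hb
  have h3 : ac g (fr q ι ε ε' (0, false)) = v' := by
    rw [hgz, hv'dec]
    unfold eMap
    rw [hfe, h_swap hu₀f]
    module
  have h4 := C.cen_conj (C.cen_fr hK (0, false)) hg
  rw [h3] at h4
  have h5 := h4.smul κ
  rwa [hv', smul_smul, mul_inv_cancel₀ hκ0, one_smul] at h5

theorem UC.cen_all (C : UC q F₀ M ι ε ε' θ x₀ r) (hK : ∀ c, Kall q M ι ε ε' c)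
    (v : Fin n → F) (hvv : hermForm n F q v v = 0) : Cen q M v := by
  by_cases hv0 : v = 0
  · subst hv0
    exact ⟨hvv, fun s _ => ⟨1, M.one_mem, fun z => by
      rw [ac_one]
      unfold tMap
      simp⟩⟩
  by_cases hve : hermForm n F q v (fr q ι ε ε' (0, true)) = 0
  swap
  · exact C.cen_of_ne hK hvv hve
  -- find an isotropic `z` with `h(z, e₀) ≠ 0` and `h(v, z) ≠ 0`
  have hfe : hermForm n F q (fr q ι ε ε' (0, false)) (fr q ι ε ε' (0, true)) = 1 :=
    C.hfr1' 0 true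
  obtain ⟨z, hzz, hze, hvz⟩ : ∃ z : Fin n → F, hermForm n F q z z = 0 ∧
      hermForm n F q z (fr q ι ε ε' (0, true)) ≠ 0 ∧ hermForm n F q v z ≠ 0 := by
    by_cases hvf : hermForm n F q v (fr q ι ε ε' (0, false)) = 0
    swap
    · exact ⟨fr q ι ε ε' (0, false), C.hfr_self _, by rw [hfe]; exact one_ne_zero, hvf⟩
    have h01 := iota_ne ι 0
    have hd := eps_aux C.nε C.nε' C.hne
    have hv1 : v (ι (0, false)) = 0 := by
      have h1 := hve
      have h2 := hvf
      rw [fr_true, h_pv_right] at h1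
      rw [fr_false, hr_smul, h_pv_right] at h2
      have h3 : v (ι (0, true)) + sg F q ε' * v (ι (0, false)) = 0 := by
        rcases mul_eq_zero.mp h2 with h4 | h4
        · exfalso
          have h5 := sg_sg (q := q) ((1 + ε' * sg F q ε)⁻¹)
          rw [h4, map_zero] at h5
          exact inv_ne_zero hd h5.symm
        · exact h4
      have h4 : (sg F q ε - sg F q ε') * v (ι (0, false)) = 0 := by linear_combination h1 - h3
      rcases mul_eq_zero.mp h4 with h5 | h5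
      · exfalso
        apply C.hne
        have h6 := congrArg (sg F q) (sub_eq_zero.mp h5)
        rwa [sg_sg, sg_sg] at h6
      · exact h5
    have hv0' : v (ι (0, true)) = 0 := by
      have h1 := hve
      rw [fr_true, h_pv_right, hv1, mul_zero, add_zero] at h1
      exact h1
    obtain ⟨j, hj⟩ : ∃ j, v j ≠ 0 := by
      by_contra hcon
      push Not at hcon
      exact hv0 (funext hcon)
    have hj0 : j ≠ ι (0, true) := fun h => hj (by rw [h, hv0'])
    have hj1 : j ≠ ι (0, false) := fun h => hj (by rw [h, hv1])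
    obtain ⟨k, hk0, hk1, hkj⟩ := exists_other ι j
    obtain ⟨e, he, hpv⟩ := exists_pv_ne (q := q) C.hne hj k
    have hee : e * sg F q e = -1 := by
      rcases he with rfl | rfl
      · exact C.nε
      · exact C.nε'
    have hpf : ∀ s : Bool, hermForm n F q (pv j k e) (fr q ι ε ε' (0, s)) = 0 :=
      fun s => h_pv_fr ι ε ε' 0 s hj0 hj1 hk0 hk1 e
    refine ⟨fr q ι ε ε' (0, false) + pv j k e, ?_, ?_, ?_⟩
    · rw [hl_add, hr_add, hr_add, C.hfr_self, pv_iso (Ne.symm hkj) hee, hpf false,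
        h_swap (hpf false)]
      ring
    · rw [hl_add, hfe, hpf true, add_zero]
      exact one_ne_zero
    · rw [hr_add, hvf, zero_add]
      intro h
      apply hpv
      exact h_swap h
  have hcz := C.cen_of_ne hK hzz hze
  obtain ⟨v', hv'⟩ : ∃ v' : Fin n → F, v' = tMap q z θ v := ⟨_, rfl⟩
  obtain ⟨g, hg, hgz⟩ := hcz.2 θ C.sθ
  have hv'g : v' = ac g v := by rw [hv', hgz]
  have hv'v' : hermForm n F q v' v' = 0 := by rw [hv'g, gu_h (C.hMG hg).1, hvv]
  have hv'e : hermForm n F q v' (fr q ι ε ε' (0, true)) ≠ 0 := by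
    rw [hv']
    unfold tMap
    rw [hl_add, hl_smul, hve, zero_add]
    exact mul_ne_zero (mul_ne_zero C.hθ0 hvz) hze
  have hcv' := C.cen_of_ne hK hv'v' hv'e
  have h1 := C.cen_conj hcv' (M.inv_mem hg)
  rwa [hv'g, ac_inv_ac] at h1

/-- If every coefficient occurs, `M` contains the special unitary group. -/
theorem UC.su_le (C : UC q F₀ M ι ε ε' θ x₀ r) (hK : ∀ c, Kall q M ι ε ε' c) :
    GU n F q ⊓ specialLinear (Fin n) F ≤ M := by
  have hn : 6 ≤ n := by
    have h1 := Fintype.card_le_of_embedding ι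
    simpa using h1
  refine Cfsg.Agent.H95.suGL_le_of_transv hq.out (by omega) (by omega) M (fun v c hv hc => ?_)
  have hs : sg F q c = -c := by
    rw [sg_apply]
    linear_combination hc
  exact (act_tMap_iff hv).mp ((C.cen_all hK v hv).2 c hs)

end

end Cfsg.Agent.H99.US
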