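import Cfsg.Agent.H99.USubD

set_option autoImplicit false
set_option linter.unusedSectionVars false

/-! Helper lemmas (helper99): when the root coefficients of the overgroup are rational, its
transvections and Eichler elements at the first frame vector are rational. -/

namespace Cfsg.Agent.H99.US

open Matrix Cfsg Cfsg.Geo Cfsg.Agent.H99.SS
open scoped MatrixGroups

section
variable {F : Type*} [Field F] [Fintype F] {n q : ℕ} [hq : Fact (Fintype.card F = q ^ 2)]

/-- A product of two transvections with centres `a + b` and `a + ζ b`. -/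
theorem tt_prod (a b : Fin n → F) (s ζ : F) (hs : sg F q s = -s) (hζ : ζ * sg F q ζ = 1)
    (ha : hermForm n F q a a = 0) (hb : hermForm n F q b b = 0)
    (hab : hermForm n F q a b = 0) (z : Fin n → F) :
    tMap q (a + (1 : F) • b) s (tMap q (a + ζ • b) (-s) z)
      = eMap q b ((s * (1 - sg F q ζ)) • a) 0 z := by
  have hba := h_swap hab
  unfold eMap tMap
  simp only [hl_add, hl_smul, hr_add, hr_smul, ha, hb, hab, hba, mul_zero, add_zero, zero_add,
    map_mul, map_sub, map_one, sg_sg, hs, zero_mul, zero_smul, one_mul, mul_one]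
  funext i
  simp only [Pi.add_apply, Pi.smul_apply, Pi.sub_apply, smul_eq_mul]
  linear_combination (-(s * hermForm n F q z b * b i)) * hζ

variable {F₀ : Subfield F} {M : Subgroup (GL (Fin n) F)} {ι : Fin 3 × Bool ↪ Fin n}
  {ε ε' θ x₀ : F} {r : ℕ}

local notation "E0" => fr q ι ε ε' ((0 : Fin 3), true)
local notation "F0" => fr q ι ε ε' ((0 : Fin 3), false)
local notation "E1" => fr q ι ε ε' ((1 : Fin 3), true)
local notation "I0" => ι ((0 : Fin 3), true)
local notation "I1" => ι ((0 : Fin 3), false)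

theorem UC.e0_coord (C : UC q F₀ M ι ε ε' θ x₀ r) {u : Fin n → F}
    (hu : hermForm n F q u E0 = 0) : u I1 = u I0 * ε := by
  rw [fr_true, h_pv_right] at hu
  linear_combination (-(ε : F)) * hu + u I1 * C.nε

theorem UC.rv_sub_e0 (C : UC q F₀ M ι ε ε' θ x₀ r) {u : Fin n → F}
    (hu : hermForm n F q u E0 = 0) (hk : ∀ m, m ≠ I0 → m ≠ I1 → u m ∈ F₀) :
    RV F₀ (u - u I0 • E0) := by
  have h01 := iota_ne ι 0
  intro i
  rw [Pi.sub_apply, Pi.smul_apply, smul_eq_mul, fr_true]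
  by_cases hi0 : i = I0
  · rw [hi0, pv_apply_left h01, mul_one, sub_self]
    exact F₀.zero_mem
  by_cases hi1 : i = I1
  · rw [hi1, pv_apply_right h01, C.e0_coord hu, sub_self]
    exact F₀.zero_mem
  · rw [pv_apply_ne hi0 hi1, mul_zero, sub_zero]
    exact hk i hi0 hi1

/-- Rationality of the long root coefficients. -/
theorem UC.long_rat (C : UC q F₀ M ι ε ε' θ x₀ r) (hK : ∀ c, Kall q M ι ε ε' c → c ∈ F₀)
    {s : F} (hs : sg F q s = -s) (h : Act M (tMap q E0 s)) : s ∈ F₀ := by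
  have hE0 : hermForm n F q E0 E0 = 0 := C.hfr_self _
  have hE1 : hermForm n F q E1 E1 = 0 := C.hfr_self _
  have hE01 : hermForm n F q E0 E1 = 0 := C.hfr0 (by decide)
  have hEF : hermForm n F q E0 F0 = 1 := C.hfr1 0 true
  have hT : ∀ c ∈ F₀, Act M (tMap q (E0 + c • E1) s) := by
    intro c hc
    obtain ⟨g, hg, hgu, hgz⟩ := C.act_gu (C.kall_rat hc (1, true) (0, false) (by decide))
    have h1 := (h.conj hg).congr (fun z => tMap_conj hgu _ s z)
    have h2 : ac g E0 = E0 + c • E1 := by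
      rw [hgz]
      unfold eMap
      rw [hEF, hr_smul, hE01]
      module
    rwa [h2] at h1
  have hε0 : ε ≠ 0 := by
    intro h0
    have h1 := C.nε
    rw [h0, zero_mul] at h1
    exact one_ne_zero (neg_eq_zero.mp h1.symm)
  have hsε0 : sg F q ε ≠ 0 := by
    intro h0
    have h1 := C.nε
    rw [h0, mul_zero] at h1
    exact one_ne_zero (neg_eq_zero.mp h1.symm)
  obtain ⟨ζ, hζdef⟩ : ∃ ζ : F, ζ = ε' * ε⁻¹ := ⟨_, rfl⟩
  have hζm : ζ ∈ F₀ := by rw [hζdef]; exact F₀.mul_mem C.hε' (F₀.inv_mem C.hε)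
  have hζ : ζ * sg F q ζ = 1 := by
    rw [hζdef, map_mul, map_inv₀]
    have h1 := C.nε
    have h2 := C.nε'
    field_simp
    linear_combination h2 - h1
  have hζ1 : 1 - sg F q ζ ≠ 0 := by
    intro h0
    have h1 : sg F q ζ = 1 := by linear_combination -h0
    have h2 : ζ = 1 := by
      have h3 := congrArg (sg F q) h1
      rwa [sg_sg, map_one] at h3
    rw [hζdef] at h2
    apply C.hne
    field_simp at h2
    exact h2.symm
  have h1 := hT 1 F₀.one_mem
  have h2 := hT ζ hζm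
  have hiso : hermForm n F q (E0 + ζ • E1) (E0 + ζ • E1) = 0 := by
    simp only [hl_add, hl_smul, hr_add, hr_smul, hE0, hE1, hE01, h_swap hE01]
    ring
  have h2' : Act M (tMap q (E0 + ζ • E1) (-s)) :=
    h2.inv (fun z => by rw [tMap_tMap _ _ _ hiso, add_neg_cancel, tMap_zero])
  have h3 := (h1.mul h2').congr (fun z => tt_prod E0 E1 s ζ hs hζ hE0 hE1 hE01 z)
  have h4 := hK _ (C.kall_of_one h3 (by decide))
  have h5 := F₀.mul_mem h4 (F₀.inv_mem (F₀.sub_mem F₀.one_mem (sg_mem (q := q) hζm)))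
  rwa [mul_assoc, mul_inv_cancel₀ hζ1, mul_one] at h5

/-- Rationality of the Eichler elements of `M` with centre `e₀`. -/
theorem UC.q_rat (C : UC q F₀ M ι ε ε' θ x₀ r) (hK : ∀ c, Kall q M ι ε ε' c → c ∈ F₀)
    {u : Fin n → F} {b : F} (hu : hermForm n F q u E0 = 0) (hact : Act M (eMap q E0 u b)) :
    RV F₀ (u - u I0 • E0) := by
  have key : ∀ w : Fin n → F, RV F₀ w → hermForm n F q w w = 0 → hermForm n F q w E0 = 0 →
      hermForm n F q u w ∈ F₀ := by
    intro w hw hww hwe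
    apply tr_mem C.hx₀ C.sx₀
    intro c hc
    have h1 : Act M (eMap q E0 (sg F q c • w) 0) :=
      C.rat_e (C.rv_fr _) (RV.smul (sg_mem hc) hw) F₀.zero_mem (C.hfr_self _)
        (by rw [hl_smul, hwe, mul_zero]) (by rw [hl_smul, hr_smul, hww]; simp)
    have h2 := Act.comm hact h1 (eMap_comm_center E0 u (sg F q c • w) b 0 (C.hfr_self _) hu
      (by rw [hl_smul, hwe, mul_zero]))
    have h3 := C.long_rat hK (by rw [map_sub, sg_h, sg_h]; ring) h2
    have e : c * hermForm n F q u w - sg F q (c * hermForm n F q u w)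
        = hermForm n F q u (sg F q c • w) - hermForm n F q (sg F q c • w) u := by
      rw [hr_smul, hl_smul, sg_sg, map_mul, sg_h]
    rw [e]
    exact h3
  refine C.rv_sub_e0 hu (fun m hm0 hm1 => ?_)
  obtain ⟨j, hj0, hj1, hjm⟩ := exists_other ι m
  have h1 := key (pv j m ε) (RV.pv j m C.hε) (pv_iso hjm C.nε)
    (h_pv_fr ι ε ε' 0 true hj0 hj1 hm0 hm1 ε)
  have h2 := key (pv j m ε') (RV.pv j m C.hε') (pv_iso hjm C.nε')
    (h_pv_fr ι ε ε' 0 true hj0 hj1 hm0 hm1 ε')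
  rw [h_pv_right] at h1 h2
  have h3 := F₀.sub_mem h1 h2
  have e : u j + sg F q ε * u m - (u j + sg F q ε' * u m) = (sg F q ε - sg F q ε') * u m := by
    ring
  rw [e] at h3
  have hd : sg F q ε - sg F q ε' ≠ 0 := by
    intro h0
    apply C.hne
    have h4 := congrArg (sg F q) (sub_eq_zero.mp h0)
    rwa [sg_sg, sg_sg] at h4
  have h5 := F₀.mul_mem (F₀.inv_mem (F₀.sub_mem (sg_mem (q := q) C.hε) (sg_mem (q := q) C.hε'))) h3
  rwa [← mul_assoc, inv_mul_cancel₀ hd, one_mul] at h5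

theorem UC.perp_aux (C : UC q F₀ M ι ε ε' θ x₀ r) (hK : ∀ c, Kall q M ι ε ε' c → c ∈ F₀)
    {b : Fin n → F} {s : F} (hbe : hermForm n F q b E0 = 0) (hact : Act M (tMap q b s))
    {w : Fin n → F} (hw : RV F₀ w) (hww : hermForm n F q w w = 0)
    (hwe : hermForm n F q w E0 = 0) {m : Fin n} (hm0 : m ≠ I0) (hm1 : m ≠ I1) :
    s * hermForm n F q w b * b m ∈ F₀ := by
  obtain ⟨τ, hτ, hτu, hτz⟩ := C.act_gu hact
  have h1 : Act M (eMap q E0 w 0) :=
    C.rat_e (C.rv_fr _) hw F₀.zero_mem (C.hfr_self _) hwe (by rw [hww]; simp)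
  have h2 := (h1.conj hτ).congr (fun z => eMap_conj hτu _ _ _ z)
  have e1 : ac τ E0 = E0 := by
    rw [hτz]
    unfold tMap
    rw [h_swap hbe, mul_zero, zero_smul, add_zero]
  have e2 : ac τ w = w + (s * hermForm n F q w b) • b := by
    rw [hτz]
    rfl
  rw [e1, e2] at h2
  have h3 := C.q_rat hK (by rw [hl_add, hl_smul, hwe, hbe]; ring) h2
  have h4 := h3 m
  rw [Pi.sub_apply, Pi.add_apply, Pi.smul_apply, Pi.smul_apply,
    fr_apply_ne ι ε ε' 0 true hm0 hm1, smul_zero, sub_zero, smul_eq_mul] at h4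
  have h5 := F₀.sub_mem h4 (hw m)
  rwa [add_sub_cancel_left] at h5

/-- A transvection of `M` whose centre is orthogonal to `e₀` has a rational centre. -/
theorem UC.perp_rat (C : UC q F₀ M ι ε ε' θ x₀ r) (hK : ∀ c, Kall q M ι ε ε' c → c ∈ F₀)
    {b : Fin n → F} {s : F} (hs0 : s ≠ 0) (hs : sg F q s = -s)
    (hbb : hermForm n F q b b = 0) (hbe : hermForm n F q b E0 = 0)
    (hact : Act M (tMap q b s)) : ∃ μ : F, μ ≠ 0 ∧ RV F₀ (μ • b) := by
  have h01 := iota_ne ι 0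
  by_cases hB : ∀ m, m ≠ I0 → m ≠ I1 → b m = 0
  · obtain ⟨c, hc⟩ : ∃ c : F, c = b I0 := ⟨_, rfl⟩
    have hb : b = c • E0 := by
      funext i
      rw [Pi.smul_apply, smul_eq_mul, fr_true]
      by_cases hi0 : i = I0
      · rw [hi0, pv_apply_left h01, mul_one, hc]
      by_cases hi1 : i = I1
      · rw [hi1, pv_apply_right h01, C.e0_coord hbe, hc]
      · rw [pv_apply_ne hi0 hi1, mul_zero]
        exact hB i hi0 hi1
    by_cases hc0 : c = 0
    · refine ⟨1, one_ne_zero, ?_⟩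
      rw [hb, hc0, zero_smul, smul_zero]
      exact RV.zero
    · refine ⟨c⁻¹, inv_ne_zero hc0, ?_⟩
      rw [hb, smul_smul, inv_mul_cancel₀ hc0, one_smul]
      exact C.rv_fr _
  · push Not at hB
    obtain ⟨j, hj0, hj1, hbj⟩ := hB
    obtain ⟨k, hk0, hk1, hkj⟩ := exists_other ι j
    have hee : ∀ e : F, (e = ε ∨ e = ε') → e ∈ F₀ ∧ e * sg F q e = -1 := by
      rintro e (rfl | rfl)
      · exact ⟨C.hε, C.nε⟩
      · exact ⟨C.hε', C.nε'⟩
    have hpe : ∀ e : F, hermForm n F q (pv j k e) E0 = 0 :=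
      fun e => h_pv_fr ι ε ε' 0 true hj0 hj1 hk0 hk1 e
    obtain ⟨e, he, hpv⟩ := exists_pv_ne (q := q) C.hne hbj k
    obtain ⟨μ, hμ⟩ : ∃ μ : F, μ = s * hermForm n F q (pv j k e) b := ⟨_, rfl⟩
    have hμ0 : μ ≠ 0 := by rw [hμ]; exact mul_ne_zero hs0 hpv
    have hμm : ∀ m, m ≠ I0 → m ≠ I1 → μ * b m ∈ F₀ := by
      intro m hm0 hm1
      rw [hμ]
      exact C.perp_aux hK hbe hact (RV.pv j k (hee e he).1) (pv_iso (Ne.symm hkj) (hee e he).2)
        (hpe e) hm0 hm1
    obtain ⟨b', hb'⟩ : ∃ b' : Fin n → F, b' = μ • b := ⟨_, rfl⟩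
    obtain ⟨l, hl⟩ : ∃ l : F, l = b' I0 := ⟨_, rfl⟩
    obtain ⟨v₀, hv₀def⟩ : ∃ v₀ : Fin n → F, v₀ = b' - l • E0 := ⟨_, rfl⟩
    have hb'e : hermForm n F q b' E0 = 0 := by rw [hb', hl_smul, hbe, mul_zero]
    have hb'b' : hermForm n F q b' b' = 0 := by
      rw [hb', hl_smul, hr_smul, hbb, mul_zero, mul_zero]
    have hv₀ : RV F₀ v₀ := by
      rw [hv₀def, hl]
      refine C.rv_sub_e0 hb'e (fun m hm0 hm1 => ?_)
      rw [hb', Pi.smul_apply, smul_eq_mul]
      exact hμm m hm0 hm1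
    have hv₀e : hermForm n F q v₀ E0 = 0 := by
      rw [hv₀def, hl_sub, hl_smul, hb'e, C.hfr_self]
      ring
    have hv₀v₀ : hermForm n F q v₀ v₀ = 0 := by
      rw [hv₀def]
      simp only [hl_sub, hl_smul, hr_sub, hr_smul, hb'e, h_swap hb'e, hb'b', C.hfr_self]
      ring
    have hb'dec : b' = v₀ + l • E0 := by
      rw [hv₀def]
      module
    have hE0j : E0 j = 0 := fr_apply_ne ι ε ε' 0 true hj0 hj1
    have hv₀j : v₀ j = μ * b j := by
      rw [hv₀def, Pi.sub_apply, Pi.smul_apply, hE0j, smul_zero, sub_zero, hb', Pi.smul_apply,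
        smul_eq_mul]
    have hv₀j0 : v₀ j ≠ 0 := by rw [hv₀j]; exact mul_ne_zero hμ0 hbj
    have hμμ : μ * sg F q μ ≠ 0 := by
      refine mul_ne_zero hμ0 (fun h0 => hμ0 ?_)
      have h1 := sg_sg (q := q) μ
      rw [h0, map_zero] at h1
      exact h1.symm
    obtain ⟨s', hs'def⟩ : ∃ s' : F, s' = s * (μ * sg F q μ)⁻¹ := ⟨_, rfl⟩
    have hs' : sg F q s' = -s' := by
      rw [hs'def, map_mul, map_inv₀, map_mul, sg_sg, hs, mul_comm (sg F q μ) μ]
      ring
    have hs'0 : s' ≠ 0 := by rw [hs'def]; exact mul_ne_zero hs0 (inv_ne_zero hμμ)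
    have hact' : Act M (tMap q b' s') := by
      refine hact.congr (fun z => ?_)
      rw [hb', tMap_smul_center]
      have e0 : μ * sg F q μ * s' = s := by
        rw [hs'def, mul_comm s, ← mul_assoc, mul_inv_cancel₀ hμμ, one_mul]
      rw [e0]
    -- `s'` is rational
    obtain ⟨e₂, he₂, hpv₂⟩ := exists_pv_ne (q := q) C.hne hv₀j0 k
    have hs'm : s' ∈ F₀ := by
      have h6 := C.perp_aux hK hb'e hact' (RV.pv j k (hee e₂ he₂).1)
        (pv_iso (Ne.symm hkj) (hee e₂ he₂).2) (hpe e₂) hj0 hj1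
      have e1 : hermForm n F q (pv j k e₂) b' = hermForm n F q (pv j k e₂) v₀ := by
        rw [hb'dec, hr_add, hr_smul, hpe e₂, mul_zero, add_zero]
      have e2 : b' j = v₀ j := by
        rw [hb'dec, Pi.add_apply, Pi.smul_apply, hE0j, smul_zero, add_zero]
      rw [e1, e2] at h6
      have h7 : hermForm n F q (pv j k e₂) v₀ ∈ F₀ := (RV.pv j k (hee e₂ he₂).1).h hv₀
      have h8 := F₀.mul_mem h6 (F₀.inv_mem (F₀.mul_mem h7 (hv₀ j)))
      have e3 : s' * hermForm n F q (pv j k e₂) v₀ * v₀ j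
          * (hermForm n F q (pv j k e₂) v₀ * v₀ j)⁻¹ = s' := by
        field_simp
      rwa [e3] at h8
    have h7 : Act M (tMap q v₀ (-s')) :=
      C.rat_t hv₀ hv₀v₀ (F₀.neg_mem hs'm) (by rw [map_neg, hs'])
    rw [hb'dec] at hact'
    have h8 := (h7.mul hact').congr
      (fun z => tMap_prod v₀ E0 s' l hs' hv₀v₀ (C.hfr_self _) hv₀e z)
    have h9 := C.q_rat hK (by rw [hl_smul, hv₀e, mul_zero]) h8
    have h10 := h9 j
    rw [Pi.sub_apply, Pi.smul_apply, Pi.smul_apply, hE0j, smul_zero, sub_zero, smul_eq_mul]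
      at h10
    have hsl : sg F q l ∈ F₀ := by
      have h11 := F₀.mul_mem (F₀.inv_mem (F₀.mul_mem hs'm (hv₀ j))) h10
      have e4 : (s' * v₀ j)⁻¹ * (s' * sg F q l * v₀ j) = sg F q l := by
        field_simp
      rwa [e4] at h11
    have hlm : l ∈ F₀ := by
      have h12 := sg_mem (q := q) hsl
      rwa [sg_sg] at h12
    refine ⟨μ, hμ0, ?_⟩
    rw [← hb', hb'dec]
    exact hv₀.add (RV.smul hlm (C.rv_fr _))

end

end Cfsg.Agent.H99.US
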