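import Cfsg.Agent.H99.USubE

set_option autoImplicit false
set_option linter.unusedSectionVars false

/-! Helper lemmas (helper99): transitivity of the rational unitary group on rational isotropic
points, and rationality of the point stabilizers of the overgroup. -/

namespace Cfsg.Agent.H99.US

open Matrix Cfsg Cfsg.Geo Cfsg.Agent.H99.SS
open scoped MatrixGroups

section
variable {F : Type*} [Field F] [Fintype F] {n q : ℕ} [hq : Fact (Fintype.card F = q ^ 2)]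

theorem sg_ne_zero {c : F} (hc : c ≠ 0) : sg F q c ≠ 0 := by
  intro h0
  apply hc
  have h1 := sg_sg (q := q) c
  rw [h0, map_zero] at h1
  exact h1.symm

theorem rat_of_basis {F₀ : Subfield F} {g : GL (Fin n) F} {d : F} (hd : d ≠ 0)
    (h : ∀ k, RV F₀ (d • ac g (Pi.single k 1))) : g ∈ subfieldSubgroup F₀ 1 := by
  rw [mem_subfield_iff]
  refine ⟨d, hd, fun i j => ?_⟩
  have h1 := h j i
  rwa [Pi.smul_apply, ac_single, smul_eq_mul] at h1

variable {F₀ : Subfield F} {M : Subgroup (GL (Fin n) F)} {ι : Fin 3 × Bool ↪ Fin n}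
  {ε ε' θ x₀ : F} {r : ℕ}

local notation "E0" => fr q ι ε ε' ((0 : Fin 3), true)
local notation "F0" => fr q ι ε ε' ((0 : Fin 3), false)
local notation "E1" => fr q ι ε ε' ((1 : Fin 3), true)
local notation "I0" => ι ((0 : Fin 3), true)
local notation "I1" => ι ((0 : Fin 3), false)

theorem UC.trans_a (C : UC q F₀ M ι ε ε' θ x₀ r) {c₀ : Fin n → F} (hc : RV F₀ c₀)
    (hcc : hermForm n F q c₀ c₀ = 0) (hcf : hermForm n F q c₀ F0 ≠ 0) :
    ∃ g ∈ ratG n q F₀, ∃ l ∈ F₀, l ≠ 0 ∧ ac g E0 = l • c₀ := by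
  obtain ⟨κ, hκ⟩ : ∃ κ : F, κ = hermForm n F q c₀ F0 := ⟨_, rfl⟩
  have hκm : κ ∈ F₀ := by rw [hκ]; exact hc.h (C.rv_fr _)
  have hκ0 : κ ≠ 0 := by rw [hκ]; exact hcf
  obtain ⟨c₁, hc₁⟩ : ∃ c₁ : Fin n → F, c₁ = κ⁻¹ • c₀ := ⟨_, rfl⟩
  have hc₁r : RV F₀ c₁ := by rw [hc₁]; exact RV.smul (F₀.inv_mem hκm) hc
  have hc₁f : hermForm n F q c₁ F0 = 1 := by
    rw [hc₁, hl_smul, ← hκ, inv_mul_cancel₀ hκ0]
  have hc₁c₁ : hermForm n F q c₁ c₁ = 0 := by
    rw [hc₁, hl_smul, hr_smul, hcc, mul_zero, mul_zero]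
  have hEF : hermForm n F q E0 F0 = 1 := C.hfr1 0 true
  have hE0 : hermForm n F q E0 E0 = 0 := C.hfr_self _
  obtain ⟨g, hg, hgz⟩ := ratG_e (F₀ := F₀) (w := F0) (u := c₁ - E0)
    (b := hermForm n F q E0 c₁)
    (C.rv_fr _) (hc₁r.sub (C.rv_fr _)) ((C.rv_fr _).h hc₁r) (C.hfr_self _)
    (by rw [hl_sub, hc₁f, hEF, sub_self])
    (by
      simp only [hl_sub, hr_sub, hc₁c₁, hE0, sg_h]
      ring)
  refine ⟨g, hg, κ⁻¹, F₀.inv_mem hκm, inv_ne_zero hκ0, ?_⟩
  rw [hgz, ← hc₁]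
  unfold eMap
  rw [hEF, hr_sub, hE0]
  module

/-- Transitivity of the rational group on the rational isotropic points. -/
theorem UC.trans (C : UC q F₀ M ι ε ε' θ x₀ r) {c₀ : Fin n → F} (hc : RV F₀ c₀)
    (hcc : hermForm n F q c₀ c₀ = 0) (hc0 : c₀ ≠ 0) :
    ∃ g ∈ ratG n q F₀, ∃ l ∈ F₀, l ≠ 0 ∧ ac g E0 = l • c₀ := by
  have hEF : hermForm n F q E0 F0 = 1 := C.hfr1 0 true
  have hE0 : hermForm n F q E0 E0 = 0 := C.hfr_self _
  have red : ∀ g₁ ∈ ratG n q F₀, hermForm n F q (ac g₁ c₀) F0 ≠ 0 →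
      ∃ g ∈ ratG n q F₀, ∃ l ∈ F₀, l ≠ 0 ∧ ac g E0 = l • c₀ := by
    intro g₁ hg₁ hne
    obtain ⟨g, hg, l, hl, hl0, hgl⟩ := C.trans_a (ratG_rv hg₁ hc)
      (by rw [gu_h (ratG_gu hg₁), hcc]) hne
    refine ⟨g₁⁻¹ * g, (ratG n q F₀).mul_mem ((ratG n q F₀).inv_mem hg₁) hg, l, hl, hl0, ?_⟩
    rw [ac_mul, hgl, ac_smul, ac_inv_ac]
  by_cases hcf : hermForm n F q c₀ F0 = 0
  · by_cases hce : hermForm n F q c₀ E0 = 0
    · have h01 := iota_ne ι 0
      have hd : sg F q ε - sg F q ε' ≠ 0 := by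
        intro h0
        apply C.hne
        have h4 := congrArg (sg F q) (sub_eq_zero.mp h0)
        rwa [sg_sg, sg_sg] at h4
      have h1 : c₀ I0 + sg F q ε * c₀ I1 = 0 := by
        have h2 := hce
        rwa [fr_true, h_pv_right] at h2
      have h2 : c₀ I0 + sg F q ε' * c₀ I1 = 0 := by
        have h3 := hcf
        rw [fr_false, hr_smul, h_pv_right] at h3
        rcases mul_eq_zero.mp h3 with h4 | h4
        · exfalso
          have h5 : (1 + ε' * sg F q ε)⁻¹ = 0 := by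
            have h6 := congrArg (sg F q) h4
            rwa [sg_sg, map_zero] at h6
          exact eps_aux C.nε C.nε' C.hne (inv_eq_zero.mp h5)
        · exact h4
      have h3 : c₀ I1 = 0 := by
        have h4 : (sg F q ε - sg F q ε') * c₀ I1 = 0 := by linear_combination h1 - h2
        rcases mul_eq_zero.mp h4 with h5 | h5
        · exact absurd h5 hd
        · exact h5
      have h4 : c₀ I0 = 0 := by
        rw [h3, mul_zero, add_zero] at h1
        exact h1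
      obtain ⟨j, hj⟩ : ∃ j, c₀ j ≠ 0 := by
        by_contra hcon
        push Not at hcon
        exact hc0 (funext hcon)
      have hj0 : j ≠ I0 := fun h => hj (by rw [h]; exact h4)
      have hj1 : j ≠ I1 := fun h => hj (by rw [h]; exact h3)
      obtain ⟨k, hk0, hk1, hkj⟩ := exists_other ι j
      obtain ⟨e, he, hpv⟩ := exists_pv_ne (q := q) C.hne hj k
      have hem : e ∈ F₀ ∧ e * sg F q e = -1 := by
        rcases he with rfl | rfl
        · exact ⟨C.hε, C.nε⟩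
        · exact ⟨C.hε', C.nε'⟩
      have hwe : hermForm n F q (pv j k e) E0 = 0 := h_pv_fr ι ε ε' 0 true hj0 hj1 hk0 hk1 e
      have hwf : hermForm n F q (pv j k e) F0 = 0 := h_pv_fr ι ε ε' 0 false hj0 hj1 hk0 hk1 e
      have hww := pv_iso (q := q) (Ne.symm hkj) hem.2
      obtain ⟨g₁, hg₁, hg₁z⟩ := ratG_e (F₀ := F₀) (w := E0) (u := pv j k e) (b := 0)
        (C.rv_fr _) (RV.pv j k hem.1) F₀.zero_mem hE0 hwe (by rw [hww]; simp)
      refine red g₁ hg₁ ?_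
      have e1 : hermForm n F q (eMap q E0 (pv j k e) 0 c₀) F0
          = -hermForm n F q c₀ (pv j k e) := by
        unfold eMap
        simp only [hl_add, hl_sub, hl_smul, hcf, hce, hwf, hEF]
        ring
      rw [hg₁z, e1]
      intro h
      exact hpv (h_swap (neg_eq_zero.mp h))
    · obtain ⟨g₁, hg₁, hg₁z⟩ := ratG_e (F₀ := F₀) (w := E0) (u := 0) (b := θ)
        (C.rv_fr _) RV.zero C.hθ hE0 (hl_zero _) (by rw [C.sθ, hl_zero]; ring)
      refine red g₁ hg₁ ?_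
      have e1 : hermForm n F q (eMap q E0 0 θ c₀) F0 = θ * hermForm n F q c₀ E0 := by
        unfold eMap
        simp only [hl_add, hl_sub, hl_smul, hcf, hEF, hl_zero, hr_zero]
        ring
      rw [hg₁z, e1]
      exact mul_ne_zero C.hθ0 hce
  · exact C.trans_a hc hcc hcf

theorem UC.trans' (C : UC q F₀ M ι ε ε' θ x₀ r) {a : Fin n → F} (ha : RV F₀ a)
    (haa : hermForm n F q a a = 0) (ha0 : a ≠ 0) :
    ∃ g ∈ ratG n q F₀, ∃ l ∈ F₀, l ≠ 0 ∧ ac g a = l • E0 := by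
  obtain ⟨g, hg, l, hl, hl0, hgl⟩ := C.trans ha haa ha0
  refine ⟨g⁻¹, (ratG n q F₀).inv_mem hg, l⁻¹, F₀.inv_mem hl, inv_ne_zero hl0, ?_⟩
  apply ac_injective g
  rw [ac_ac_inv, ac_smul, hgl, smul_smul, inv_mul_cancel₀ hl0, one_smul]

theorem UC.long_rat_gen (C : UC q F₀ M ι ε ε' θ x₀ r) (hK : ∀ c, Kall q M ι ε ε' c → c ∈ F₀)
    {a : Fin n → F} (ha : RV F₀ a) (haa : hermForm n F q a a = 0) (ha0 : a ≠ 0)
    {s : F} (hs : sg F q s = -s) (h : Act M (tMap q a s)) : s ∈ F₀ := by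
  obtain ⟨g, hg, l, hl, hl0, hgl⟩ := C.trans' ha haa ha0
  have hgM : g ∈ M := C.hRM hg
  have hgu : g ∈ GU n F q := ratG_gu hg
  have h1 := (h.conj hgM).congr (fun z => tMap_conj hgu a s z)
  rw [hgl] at h1
  have h2 := h1.congr (fun z => tMap_smul_center E0 s l z)
  have h3 := C.long_rat hK (s := l * sg F q l * s)
    (by rw [map_mul, map_mul, sg_sg, hs]; ring) h2
  have hsl0 : sg F q l ≠ 0 := sg_ne_zero hl0
  have h4 := F₀.mul_mem (F₀.inv_mem (F₀.mul_mem hl (sg_mem (q := q) hl))) h3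
  have e2 : (l * sg F q l)⁻¹ * (l * sg F q l * s) = s := by
    field_simp
  rwa [e2] at h4

theorem UC.perp_rat_gen (C : UC q F₀ M ι ε ε' θ x₀ r) (hK : ∀ c, Kall q M ι ε ε' c → c ∈ F₀)
    {a : Fin n → F} (ha : RV F₀ a) (haa : hermForm n F q a a = 0) (ha0 : a ≠ 0)
    {b : Fin n → F} {s : F} (hs0 : s ≠ 0) (hs : sg F q s = -s)
    (hbb : hermForm n F q b b = 0) (hba : hermForm n F q b a = 0)
    (hact : Act M (tMap q b s)) : ∃ μ : F, μ ≠ 0 ∧ RV F₀ (μ • b) := by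
  obtain ⟨g, hg, l, hl, hl0, hgl⟩ := C.trans' ha haa ha0
  have hgM : g ∈ M := C.hRM hg
  have hgu : g ∈ GU n F q := ratG_gu hg
  have h1 := (hact.conj hgM).congr (fun z => tMap_conj hgu b s z)
  have hbe : hermForm n F q (ac g b) E0 = 0 := by
    have h2 : hermForm n F q (ac g b) (ac g a) = 0 := by rw [gu_h hgu, hba]
    rw [hgl, hr_smul] at h2
    exact (mul_eq_zero.mp h2).resolve_left (sg_ne_zero hl0)
  obtain ⟨μ, hμ0, hμ⟩ := C.perp_rat hK hs0 hs (by rw [gu_h hgu, hbb]) hbe h1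
  refine ⟨μ, hμ0, ?_⟩
  have h4 := ratG_rv_inv hg hμ
  rwa [ac_smul, ac_inv_ac] at h4

/-- The stabilizer in `M` of the point `⟨e₀⟩` is rational. -/
theorem UC.stab_rat (C : UC q F₀ M ι ε ε' θ x₀ r) (hK : ∀ c, Kall q M ι ε ε' c → c ∈ F₀)
    {g : GL (Fin n) F} (hg : g ∈ M) {c : F} (hgc : ac g E0 = c • E0) :
    g ∈ subfieldSubgroup F₀ 1 := by
  have h01 := iota_ne ι 0
  have hgu : g ∈ GU n F q := (C.hMG hg).1
  have hE0 : hermForm n F q E0 E0 = 0 := C.hfr_self _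
  have hE0ne : E0 ≠ 0 := by
    rw [fr_true]
    exact pv_ne_zero h01 ε
  have hc0 : c ≠ 0 := by
    intro h0
    rw [h0, zero_smul] at hgc
    apply hE0ne
    apply ac_injective g
    rw [hgc, ac_zero]
  have hsc0 : sg F q c ≠ 0 := sg_ne_zero hc0
  have hN : c * sg F q c ∈ F₀ := by
    have h1 := ((C.rat_t (C.rv_fr (0, true)) hE0 C.hθ C.sθ).conj hg).congr
      (fun z => tMap_conj hgu E0 θ z)
    rw [hgc] at h1
    have h2 := h1.congr (fun z => tMap_smul_center E0 θ c z)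
    have h3 := C.long_rat hK (by rw [map_mul, map_mul, sg_sg, C.sθ]; ring) h2
    have h4 := F₀.mul_mem h3 (F₀.inv_mem C.hθ)
    rwa [mul_assoc, mul_inv_cancel₀ C.hθ0, mul_one] at h4
  have key : ∀ w : Fin n → F, RV F₀ w → hermForm n F q w w = 0 → hermForm n F q w E0 = 0 →
      (∃ m, m ≠ I0 ∧ m ≠ I1 ∧ w m ≠ 0) → RV F₀ (sg F q c • ac g w) := by
    intro w hw hww hwe hwm
    obtain ⟨x, hx⟩ : ∃ x : Fin n → F, x = sg F q c • ac g w := ⟨_, rfl⟩
    have hgwe : hermForm n F q (ac g w) E0 = 0 := by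
      have h1 : hermForm n F q (ac g w) (ac g E0) = 0 := by rw [gu_h hgu, hwe]
      rw [hgc, hr_smul] at h1
      exact (mul_eq_zero.mp h1).resolve_left hsc0
    have hxe : hermForm n F q x E0 = 0 := by rw [hx, hl_smul, hgwe, mul_zero]
    have h1 : Act M (eMap q E0 w 0) :=
      C.rat_e (C.rv_fr _) hw F₀.zero_mem hE0 hwe (by rw [hww]; simp)
    have h2 := (h1.conj hg).congr (fun z => eMap_conj hgu E0 w 0 z)
    rw [hgc] at h2
    have h3 := h2.congr (fun z => eMap_smul_center E0 (ac g w) 0 c z)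
    rw [← hx] at h3
    have h4 := C.q_rat hK hxe h3
    have h5 := ((C.rat_t hw hww C.hθ C.sθ).conj hg).congr (fun z => tMap_conj hgu w θ z)
    obtain ⟨μ, hμ0, hμ⟩ := C.perp_rat hK C.hθ0 C.sθ (by rw [gu_h hgu, hww]) hgwe h5
    obtain ⟨m, hm0, hm1, hxm⟩ : ∃ m, m ≠ I0 ∧ m ≠ I1 ∧ x m ≠ 0 := by
      by_contra hcon
      push Not at hcon
      have hxE : x = x I0 • E0 := by
        funext i
        rw [Pi.smul_apply, smul_eq_mul, fr_true]
        by_cases hi0 : i = I0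
        · rw [hi0, pv_apply_left h01, mul_one]
        by_cases hi1 : i = I1
        · rw [hi1, pv_apply_right h01, C.e0_coord hxe]
        · rw [pv_apply_ne hi0 hi1, mul_zero]
          exact hcon i hi0 hi1
      obtain ⟨m, hm0, hm1, hwm⟩ := hwm
      apply hwm
      have h6 : ac g w = ac g (((sg F q c)⁻¹ * x I0 * c⁻¹) • E0) := by
        have e1 : (sg F q c)⁻¹ * x I0 * c⁻¹ * c = (sg F q c)⁻¹ * x I0 := by
          field_simp
        rw [ac_smul, hgc, smul_smul, e1, ← smul_smul, ← hxE, hx, smul_smul,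
          inv_mul_cancel₀ hsc0, one_smul]
      have h7 := ac_injective g h6
      rw [h7, Pi.smul_apply, fr_apply_ne ι ε ε' 0 true hm0 hm1, smul_zero]
    have h6 : x m ∈ F₀ := by
      have h7 := h4 m
      rwa [Pi.sub_apply, Pi.smul_apply, fr_apply_ne ι ε ε' 0 true hm0 hm1, smul_zero,
        sub_zero] at h7
    have h8 : μ * ac g w m ∈ F₀ := hμ m
    have hgwm : ac g w m ≠ 0 := by
      intro h0
      apply hxm
      rw [hx, Pi.smul_apply, h0, smul_zero]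
    have h9 : sg F q c * μ⁻¹ ∈ F₀ := by
      have h10 := F₀.mul_mem h6 (F₀.inv_mem h8)
      have e : x m * (μ * ac g w m)⁻¹ = sg F q c * μ⁻¹ := by
        rw [hx, Pi.smul_apply, smul_eq_mul]
        field_simp
      rwa [e] at h10
    have e : x = (sg F q c * μ⁻¹) • (μ • ac g w) := by
      rw [hx, smul_smul, mul_assoc, inv_mul_cancel₀ hμ0, mul_one]
    rw [← hx, e]
    exact RV.smul h9 hμ
  -- the images of the basis vectors
  have hee : ∀ e : F, (e = ε ∨ e = ε') → e ∈ F₀ ∧ e * sg F q e = -1 := by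
    rintro e (rfl | rfl)
    · exact ⟨C.hε, C.nε⟩
    · exact ⟨C.hε', C.nε'⟩
  have hdm : (ε - ε')⁻¹ ∈ F₀ := F₀.inv_mem (F₀.sub_mem C.hε C.hε')
  have hb1 : ∀ k, k ≠ I0 → k ≠ I1 → RV F₀ (sg F q c • ac g (Pi.single k 1)) := by
    intro k hk0 hk1
    obtain ⟨j, hj0, hj1, hjk⟩ := exists_other ι k
    have hp : ∀ e : F, (e = ε ∨ e = ε') → RV F₀ (sg F q c • ac g (pv j k e)) := by
      intro e he
      refine key (pv j k e) (RV.pv j k (hee e he).1) (pv_iso hjk (hee e he).2)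
        (h_pv_fr ι ε ε' 0 true hj0 hj1 hk0 hk1 e) ⟨j, hj0, hj1, ?_⟩
      rw [pv_apply_left hjk]
      exact one_ne_zero
    have e : sg F q c • ac g (Pi.single k 1)
        = (ε - ε')⁻¹ • (sg F q c • ac g (pv j k ε))
          + (-(ε - ε')⁻¹) • (sg F q c • ac g (pv j k ε')) := by
      rw [single_eq_pv C.hne j k, ac_add, ac_smul, ac_smul]
      module
    rw [e]
    exact (RV.smul hdm (hp ε (Or.inl rfl))).add (RV.smul (F₀.neg_mem hdm) (hp ε' (Or.inr rfl)))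
  have hbE : RV F₀ (sg F q c • ac g E0) := by
    rw [hgc, smul_smul, mul_comm]
    exact RV.smul hN (C.rv_fr _)
  have hbF : RV F₀ (sg F q c • ac g F0) := by
    have hE1 : hermForm n F q E1 E1 = 0 := C.hfr_self _
    have hx1 : RV F₀ (sg F q c • ac g E1) := by
      refine key E1 (C.rv_fr _) hE1 (C.hfr0 (by decide))
        ⟨ι (1, true), iota_ne' ι (by decide) _ _, iota_ne' ι (by decide) _ _, ?_⟩
      rw [fr_true, pv_apply_left (iota_ne ι 1)]
      exact one_ne_zero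
    have hx1ne : sg F q c • ac g E1 ≠ 0 := by
      intro h0
      have h1 : ac g E1 = 0 := by
        rcases smul_eq_zero.mp h0 with h2 | h2
        · exact absurd h2 hsc0
        · exact h2
      have h2 : (E1 : Fin n → F) = 0 := by
        apply ac_injective g
        rw [h1, ac_zero]
      rw [fr_true] at h2
      exact pv_ne_zero (iota_ne ι 1) ε h2
    have hx1iso : hermForm n F q (sg F q c • ac g E1) (sg F q c • ac g E1) = 0 := by
      rw [hl_smul, hr_smul, gu_h hgu, hE1, mul_zero, mul_zero]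
    have hF0 : hermForm n F q F0 F0 = 0 := C.hfr_self _
    have h5 := ((C.rat_t (C.rv_fr (0, false)) hF0 C.hθ C.sθ).conj hg).congr
      (fun z => tMap_conj hgu F0 θ z)
    obtain ⟨μ, hμ0, hμ⟩ := C.perp_rat_gen hK hx1 hx1iso hx1ne C.hθ0 C.sθ
      (by rw [gu_h hgu, hF0])
      (by rw [hr_smul, gu_h hgu, C.hfr0 (by decide), mul_zero]) h5
    have h6 : c * hermForm n F q E0 (ac g F0) = 1 := by
      have h7 : hermForm n F q (ac g E0) (ac g F0) = 1 := by
        rw [gu_h hgu]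
        exact C.hfr1 0 true
      rwa [hgc, hl_smul] at h7
    have h7 : hermForm n F q E0 (μ • ac g F0) ∈ F₀ := (C.rv_fr _).h hμ
    rw [hr_smul] at h7
    have h8 : hermForm n F q E0 (ac g F0) = c⁻¹ := by
      field_simp
      linear_combination h6
    rw [h8] at h7
    have h9 := sg_mem (q := q) h7
    rw [map_mul, sg_sg, map_inv₀] at h9
    have h10 := F₀.inv_mem h9
    have e : sg F q c • ac g F0 = (μ * (sg F q c)⁻¹)⁻¹ • (μ • ac g F0) := by
      rw [smul_smul]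
      congr 1
      field_simp
    rw [e]
    exact RV.smul h10 hμ
  have hν0 : (1 + ε' * sg F q ε) ≠ 0 := eps_aux C.nε C.nε' C.hne
  have hνm : (1 + ε' * sg F q ε) ∈ F₀ :=
    F₀.add_mem F₀.one_mem (F₀.mul_mem C.hε' (sg_mem (q := q) C.hε))
  have hbP : RV F₀ (sg F q c • ac g (pv I0 I1 ε')) := by
    have e : pv I0 I1 ε' = (1 + ε' * sg F q ε) • F0 := by
      rw [fr_false, smul_smul, mul_inv_cancel₀ hν0, one_smul]
    rw [e, ac_smul, smul_comm]
    exact RV.smul hνm hbF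
  have hbI1 : RV F₀ (sg F q c • ac g (Pi.single I1 1)) := by
    have e : sg F q c • ac g (Pi.single I1 1)
        = (ε - ε')⁻¹ • (sg F q c • ac g E0)
          + (-(ε - ε')⁻¹) • (sg F q c • ac g (pv I0 I1 ε')) := by
      rw [single_eq_pv C.hne I0 I1, ac_add, ac_smul, ac_smul, fr_true]
      module
    rw [e]
    exact (RV.smul hdm hbE).add (RV.smul (F₀.neg_mem hdm) hbP)
  have hbI0 : RV F₀ (sg F q c • ac g (Pi.single I0 1)) := by
    have e : (Pi.single I0 (1 : F) : Fin n → F) = E0 - ε • Pi.single I1 1 := by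
      rw [fr_true]
      unfold pv
      module
    have e2 : sg F q c • ac g (Pi.single I0 1)
        = sg F q c • ac g E0 - ε • (sg F q c • ac g (Pi.single I1 1)) := by
      rw [e, ac_sub, ac_smul]
      module
    rw [e2]
    exact hbE.sub (RV.smul C.hε hbI1)
  refine rat_of_basis hsc0 (fun k => ?_)
  by_cases hk0 : k = I0
  · rw [hk0]
    exact hbI0
  by_cases hk1 : k = I1
  · rw [hk1]
    exact hbI1
  · exact hb1 k hk0 hk1

/-- An element of `M` mapping a rational isotropic vector to a multiple of a rational vector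
is rational. -/
theorem UC.mem_of_rat (C : UC q F₀ M ι ε ε' θ x₀ r) (hK : ∀ c, Kall q M ι ε ε' c → c ∈ F₀)
    {g : GL (Fin n) F} (hg : g ∈ M) {a : Fin n → F} (ha : RV F₀ a)
    (haa : hermForm n F q a a = 0) (ha0 : a ≠ 0) {μ : F} (hμ : μ ≠ 0)
    (hga : RV F₀ (μ • ac g a)) : g ∈ subfieldSubgroup F₀ 1 := by
  have hgu : g ∈ GU n F q := (C.hMG hg).1
  have ha'0 : μ • ac g a ≠ 0 := by
    intro h0
    rcases smul_eq_zero.mp h0 with h2 | h2
    · exact hμ h2
    · apply ha0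
      apply ac_injective g
      rw [h2, ac_zero]
  have ha'iso : hermForm n F q (μ • ac g a) (μ • ac g a) = 0 := by
    rw [hl_smul, hr_smul, gu_h hgu, haa, mul_zero, mul_zero]
  obtain ⟨k₁, hk₁, l₁, hl₁, hl₁0, hk₁a⟩ := C.trans ha haa ha0
  obtain ⟨k₂, hk₂, l₂, hl₂, hl₂0, hk₂a⟩ := C.trans' hga ha'iso ha'0
  have hmem : k₂ * g * k₁ ∈ subfieldSubgroup F₀ 1 := by
    refine C.stab_rat hK (M.mul_mem (M.mul_mem (C.hRM hk₂) hg) (C.hRM hk₁))
      (c := l₁ * μ⁻¹ * l₂) ?_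
    rw [ac_mul, ac_mul, hk₁a, ac_smul, ac_smul]
    have e : ac k₂ (ac g a) = (μ⁻¹ * l₂) • E0 := by
      have h1 := hk₂a
      rw [ac_smul] at h1
      rw [← smul_smul, ← h1, smul_smul, inv_mul_cancel₀ hμ, one_smul]
    rw [e, smul_smul, mul_assoc]
  have hk₁s : k₁ ∈ subfieldSubgroup F₀ 1 := (Subgroup.mem_inf.mp (ratG_le hk₁)).1
  have hk₂s : k₂ ∈ subfieldSubgroup F₀ 1 := (Subgroup.mem_inf.mp (ratG_le hk₂)).1
  have e : g = k₂⁻¹ * (k₂ * g * k₁) * k₁⁻¹ := by group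
  rw [e]
  exact Subgroup.mul_mem _ (Subgroup.mul_mem _ (Subgroup.inv_mem _ hk₂s) hmem)
    (Subgroup.inv_mem _ hk₁s)

/-- An element of `M` mapping a rational isotropic vector to a vector orthogonal to it is
rational. -/
theorem UC.mem_of_perp (C : UC q F₀ M ι ε ε' θ x₀ r) (hK : ∀ c, Kall q M ι ε ε' c → c ∈ F₀)
    {g : GL (Fin n) F} (hg : g ∈ M) {a : Fin n → F} (ha : RV F₀ a)
    (haa : hermForm n F q a a = 0) (ha0 : a ≠ 0)
    (hga : hermForm n F q (ac g a) a = 0) : g ∈ subfieldSubgroup F₀ 1 := by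
  have hgu : g ∈ GU n F q := (C.hMG hg).1
  have h5 := ((C.rat_t ha haa C.hθ C.sθ).conj hg).congr (fun z => tMap_conj hgu a θ z)
  obtain ⟨μ, hμ0, hμ⟩ := C.perp_rat_gen hK ha haa ha0 C.hθ0 C.sθ (by rw [gu_h hgu, haa]) hga h5
  exact C.mem_of_rat hK hg ha haa ha0 hμ0 hμ

/-- If all transvections of `M` have rational centres, then `M` is rational. -/
theorem UC.le_of_centres (C : UC q F₀ M ι ε ε' θ x₀ r) (hK : ∀ c, Kall q M ι ε ε' c → c ∈ F₀)
    (hR : ∀ (b : Fin n → F) (s : F), s ≠ 0 → sg F q s = -s → hermForm n F q b b = 0 →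
      Act M (tMap q b s) → ∃ μ : F, μ ≠ 0 ∧ RV F₀ (μ • b)) :
    M ≤ subfieldSubgroup F₀ 1 := by
  intro g hg
  have hgu : g ∈ GU n F q := (C.hMG hg).1
  have hE0 : hermForm n F q E0 E0 = 0 := C.hfr_self _
  have hE0ne : E0 ≠ 0 := by
    rw [fr_true]
    exact pv_ne_zero (iota_ne ι 0) ε
  have h5 := ((C.rat_t (C.rv_fr (0, true)) hE0 C.hθ C.sθ).conj hg).congr
    (fun z => tMap_conj hgu E0 θ z)
  obtain ⟨μ, hμ0, hμ⟩ := hR _ θ C.hθ0 C.sθ (by rw [gu_h hgu, hE0]) h5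
  exact C.mem_of_rat hK hg (C.rv_fr _) hE0 hE0ne hμ0 hμ

end

end Cfsg.Agent.H99.US
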