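import Cfsg.Agent.H99.USubF
import Cfsg.Agent.H99.OSubA
import Cfsg.Agent.S0801

set_option autoImplicit false
set_option linter.unusedSectionVars false

/-! Helper lemmas (helper99): in odd characteristic the transvections of the overgroup have
rational centres (via Dickson's theorem for `SL₂`). -/

namespace Cfsg.Agent.H99.US

open Matrix Cfsg Cfsg.Geo Cfsg.Agent.H99.SS
open scoped MatrixGroups

section
variable {F : Type*} [Field F] [Fintype F] {n q : ℕ} [hq : Fact (Fintype.card F = q ^ 2)]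

/-- The nilpotent part of a unitary transvection. -/
def nilU (q : ℕ) (v : Fin n → F) : Matrix (Fin n) (Fin n) F :=
  Matrix.vecMulVec v (fun j => v j ^ q)

theorem nilU_mulVec (v x : Fin n → F) : nilU q v *ᵥ x = hermForm n F q x v • v :=
  Cfsg.Agent.H17.vecMulVec_frob_mulVec v v x

theorem nilU_sq (v : Fin n → F) (hv : hermForm n F q v v = 0) : nilU q v * nilU q v = 0 := by
  apply Cfsg.Agent.H17.matrix_ext_mulVec
  intro x
  rw [← Matrix.mulVec_mulVec, nilU_mulVec v x, Matrix.mulVec_smul, nilU_mulVec v v, hv,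
    zero_smul, smul_zero, Matrix.zero_mulVec]

theorem nilU_triple (a b : Fin n → F) :
    nilU q a * nilU q b * nilU q a
      = (hermForm n F q a b * hermForm n F q b a) • nilU q a := by
  apply Cfsg.Agent.H17.matrix_ext_mulVec
  intro x
  rw [← Matrix.mulVec_mulVec, ← Matrix.mulVec_mulVec, Matrix.smul_mulVec]
  simp only [Matrix.mulVec_smul, nilU_mulVec]
  module

theorem ac_of_coe {g : GL (Fin n) F} {v : Fin n → F} {c : F}
    (hg : (g : Matrix (Fin n) (Fin n) F) = 1 + c • nilU q v) (z : Fin n → F) :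
    ac g z = tMap q v c z := by
  unfold ac tMap
  rw [hg, Matrix.add_mulVec, Matrix.one_mulVec, Matrix.smul_mulVec, nilU_mulVec, smul_smul]

variable {F₀ : Subfield F} {M : Subgroup (GL (Fin n) F)} {ι : Fin 3 × Bool ↪ Fin n}
  {ε ε' θ x₀ : F} {r : ℕ}

local notation "E0" => fr q ι ε ε' ((0 : Fin 3), true)
local notation "F0" => fr q ι ε ε' ((0 : Fin 3), false)
local notation "E1" => fr q ι ε ε' ((1 : Fin 3), true)
local notation "I0" => ι ((0 : Fin 3), true)
local notation "I1" => ι ((0 : Fin 3), false)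

/-- The rank-one lemma: the `SL₂` parameter of a rational transvection and a transvection
of `M` is rational. -/
theorem UC.dickson_rat (C : UC q F₀ M ι ε ε' θ x₀ r) (hK : ∀ c, Kall q M ι ε ε' c → c ∈ F₀)
    (h2 : (2 : F) ≠ 0) {a : Fin n → F} (ha : RV F₀ a) (haa : hermForm n F q a a = 0)
    (ha0 : a ≠ 0) {b : Fin n → F} {s : F} (hs : sg F q s = -s)
    (hbb : hermForm n F q b b = 0) (hact : Act M (tMap q b s)) :
    θ * s * (hermForm n F q a b * hermForm n F q b a) ∈ F₀ := by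
  obtain ⟨lam, hlam⟩ : ∃ lam : F, lam = θ * s * (hermForm n F q a b * hermForm n F q b a) :=
    ⟨_, rfl⟩
  rw [← hlam]
  by_cases hlam0 : lam = 0
  · rw [hlam0]
    exact F₀.zero_mem
  obtain ⟨N₁, hN₁⟩ : ∃ N₁ : Matrix (Fin n) (Fin n) F, N₁ = θ • nilU q a := ⟨_, rfl⟩
  obtain ⟨N₂, hN₂⟩ : ∃ N₂ : Matrix (Fin n) (Fin n) F, N₂ = s • nilU q b := ⟨_, rfl⟩
  have h1 : N₁ * N₁ = 0 := by rw [hN₁, smul_mul_smul_comm, nilU_sq a haa, smul_zero]
  have h2' : N₂ * N₂ = 0 := by rw [hN₂, smul_mul_smul_comm, nilU_sq b hbb, smul_zero]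
  have h121 : N₁ * N₂ * N₁ = lam • N₁ := by
    rw [hN₁, hN₂, smul_mul_smul_comm, smul_mul_smul_comm, nilU_triple, smul_smul, smul_smul,
      hlam]
    congr 1
    ring
  have h212 : N₂ * N₁ * N₂ = lam • N₂ := by
    rw [hN₁, hN₂, smul_mul_smul_comm, smul_mul_smul_comm, nilU_triple, smul_smul, smul_smul,
      hlam]
    congr 1
    ring
  obtain ⟨Φ, hΦ⟩ : ∃ Φ : Matrix.SpecialLinearGroup (Fin 2) F →* GL (Fin n) F,
      ∀ g, ((Φ g : GL (Fin n) F) : Matrix (Fin n) (Fin n) F)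
        = OS.phi lam N₁ N₂ (g : Matrix (Fin 2) (Fin 2) F) :=
    ⟨(OS.phiHom lam hlam0 N₁ N₂ h1 h2' h121 h212).toHomUnits, fun g => rfl⟩
  have hΦL : ∀ (g : Matrix.SpecialLinearGroup (Fin 2) F) (c : F),
      (g : Matrix (Fin 2) (Fin 2) F) = !![1, 0; c, 1] →
      ((Φ g : GL (Fin n) F) : Matrix (Fin n) (Fin n) F) = 1 + (c * θ) • nilU q a := by
    intro g c hg
    rw [hΦ, hg, OS.phi_lower, hN₁, smul_smul]
  have hΦU : ∀ (g : Matrix.SpecialLinearGroup (Fin 2) F) (c : F),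
      (g : Matrix (Fin 2) (Fin 2) F) = !![1, c * lam; 0, 1] →
      ((Φ g : GL (Fin n) F) : Matrix (Fin n) (Fin n) F) = 1 + (c * s) • nilU q b := by
    intro g c hg
    rw [hΦ, hg, OS.phi_upper lam hlam0, hN₂, smul_smul]
  have hsl : sg F q lam = lam := by
    rw [hlam, map_mul, map_mul, map_mul, C.sθ, hs, sg_h, sg_h]
    ring
  obtain ⟨K, hKdef⟩ : ∃ K : Subfield F, K = Subfield.closure {lam} := ⟨_, rfl⟩
  have hlK : lam ∈ K := by
    rw [hKdef]
    exact Subfield.subset_closure (Set.mem_singleton lam)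
  have : Fintype K := Fintype.ofFinite _
  have hgen : Subfield.closure ({(⟨lam, hlK⟩ : K)} : Set K) = ⊤ := by
    rw [eq_top_iff]
    intro y _
    have h3 : K ≤ (Subfield.closure ({(⟨lam, hlK⟩ : K)} : Set K)).map K.subtype := by
      refine le_trans (le_of_eq hKdef) (Subfield.closure_le.mpr ?_)
      intro t ht
      rw [Set.mem_singleton_iff] at ht
      rw [ht]
      exact ⟨⟨lam, hlK⟩, Subfield.subset_closure (Set.mem_singleton _), rfl⟩
    obtain ⟨s', hs', hsy⟩ := h3 y.2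
    have e : s' = y := Subtype.ext hsy
    rw [← e]
    exact hs'
  have h2K : (2 : K) ≠ 0 := by
    intro h
    apply h2
    have h3 := congrArg K.subtype h
    rwa [map_ofNat, map_zero] at h3
  have hlamK0 : (⟨lam, hlK⟩ : K) ≠ 0 := by
    intro h
    apply hlam0
    exact congrArg Subtype.val h
  rcases Cfsg.Agent.S0801.result h2K (⟨lam, hlK⟩ : K) hlamK0 hgen with ⟨htop, -⟩ | ⟨-, hsq, -⟩
  · obtain ⟨Ψ, hΨ⟩ : ∃ Ψ : Matrix.SpecialLinearGroup (Fin 2) K →* GL (Fin n) F,
        Ψ = Φ.comp (Matrix.SpecialLinearGroup.map K.subtype) := ⟨_, rfl⟩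
    have hle : Subgroup.closure {g : Matrix.SpecialLinearGroup (Fin 2) K |
        (g : Matrix (Fin 2) (Fin 2) K) = !![1, 0; 1, 1] ∨
          (g : Matrix (Fin 2) (Fin 2) K) = !![1, (⟨lam, hlK⟩ : K); 0, 1]} ≤ M.comap Ψ := by
      rw [Subgroup.closure_le]
      rintro g (hg | hg)
      · have e : ((Ψ g : GL (Fin n) F) : Matrix (Fin n) (Fin n) F)
            = 1 + (1 * θ) • nilU q a := by
          rw [hΨ]
          refine hΦL _ 1 ?_
          rw [Matrix.SpecialLinearGroup.map_apply_coe, hg]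
          ext i j
          fin_cases i <;> fin_cases j <;> simp
        rw [one_mul] at e
        exact (C.rat_t ha haa C.hθ C.sθ).mem (fun z => ac_of_coe e z)
      · have e : ((Ψ g : GL (Fin n) F) : Matrix (Fin n) (Fin n) F)
            = 1 + (1 * s) • nilU q b := by
          rw [hΨ]
          refine hΦU _ 1 ?_
          rw [Matrix.SpecialLinearGroup.map_apply_coe, hg]
          ext i j
          fin_cases i <;> fin_cases j <;> simp
        rw [one_mul] at e
        exact hact.mem (fun z => ac_of_coe e z)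
    obtain ⟨g₀, hg₀⟩ : ∃ g₀ : Matrix.SpecialLinearGroup (Fin 2) K,
        (g₀ : Matrix (Fin 2) (Fin 2) K) = !![1, 0; (⟨lam, hlK⟩ : K), 1] :=
      ⟨⟨!![1, 0; (⟨lam, hlK⟩ : K), 1], by simp [Matrix.det_fin_two]⟩, rfl⟩
    have hmem : Ψ g₀ ∈ M := hle (by rw [htop]; exact Subgroup.mem_top _)
    have e : ((Ψ g₀ : GL (Fin n) F) : Matrix (Fin n) (Fin n) F)
        = 1 + (lam * θ) • nilU q a := by
      rw [hΨ]
      refine hΦL _ lam ?_
      rw [Matrix.SpecialLinearGroup.map_apply_coe, hg₀]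
      ext i j
      fin_cases i <;> fin_cases j <;> simp
    have h3 : Act M (tMap q a (lam * θ)) := ⟨Ψ g₀, hmem, fun z => ac_of_coe e z⟩
    have h4 := C.long_rat_gen hK ha haa ha0 (s := lam * θ)
      (by rw [map_mul, hsl, C.sθ]; ring) h3
    have h5 := F₀.mul_mem h4 (F₀.inv_mem C.hθ)
    rwa [mul_assoc, mul_inv_cancel₀ C.hθ0, mul_one] at h5
  · have hsq' : lam ^ 2 = -1 := by
      have h3 := congrArg K.subtype hsq
      rw [map_pow, map_neg, map_one] at h3
      exact h3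
    exact sq_mem r C.hro C.hcard (by rw [hsq']; exact F₀.neg_mem F₀.one_mem)

/-- In odd characteristic, the transvections of `M` have rational centres. -/
theorem UC.centres_odd (C : UC q F₀ M ι ε ε' θ x₀ r) (hK : ∀ c, Kall q M ι ε ε' c → c ∈ F₀)
    (h2 : (2 : F) ≠ 0) (b : Fin n → F) (s : F) (hs0 : s ≠ 0) (hs : sg F q s = -s)
    (hbb : hermForm n F q b b = 0) (hact : Act M (tMap q b s)) :
    ∃ μ : F, μ ≠ 0 ∧ RV F₀ (μ • b) := by
  have hE0 : hermForm n F q E0 E0 = 0 := C.hfr_self _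
  have hE1 : hermForm n F q E1 E1 = 0 := C.hfr_self _
  have hE01 : hermForm n F q E0 E1 = 0 := C.hfr0 (by decide)
  obtain ⟨α, hα⟩ : ∃ α : F, α = hermForm n F q b E0 := ⟨_, rfl⟩
  obtain ⟨β, hβ⟩ : ∃ β : F, β = hermForm n F q b E1 := ⟨_, rfl⟩
  have hα' : hermForm n F q E0 b = sg F q α := by rw [hα, sg_h]
  have hβ' : hermForm n F q E1 b = sg F q β := by rw [hβ, sg_h]
  by_cases hα0 : α = 0
  · exact C.perp_rat hK hs0 hs hbb (by rw [← hα]; exact hα0) hact
  obtain ⟨ν, hν⟩ : ∃ ν : F, ν = θ * s := ⟨_, rfl⟩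
  have hν0 : ν ≠ 0 := by rw [hν]; exact mul_ne_zero C.hθ0 hs0
  have hsν : sg F q ν = ν := by
    rw [hν, map_mul, C.sθ, hs]
    ring
  have hI10 : ι ((1 : Fin 3), true) ≠ I0 := iota_ne' ι (by decide) _ _
  have hI11 : ι ((1 : Fin 3), true) ≠ I1 := iota_ne' ι (by decide) _ _
  have hI00 : I0 ≠ ι ((1 : Fin 3), true) := iota_ne' ι (by decide) _ _
  have hI01 : I0 ≠ ι ((1 : Fin 3), false) := iota_ne' ι (by decide) _ _
  have key : ∀ c ∈ F₀, ν * ((α + sg F q c * β) * (sg F q α + c * sg F q β)) ∈ F₀ := by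
    intro c hc
    have ha : RV F₀ (E0 + c • E1) := (C.rv_fr _).add (RV.smul hc (C.rv_fr _))
    have haa : hermForm n F q (E0 + c • E1) (E0 + c • E1) = 0 := by
      simp only [hl_add, hl_smul, hr_add, hr_smul, hE0, hE1, hE01, h_swap hE01]
      ring
    have ha0 : E0 + c • E1 ≠ 0 := by
      intro h0
      have h1 := congrFun h0 I0
      rw [Pi.add_apply, Pi.smul_apply, fr_true, pv_apply_left (iota_ne ι 0),
        fr_apply_ne ι ε ε' 1 true hI00 hI01, smul_zero, add_zero, Pi.zero_apply] at h1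
      exact one_ne_zero h1
    have h1 := C.dickson_rat hK h2 ha haa ha0 hs hbb hact
    have e : θ * s * (hermForm n F q (E0 + c • E1) b * hermForm n F q b (E0 + c • E1))
        = ν * ((α + sg F q c * β) * (sg F q α + c * sg F q β)) := by
      rw [hr_add, hr_smul, hl_add, hl_smul, hα', hβ', ← hα, ← hβ, hν]
      ring
    rwa [e] at h1
  have hNα : ν * (α * sg F q α) ∈ F₀ := by
    have k0 := key 0 F₀.zero_mem
    rwa [map_zero, zero_mul, zero_mul, add_zero, add_zero] at k0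
  have hNβ : ν * (β * sg F q β) ∈ F₀ := by
    have hE1ne : E1 ≠ 0 := by
      rw [fr_true]
      exact pv_ne_zero (iota_ne ι 1) ε
    have h1 := C.dickson_rat hK h2 (C.rv_fr (1, true)) hE1 hE1ne hs hbb hact
    have e : θ * s * (hermForm n F q E1 b * hermForm n F q b E1) = ν * (β * sg F q β) := by
      rw [hβ', ← hβ, hν]
      ring
    rwa [e] at h1
  obtain ⟨z, hz⟩ : ∃ z : F, z = ν * α * sg F q β := ⟨_, rfl⟩
  have hzm : θ * z ∈ F₀ := by
    apply tr_mem C.hx₀ C.sx₀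
    intro c hc
    have h1 := key c hc
    have h3 : c * z + sg F q c * (ν * sg F q α * β) ∈ F₀ := by
      have h4 := F₀.sub_mem (F₀.sub_mem h1 hNα)
        (F₀.mul_mem (F₀.mul_mem hc (sg_mem (q := q) hc)) hNβ)
      have e : ν * ((α + sg F q c * β) * (sg F q α + c * sg F q β)) - ν * (α * sg F q α)
          - c * sg F q c * (ν * (β * sg F q β))
          = c * z + sg F q c * (ν * sg F q α * β) := by
        rw [hz]
        ring
      rwa [e] at h4
    have e : c * (θ * z) - sg F q (c * (θ * z))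
        = θ * (c * z + sg F q c * (ν * sg F q α * β)) := by
      rw [map_mul, map_mul, C.sθ, hz, map_mul, map_mul, hsν, sg_sg]
      ring
    rw [e]
    exact F₀.mul_mem C.hθ h3
  have hzm' : z ∈ F₀ := by
    have h1 := F₀.mul_mem (F₀.inv_mem C.hθ) hzm
    rwa [← mul_assoc, inv_mul_cancel₀ C.hθ0, one_mul] at h1
  have hsα0 : sg F q α ≠ 0 := sg_ne_zero hα0
  obtain ⟨κ, hκ⟩ : ∃ κ : F, κ = sg F q β * (sg F q α)⁻¹ := ⟨_, rfl⟩
  have hκm : κ ∈ F₀ := by
    have h1 := F₀.mul_mem hzm' (F₀.inv_mem hNα)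
    have e : z * (ν * (α * sg F q α))⁻¹ = κ := by
      rw [hz, hκ]
      field_simp
    rwa [e] at h1
  have hc₀ : RV F₀ (E1 - κ • E0) := (C.rv_fr _).sub (RV.smul hκm (C.rv_fr _))
  have hc₀iso : hermForm n F q (E1 - κ • E0) (E1 - κ • E0) = 0 := by
    simp only [hl_sub, hl_smul, hr_sub, hr_smul, hE0, hE1, hE01, h_swap hE01]
    ring
  have hc₀ne : E1 - κ • E0 ≠ 0 := by
    intro h0
    have h1 := congrFun h0 (ι ((1 : Fin 3), true))
    rw [Pi.sub_apply, Pi.smul_apply, fr_true, pv_apply_left (iota_ne ι 1),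
      fr_apply_ne ι ε ε' 0 true hI10 hI11, smul_zero, sub_zero, Pi.zero_apply] at h1
    exact one_ne_zero h1
  have hbc : hermForm n F q b (E1 - κ • E0) = 0 := by
    rw [hr_sub, hr_smul, ← hα, ← hβ, hκ, map_mul, map_inv₀, sg_sg, sg_sg]
    field_simp
    ring
  exact C.perp_rat_gen hK hc₀ hc₀iso hc₀ne hs0 hs hbb hbc hact

end

end Cfsg.Agent.H99.US
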