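import Cfsg.Agent.H99.USubF

set_option autoImplicit false
set_option linter.unusedSectionVars false

/-! Helper lemmas (helper99): in characteristic two the involutions of the overgroup are
rational (a dihedral group argument), hence its transvections have rational centres. -/

namespace Cfsg.Agent.H99.US

open Matrix Cfsg Cfsg.Geo Cfsg.Agent.H99.SS
open scoped MatrixGroups

/-- Two involutions of a finite group are conjugate under a power of their product, or some
power of the product is an involution commuting with both. -/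
theorem dihedral_aux {G : Type*} [Group G] [Finite G] (t u : G) (ht : t * t = 1)
    (hu : u * u = 1) :
    ∃ k : ℕ, (u = (t * u) ^ k * t * ((t * u) ^ k)⁻¹) ∨
      ((t * u) ^ k * (t * u) ^ k = 1 ∧ (t * u) ^ k ≠ 1 ∧ (t * u) ^ k * t = t * (t * u) ^ k ∧
        (t * u) ^ k * u = u * (t * u) ^ k) := by
  obtain ⟨d, hd⟩ : ∃ d : G, d = t * u := ⟨_, rfl⟩
  rw [← hd]
  have htd : t * d = u := by rw [hd, ← mul_assoc, ht, one_mul]
  have ht' : t⁻¹ = t := inv_eq_of_mul_eq_one_left ht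
  have hu' : u⁻¹ = u := inv_eq_of_mul_eq_one_left hu
  have hdt : d⁻¹ * t = u := by
    rw [hd, _root_.mul_inv_rev, ht', hu', mul_assoc, ht, mul_one]
  have hsc : SemiconjBy t d d⁻¹ := by
    show t * d = d⁻¹ * t
    rw [htd, hdt]
  have hpow : ∀ j : ℕ, t * d ^ j = (d⁻¹) ^ j * t := fun j => (hsc.pow_right j)
  have hn := orderOf_pos d
  rcases Nat.even_or_odd' (orderOf d) with ⟨k, hk | hk⟩
  · have hzz : d ^ k * d ^ k = 1 := by
      rw [← pow_add, ← two_mul, ← hk, pow_orderOf_eq_one]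
    have hinv : (d⁻¹) ^ k = d ^ k := by
      rw [inv_pow]
      exact inv_eq_of_mul_eq_one_left hzz
    have hct : d ^ k * t = t * d ^ k := by rw [hpow k, hinv]
    refine ⟨k, Or.inr ⟨hzz, ?_, hct, ?_⟩⟩
    · exact pow_ne_one_of_lt_orderOf (by omega) (by omega)
    · rw [← htd, ← mul_assoc, hct, mul_assoc, mul_assoc, ← pow_succ, ← pow_succ']
  · refine ⟨k, Or.inl ?_⟩
    rw [eq_mul_inv_iff_mul_eq]
    have h1 : d ^ k * d ^ (k + 1) = 1 := by
      rw [← pow_add, show k + (k + 1) = 2 * k + 1 by ring, ← hk, pow_orderOf_eq_one]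
    have h2 : (d⁻¹) ^ (k + 1) = d ^ k := by
      rw [inv_pow]
      exact inv_eq_of_mul_eq_one_left h1
    rw [← hdt, mul_assoc, hpow k, ← mul_assoc, ← pow_succ', h2]

section
variable {F : Type*} [Field F] [Fintype F] {n q : ℕ} [hq : Fact (Fintype.card F = q ^ 2)]

theorem inv_iso {g : GL (Fin n) F} (hg : g ∈ GU n F q) (hgg : g * g = 1) (h2 : (2 : F) = 0)
    (x y : Fin n → F) : hermForm n F q (ac g x + x) (ac g y + y) = 0 := by
  have h1 : hermForm n F q x (ac g y) = hermForm n F q (ac g x) y := by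
    have h3 := gu_h hg x (ac g y)
    rw [← ac_mul, hgg, ac_one] at h3
    exact h3.symm
  rw [hl_add, hr_add, hr_add, gu_h hg, h1]
  linear_combination (hermForm n F q x y + hermForm n F q (ac g x) y) * h2

theorem rat_of_inv_mem {F₀ : Subfield F} (r : ℕ) (hro : Odd r)
    (hcard : Fintype.card F = Nat.card F₀ ^ r) (i₀ : Fin n)
    {g : GL (Fin n) F} (hg : g ∈ subfieldSubgroup F₀ 1) (hgg : g * g = 1) {v : Fin n → F}
    (hv : RV F₀ v) : RV F₀ (ac g v) := by
  rw [mem_subfield_iff] at hg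
  obtain ⟨c, hc0, hc⟩ := hg
  have hmm : (g : Matrix (Fin n) (Fin n) F) * (g : Matrix (Fin n) (Fin n) F) = 1 := by
    rw [← Units.val_mul, hgg, Units.val_one]
  have hc2 : c ^ 2 ∈ F₀ := by
    have h1 : c ^ 2 = ∑ j, (c * (g : Matrix (Fin n) (Fin n) F) i₀ j)
        * (c * (g : Matrix (Fin n) (Fin n) F) j i₀) := by
      have h2 := congrFun (congrFun hmm i₀) i₀
      rw [Matrix.mul_apply, Matrix.one_apply_eq] at h2
      calc c ^ 2 = c ^ 2 * ∑ j, (g : Matrix (Fin n) (Fin n) F) i₀ j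
              * (g : Matrix (Fin n) (Fin n) F) j i₀ := by rw [h2, mul_one]
        _ = _ := by
          rw [Finset.mul_sum]
          apply Finset.sum_congr rfl
          intro j _
          ring
    rw [h1]
    exact F₀.sum_mem (fun j _ => F₀.mul_mem (hc _ _) (hc _ _))
  have hcm : c ∈ F₀ := sq_mem r hro hcard hc2
  have hent : ∀ i j, (g : Matrix (Fin n) (Fin n) F) i j ∈ F₀ := by
    intro i j
    have h1 := F₀.mul_mem (F₀.inv_mem hcm) (hc i j)
    rwa [← mul_assoc, inv_mul_cancel₀ hc0, one_mul] at h1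
  intro i
  simp only [ac, Matrix.mulVec, dotProduct]
  exact F₀.sum_mem (fun j _ => F₀.mul_mem (hent i j) (hv j))

variable {F₀ : Subfield F} {M : Subgroup (GL (Fin n) F)} {ι : Fin 3 × Bool ↪ Fin n}
  {ε ε' θ x₀ : F} {r : ℕ}

local notation "E0" => fr q ι ε ε' ((0 : Fin 3), true)
local notation "F0" => fr q ι ε ε' ((0 : Fin 3), false)
local notation "E1" => fr q ι ε ε' ((1 : Fin 3), true)
local notation "F1" => fr q ι ε ε' ((1 : Fin 3), false)
local notation "I0" => ι ((0 : Fin 3), true)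
local notation "I1" => ι ((0 : Fin 3), false)

/-- An element of `M` commuting with a non-trivial rational involution of `M` is rational. -/
theorem UC.comm_rat (C : UC q F₀ M ι ε ε' θ x₀ r) (hK : ∀ c, Kall q M ι ε ε' c → c ∈ F₀)
    (h2 : (2 : F) = 0) {z u : GL (Fin n) F} (hz : z ∈ M) (hzz : z * z = 1) (hz1 : z ≠ 1)
    (hzs : z ∈ subfieldSubgroup F₀ 1) (hu : u ∈ M) (hcomm : z * u = u * z) :
    u ∈ subfieldSubgroup F₀ 1 := by
  have hzu : z ∈ GU n F q := (C.hMG hz).1
  obtain ⟨i, hi⟩ : ∃ i, ac z (Pi.single i 1) ≠ Pi.single i 1 := by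
    by_contra hcon
    push Not at hcon
    apply hz1
    apply Units.ext
    ext i j
    rw [← ac_single, hcon j, Units.val_one, Matrix.one_apply, Pi.single_apply]
  obtain ⟨a, ha⟩ : ∃ a : Fin n → F, a = ac z (Pi.single i 1) + Pi.single i 1 := ⟨_, rfl⟩
  have har : RV F₀ a := by
    rw [ha]
    exact (rat_of_inv_mem r C.hro C.hcard i hzs hzz (RV.single i)).add (RV.single i)
  have haa : hermForm n F q a a = 0 := by
    rw [ha]
    exact inv_iso hzu hzz h2 _ _
  have ha0 : a ≠ 0 := by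
    intro h0
    apply hi
    rw [ha] at h0
    have h3 : ac z (Pi.single i 1) = -(Pi.single i (1 : F) : Fin n → F) :=
      eq_neg_of_add_eq_zero_left h0
    rw [h3]
    have h4 : (Pi.single i (1 : F) : Fin n → F) + Pi.single i 1 = 0 := by
      rw [← two_smul F, h2, zero_smul]
    exact neg_eq_of_add_eq_zero_left h4
  refine C.mem_of_perp hK hu har haa ha0 ?_
  have e : ac u a = ac z (ac u (Pi.single i 1)) + ac u (Pi.single i 1) := by
    rw [ha, ac_add, ← ac_mul, ← hcomm, ac_mul]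
  rw [e, ha]
  exact inv_iso hzu hzz h2 _ _

theorem UC.comm_t (C : UC q F₀ M ι ε ε' θ x₀ r) (hK : ∀ c, Kall q M ι ε ε' c → c ∈ F₀)
    {t z : GL (Fin n) F} (ht : ∀ x, ac t x = tMap q E0 1 x) (hz : z ∈ M)
    (hcomm : z * t = t * z) : z ∈ subfieldSubgroup F₀ 1 := by
  have hFE : hermForm n F q F0 E0 = 1 := C.hfr1' 0 true
  have h1 : ac (z * t) F0 = ac (t * z) F0 := by rw [hcomm]
  rw [ac_mul, ac_mul, ht, ht] at h1
  unfold tMap at h1
  rw [hFE, ac_add, ac_smul, mul_one, one_smul, one_mul] at h1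
  exact C.stab_rat hK hz (c := hermForm n F q (ac z F0) E0) (add_left_cancel h1)

theorem UC.comm_s (C : UC q F₀ M ι ε ε' θ x₀ r) (hK : ∀ c, Kall q M ι ε ε' c → c ∈ F₀)
    {s z : GL (Fin n) F} (hs : ∀ x, ac s x = eMap q E1 E0 0 x) (hz : z ∈ M)
    (hcomm : z * s = s * z) : z ∈ subfieldSubgroup F₀ 1 := by
  have hE0 : hermForm n F q E0 E0 = 0 := C.hfr_self _
  have hE0ne : E0 ≠ 0 := by
    rw [fr_true]
    exact pv_ne_zero (iota_ne ι 0) ε
  have hF1E1 : hermForm n F q F1 E1 = 1 := C.hfr1' 1 true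
  have hF1E0 : hermForm n F q F1 E0 = 0 := C.hfr0 (by decide)
  have hE10 : hermForm n F q E1 E0 = 0 := C.hfr0 (by decide)
  have h1 : ac (z * s) F1 = ac (s * z) F1 := by rw [hcomm]
  rw [ac_mul, ac_mul, hs, hs] at h1
  unfold eMap at h1
  rw [hF1E1, hF1E0] at h1
  simp only [ac_add, ac_sub, ac_smul] at h1
  have h3 : ac z E0 = hermForm n F q (ac z F1) E1 • E0 - hermForm n F q (ac z F1) E0 • E1 := by
    funext i
    have h4 := congrFun h1 i
    simp only [Pi.add_apply, Pi.sub_apply, Pi.smul_apply, smul_eq_mul] at h4 ⊢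
    linear_combination h4
  refine C.mem_of_perp hK hz (C.rv_fr _) hE0 hE0ne ?_
  rw [h3, hl_sub, hl_smul, hl_smul, hE0, hE10]
  ring

/-- In characteristic two, the involutions of `M` are rational. -/
theorem UC.inv_rat (C : UC q F₀ M ι ε ε' θ x₀ r) (hK : ∀ c, Kall q M ι ε ε' c → c ∈ F₀)
    (h2 : (2 : F) = 0) {u : GL (Fin n) F} (hu : u ∈ M) (huu : u * u = 1) :
    u ∈ subfieldSubgroup F₀ 1 := by
  have h11 : (1 : F) = -1 := by linear_combination h2
  have hE0 : hermForm n F q E0 E0 = 0 := C.hfr_self _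
  have hE1 : hermForm n F q E1 E1 = 0 := C.hfr_self _
  have hE01 : hermForm n F q E0 E1 = 0 := C.hfr0 (by decide)
  have hE0ne : E0 ≠ 0 := by
    rw [fr_true]
    exact pv_ne_zero (iota_ne ι 0) ε
  have hI10 : ι ((1 : Fin 3), true) ≠ I0 := iota_ne' ι (by decide) _ _
  have hI11 : ι ((1 : Fin 3), true) ≠ I1 := iota_ne' ι (by decide) _ _
  obtain ⟨t, htM, htz⟩ := C.rat_t (C.rv_fr (0, true)) hE0 F₀.one_mem
    (by rw [map_one]; exact h11)
  obtain ⟨s, hsM, hsz⟩ := C.rat_e (C.rv_fr (1, true)) (C.rv_fr (0, true)) F₀.zero_mem hE1 hE01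
    (by rw [hE0]; simp)
  have htt : t * t = 1 := by
    apply gl_ext
    intro x
    have e1 : (1 : F) + 1 = 0 := by linear_combination h2
    rw [ac_mul, htz, htz, tMap_tMap _ _ _ hE0, ac_one, e1, tMap_zero]
  have hss : s * s = 1 := by
    apply gl_ext
    intro x
    have e2 : (E0 : Fin n → F) + E0 = 0 := by rw [← two_smul F, h2, zero_smul]
    rw [ac_mul, hsz, hsz, eMap_comp _ _ _ _ _ hE1 hE01 (h_swap hE01), e2, hE0, add_zero,
      sub_zero, eMap_zero_zero, ac_one]
  obtain ⟨k₁, hk₁⟩ := dihedral_aux t u htt huu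
  obtain ⟨k₂, hk₂⟩ := dihedral_aux s u hss huu
  have hz₁M : (t * u) ^ k₁ ∈ M := M.pow_mem (M.mul_mem htM hu) k₁
  have hz₂M : (s * u) ^ k₂ ∈ M := M.pow_mem (M.mul_mem hsM hu) k₂
  rcases hk₁ with hk₁ | ⟨h1, h2', h3, h4⟩
  · rcases hk₂ with hk₂ | ⟨h1, h2', h3, h4⟩
    · exfalso
      obtain ⟨z₁, hz₁⟩ : ∃ z₁ : GL (Fin n) F, z₁ = (t * u) ^ k₁ := ⟨_, rfl⟩
      obtain ⟨z₂, hz₂⟩ : ∃ z₂ : GL (Fin n) F, z₂ = (s * u) ^ k₂ := ⟨_, rfl⟩
      rw [← hz₁] at hk₁
      rw [← hz₂] at hk₂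
      obtain ⟨g, hgdef⟩ : ∃ g : GL (Fin n) F, g = z₁⁻¹ * z₂ := ⟨_, rfl⟩
      have hg : t * g = g * s := by
        have e2 : u * z₂ = z₂ * s := by
          rw [hk₂]
          group
        have e1 : t * z₁⁻¹ = z₁⁻¹ * u := by
          rw [hk₁]
          group
        calc t * g = (t * z₁⁻¹) * z₂ := by rw [hgdef, mul_assoc]
          _ = z₁⁻¹ * (u * z₂) := by rw [e1, mul_assoc]
          _ = g * s := by rw [e2, hgdef, mul_assoc]
      have hF1E1 : hermForm n F q F1 E1 = 1 := C.hfr1' 1 true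
      have hF1E0 : hermForm n F q F1 E0 = 0 := C.hfr0 (by decide)
      have hF0E1 : hermForm n F q F0 E1 = 0 := C.hfr0 (by decide)
      have hF0E0 : hermForm n F q F0 E0 = 1 := C.hfr1' 0 true
      have hsF1 : ac s F1 = F1 + E0 := by
        rw [hsz]
        unfold eMap
        rw [hF1E1, hF1E0]
        module
      have hsF0 : ac s F0 = F0 - E1 := by
        rw [hsz]
        unfold eMap
        rw [hF0E1, hF0E0]
        module
      obtain ⟨c₁, hc₁⟩ : ∃ c₁ : F, ac g E0 = c₁ • E0 := by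
        refine ⟨hermForm n F q (ac g F1) E0, ?_⟩
        have h5 : ac (t * g) F1 = ac (g * s) F1 := by rw [hg]
        rw [ac_mul, ac_mul, htz, hsF1, ac_add] at h5
        unfold tMap at h5
        rw [one_mul] at h5
        exact (add_left_cancel h5).symm
      obtain ⟨c₂, hc₂⟩ : ∃ c₂ : F, ac g E1 = c₂ • E0 := by
        refine ⟨-hermForm n F q (ac g F0) E0, ?_⟩
        have h5 : ac (t * g) F0 = ac (g * s) F0 := by rw [hg]
        rw [ac_mul, ac_mul, htz, hsF0, ac_sub] at h5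
        unfold tMap at h5
        rw [one_mul] at h5
        funext i
        have h6 := congrFun h5 i
        simp only [Pi.add_apply, Pi.sub_apply, Pi.smul_apply, smul_eq_mul] at h6 ⊢
        linear_combination h6
      have h7 : ac g (c₂ • E0 - c₁ • E1) = 0 := by
        rw [ac_sub, ac_smul, ac_smul, hc₁, hc₂, smul_smul, smul_smul, mul_comm, sub_self]
      have h8 : c₂ • E0 - c₁ • E1 = 0 := by
        apply ac_injective g
        rw [h7, ac_zero]
      have h9 := congrFun h8 (ι ((1 : Fin 3), true))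
      rw [Pi.sub_apply, Pi.smul_apply, Pi.smul_apply, fr_apply_ne ι ε ε' 0 true hI10 hI11,
        fr_true, pv_apply_left (iota_ne ι 1), smul_zero, zero_sub, smul_eq_mul, mul_one,
        Pi.zero_apply, neg_eq_zero] at h9
      rw [h9, zero_smul] at hc₁
      apply hE0ne
      apply ac_injective g
      rw [hc₁, ac_zero]
    · have hz₂s := C.comm_s hK hsz hz₂M h3
      exact C.comm_rat hK h2 hz₂M h1 h2' hz₂s hu h4
  · have hz₁s := C.comm_t hK htz hz₁M h3
    exact C.comm_rat hK h2 hz₁M h1 h2' hz₁s hu h4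

/-- In characteristic two, the transvections of `M` have rational centres. -/
theorem UC.centres_even (C : UC q F₀ M ι ε ε' θ x₀ r) (hK : ∀ c, Kall q M ι ε ε' c → c ∈ F₀)
    (h2 : (2 : F) = 0) (b : Fin n → F) (s : F) (hs0 : s ≠ 0) (hs : sg F q s = -s)
    (hbb : hermForm n F q b b = 0) (hact : Act M (tMap q b s)) :
    ∃ μ : F, μ ≠ 0 ∧ RV F₀ (μ • b) := by
  obtain ⟨u, huM, huz⟩ := hact
  have huu : u * u = 1 := by
    apply gl_ext
    intro x
    have e1 : s + s = 0 := by linear_combination s * h2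
    rw [ac_mul, huz, huz, tMap_tMap _ _ _ hbb, ac_one, e1, tMap_zero]
  have hus := C.inv_rat hK h2 huM huu
  by_cases hb0 : b = 0
  · exact ⟨1, one_ne_zero, by rw [hb0, smul_zero]; exact RV.zero⟩
  obtain ⟨j, hj⟩ : ∃ j, b j ≠ 0 := by
    by_contra hcon
    push Not at hcon
    exact hb0 (funext hcon)
  have h1 := rat_of_inv_mem r C.hro C.hcard j hus huu (RV.single (F₀ := F₀) j)
  rw [huz] at h1
  unfold tMap at h1
  rw [h_single_left] at h1
  refine ⟨s * sg F q (b j), mul_ne_zero hs0 (sg_ne_zero hj), ?_⟩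
  have h3 := h1.sub (RV.single (F₀ := F₀) j)
  rwa [add_sub_cancel_left] at h3

end

end Cfsg.Agent.H99.US
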