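import Cfsg.Agent.H99.USubG
import Cfsg.Agent.H99.USubH
import Cfsg.Agent.H99.OSubH

set_option autoImplicit false
set_option linter.unusedSectionVars false

/-! Helper lemmas (helper99): the unitary subfield group `GU_n(q₀)` (odd degree extension) is
maximal in `SU_n(q)`. -/

namespace Cfsg.Agent.H99.US

open Matrix Cfsg Cfsg.Geo Cfsg.Agent.H99.SS
open scoped MatrixGroups

theorem map_conj_eq {G : Type*} [Group G] (K : Subgroup G) (U : G)
    (h : ∀ g ∈ K, U * g * U⁻¹ ∈ K) (h' : ∀ g ∈ K, U⁻¹ * g * U ∈ K) :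
    K.map (MulAut.conj U).toMonoidHom = K := by
  ext g
  rw [Subgroup.mem_map]
  constructor
  · rintro ⟨x, hx, rfl⟩
    exact h x hx
  · intro hg
    refine ⟨U⁻¹ * g * U, h' g hg, ?_⟩
    show U * (U⁻¹ * g * U) * U⁻¹ = g
    group

section
variable {F : Type*} [Field F] [Fintype F] {n q : ℕ} [hq : Fact (Fintype.card F = q ^ 2)]

theorem ac_sum_single (U : GL (Fin n) F) (w : Fin n → F) :
    ac U w = ∑ i, w i • ac U (Pi.single i 1) := by
  classical
  have hw : w = ∑ i, w i • (Pi.single i (1 : F) : Fin n → F) := by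
    funext k
    simp [Finset.sum_apply, Pi.single_apply]
  have h4 : ∀ z, ac U z = Matrix.mulVecLin (U : Matrix (Fin n) (Fin n) F) z := fun _ => rfl
  rw [h4]
  conv_lhs => rw [hw]
  rw [map_sum]
  apply Finset.sum_congr rfl
  intro i _
  rw [map_smul, h4]

theorem gu_of_cols (U : GL (Fin n) F)
    (h : ∀ i j, hermForm n F q (ac U (Pi.single i 1)) (ac U (Pi.single j 1))
      = if i = j then 1 else 0) : U ∈ GU n F q := by
  classical
  refine (Cfsg.Agent.H95.mem_GU_iff U).mpr (fun u v => ?_)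
  show hermForm n F q (ac U u) (ac U v) = hermForm n F q u v
  rw [ac_sum_single U u, ac_sum_single U v, Cfsg.Agent.H17.hermForm_sum_left]
  simp only [Cfsg.Agent.H17.hermForm_sum_right hq.out, h]
  unfold hermForm
  apply Finset.sum_congr rfl
  intro a _
  simp

/-- A rational structure for the Hermitian form can be moved to standard position by a
rational change of basis. -/
theorem herm_exists_standard (F₀ : Subfield F) (r : ℕ) (hro : Odd r)
    (hcard : Fintype.card F = Nat.card F₀ ^ r) (P : GL (Fin n) F)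
    (hP : IsFormRationalStructure (hermForm n F q) F₀ 1 P) :
    ∃ R : GL (Fin n) F, R ∈ subfieldSubgroup F₀ 1 ∧ P * R ∈ GU n F q := by
  classical
  obtain ⟨x₀, hx₀, sx₀⟩ := exists_not_fixed (q := q) r hro hcard
  obtain ⟨σ₀, hσ₀⟩ : ∃ σ₀ : F₀ →+* F₀, ∀ a : F₀, ((σ₀ a : F₀) : F) = sg F q (a : F) :=
    ⟨(sg F q).restrict F₀ F₀ (fun a ha => sg_mem ha), fun a => rfl⟩
  have hσ : σ₀ ≠ RingHom.id F₀ := by
    intro h
    apply sx₀
    have h1 := hσ₀ ⟨x₀, hx₀⟩
    rw [h] at h1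
    exact h1.symm
  have hσ2 : ∀ a : F₀, σ₀ (σ₀ a) = a := by
    intro a
    apply Subtype.ext
    rw [hσ₀, hσ₀, sg_sg]
  have hrat : ∀ x y : Fin n → F₀,
      hermForm n F q (ac P (OS.E F₀ y)) (ac P (OS.E F₀ x)) ∈ F₀ := by
    intro x y
    have h1 := hP (OS.E F₀ y) (OS.E F₀ x) (OS.E_rat F₀ y) (OS.E_rat F₀ x)
    rwa [one_mul] at h1
  obtain ⟨B₀, hB₀⟩ : ∃ B₀ : (Fin n → F₀) →ₛₗ[σ₀] (Fin n → F₀) →ₗ[F₀] F₀,
      ∀ x y, ((B₀ x y : F₀) : F)
        = hermForm n F q (ac P (OS.E F₀ y)) (ac P (OS.E F₀ x)) := by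
    refine ⟨LinearMap.mk₂'ₛₗ σ₀ (RingHom.id F₀) (fun x y => ⟨_, hrat x y⟩) ?_ ?_ ?_ ?_,
      fun x y => rfl⟩
    · intro x₁ x₂ y
      apply Subtype.ext
      show hermForm n F q (ac P (OS.E F₀ y)) (ac P (OS.E F₀ (x₁ + x₂)))
        = hermForm n F q (ac P (OS.E F₀ y)) (ac P (OS.E F₀ x₁))
          + hermForm n F q (ac P (OS.E F₀ y)) (ac P (OS.E F₀ x₂))
      rw [OS.E_add, ac_add, hr_add]
    · intro c x y
      apply Subtype.ext
      show hermForm n F q (ac P (OS.E F₀ y)) (ac P (OS.E F₀ (c • x)))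
        = ((σ₀ c : F₀) : F) * hermForm n F q (ac P (OS.E F₀ y)) (ac P (OS.E F₀ x))
      rw [OS.E_smul, ac_smul, hr_smul, hσ₀]
    · intro x y₁ y₂
      apply Subtype.ext
      show hermForm n F q (ac P (OS.E F₀ (y₁ + y₂))) (ac P (OS.E F₀ x))
        = hermForm n F q (ac P (OS.E F₀ y₁)) (ac P (OS.E F₀ x))
          + hermForm n F q (ac P (OS.E F₀ y₂)) (ac P (OS.E F₀ x))
      rw [OS.E_add, ac_add, hl_add]
    · intro c x y
      apply Subtype.ext
      show hermForm n F q (ac P (OS.E F₀ (c • y))) (ac P (OS.E F₀ x))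
        = (c : F) * hermForm n F q (ac P (OS.E F₀ y)) (ac P (OS.E F₀ x))
      rw [OS.E_smul, ac_smul, hl_smul]
  have hS : B₀.IsSymm := ⟨fun x y => by
    apply Subtype.ext
    rw [hσ₀, hB₀, hB₀, sg_h]⟩
  have key : ∀ x : Fin n → F₀, (∀ y, B₀ x y = 0) → x = 0 := by
    intro x hx
    have h1 : ∀ y : Fin n → F₀,
        hermForm n F q (ac P (OS.E F₀ y)) (ac P (OS.E F₀ x)) = 0 := by
      intro y
      rw [← hB₀, hx y]
      rfl
    have h3 : ∀ z : Fin n → F, hermForm n F q z (ac P (OS.E F₀ x)) = 0 := by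
      intro z
      have hz : z = ac P (ac P⁻¹ z) := (ac_ac_inv P z).symm
      rw [hz, ac_sum_single P, Cfsg.Agent.H17.hermForm_sum_left]
      apply Finset.sum_eq_zero
      intro i _
      rw [← OS.E_single F₀ i, h1, mul_zero]
    have h5 : ac P (OS.E F₀ x) = 0 := by
      funext i
      have h6 := h3 (Pi.single i 1)
      rw [h_single_left] at h6
      by_contra h7
      exact sg_ne_zero h7 h6
    have h6 : OS.E F₀ x = 0 := by
      apply ac_injective P
      rw [h5, ac_zero]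
    apply OS.E_injective F₀
    rw [h6, OS.E_zero]
  have hN : B₀.Nondegenerate := by
    refine ⟨fun x hx => key x hx, fun y hy => key y (fun x => ?_)⟩
    rw [← hS.eq x y, hy x, map_zero]
  have hfin : Module.finrank F₀ (Fin n → F₀) = n := by
    rw [Module.finrank_fintype_fun_eq_card, Fintype.card_fin]
  obtain ⟨b, hb⟩ := Cfsg.Agent.H17.herm_onb_aux σ₀ hσ hσ2 n (Fin n → F₀) B₀ hS hN hfin
  obtain ⟨g, hg⟩ : ∃ g : (Fin n → F₀) ≃ₗ[F₀] (Fin n → F₀), ∀ i, g (Pi.single i 1) = b i := by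
    refine ⟨(Pi.basisFun F₀ (Fin n)).equiv b (Equiv.refl _), fun i => ?_⟩
    rw [← Pi.basisFun_apply, Module.Basis.equiv_apply]
    rfl
  obtain ⟨Rg, hRg⟩ : ∃ Rg : GL (Fin n) F₀,
      ∀ v, (Rg : Matrix (Fin n) (Fin n) F₀) *ᵥ v = g v := by
    refine ⟨⟨LinearMap.toMatrix' g.toLinearMap, LinearMap.toMatrix' g.symm.toLinearMap, ?_, ?_⟩,
      fun v => ?_⟩
    · rw [← LinearMap.toMatrix'_comp]
      simp
    · rw [← LinearMap.toMatrix'_comp]
      simp
    · exact LinearMap.toMatrix'_mulVec _ _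
  have hRF : ((Matrix.GeneralLinearGroup.map F₀.subtype Rg : GL (Fin n) F) :
      Matrix (Fin n) (Fin n) F) = (Rg : Matrix (Fin n) (Fin n) F₀).map F₀.subtype := by
    ext i j
    rw [Matrix.GeneralLinearGroup.map_apply]
    rfl
  refine ⟨Matrix.GeneralLinearGroup.map F₀.subtype Rg, ?_, ?_⟩
  · rw [mem_subfield_iff]
    refine ⟨1, one_ne_zero, fun i j => ?_⟩
    rw [one_mul, hRF]
    exact ((Rg : Matrix (Fin n) (Fin n) F₀) i j).2
  · apply gu_of_cols
    intro i j
    have e1 : ∀ v : Fin n → F₀,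
        ac (Matrix.GeneralLinearGroup.map F₀.subtype Rg) (OS.E F₀ v) = OS.E F₀ (g v) := by
      intro v
      unfold ac
      rw [hRF, ← hRg]
      exact (funext fun i => RingHom.map_mulVec F₀.subtype
        (Rg : Matrix (Fin n) (Fin n) F₀) v i).symm
    rw [ac_mul, ac_mul, ← OS.E_single F₀ i, ← OS.E_single F₀ j, e1, e1, hg, hg, ← hB₀, hb]
    by_cases hij : i = j
    · rw [if_pos hij, if_pos hij.symm]
      rfl
    · rw [if_neg hij, if_neg (fun h => hij h.symm)]
      rfl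

/-- The rational unitary group is maximal in `SU_n(q)` (standard position). -/
theorem su_sub_max_one (n q : ℕ) [hq : Fact (Fintype.card F = q ^ 2)] (hn : 6 ≤ n)
    (F₀ : Subfield F) (r : ℕ) (hr : r.Prime) (hro : Odd r)
    (hcard : Fintype.card F = Nat.card F₀ ^ r) :
    IsMaximalIn (GU n F q ⊓ specialLinear (Fin n) F)
      (subfieldSubgroup F₀ 1 ⊓ (GU n F q ⊓ specialLinear (Fin n) F)) := by
  classical
  obtain ⟨x₀, hx₀, sx₀⟩ := exists_not_fixed (q := q) r hro hcard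
  obtain ⟨θ, hθ, hθ0, sθ⟩ := exists_theta hx₀ sx₀
  obtain ⟨ε, hε, ε', hε', nε, nε', hne⟩ := exists_eps hx₀ sx₀
  obtain ⟨ι⟩ : Nonempty (Fin 3 × Bool ↪ Fin n) :=
    Function.Embedding.nonempty_of_card_le (by simp; omega)
  have hHG : subfieldSubgroup F₀ 1 ⊓ (GU n F q ⊓ specialLinear (Fin n) F)
      ≤ GU n F q ⊓ specialLinear (Fin n) F := inf_le_right
  refine ⟨lt_of_le_of_ne hHG ?_, ?_⟩
  · intro heq
    obtain ⟨s, hs, hsn⟩ := exists_tr0_not_mem (q := q) r hr.two_le hcard hx₀ sx₀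
    have h01 := iota_ne ι 0
    have hI10 : ι ((1 : Fin 3), true) ≠ ι ((0 : Fin 3), true) := iota_ne' ι (by decide) _ _
    have hI11 : ι ((1 : Fin 3), true) ≠ ι ((0 : Fin 3), false) := iota_ne' ι (by decide) _ _
    have hE0 : hermForm n F q (fr q ι ε ε' (0, true)) (fr q ι ε ε' (0, true)) = 0 := by
      rw [h_fr ι nε nε' hne, if_neg (fun h' => h'.2 rfl)]
    obtain ⟨T, hT⟩ : ∃ T : GL (Fin n) F,
        T = Cfsg.Agent.H95.unitTransv q (fr q ι ε ε' (0, true)) s hE0 := ⟨_, rfl⟩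
    have hTz : ∀ z, ac T z = tMap q (fr q ι ε ε' (0, true)) s z := by
      intro z
      rw [hT]
      exact Cfsg.Agent.H95.unitTransv_mulVec _ s hE0 z
    have hTG : T ∈ GU n F q ⊓ specialLinear (Fin n) F := by
      rw [hT]
      exact ⟨Cfsg.Agent.H95.unitTransv_mem_GU hq.out _ _ _ hs,
        Cfsg.Agent.H95.unitTransv_mem_specialLinear _ _ _⟩
    rw [← heq] at hTG
    have hTs := (Subgroup.mem_inf.mp hTG).1
    rw [mem_subfield_iff] at hTs
    obtain ⟨c, hc0, hc⟩ := hTs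
    have h1 := hc (ι ((1 : Fin 3), true)) (ι ((1 : Fin 3), true))
    rw [← ac_single, hTz] at h1
    unfold tMap at h1
    rw [h_single_left, fr_apply_ne ι ε ε' 0 true hI10 hI11, map_zero, mul_zero, zero_smul,
      add_zero, Pi.single_eq_same, mul_one] at h1
    have h2 := hc (ι ((0 : Fin 3), true)) (ι ((0 : Fin 3), true))
    rw [← ac_single, hTz] at h2
    unfold tMap at h2
    rw [h_single_left, Pi.add_apply, Pi.smul_apply, Pi.single_eq_same, fr_true,
      pv_apply_left h01, map_one, mul_one, smul_eq_mul, mul_one] at h2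
    have h3 := F₀.mul_mem (F₀.inv_mem h1) h2
    rw [← mul_assoc, inv_mul_cancel₀ hc0, one_mul] at h3
    have h4 := F₀.sub_mem h3 F₀.one_mem
    rw [add_sub_cancel_left] at h4
    exact hsn h4
  · intro M hHM hMG
    have C : UC q F₀ M ι ε ε' θ x₀ r :=
      { hMG := hMG, hRM := le_trans ratG_le hHM, hε := hε, hε' := hε', nε := nε, nε' := nε',
        hne := hne, hθ := hθ, hθ0 := hθ0, sθ := sθ, hx₀ := hx₀, sx₀ := sx₀, hr := hr,
        hro := hro, hcard := hcard }
    rcases C.kall_dich with hK | hK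
    · left
      have hle : M ≤ subfieldSubgroup F₀ 1 :=
        C.le_of_centres hK (fun b s hs0 hs hbb hact => by
          by_cases h2 : (2 : F) = 0
          · exact C.centres_even hK h2 b s hs0 hs hbb hact
          · exact C.centres_odd hK h2 b s hs0 hs hbb hact)
      exact le_antisymm (le_inf hle hMG) hHM
    · right
      exact le_antisymm hMG (C.su_le hK)

end

/-- The unitary subfield group of type `GU_n(q₀)` is maximal in `SU_n(q)`. -/
theorem su_subfield_maximal {F : Type*} [Field F] [Fintype F] (n q : ℕ)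
    (hF : Fintype.card F = q ^ 2) (hn : 6 ≤ n) (F₀ : Subfield F) (r : ℕ) (hr : r.Prime)
    (hro : Odd r) (hcard : Fintype.card F = Nat.card F₀ ^ r) (P : GL (Fin n) F)
    (hP : IsFormRationalStructure (hermForm n F q) F₀ 1 P) :
    IsMaximalIn (GU n F q ⊓ specialLinear (Fin n) F)
      (subfieldSubgroup F₀ P ⊓ (GU n F q ⊓ specialLinear (Fin n) F)) := by
  have : Fact (Fintype.card F = q ^ 2) := ⟨hF⟩
  obtain ⟨R, hR, hU⟩ := herm_exists_standard (q := q) F₀ r hro hcard P hP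
  have h := Cfsg.Agent.H99.isMaximalIn_map (MulAut.conj (P * R))
    (su_sub_max_one (F := F) n q hn F₀ r hr hro hcard)
  have hnorm : ∀ (V : GL (Fin n) F), V ∈ GU n F q →
      ∀ g ∈ GU n F q ⊓ specialLinear (Fin n) F,
        V * g * V⁻¹ ∈ GU n F q ⊓ specialLinear (Fin n) F := by
    intro V hV g hg
    obtain ⟨hg1, hg2⟩ := Subgroup.mem_inf.mp hg
    refine Subgroup.mem_inf.mpr ⟨(GU n F q).mul_mem ((GU n F q).mul_mem hV hg1)
      ((GU n F q).inv_mem hV), ?_⟩
    unfold specialLinear at hg2 ⊢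
    rw [MonoidHom.mem_ker] at hg2 ⊢
    rw [map_mul, map_mul, hg2, mul_one, ← map_mul, mul_inv_cancel, map_one]
  have e1 : (GU n F q ⊓ specialLinear (Fin n) F).map (MulAut.conj (P * R)).toMonoidHom
      = GU n F q ⊓ specialLinear (Fin n) F :=
    map_conj_eq _ _ (hnorm _ hU) (fun g hg => by
      have h1 := hnorm (P * R)⁻¹ ((GU n F q).inv_mem hU) g hg
      rwa [inv_inv] at h1)
  rw [e1, Subgroup.map_inf_eq _ _ _ (MulAut.conj (P * R)).injective, e1, ← OS.subfield_conj_eq,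
    OS.subfield_eq_of_mul F₀ P R hR] at h
  exact h

end Cfsg.Agent.H99.US
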