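import Cfsg.Agent.H99.UForm

set_option autoImplicit false

namespace Cfsg.Agent.H99

open Matrix Module
open scoped MatrixGroups

namespace UF

section
variable {F : Type*} [Field F] {n : ℕ} {σ : F ≃+* F} {f : (Fin n → F) → (Fin n → F) → F}

theorem cov_add (hf : Cfsg.Geo.IsUnitaryForm σ f) (y z : Fin n → F) :
    cov f (y + z) = cov f y + cov f z := by
  funext i
  exact add_right hf _ y z

theorem cov_smul (hf : Cfsg.Geo.IsUnitaryForm σ f) (c : F) (y : Fin n → F) :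
    cov f (c • y) = σ c • cov f y := by
  funext i
  exact smul_right hf c _ y

/-- `M` contains the transvection `x ↦ x + f(x, y) w`. -/
def UT (M : Subgroup (GL (Fin n) F)) (f : (Fin n → F) → (Fin n → F) → F) (w y : Fin n → F) :
    Prop :=
  Tv M w (cov f y)

variable {M : Subgroup (GL (Fin n) F)}

theorem ut_def (hf : Cfsg.Geo.IsUnitaryForm σ f) (w y : Fin n → F) :
    UT M f w y ↔ ∃ g ∈ M, ∀ x, act g x = x + f x y • w := by
  unfold UT Tv
  simp only [cov_dot hf]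

theorem UT.congr (hf : Cfsg.Geo.IsUnitaryForm σ f) {w y w' y' : Fin n → F} (h : UT M f w y)
    (e : ∀ x, f x y • w = f x y' • w') : UT M f w' y' := by
  obtain ⟨g, hg, hgx⟩ := (ut_def hf w y).mp h
  exact (ut_def hf w' y').mpr ⟨g, hg, fun x => by rw [hgx, e]⟩

theorem UT.zero (hf : Cfsg.Geo.IsUnitaryForm σ f) (y : Fin n → F) : UT M f 0 y :=
  (ut_def hf 0 y).mpr ⟨1, M.one_mem, fun x => by rw [act_one, smul_zero, add_zero]⟩

theorem UT.smul_swap (hf : Cfsg.Geo.IsUnitaryForm σ f) {w y : Fin n → F} (c : F)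
    (h : UT M f (c • w) y) : UT M f w (σ c • y) :=
  h.congr hf fun x => by rw [smul_right hf, hf.involutive, smul_smul, mul_comm]

theorem UT.neg (hf : Cfsg.Geo.IsUnitaryForm σ f) {w y : Fin n → F} (h : UT M f w y)
    (hwy : f w y = 0) : UT M f w (-y) := by
  have h1 : Tv M (-w) (cov f y) := Tv.neg h (by rw [cov_dot hf]; exact hwy)
  have h2 : UT M f (-w) y := h1
  exact h2.congr hf fun x => by rw [neg_right hf, smul_neg, neg_smul]

theorem UT.add_right (hf : Cfsg.Geo.IsUnitaryForm σ f) {w y y' : Fin n → F} (h : UT M f w y)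
    (h' : UT M f w y') (hwy : f w y = 0) : UT M f w (y + y') := by
  unfold UT
  rw [cov_add hf]
  exact Tv.add_right h h' (by rw [cov_dot hf]; exact hwy)

theorem UT.add_left (hf : Cfsg.Geo.IsUnitaryForm σ f) {w w' y : Fin n → F} (h : UT M f w y)
    (h' : UT M f w' y) (hwy : f w' y = 0) : UT M f (w + w') y :=
  Tv.add_left h h' (by rw [cov_dot hf]; exact hwy)

theorem UT.comm1 (hf : Cfsg.Geo.IsUnitaryForm σ f) {w y u z : Fin n → F} (h1 : UT M f w y)
    (h2 : UT M f u z) (hwy : f w y = 0) (huz : f u z = 0) (hwz : f w z = 0) :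
    UT M f (f u y • w) z := by
  have h := Tv.comm1 h1 h2 (by rw [cov_dot hf]; exact hwy) (by rw [cov_dot hf]; exact huz)
    (by rw [cov_dot hf]; exact hwz)
  rw [cov_dot hf] at h
  exact h

theorem UT.comm2 (hf : Cfsg.Geo.IsUnitaryForm σ f) {w y u z : Fin n → F} (h1 : UT M f w y)
    (h2 : UT M f u z) (hwy : f w y = 0) (huz : f u z = 0) (huy : f u y = 0) :
    UT M f (-(f w z) • u) y := by
  have h := Tv.comm2 h1 h2 (by rw [cov_dot hf]; exact hwy) (by rw [cov_dot hf]; exact huz)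
    (by rw [cov_dot hf]; exact huy)
  rw [cov_dot hf] at h
  exact h

/-- Conjugation by an isometry. -/
theorem UT.conj_iso (hf : Cfsg.Geo.IsUnitaryForm σ f) {w y : Fin n → F} (h : UT M f w y)
    {g : GL (Fin n) F} (hg : g ∈ M) (hiso : ∀ x y, f (act g x) (act g y) = f x y) :
    UT M f (act g w) (act g y) := by
  obtain ⟨t, ht, htx⟩ := (ut_def hf w y).mp h
  refine (ut_def hf _ _).mpr
    ⟨g * t * g⁻¹, M.mul_mem (M.mul_mem hg ht) (M.inv_mem hg), fun x => ?_⟩
  rw [act_mul, act_mul, htx, act_add, act_act_inv, act_smul]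
  congr 2
  rw [← hiso (act g⁻¹ x) y, act_act_inv]

/-- Conjugation by an arbitrary element. -/
theorem UT.conj [Finite F] (hf : Cfsg.Geo.IsUnitaryForm σ f) {w y : Fin n → F}
    (h : UT M f w y) {g : GL (Fin n) F} (hg : g ∈ M) :
    ∃ y', (∀ x, f (act g x) y' = f x y) ∧ UT M f (act g w) y' := by
  obtain ⟨y', hy'⟩ := riesz hf (cov f y ᵥ* ((g⁻¹ : GL (Fin n) F) : Matrix (Fin n) (Fin n) F))
  have hy'' : ∀ x, f x y' = f (act g⁻¹ x) y := fun x => by
    rw [hy', ← dotProduct_mulVec, cov_dot hf]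
    rfl
  refine ⟨y', fun x => by rw [hy'', act_inv_act], ?_⟩
  obtain ⟨t, ht, htx⟩ := (ut_def hf w y).mp h
  refine (ut_def hf _ _).mpr
    ⟨g * t * g⁻¹, M.mul_mem (M.mul_mem hg ht) (M.inv_mem hg), fun x => ?_⟩
  rw [act_mul, act_mul, htx, act_add, act_act_inv, act_smul, hy'']

/-- The unitary transvections. -/
theorem exists_utv (hf : Cfsg.Geo.IsUnitaryForm σ f) (v : Fin n → F) (hv : f v v = 0) (b : F)
    (hb : σ b = -b) :
    ∃ g : GL (Fin n) F,
      g ∈ Cfsg.Geo.similarityGroup f ⊓ Cfsg.Geo.specialLinear (Fin n) F ∧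
        (∀ x y, f (act g x) (act g y) = f x y) ∧ ∀ x, act g x = x + f x (b • v) • v := by
  obtain ⟨g, hg, hgx⟩ := exists_transvection v (cov f (b • v))
    (by rw [cov_dot hf, smul_right hf, hv, mul_zero])
  have hgx' : ∀ x, act g x = x + f x (b • v) • v := fun x => by rw [hgx, cov_dot hf]
  have hiso : ∀ x y, f (act g x) (act g y) = f x y := by
    intro x y
    rw [hgx', hgx']
    simp only [hf.add_left, add_right hf, hf.smul_left, smul_right hf, hv, hb, map_neg,
      map_mul]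
    rw [← hf.herm v y]
    ring
  exact ⟨g, Subgroup.mem_inf.mpr
    ⟨⟨1, fun x y => by rw [Units.val_one, one_mul]; exact hiso x y⟩, hg⟩, hiso, hgx'⟩

/-- The Siegel elements. -/
theorem exists_siegel (hf : Cfsg.Geo.IsUnitaryForm σ f) (v a : Fin n → F) (hv : f v v = 0)
    (ha : f a a = 0) (hva : f v a = 0) (c : F) :
    ∃ g : GL (Fin n) F,
      g ∈ Cfsg.Geo.similarityGroup f ⊓ Cfsg.Geo.specialLinear (Fin n) F ∧
        (∀ x y, f (act g x) (act g y) = f x y) ∧
          ∀ x, act g x = x + (c * f x a) • v - (σ c * f x v) • a := by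
  have hav : f a v = 0 := perp_symm hf hva
  obtain ⟨g₁, hg₁, hg₁x⟩ := exists_transvection v (cov f (σ c • a))
    (by rw [cov_dot hf, smul_right hf, hva, mul_zero])
  obtain ⟨g₂, hg₂, hg₂x⟩ := exists_transvection a (cov f (-c • v))
    (by rw [cov_dot hf, smul_right hf, hav, mul_zero])
  have hx : ∀ x, act (g₁ * g₂) x = x + (c * f x a) • v - (σ c * f x v) • a := by
    intro x
    rw [act_mul, hg₂x, hg₁x]
    simp only [cov_dot hf, hf.add_left, hf.smul_left, smul_right hf, hf.involutive, ha,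
      map_neg]
    module
  have hiso : ∀ x y, f (act (g₁ * g₂) x) (act (g₁ * g₂) y) = f x y := by
    intro x y
    rw [hx, hx]
    simp only [hf.add_left, add_right hf, sub_left hf, sub_right hf, hf.smul_left,
      smul_right hf, hv, ha, hva, hav, map_mul, hf.involutive]
    rw [← hf.herm a y, ← hf.herm v y]
    ring
  exact ⟨g₁ * g₂, Subgroup.mem_inf.mpr
    ⟨⟨1, fun x y => by rw [Units.val_one, one_mul]; exact hiso x y⟩,
      Subgroup.mul_mem _ hg₁ hg₂⟩, hiso, hx⟩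

/-- Moving an isotropic vector to a multiple of a non-perpendicular one. -/
theorem move_iso (hf : Cfsg.Geo.IsUnitaryForm σ f) (v u : Fin n → F) (hv : f v v = 0)
    (hu : f u u = 0) (huv : f u v ≠ 0) :
    ∃ g : GL (Fin n) F,
      g ∈ Cfsg.Geo.similarityGroup f ⊓ Cfsg.Geo.specialLinear (Fin n) F ∧
        (∀ x y, f (act g x) (act g y) = f x y) ∧ ∃ l : F, l ≠ 0 ∧ act g v = l • u := by
  obtain ⟨b₁, hb₁0, hb₁⟩ := exists_skew hf
  have hvu : f v u ≠ 0 := ne_symm hf huv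
  have hσ : σ (f u v) = f v u := (hf.herm v u).symm
  obtain ⟨l, hl⟩ : ∃ l : F, l = b₁ / f u v := ⟨_, rfl⟩
  have hl0 : l ≠ 0 := by
    rw [hl]
    exact div_ne_zero hb₁0 huv
  have hσl : σ l = -b₁ / f v u := by rw [hl, map_div₀, hb₁, hσ]
  have ha : f (v - l • u) (v - l • u) = 0 := by
    simp only [sub_left hf, sub_right hf, hf.smul_left, smul_right hf, hv, hu, hσl]
    rw [hl]
    field_simp
    ring
  have hb : σ (b₁⁻¹) = -b₁⁻¹ := by
    rw [map_inv₀, hb₁, inv_neg]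
  obtain ⟨g, hg, hiso, hgx⟩ := exists_utv hf (v - l • u) ha b₁⁻¹ hb
  refine ⟨g, hg, hiso, l, hl0, ?_⟩
  rw [hgx]
  simp only [sub_right hf, smul_right hf, hv, hb, hσl]
  have e : (-b₁⁻¹ * (0 - -b₁ / f v u * f v u)) = -1 := by
    field_simp
    ring
  rw [e]
  module

/-- The isometries in `H` are transitive on isotropic points. -/
theorem move_iso' [Finite F] (hf : Cfsg.Geo.IsUnitaryForm σ f) (hn : 5 ≤ n) (v u : Fin n → F)
    (hv : f v v = 0) (hu : f u u = 0) (hv0 : v ≠ 0) (hu0 : u ≠ 0) :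
    ∃ g : GL (Fin n) F,
      g ∈ Cfsg.Geo.similarityGroup f ⊓ Cfsg.Geo.specialLinear (Fin n) F ∧
        (∀ x y, f (act g x) (act g y) = f x y) ∧ ∃ l : F, l ≠ 0 ∧ act g v = l • u := by
  obtain ⟨r, hr, hrv, hru⟩ := iso_two hf hn v u hv0 hu0
  obtain ⟨g₁, hg₁, hi₁, l₁, hl₁, e₁⟩ := move_iso hf v r hv hr hrv
  obtain ⟨g₂, hg₂, hi₂, l₂, hl₂, e₂⟩ := move_iso hf r u hr hu (ne_symm hf hru)
  exact ⟨g₂ * g₁, Subgroup.mul_mem _ hg₂ hg₁, fun x y => by rw [act_mul, act_mul, hi₂, hi₁],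
    l₁ * l₂, mul_ne_zero hl₁ hl₂, by rw [act_mul, e₁, act_smul, e₂, smul_smul]⟩

end

end UF

end Cfsg.Agent.H99
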